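import Cfsg.Agent.Lib.H19.Berger1
import Cfsg.Agent.Lib.H31.FunBasic

/-!
# Induced characters and the covering group
-/

set_option autoImplicit false
set_option linter.unusedSectionVars false
set_option linter.style.haveILetI false

namespace H19.Berger

open Cfsg H18.CharBasic H18.CharOrtho H18.CharInd H18.CharQuot
open scoped ComplexConjugate

universe u v

/-- the covering group together with the projective part of a character over `ϑ` -/
theorem exists_theta {G : Type u} [Group G] [Fintype G] {N : Subgroup G} [hN : N.Normal]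
    [Fintype N] {χ : G → ℂ} (hχ : IsIrrCharacter G χ) {ϑ : N → ℂ} (hϑ : IsIrrCharacter N ϑ)
    (hcon : classInner (fun n : N => χ n) ϑ ≠ 0)
    (hinv : ∀ (g : G) (n : N), ϑ ⟨g * n * g⁻¹, hN.conj_mem (n : G) n.2 g⟩ = ϑ n) :
    ∃ (Γ : Type u) (_ : Group Γ) (_ : Finite Γ) (π : Γ →* G) (M : Subgroup Γ) (_ : M.Normal)
      (e : M ≃* N) (β θ : Γ → ℂ), Function.Surjective π ∧ (∀ x : M, π x = e x) ∧
      IsIrrCharacter Γ β ∧ (∀ x : M, β x = ϑ (e x)) ∧ IsIrrCharacter M (fun x : M => β x) ∧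
      (∀ k ∈ π.ker, ‖β k‖ = ‖β 1‖) ∧
      IsIrrCharacter Γ θ ∧ (∀ m ∈ M, θ m = θ 1) ∧ (∀ x, χ (π x) = θ x * β x) := by
  classical
  obtain ⟨Γ, hG, hF, π, M, hMn, i, β, hπ, hπM, hβ, hβM, hker, hknorm⟩ :=
    H19.CharExt.exists_cover hϑ hinv
  letI := Fintype.ofFinite Γ
  letI := Fintype.ofFinite M
  have hχ' : IsIrrCharacter Γ (fun x => χ (π x)) := isIrrCharacter_comp π hπ hχ
  have hβM' : (fun x : M => β x) = fun x => ϑ (i x) := funext hβM
  have hβMirr : IsIrrCharacter M (fun x : M => β x) := by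
    rw [hβM']
    exact (isIrrCharacter_mulEquiv i).1 hϑ
  have hover : classInner (fun x : M => χ (π x)) (fun x : M => β x) ≠ 0 := by
    have h1 : (fun x : M => χ (π x)) = fun x : M => (fun n : N => χ n) (i x) := by
      funext x
      rw [hπM]
    rw [h1, hβM', classInner_mulEquiv i (fun n : N => χ n) ϑ]
    exact hcon
  obtain ⟨θ, hθ, hθM, hθβ⟩ := H83.Gallagher.exists_eq_mul hβ M hβMirr hχ' hover
  exact ⟨Γ, hG, hF, π, M, hMn, i, β, θ, hπ, hπM, hβ, hβM, hβMirr, hknorm, hθ, hθM,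
    fun x => congrFun hθβ x⟩

theorem indFun_mul_right {Γ : Type u} [Group Γ] [Fintype Γ] (H M : Subgroup Γ) [hM : M.Normal]
    (hMH : M ≤ H) {θ : H → ℂ} (hθ : IsCharacter H θ) (hker : ∀ m ∈ M.subgroupOf H, θ m = θ 1)
    (g n : Γ) (hn : n ∈ M) : indFun H θ (g * n) = indFun H θ g := by
  classical
  rw [indFun_apply, indFun_apply]
  congr 1
  apply Finset.sum_congr rfl
  intro x _
  have hm : x⁻¹ * n * x ∈ M := by
    have := hM.conj_mem n hn x⁻¹
    rwa [inv_inv] at this
  have h1 : x⁻¹ * (g * n) * x = (x⁻¹ * g * x) * (x⁻¹ * n * x) := by group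
  by_cases hx : x⁻¹ * g * x ∈ H
  · have h2 : x⁻¹ * (g * n) * x ∈ H := by
      rw [h1]; exact H.mul_mem hx (hMH hm)
    rw [H31.FunBasic.ext_mem H θ h2, H31.FunBasic.ext_mem H θ hx]
    have h3 : (⟨x⁻¹ * (g * n) * x, h2⟩ : H) = ⟨x⁻¹ * g * x, hx⟩ * ⟨x⁻¹ * n * x, hMH hm⟩ :=
      Subtype.ext h1
    rw [h3]
    exact char_mul_right hθ (hker ⟨x⁻¹ * n * x, hMH hm⟩ hm) _
  · have h2 : x⁻¹ * (g * n) * x ∉ H := by
      intro h2
      apply hx
      rw [h1] at h2
      exact (H.mul_mem_cancel_right (hMH hm)).1 h2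
    rw [H31.FunBasic.ext_not_mem H θ h2, H31.FunBasic.ext_not_mem H θ hx]

/-- constituents of the restriction of the inducing character -/
theorem over_of_ind {G : Type u} [Group G] [Fintype G] {N : Subgroup G} [Fintype N]
    {χ : G → ℂ} (hχ : IsIrrCharacter G χ) {ϑ : N → ℂ} (hϑ : IsIrrCharacter N ϑ) {e : ℕ}
    (he : (fun n : N => χ n) = (e : ℂ) • ϑ) (H : Subgroup G) (hNH : N ≤ H) {ψ : H → ℂ}
    (hψ : IsIrrCharacter H ψ) (hind : indFun H ψ = χ) :
    ∃ f : ℕ, f ≠ 0 ∧ (fun n : N => ψ ⟨n, hNH n.2⟩) = (f : ℂ) • ϑ := by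
  classical
  letI := Fintype.ofFinite H
  have hχc := isCharacter_of_isIrr hχ
  have hψc := isCharacter_of_isIrr hψ
  have hne : classInner (fun h : H => χ h) ψ ≠ 0 := by
    have h1 := frobenius' H ψ (isClassFunction_of_isCharacter hχc)
    rw [hind, inner_irr_self hχ] at h1
    rw [← h1]; exact one_ne_zero
  have hsub := isCharacter_sub_constituent (isCharacter_restrict H hχc) hψ hne
  let N' : Subgroup H := N.subgroupOf H
  letI := Fintype.ofFinite N'
  let j : N' ≃* N := Subgroup.subgroupOfEquivOfLe hNH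
  have hψN : IsCharacter N (fun n : N => ψ ⟨n, hNH n.2⟩) :=
    isCharacter_comp (Subgroup.inclusion hNH) hψc
  have hsubN : IsCharacter N (fun n : N => ((fun h : H => χ h) - ψ) ⟨n, hNH n.2⟩) :=
    isCharacter_comp (Subgroup.inclusion hNH) hsub
  have hψN0 : (fun n : N => ψ ⟨n, hNH n.2⟩) 1 ≠ 0 := irr_one_ne_zero hψ
  obtain ⟨f, hf⟩ := homog_of_unique hψN hϑ (by
    intro φ hφ hφne
    by_contra hcon
    have h1 : classInner (fun n : N => χ n) φ = 0 := by
      rw [he, H18.CharOrtho.inner_smul_left, inner_irr_ne hϑ hφ (Ne.symm hcon), mul_zero]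
    have h2 : (fun n : N => χ n) = (fun n : N => ψ ⟨n, hNH n.2⟩) +
        (fun n : N => ((fun h : H => χ h) - ψ) ⟨n, hNH n.2⟩) := by
      funext n
      simp
    rw [h2, H18.CharOrtho.inner_add_left] at h1
    obtain ⟨a, ha⟩ := inner_char_natCast hψN (isCharacter_of_isIrr hφ)
    obtain ⟨b, hb⟩ := inner_char_natCast hsubN (isCharacter_of_isIrr hφ)
    rw [ha, hb] at h1
    have h3 : a + b = 0 := by exact_mod_cast h1
    apply hφne
    rw [ha, show a = 0 by omega, Nat.cast_zero])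
  refine ⟨f, ?_, hf⟩
  rintro rfl
  apply hψN0
  rw [hf]; simp

/-- **Imprimitivity passes to the projective part.** -/
theorem ind_transfer {G : Type u} [Group G] [Fintype G] {N : Subgroup G} [Fintype N]
    {χ : G → ℂ} (hχ : IsIrrCharacter G χ) {ϑ : N → ℂ} (hϑ : IsIrrCharacter N ϑ) {e : ℕ}
    (he : (fun n : N => χ n) = (e : ℂ) • ϑ) (H : Subgroup G) (hNH : N ≤ H) {ψ : H → ℂ}
    (hψ : IsIrrCharacter H ψ) (hind : indFun H ψ = χ)
    {Γ : Type v} [Group Γ] [Fintype Γ] (π : Γ →* G) (hπ : Function.Surjective π) (M : Subgroup Γ)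
    [hM : M.Normal] (i : M ≃* N) (hi : ∀ x : M, π x = i x) {β θ : Γ → ℂ}
    (hβ : IsIrrCharacter Γ β) (hβϑ : ∀ x : M, β x = ϑ (i x))
    (hβM : IsIrrCharacter M (fun x : M => β x)) (hθ : IsIrrCharacter Γ θ)
    (hθM : ∀ m ∈ M, θ m = θ 1) (hχθ : ∀ x, χ (π x) = θ x * β x) :
    ∃ θH : H.comap π → ℂ, IsIrrCharacter (H.comap π) θH ∧ indFun (H.comap π) θH = θ := by
  classical
  obtain ⟨f, hf0, hf⟩ := over_of_ind hχ hϑ he H hNH hψ hind
  set Hh := H.comap π with hHh
  letI := Fintype.ofFinite Hh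
  letI := Fintype.ofFinite H
  have hMH : M ≤ Hh := by
    intro x hx
    rw [hHh, Subgroup.mem_comap, hi ⟨x, hx⟩]
    exact hNH (i ⟨x, hx⟩).2
  let π' : Hh →* H := (π.comp Hh.subtype).codRestrict H (fun x => x.2)
  have hπ' : Function.Surjective π' := by
    rintro ⟨h, hh⟩
    obtain ⟨x, hx⟩ := hπ h
    have hx' : x ∈ Hh := by rw [hHh, Subgroup.mem_comap, hx]; exact hh
    exact ⟨⟨x, hx'⟩, Subtype.ext hx⟩
  have hψπ : IsIrrCharacter Hh (fun x => ψ (π' x)) := isIrrCharacter_comp π' hπ' hψ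
  let M' : Subgroup Hh := M.subgroupOf Hh
  haveI : M'.Normal := Subgroup.normal_subgroupOf
  letI := Fintype.ofFinite M'
  letI := Fintype.ofFinite M
  let j : M' ≃* M := Subgroup.subgroupOfEquivOfLe hMH
  have hβM' : IsIrrCharacter M' (fun x : M' => (fun y : Hh => β y) x) :=
    (isIrrCharacter_mulEquiv j).1 hβM
  have hβc := isCharacter_of_isIrr hβ
  have hβH : IsIrrCharacter Hh (fun x : Hh => β x) := by
    obtain ⟨φ, hφ, hφne⟩ := exists_constituent (isCharacter_restrict Hh hβc) (by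
      intro h0
      have := congrFun h0 1
      exact irr_one_ne_zero hβ this)
    have hsub := isCharacter_sub_constituent (isCharacter_restrict Hh hβc) hφ hφne
    have h2 : (fun x : M' => (fun y : Hh => β y) x) =
        (fun x : M' => φ x) + (fun x : M' => ((fun x : Hh => β x) - φ) x) := by
      funext x
      simp
    have h1 := hβM'
    rw [h2] at h1
    rcases irr_add (isCharacter_restrict M' (isCharacter_of_isIrr hφ))
      (isCharacter_restrict M' hsub) h1 with h3 | h3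
    · exact absurd (congrFun h3 1) (irr_one_ne_zero hφ)
    · have h4 := char_eq_zero hsub (congrFun h3 1)
      rw [sub_eq_zero.1 h4]
      exact hφ
  have hover : classInner (fun x : M' => (fun y : Hh => ψ (π' y)) x)
      (fun x : M' => (fun y : Hh => β y) x) ≠ 0 := by
    have h1 : (fun x : M' => (fun y : Hh => ψ (π' y)) x) =
        fun x : M' => ((f : ℂ) • ϑ) (i (j x)) := by
      funext x
      rw [← hf]
      change ψ (π' x) = ψ ⟨(i (j x) : G), _⟩
      congr 1
      apply Subtype.ext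
      exact hi (j x)
    have h2 : (fun x : M' => (fun y : Hh => β y) x) = fun x : M' => ϑ (i (j x)) := by
      funext x
      exact hβϑ (j x)
    rw [h1, h2]
    have h3 := classInner_mulEquiv (j.trans i) ((f : ℂ) • ϑ) ϑ
    change classInner (fun x => ((f : ℂ) • ϑ) (i (j x))) (fun x => ϑ (i (j x))) = _ at h3
    rw [h3, H18.CharOrtho.inner_smul_left, inner_irr_self hϑ, mul_one]
    exact_mod_cast hf0
  obtain ⟨θH, hθH, hθHM, hθHβ⟩ := H83.Gallagher.exists_eq_mul hβH M' hβM' hψπ hover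
  refine ⟨θH, hθH, ?_⟩
  have h1 : indFun Hh (fun x : Hh => θH x * β x) = indFun Hh θH * β :=
    indFun_mul_restrict Hh θH (isClassFunction_of_isIrr hβ)
  have h2 : indFun Hh (fun x : Hh => ψ (π' x)) = fun x => χ (π x) := by
    have := H4.Monomial.indFun_comap π hπ H ψ
    rw [hind] at this
    exact this.symm
  rw [hθHβ] at h2
  rw [h1] at h2
  apply H83.Gallagher.mul_inj hβ M hβM (β := indFun Hh θH) (γ := θ)
  · intro g n hn
    exact indFun_mul_right Hh M hMH (isCharacter_of_isIrr hθH) hθHM g n hn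
  · intro g n hn
    exact char_mul_right (isCharacter_of_isIrr hθ) (hθM n hn) g
  · intro g
    rw [← hχθ g]
    exact congrFun h2 g

end H19.Berger
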