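import Cfsg.Agent.Lib.H19.Berger2
import Cfsg.Agent.Lib.H19.MaxSub

/-!
# Quasi-primitive characters of solvable groups are primitive (Berger)
-/

set_option autoImplicit false
set_option linter.unusedSectionVars false
set_option linter.style.haveILetI false

namespace H19.Berger

open Cfsg H18.CharBasic H18.CharOrtho H18.CharInd H18.CharQuot
open scoped ComplexConjugate

universe u v w

/-- the restriction to `N` is a multiple of an irreducible character -/
def Homog {G : Type u} [Group G] (χ : G → ℂ) (N : Subgroup G) : Prop :=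
  ∃ (φ : N → ℂ) (e : ℕ), IsIrrCharacter N φ ∧ (fun x : N => χ x) = (e : ℂ) • φ

def QP {G : Type u} [Group G] (L : Subgroup G) (χ : G → ℂ) : Prop :=
  ∀ N : Subgroup G, N.Normal → L ≤ N → Homog χ N

def Statement (n : ℕ) : Prop :=
  ∀ (G : Type u) [Group G] [Fintype G] (L : Subgroup G) [L.Normal], Group.IsSolvable (G ⧸ L) →
    ∀ χ : G → ℂ, IsIrrCharacter G χ → χ 1 = n → QP L χ →
    ∀ H : Subgroup G, L ≤ H → H ≠ ⊤ → ∀ ψ : H → ℂ, IsCharacter H ψ → indFun H ψ ≠ χ

theorem solv_of_hom {X : Type u} {Y : Type v} [Group X] [Group Y] (f : X →* Y) (L : Subgroup Y)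
    [L.Normal] (K : Subgroup X) [K.Normal] (hK : ∀ x, f x ∈ L → x ∈ K)
    (h : Group.IsSolvable (Y ⧸ L)) : Group.IsSolvable (X ⧸ K) := by
  let g : X →* Y ⧸ L := (QuotientGroup.mk' L).comp f
  have h1 : Group.IsSolvable (X ⧸ g.ker) :=
    Group.isSolvable_of_isSolvable_injective (QuotientGroup.kerLift_injective g)
  have h2 : g.ker ≤ K := by
    intro x hx
    rw [MonoidHom.mem_ker] at hx
    apply hK
    exact (QuotientGroup.eq_one_iff _).1 hx
  let q : X ⧸ g.ker →* X ⧸ K := QuotientGroup.map g.ker K (MonoidHom.id X) h2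
  have hq : Function.Surjective q := by
    intro x
    obtain ⟨x, rfl⟩ := QuotientGroup.mk'_surjective K x
    exact ⟨(x : X ⧸ g.ker), rfl⟩
  exact Group.isSolvable_of_surjective hq

/-- facts about a homogeneous restriction -/
theorem homog_facts {G : Type u} [Group G] [Fintype G] {χ : G → ℂ} (hχ : IsIrrCharacter G χ)
    {K : Subgroup G} [hK : K.Normal] [Fintype K] {φ : K → ℂ} (hφ : IsIrrCharacter K φ) {e : ℕ}
    (he : (fun x : K => χ x) = (e : ℂ) • φ) :
    e ≠ 0 ∧ classInner (fun x : K => χ x) φ ≠ 0 ∧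
      (∀ (g : G) (n : K), φ ⟨g * n * g⁻¹, hK.conj_mem (n : G) n.2 g⟩ = φ n) := by
  have hcf := isClassFunction_of_isIrr hχ
  have he0 : e ≠ 0 := by
    rintro rfl
    have h1 := congrFun he 1
    apply irr_one_ne_zero hχ
    have h2 : χ ((1 : K) : G) = 0 := by rw [h1]; simp
    exact h2
  have he0' : (e : ℂ) ≠ 0 := by exact_mod_cast he0
  refine ⟨he0, ?_, ?_⟩
  · rw [he, H18.CharOrtho.inner_smul_left, inner_irr_self hφ, mul_one]
    exact he0'
  · intro g n
    have h1 := congrFun he n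
    have h2 := congrFun he ⟨g * n * g⁻¹, hK.conj_mem (n : G) n.2 g⟩
    have h3 : χ (g * n * g⁻¹) = χ n := hcf _ _
    rw [Pi.smul_apply, smul_eq_mul] at h1 h2
    apply mul_left_cancel₀ he0'
    rw [← h1, ← h2]
    exact h3

/-- Step A: the restriction to `K` is a multiple of a linear character. -/
theorem stepA {n : ℕ} (IH : ∀ m < n, Statement.{u} m) {G : Type u} [Group G] [Fintype G]
    (K : Subgroup G) [hK : K.Normal] (hs : Group.IsSolvable (G ⧸ K)) {χ : G → ℂ}
    (hχ : IsIrrCharacter G χ) (hn : χ 1 = n) (hQP : QP K χ) (H : Subgroup G) (hKH : K ≤ H)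
    (hH : H ≠ ⊤) {ψ : H → ℂ} (hψ : IsIrrCharacter H ψ) (hind : indFun H ψ = χ) {φ : K → ℂ}
    (hφ : IsIrrCharacter K φ) {e : ℕ} (he : (fun x : K => χ x) = (e : ℂ) • φ) : φ 1 = 1 := by
  classical
  letI := Fintype.ofFinite K
  by_contra hne
  obtain ⟨he0, hcon, hinv⟩ := homog_facts hχ hφ he
  obtain ⟨Γ, _, _, π, M, _, i, β, θ, hπ, hi, hβ, hβφ, hβM, -, hθ, hθM, hχθ⟩ :=
    exists_theta hχ hφ hcon hinv
  letI := Fintype.ofFinite Γ
  obtain ⟨d, hd⟩ := exists_degree (isCharacter_of_isIrr hφ)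
  obtain ⟨m, hm⟩ := exists_degree (isCharacter_of_isIrr hθ)
  have hβ1 : β 1 = d := by
    have := hβφ 1
    rw [map_one, hd] at this
    exact this
  have h1 := hχθ 1
  rw [map_one, hn, hm, hβ1] at h1
  have h2 : n = m * d := by exact_mod_cast h1
  have hd1 : d ≠ 1 := by
    rintro rfl
    apply hne
    rw [hd]; simp
  have hd0 : d ≠ 0 := by
    rintro rfl
    apply irr_one_ne_zero hφ
    rw [hd]; simp
  have hm0 : m ≠ 0 := by
    rintro rfl
    apply irr_one_ne_zero hθ
    rw [hm]; simp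
  have hmn : m < n := by
    rw [h2]
    calc m = m * 1 := (mul_one m).symm
      _ < m * d := Nat.mul_lt_mul_of_pos_left (by omega) (by omega)
  obtain ⟨θH, hθH, hθHind⟩ := ind_transfer hχ hφ he H hKH hψ hind π hπ M i hi hβ hβφ hβM hθ hθM hχθ
  have hMK : M ≤ K.comap π := by
    intro x hx
    rw [Subgroup.mem_comap, hi ⟨x, hx⟩]
    exact (i ⟨x, hx⟩).2
  refine IH m hmn Γ (K.comap π) (solv_of_hom π K (K.comap π) (fun x hx => hx) hs) θ hθ hm ?_
    (H.comap π) (Subgroup.comap_mono hKH) ?_ θH (isCharacter_of_isIrr hθH) hθHind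
  · intro N hN hKN
    have hA1 : (N.map π).Normal := Subgroup.Normal.map hN π hπ
    have hA2 : K ≤ N.map π := by
      intro k hk
      obtain ⟨x, hx⟩ := hπ k
      exact ⟨x, hKN (by rw [Subgroup.mem_comap, hx]; exact hk), hx⟩
    obtain ⟨θ₁, s, h3, h4, -⟩ := homog_of_cover π M hβ hβM hθ hθM hχθ N (hMK.trans hKN) (N.map π)
      (fun a ha => ha) (fun x hx => ⟨x, hx, rfl⟩) (hQP _ hA1 hA2)
    exact ⟨θ₁, s, h3, h4⟩
  · intro h3
    apply hH
    rw [eq_top_iff]
    intro x _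
    obtain ⟨y, rfl⟩ := hπ x
    have : y ∈ H.comap π := by rw [h3]; trivial
    exact this

end H19.Berger
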