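import Cfsg.Agent.Lib.H19.Berger3

/-!
# Quasi-primitive characters of solvable groups are primitive (Berger), the main step
-/

set_option autoImplicit false
set_option linter.unusedSectionVars false
set_option linter.style.haveILetI false

namespace H19.Berger

open Cfsg H18.CharBasic H18.CharOrtho H18.CharInd H18.CharQuot
open scoped ComplexConjugate

universe u v w

/-- Composition of an irreducible character with a homomorphism covering the quotient by a
subgroup of the kernel. -/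
theorem irr_comp_supplement {X : Type u} {Y : Type v} [Group X] [Group Y] [Finite X]
    (C : Subgroup X) [C.Normal] (f : Y →* X)
    {θ : X → ℂ} (hθ : IsIrrCharacter X θ) (hC : ∀ c ∈ C, θ c = θ 1)
    (h : ∀ x : X, ∃ c ∈ C, ∃ y, x = c * f y) : IsIrrCharacter Y (fun y => θ (f y)) := by
  have h1 := isIrrCharacter_deflate C hθ hC
  let g : Y →* X ⧸ C := (QuotientGroup.mk' C).comp f
  have hg : Function.Surjective g := by
    intro q
    obtain ⟨x, rfl⟩ := QuotientGroup.mk'_surjective C q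
    obtain ⟨c, hc, y, hxy⟩ := h x
    refine ⟨y, ?_⟩
    change ((f y : X) : X ⧸ C) = (x : X ⧸ C)
    rw [QuotientGroup.eq, hxy]
    have : (f y)⁻¹ * (c * f y) = (f y)⁻¹ * c * ((f y)⁻¹)⁻¹ := by group
    rw [this]
    exact (inferInstance : C.Normal).conj_mem c hc _
  have h2 := isIrrCharacter_comp g hg h1
  have h3 : (fun y => θ (f y)) = fun y => deflate C θ (g y) := by
    funext y
    exact (deflate_mk C (isCharacter_of_isIrr hθ) hC (f y)).symm
  rw [h3]
  exact h2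

/-- quasi-primitivity of `θ` restricted to a supplement -/
theorem qp_supplement {G : Type u} [Group G] [Fintype G] {Γ : Type v} [Group Γ] [Finite Γ]
    (π : Γ →* G) (hπ : Function.Surjective π) (M' : Subgroup Γ) [hM' : M'.Normal] {β θ : Γ → ℂ}
    {χ : G → ℂ} (hβ : IsIrrCharacter Γ β) (hβM : IsIrrCharacter M' (fun x : M' => β x))
    (hθ : IsIrrCharacter Γ θ) (hθM : ∀ m ∈ M', θ m = θ 1) (hχθ : ∀ x, χ (π x) = θ x * β x)
    (K : Subgroup G) [hK : K.Normal] (hKM : ∀ k ∈ K, ∃ x ∈ M', π x = k) (hQP : QP K χ)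
    (H : Subgroup Γ) (hsup : ∀ x : Γ, ∃ c ∈ M', ∃ y ∈ H, x = c * y) :
    QP ((K.comap π).subgroupOf H) (fun y : H => θ y) := by
  classical
  intro N hN hLN
  set N1 := N.map H.subtype with hN1
  set J := M' ⊔ N1 with hJ
  have hN1conj : ∀ y ∈ H, ∀ n ∈ N1, y * n * y⁻¹ ∈ N1 := by
    rintro y hy _ ⟨n, hn, rfl⟩
    exact ⟨⟨y, hy⟩ * n * ⟨y, hy⟩⁻¹, hN.conj_mem n hn ⟨y, hy⟩, rfl⟩
  have hmemJ : ∀ x ∈ J, ∃ c ∈ M', ∃ y ∈ N1, x = c * y := by
    intro x hx
    have hx' : x ∈ ((M' ⊔ N1 : Subgroup Γ) : Set Γ) := hx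
    rw [Subgroup.normal_mul] at hx'
    obtain ⟨c, hc, y, hy, hcy⟩ := hx'
    exact ⟨c, hc, y, hy, hcy.symm⟩
  have hJn : J.Normal := by
    constructor
    intro j hj x
    obtain ⟨c, hc, y, hy, rfl⟩ := hsup x
    obtain ⟨c', hc', n, hn, rfl⟩ := hmemJ j hj
    have h1 : y * (c' * n) * y⁻¹ ∈ J := by
      have : y * (c' * n) * y⁻¹ = (y * c' * y⁻¹) * (y * n * y⁻¹) := by group
      rw [this]
      exact J.mul_mem (le_sup_left (a := M') (b := N1) (hM'.conj_mem c' hc' y))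
        (le_sup_right (a := M') (b := N1) (hN1conj y hy n hn))
    have hcJ : c ∈ J := (le_sup_left : M' ≤ J) hc
    have : c * y * (c' * n) * (c * y)⁻¹ = c * (y * (c' * n) * y⁻¹) * c⁻¹ := by group
    rw [this]
    exact J.mul_mem (J.mul_mem hcJ h1) (J.inv_mem hcJ)
  have hA1 : (J.map π).Normal := Subgroup.Normal.map hJn π hπ
  have hA2 : K ≤ J.map π := by
    intro k hk
    obtain ⟨x, hx, hxk⟩ := hKM k hk
    exact ⟨x, (le_sup_left : M' ≤ J) hx, hxk⟩
  obtain ⟨θ₁, s, h3, h4, hs0⟩ := homog_of_cover π M' hβ hβM hθ hθM hχθ J le_sup_left (J.map π)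
    (fun a ha => ha) (fun x hx => ⟨x, hx, rfl⟩) (hQP _ hA1 hA2)
  -- restrict to `N`
  have hNJ : ∀ n : N, ((n : H) : Γ) ∈ J := fun n =>
    (le_sup_right : N1 ≤ J) ⟨n, n.2, rfl⟩
  let f : N →* J := (H.subtype.comp N.subtype).codRestrict J hNJ
  haveI : (M'.subgroupOf J).Normal := Subgroup.normal_subgroupOf
  have hker : ∀ c ∈ M'.subgroupOf J, θ₁ c = θ₁ 1 := by
    intro c hc
    have h5 := congrFun h4 c
    have h6 := congrFun h4 1
    rw [Pi.smul_apply, smul_eq_mul] at h5 h6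
    have hs' : (s : ℂ) ≠ 0 := by exact_mod_cast hs0
    apply mul_left_cancel₀ hs'
    rw [← h5, ← h6]
    exact hθM _ hc
  have hirr : IsIrrCharacter N (fun n => θ₁ (f n)) := by
    apply irr_comp_supplement (M'.subgroupOf J) f h3 hker
    rintro ⟨x, hx⟩
    obtain ⟨c, hc, y, hy, hxy⟩ := hmemJ x hx
    obtain ⟨n, hn, rfl⟩ := hy
    exact ⟨⟨c, (le_sup_left : M' ≤ J) hc⟩, hc, ⟨n, hn⟩, Subtype.ext hxy⟩
  refine ⟨fun n => θ₁ (f n), s, hirr, ?_⟩
  funext n
  exact congrFun h4 (f n)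

theorem indFun_conj {X : Type u} [Group X] [Fintype X] (T : Subgroup X) (δ : T → ℂ) :
    indFun T (fun x => conj (δ x)) = fun x => conj (indFun T δ x) := by
  classical
  funext g
  rw [indFun_apply, indFun_apply, map_mul, map_inv₀, Complex.conj_natCast, map_sum]
  congr 1
  apply Finset.sum_congr rfl
  intro x _
  by_cases hx : x⁻¹ * g * x ∈ T
  · rw [H31.FunBasic.ext_mem T _ hx, H31.FunBasic.ext_mem T _ hx]
  · rw [H31.FunBasic.ext_not_mem T _ hx, H31.FunBasic.ext_not_mem T _ hx, map_zero]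

/-- data in the group `G` for Step B -/
theorem quotient_data {G : Type u} [Group G] [Finite G] (H : Subgroup G) (hH : IsCoatom H)
    (K : Subgroup G) [hK : K.Normal] (hKdef : K = H.normalCore) (hKneH : K ≠ H)
    (hs : Group.IsSolvable (G ⧸ K)) :
    ∃ (Mb Rb : Subgroup (G ⧸ K)) (q r : ℕ), q.Prime ∧ r.Prime ∧ q ≠ r ∧ Mb.Normal ∧
      IsPGroup q Mb ∧ Mb ≠ ⊥ ∧
      (∀ x : G, ∃ m ∈ Mb.comap (QuotientGroup.mk' K), ∃ h ∈ H, x = m * h) ∧
      (∀ x ∈ Mb.comap (QuotientGroup.mk' K), x ∈ H → x ∈ K) ∧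
      Rb.comap (QuotientGroup.mk' K) ≤ H ∧ IsPGroup r Rb ∧
      (∀ h ∈ H, ∀ y ∈ Rb.comap (QuotientGroup.mk' K), h * y * h⁻¹ ∈ Rb.comap (QuotientGroup.mk' K)) ∧
      (∃ y ∈ Rb, ∃ m ∈ Mb, y * m ≠ m * y) ∧
      Nat.card Mb = H.index := by
  have hKH : K ≤ H := by rw [hKdef]; exact H.normalCore_le
  set mk := QuotientGroup.mk' K with hmk
  have hsurj : Function.Surjective mk := QuotientGroup.mk'_surjective K
  set Hb := H.map mk with hHb
  have hcomapH : Hb.comap mk = H := by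
    rw [hHb, Subgroup.comap_map_eq, QuotientGroup.ker_mk', sup_eq_left]
    exact hKH
  have hmemH : ∀ x : G, mk x ∈ Hb ↔ x ∈ H := by
    intro x
    rw [← Subgroup.mem_comap, hcomapH]
  have hcoatom : IsCoatom Hb := by
    constructor
    · intro h
      apply hH.1
      rw [← hcomapH, h, Subgroup.comap_top]
    · intro A hA
      have h1 : H < A.comap mk := by
        rw [← hcomapH]
        exact (Subgroup.comap_lt_comap_of_surjective hsurj).2 hA
      have h2 := hH.2 _ h1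
      rw [eq_top_iff]
      intro x _
      obtain ⟨y, rfl⟩ := hsurj x
      have : y ∈ A.comap mk := by rw [h2]; trivial
      exact this
  have hcore : Hb.normalCore = ⊥ := by
    rw [eq_bot_iff]
    intro x hx
    obtain ⟨y, rfl⟩ := hsurj x
    have h0 : (Hb.normalCore.comap mk) ≤ H :=
      (Subgroup.comap_mono Hb.normalCore_le).trans (le_of_eq hcomapH)
    have h1 : (Hb.normalCore.comap mk) ≤ K :=
      ((Subgroup.normal_le_normalCore).2 h0).trans (le_of_eq hKdef.symm)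
    have h2 : y ∈ K := h1 hx
    rw [Subgroup.mem_bot]
    exact (QuotientGroup.eq_one_iff y).2 h2
  have hne : Hb ≠ ⊥ := by
    intro h
    apply hKneH
    apply le_antisymm hKH
    intro x hx
    have h1 : mk x ∈ Hb := (hmemH x).2 hx
    rw [h, Subgroup.mem_bot] at h1
    exact (QuotientGroup.eq_one_iff x).1 h1
  obtain ⟨Mb, Rb, q, r, hq, hr, hqr, hMn, hMp, hM1, hfac, hinf, hRH, hRp, hRn, hnc, hidx⟩ :=
    H19.MaxSub.structure_coreFree hs Hb hcoatom hcore hne
  refine ⟨Mb, Rb, q, r, hq, hr, hqr, hMn, hMp, hM1, ?_, ?_, ?_, hRp, ?_, hnc, ?_⟩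
  · intro x
    obtain ⟨m, hm, h, hh, hx⟩ := hfac (mk x)
    obtain ⟨m', rfl⟩ := hsurj m
    refine ⟨m', hm, m'⁻¹ * x, ?_, by group⟩
    rw [← hmemH, map_mul, map_inv, hx]
    rw [inv_mul_cancel_left]
    exact hh
  · intro x hxM hxH
    have h1 : mk x ∈ Mb ⊓ Hb := ⟨hxM, (hmemH x).2 hxH⟩
    rw [hinf, Subgroup.mem_bot] at h1
    exact (QuotientGroup.eq_one_iff x).1 h1
  · rw [← hcomapH]
    exact Subgroup.comap_mono hRH
  · intro h hh y hy
    rw [Subgroup.mem_comap, map_mul, map_mul, map_inv]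
    exact hRn (mk h) ((hmemH h).2 hh) (mk y) hy
  · rw [hidx, ← hcomapH, Subgroup.index_comap_of_surjective Hb hsurj]

end H19.Berger
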