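import Cfsg.Agent.Lib.H19.Berger4
import Cfsg.Agent.Lib.H19.FullRam
import Cfsg.Agent.Lib.H79.Ovr

/-!
# Quasi-primitive characters of solvable groups are primitive (Berger), the end
-/

set_option autoImplicit false
set_option linter.unusedSectionVars false
set_option linter.style.haveILetI false

namespace H19.Berger

open Cfsg H18.CharBasic H18.CharOrtho H18.CharInd H18.CharQuot
open scoped ComplexConjugate

universe u v w

theorem ind_vanish {G : Type u} [Group G] [Fintype G] (H M K : Subgroup G) [hM : M.Normal]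
    [hK : K.Normal] (hint : ∀ x ∈ M, x ∈ H → x ∈ K) (ψ : H → ℂ) {x : G} (hx : x ∈ M)
    (hxK : x ∉ K) : indFun H ψ x = 0 := by
  classical
  rw [indFun_apply, Finset.sum_eq_zero, mul_zero]
  intro g _
  apply H31.FunBasic.ext_not_mem
  intro h1
  apply hxK
  have h2 : g⁻¹ * x * g ∈ M := by simpa using hM.conj_mem x hx g⁻¹
  have h3 := hK.conj_mem _ (hint _ h2 h1) g
  have h4 : g * (g⁻¹ * x * g) * g⁻¹ = x := by group
  rwa [h4] at h3

theorem sq_of_vanish {X : Type u} [Group X] [Fintype X] {η : X → ℂ} (hη : IsIrrCharacter X η)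
    (Z : Subgroup X) (h1 : ∀ z ∈ Z, ‖η z‖ = ‖η 1‖) (h0 : ∀ x, x ∉ Z → η x = 0) {t : ℕ}
    (ht : η 1 = t) : t ^ 2 = Z.index := by
  classical
  have h2 := inner_irr_self hη
  rw [inner_self_eq_sum] at h2
  have h3 : (Nat.card X : ℝ)⁻¹ * ∑ g : X, ‖η g‖ ^ 2 = 1 := by exact_mod_cast h2
  have h4 : (Nat.card X : ℝ) ≠ 0 := by exact_mod_cast (Nat.card_pos (α := X)).ne'
  have h5 : ∑ g : X, ‖η g‖ ^ 2 = Nat.card X := by
    field_simp at h3
    exact h3
  have h6 : ∑ g : X, ‖η g‖ ^ 2 = Nat.card Z * (t : ℝ) ^ 2 := by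
    rw [← Finset.sum_filter_add_sum_filter_not Finset.univ (fun g : X => g ∈ Z)]
    have h7 : ∑ g ∈ Finset.univ.filter (fun g : X => ¬ g ∈ Z), ‖η g‖ ^ 2 = 0 := by
      apply Finset.sum_eq_zero
      intro g hg
      rw [Finset.mem_filter] at hg
      rw [h0 g hg.2]; simp
    have h8 : ∑ g ∈ Finset.univ.filter (fun g : X => g ∈ Z), ‖η g‖ ^ 2 =
        ∑ g ∈ Finset.univ.filter (fun g : X => g ∈ Z), (t : ℝ) ^ 2 := by
      apply Finset.sum_congr rfl
      intro g hg
      rw [Finset.mem_filter] at hg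
      rw [h1 g hg.2, ht, Complex.norm_natCast]
    rw [h7, h8, add_zero, Finset.sum_const, nsmul_eq_mul]
    congr 1
    rw [Nat.card_eq_fintype_card, Fintype.card_subtype]
  have h9 : Nat.card Z * t ^ 2 = Nat.card X := by
    rw [h5] at h6
    exact_mod_cast h6.symm
  have h10 := Z.card_mul_index
  rw [← h9] at h10
  exact (Nat.eq_of_mul_eq_mul_left Nat.card_pos h10).symm

/-- character data of Step B in the covering group -/
theorem restrict_beta {Y : Type u} [Group Y] [Fintype Y] {θ β ψ : Y → ℂ}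
    (hθ : IsIrrCharacter Y θ) (hβ : IsCharacter Y β) (hψ : IsIrrCharacter Y ψ)
    (hin : classInner (fun x => θ x * β x) ψ ≠ 0) {a b c : ℕ} (ha : θ 1 = a) (hb : β 1 = b)
    (hc : ψ 1 = c) (habc : a = b * c) :
    (fun x => conj (β x) * ψ x) = θ ∧ IsIrrCharacter Y β := by
  classical
  have h1 : IsCharacter Y (fun x => conj (β x) * ψ x) :=
    isCharacter_mul (isCharacter_conj hβ) (isCharacter_of_isIrr hψ)
  have h2 : classInner (fun x => conj (β x) * ψ x) θ ≠ 0 := by
    have h3 : classInner (fun x => conj (β x) * ψ x) θ =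
        classInner ψ (fun x => θ x * β x) := by
      simp only [classInner]
      congr 1
      apply Finset.sum_congr rfl
      intro x _
      rw [map_mul]; ring
    rw [h3]
    exact H18.CharQuot.classInner_ne_zero_symm.1 hin
  have h3 : (fun x => conj (β x) * ψ x) = θ := by
    apply H82.Const.eq_of_constituent_of_degree h1 hθ h2
    apply le_of_eq
    have e1 : charDegree (fun x => conj (β x) * ψ x) = b * c := by
      apply H82.Deg.charDegree_eq_of
      rw [hb, hc]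
      simp
    have e2 : charDegree θ = a := by
      apply H82.Deg.charDegree_eq_of
      exact ha
    rw [e1, e2, habc]
  refine ⟨h3, ?_⟩
  have h4 : IsIrrCharacter Y (fun x => conj (β x)) := by
    apply irr_left_of_mul (isCharacter_conj hβ) (isCharacter_of_isIrr hψ)
    have : ((fun x => conj (β x)) * ψ) = θ := h3
    rw [this]
    exact hθ
  have h5 := H18.CharQuot.isIrrCharacter_conj h4
  simpa using h5

theorem ind_contra {n : ℕ} (IH : ∀ m < n, Statement.{u} m) {k : ℕ} (hkn : k < n) {Y : Type u}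
    [Group Y] [Fintype Y] (L : Subgroup Y) [L.Normal] (hs : Group.IsSolvable (Y ⧸ L)) {θ : Y → ℂ}
    (hθ : IsIrrCharacter Y θ) (hk : θ 1 = k) (hQP : QP L θ) (T : Subgroup Y) (hLT : L ≤ T)
    (hT : T ≠ ⊤) {δ : T → ℂ} (hδ : IsCharacter T δ) {β : Y → ℂ} (hind : indFun T δ = β)
    {ψ : Y → ℂ} (hψ : IsClassFunction Y ψ) (hψc : IsCharacter Y ψ)
    (hF : (fun x => conj (β x) * ψ x) = θ) : False := by
  refine IH k hkn Y L hs θ hθ hk hQP T hLT hT (fun x : T => conj (δ x) * ψ x) ?_ ?_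
  · exact isCharacter_mul (isCharacter_conj hδ) (isCharacter_restrict T hψc)
  · have h1 := indFun_mul_restrict T (fun x : T => conj (δ x)) hψ
    have h2 := indFun_conj T δ
    rw [hind] at h2
    rw [h2] at h1
    rw [← hF]
    exact h1

set_option maxHeartbeats 1600000 in
/-- Step B -/
theorem stepB {n : ℕ} (IH : ∀ m < n, Statement.{u} m) {G : Type u} [Group G] [Fintype G]
    (H : Subgroup G) (hH : IsCoatom H) (K : Subgroup G) [hK : K.Normal]
    (hKdef : K = H.normalCore) (hKneH : K ≠ H) (hs : Group.IsSolvable (G ⧸ K)) {χ : G → ℂ}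
    (hχ : IsIrrCharacter G χ) (hn : χ 1 = n) (hQP : QP K χ) {ψ : H → ℂ}
    (hψ : IsIrrCharacter H ψ) (hind : indFun H ψ = χ) {φ : K → ℂ}
    (hφ : IsIrrCharacter K φ) {e : ℕ} (he : (fun x : K => χ x) = (e : ℂ) • φ)
    (hφ1 : φ 1 = 1) : False := by
  classical
  obtain ⟨Mb, Rb, q, r, hq, hr, hqr, hMbn, hMq, hMb1, hsupp, hint, hRH, hRr, hRn, ⟨y, hyR, m, hmM,
    hym⟩, hidx⟩ := quotient_data H hH K hKdef hKneH hs
  set mk := QuotientGroup.mk' K with hmk
  have hmks : Function.Surjective mk := QuotientGroup.mk'_surjective K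
  have hmk1 : ∀ x : G, mk x = 1 ↔ x ∈ K := fun x => QuotientGroup.eq_one_iff x
  set M := Mb.comap mk with hMdef
  set R := Rb.comap mk with hRdef
  haveI hMn : M.Normal := Subgroup.Normal.comap hMbn mk
  letI := Fintype.ofFinite M
  letI := Fintype.ofFinite H
  have hKM : K ≤ M := by
    intro k hk
    rw [hMdef, Subgroup.mem_comap, (hmk1 k).2 hk]
    exact Mb.one_mem
  have hKR : K ≤ R := by
    intro k hk
    rw [hRdef, Subgroup.mem_comap, (hmk1 k).2 hk]
    exact Rb.one_mem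
  have hKH : K ≤ H := hKR.trans hRH
  obtain ⟨η, a, hη, ha⟩ := hQP M hMn hKM
  obtain ⟨ha0, hcon, hinv⟩ := homog_facts hχ hη ha
  have ha0' : (a : ℂ) ≠ 0 := by exact_mod_cast ha0
  -- values of η
  have hηK : ∀ x : M, (x : G) ∈ K → ‖η x‖ = ‖η 1‖ := by
    intro x hx
    have h1 := congrFun ha x
    have h2 := congrFun ha 1
    have h3 := congrFun he ⟨x, hx⟩
    have h4 := congrFun he 1
    simp only [Pi.smul_apply, smul_eq_mul] at h1 h2 h3 h4
    obtain ⟨f, hf⟩ := H18.CharQuot.exists_hom_of_degree_one (isCharacter_of_isIrr hφ) hφ1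
    have h5 : ‖φ ⟨x, hx⟩‖ = 1 := by
      rw [hf]
      exact H18.CharBasic.hom_norm_one f _
    have h6 : ‖(a : ℂ) * η x‖ = ‖(a : ℂ) * η 1‖ := by
      rw [← h1, ← h2]
      have h7 : χ ((1 : M) : G) = χ ((1 : K) : G) := rfl
      rw [h3, h7, h4, norm_mul, norm_mul, h5, hφ1, norm_one]
    rw [norm_mul, norm_mul] at h6
    exact mul_left_cancel₀ (norm_ne_zero_iff.2 ha0') h6
  have hη0 : ∀ x : M, (x : G) ∉ K → η x = 0 := by
    intro x hx
    have h1 := congrFun ha x
    have h2 : χ x = 0 := by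
      rw [← hind]
      exact ind_vanish H M K hint ψ x.2 hx
    simp only [Pi.smul_apply, smul_eq_mul] at h1
    rw [h2] at h1
    exact (mul_eq_zero.1 h1.symm).resolve_left ha0'
  obtain ⟨t, ht⟩ := exists_degree (isCharacter_of_isIrr hη)
  have hKMidx : (K.subgroupOf M).index = Nat.card Mb := by
    let f : M →* Mb := (mk.comp M.subtype).codRestrict Mb (fun x => x.2)
    have hf : Function.Surjective f := by
      rintro ⟨b, hb⟩
      obtain ⟨x, rfl⟩ := hmks b
      exact ⟨⟨x, hb⟩, rfl⟩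
    have hk : f.ker = K.subgroupOf M := by
      ext x
      rw [MonoidHom.mem_ker, Subgroup.mem_subgroupOf, ← hmk1]
      constructor
      · intro h; exact congrArg Subtype.val h
      · intro h; exact Subtype.ext h
    rw [← hk, Subgroup.index_ker, MonoidHom.range_eq_top.2 hf]
    exact Nat.card_congr Subgroup.topEquiv.toEquiv
  have htsq : t ^ 2 = Nat.card Mb := by
    rw [← hKMidx]
    exact sq_of_vanish hη (K.subgroupOf M) (fun z hz => hηK z (Subgroup.mem_subgroupOf.1 hz))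
      (fun z hz => hη0 z (fun h => hz (Subgroup.mem_subgroupOf.2 h))) ht
  haveI : Fact q.Prime := ⟨hq⟩
  haveI : Fact r.Prime := ⟨hr⟩
  have hcardMb : 1 < Nat.card Mb := by
    have h1 : Nat.card Mb ≠ 1 := fun h => hMb1 (Subgroup.card_eq_one.1 h)
    have h2 : 0 < Nat.card Mb := Nat.card_pos
    omega
  have ht2 : 2 ≤ t := by
    by_contra hcon
    have : t ≤ 1 := by omega
    have h3 : t ^ 2 ≤ 1 ^ 2 := Nat.pow_le_pow_left this 2
    omega
  -- the covering group
  obtain ⟨Γ, _, _, π, M', _, i, β, θ, hπ, hi, hβ, hβη, hβM, hknorm, hθ, hθM, hχθ⟩ :=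
    exists_theta hχ hη hcon hinv
  letI := Fintype.ofFinite Γ
  have hβc := isCharacter_of_isIrr hβ
  have hβ1 : β 1 = t := by
    have := hβη 1
    rw [map_one, ht] at this
    exact this
  obtain ⟨k, hk⟩ := exists_degree (isCharacter_of_isIrr hθ)
  have hnkt : n = k * t := by
    have h1 := hχθ 1
    rw [map_one, hn, hk, hβ1] at h1
    exact_mod_cast h1
  have hk0 : k ≠ 0 := by
    rintro rfl
    apply irr_one_ne_zero hθ
    rw [hk]; simp
  have hkn : k < n := by
    rw [hnkt]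
    calc k = k * 1 := (mul_one k).symm
      _ < k * t := Nat.mul_lt_mul_of_pos_left (by omega) (by omega)
  set Hh := H.comap π with hHh
  letI := Fintype.ofFinite Hh
  let π' : Hh →* H := (π.comp Hh.subtype).codRestrict H (fun x => x.2)
  have hπ' : Function.Surjective π' := by
    rintro ⟨h, hh⟩
    obtain ⟨x, hx⟩ := hπ h
    have hx' : x ∈ Hh := by rw [hHh, Subgroup.mem_comap, hx]; exact hh
    exact ⟨⟨x, hx'⟩, Subtype.ext hx⟩
  have hψπ : IsIrrCharacter Hh (fun x => ψ (π' x)) := isIrrCharacter_comp π' hπ' hψ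
  have hM'π : ∀ a ∈ M, ∃ x ∈ M', π x = a := by
    intro a ha
    refine ⟨i.symm ⟨a, ha⟩, (i.symm ⟨a, ha⟩).2, ?_⟩
    rw [hi, MulEquiv.apply_symm_apply]
  have hsupΓ : ∀ x : Γ, ∃ c ∈ M', ∃ y ∈ Hh, x = c * y := by
    intro x
    obtain ⟨m, hm, h, hh, hx⟩ := hsupp (π x)
    obtain ⟨c, hc, hcm⟩ := hM'π m hm
    refine ⟨c, hc, c⁻¹ * x, ?_, by group⟩
    rw [hHh, Subgroup.mem_comap, map_mul, map_inv, hcm, hx, inv_mul_cancel_left]
    exact hh
  have hθH : IsIrrCharacter Hh (fun y : Hh => θ y) :=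
    restrict_supplement M' Hh hθ hθM hsupΓ
  have hin : classInner (fun x : Hh => θ x * β x) (fun x => ψ (π' x)) ≠ 0 := by
    have h1 : (fun x : Hh => θ x * β x) = fun x : Hh => (fun h : H => χ h) (π' x) := by
      funext x
      exact (hχθ x).symm
    rw [h1, H79.Ovr.inner_comp_surj hπ' (fun h : H => χ h) ψ]
    have h2 := frobenius' H ψ (isClassFunction_of_isIrr hχ)
    rw [hind, inner_irr_self hχ] at h2
    rw [← h2]
    exact one_ne_zero
  obtain ⟨c, hc⟩ := exists_degree (isCharacter_of_isIrr hψ)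
  have hdeg : k = t * c := by
    have h1 : χ 1 = H.index * ψ 1 := by rw [← hind, indFun_one]
    rw [hn, hc, ← hidx, ← htsq, hnkt] at h1
    have h2 : k * t = t ^ 2 * c := by exact_mod_cast h1
    have h3 : t * k = t * (t * c) := by rw [mul_comm t k, h2]; ring
    exact Nat.eq_of_mul_eq_mul_left (by omega) h3
  obtain ⟨hF, hβH⟩ := restrict_beta hθH (isCharacter_restrict Hh hβc) hψπ hin
    (a := k) (b := t) (c := c) hk hβ1 (by rw [map_one]; exact hc) hdeg
  -- the subgroup `R`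
  set Rh : Subgroup Hh := (R.comap π).subgroupOf Hh with hRh
  have hmemRh : ∀ x : Hh, x ∈ Rh ↔ π x ∈ R := fun x => Iff.rfl
  haveI hRhn : Rh.Normal := by
    constructor
    intro x hx g
    rw [hmemRh] at hx ⊢
    have h1 := hRn (π g) g.2 (π x) hx
    rw [← map_inv, ← map_mul, ← map_mul] at h1
    exact h1
  letI := Fintype.ofFinite Rh
  obtain ⟨β₁, hβ₁, hβ₁ne⟩ := exists_constituent_restrict Rh hβH
  set T := H31.Clifford.inertia Rh β₁ with hT
  letI := Fintype.ofFinite T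
  have hRT : Rh ≤ T := H31.Clifford.le_inertia Rh (isClassFunction_of_isIrr hβ₁)
  obtain ⟨ψT, hψT, -, hψTind, -⟩ :=
    H4.CenterIndex.exists_corr Rh hβH hβ₁ hβ₁ne T hRT (fun g => Iff.rfl)
  set Lh : Subgroup Hh := (K.comap π).subgroupOf Hh with hLh
  haveI hLhn : Lh.Normal := Subgroup.normal_subgroupOf
  have hLR : Lh ≤ Rh := fun x hx => hKR hx
  have hTtop : T = ⊤ := by
    by_contra hTne
    have hsol : Group.IsSolvable (Hh ⧸ Lh) :=
      solv_of_hom (π.comp Hh.subtype) K Lh (fun x hx => hx) hs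
    have hqp : QP Lh (fun y : Hh => θ y) :=
      qp_supplement π hπ M' hβ hβM hθ hθM hχθ K (fun k hk => hM'π k (hKM hk)) hQP Hh hsupΓ
    exact ind_contra IH hkn Lh hsol hθH hk hqp T (hLR.trans hRT) hTne
      (isCharacter_of_isIrr hψT) hψTind (isClassFunction_of_isIrr hψπ)
      (isCharacter_of_isIrr hψπ) hF
  have hinvβ : ∀ (g : Hh) (n : Rh), β₁ ⟨g * n * g⁻¹, hRhn.conj_mem (n : Hh) n.2 g⟩ = β₁ n := by
    intro g n
    have h1 : g ∈ T := by rw [hTtop]; trivial
    exact congrFun h1 n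
  obtain ⟨s, hs0, hs, -⟩ := H19.FullRam.restrict_inv Rh hβH hβ₁ hβ₁ne hinvβ
  have hs0' : (s : ℂ) ≠ 0 := by exact_mod_cast hs0
  obtain ⟨b, hb⟩ := exists_degree (isCharacter_of_isIrr hβ₁)
  have hts : t = s * b := by
    have h1 := congrFun hs 1
    simp only [Pi.smul_apply, smul_eq_mul] at h1
    have h2 : β (((1 : Rh) : Hh) : Γ) = β 1 := rfl
    rw [h2, hβ1, hb] at h1
    exact_mod_cast h1
  have hβK : ∀ z : Γ, π z ∈ K → ‖β z‖ = ‖β 1‖ := by
    intro z hz
    obtain ⟨c, hc, hcz⟩ := hM'π (π z) (hKM hz)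
    have h1 : z * c⁻¹ ∈ π.ker := by
      rw [MonoidHom.mem_ker, map_mul, map_inv, hcz, mul_inv_cancel]
    have h2 : z = (z * c⁻¹) * c := by group
    rw [h2, norm_mul_scalar hβc (hknorm _ h1)]
    have h3 : β c = η (i ⟨c, hc⟩) := hβη ⟨c, hc⟩
    rw [h3, hβ1, ← ht]
    apply hηK
    rw [← hi ⟨c, hc⟩]
    change π c ∈ K
    rw [hcz]; exact hz
  have hb1 : b = 1 := by
    have h1 : b ∣ (Lh.subgroupOf Rh).index := by
      apply H4.CenterIndex.degree_dvd_index_of_norm hβ₁ (Lh.subgroupOf Rh) _ hb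
      intro z hz
      have h2 : π ((z : Hh) : Γ) ∈ K := hz
      have h3 := hβK _ h2
      have h4 := congrFun hs z
      have h5 := congrFun hs 1
      simp only [Pi.smul_apply, smul_eq_mul] at h4 h5
      have h6 : β (((1 : Rh) : Hh) : Γ) = β 1 := rfl
      rw [h4, ← h6, h5, norm_mul, norm_mul] at h3
      exact mul_left_cancel₀ (norm_ne_zero_iff.2 hs0') h3
    have h2 : (Lh.subgroupOf Rh).index ∣ Nat.card Rb := by
      let f : Rh →* Rb := ((mk.comp π).comp (Hh.subtype.comp Rh.subtype)).codRestrict Rb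
        (fun x => x.2)
      have hk : f.ker = Lh.subgroupOf Rh := by
        ext x
        rw [MonoidHom.mem_ker, Subgroup.mem_subgroupOf]
        constructor
        · intro h
          have h3 : mk (π ((x : Hh) : Γ)) = 1 := congrArg Subtype.val h
          exact (hmk1 _).1 h3
        · intro h
          exact Subtype.ext ((hmk1 _).2 h)
      rw [← hk, Subgroup.index_ker]
      exact Subgroup.card_subgroup_dvd_card _
    obtain ⟨j, hj⟩ := IsPGroup.iff_card.1 hRr
    obtain ⟨l, hl⟩ := IsPGroup.iff_card.1 hMq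
    have h3 : b ∣ r ^ j := by
      rw [← hj]; exact h1.trans h2
    have h4 : b ∣ q ^ l := by
      rw [← hl, ← htsq, hts]
      exact (dvd_mul_left b s).trans (dvd_pow_self _ two_ne_zero)
    have h5 : Nat.Coprime (r ^ j) (q ^ l) :=
      Nat.Coprime.pow _ _ ((Nat.coprime_primes hr hq).2 (Ne.symm hqr))
    exact Nat.eq_one_of_dvd_coprimes h5 h3 h4
  -- `β` is scalar on `Rh`
  obtain ⟨y', rfl⟩ := hmks y
  obtain ⟨x, rfl⟩ := hπ y'
  obtain ⟨m₀, rfl⟩ := hmks m
  obtain ⟨c', hc', hcm⟩ := hM'π m₀ hmM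
  have hxR : π x ∈ R := hyR
  have hxH : x ∈ Hh := hRH hxR
  have hxn : ‖β x‖ = ‖β 1‖ := by
    have h4 := congrFun hs (⟨⟨x, hxH⟩, hxR⟩ : Rh)
    have h5 := congrFun hs 1
    simp only [Pi.smul_apply, smul_eq_mul] at h4 h5
    have h6 : β (((1 : Rh) : Hh) : Γ) = β 1 := rfl
    have hβ₁1 : β₁ 1 = 1 := by rw [hb, hb1]; simp
    obtain ⟨f, hf⟩ := H18.CharQuot.exists_hom_of_degree_one (isCharacter_of_isIrr hβ₁) hβ₁1
    have h7 : ‖β₁ ⟨⟨x, hxH⟩, hxR⟩‖ = 1 := by
      rw [hf]
      exact H18.CharBasic.hom_norm_one f _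
    rw [h4, ← h6, h5, norm_mul, norm_mul, h7, hβ₁1, norm_one]
  have hcomm := comm_of_scalar hβc hxn c'
  have hcM : x * c' * x⁻¹ * c'⁻¹ ∈ M' :=
    M'.mul_mem ((inferInstance : M'.Normal).conj_mem c' hc' x) (M'.inv_mem hc')
  have h0 : β (x * c' * x⁻¹ * c'⁻¹) = 0 := by
    have h1 : β (x * c' * x⁻¹ * c'⁻¹) = η (i ⟨_, hcM⟩) := hβη ⟨_, hcM⟩
    rw [h1]
    apply hη0
    rw [← hi ⟨_, hcM⟩]
    change π (x * c' * x⁻¹ * c'⁻¹) ∉ K
    rw [← hmk1, map_mul, map_mul, map_mul, map_inv, map_inv, hcm, map_mul, map_mul, map_mul,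
      map_inv, map_inv]
    intro h2
    apply hym
    have h3 := mul_inv_eq_one.1 h2
    rw [hcm] at h3
    exact mul_inv_eq_iff_eq_mul.1 h3
  rw [h0, hβ1] at hcomm
  have : t = 0 := by exact_mod_cast hcomm.symm
  omega

end H19.Berger
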