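import Cfsg.Agent.Lib.H19.Berger5

/-!
# Quasi-primitive characters of solvable groups are primitive (Berger): the theorem
-/

set_option autoImplicit false
set_option linter.unusedSectionVars false
set_option linter.style.haveILetI false

namespace H19.Berger

open Cfsg H18.CharBasic H18.CharOrtho H18.CharInd H18.CharQuot
open scoped ComplexConjugate

universe u v w

/-- the case of a normal subgroup -/
theorem normal_case {G : Type u} [Group G] [Fintype G] (H : Subgroup G) (hH : H ≠ ⊤)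
    {χ : G → ℂ} (hχ : IsIrrCharacter G χ) (hom : Homog χ H) {ψ : H → ℂ}
    (hψ : IsIrrCharacter H ψ) (hind : indFun H ψ = χ) : False := by
  classical
  letI := Fintype.ofFinite H
  obtain ⟨φ, e, hφ, he⟩ := hom
  have h1 := frobenius' H ψ (isClassFunction_of_isIrr hχ)
  rw [hind, inner_irr_self hχ, he, H18.CharOrtho.inner_smul_left] at h1
  have h2 : φ = ψ := by
    by_contra hne
    rw [inner_irr_ne hφ hψ hne, mul_zero] at h1
    exact one_ne_zero h1
  rw [h2, inner_irr_self hψ, mul_one] at h1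
  have h3 := congrFun he 1
  rw [← h1, one_smul, h2] at h3
  have h4 : χ 1 = H.index * ψ 1 := by rw [← hind, indFun_one]
  have h5 : χ ((1 : H) : G) = χ 1 := rfl
  rw [h5, h4] at h3
  have h6 : (H.index : ℂ) = 1 := by
    have := irr_one_ne_zero hψ
    exact mul_right_cancel₀ this (by rw [h3, one_mul])
  apply hH
  rw [← Subgroup.index_eq_one]
  exact_mod_cast h6

/-- **Berger's theorem** (relative form). -/
theorem berger (n : ℕ) : Statement.{u} n := by
  classical
  induction n using Nat.strong_induction_on with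
  | _ n IH =>
  intro G _ _ L hL hs χ hχ hn hQP H hLH hH ψ hψc hind
  obtain ⟨H1, hH1, hHH1⟩ := (eq_top_or_exists_le_coatom H).resolve_left hH
  letI := Fintype.ofFinite H1
  obtain ⟨ψ1, hψ1c, hψ1ind⟩ : ∃ ψ1 : H1 → ℂ, IsCharacter H1 ψ1 ∧ indFun H1 ψ1 = χ := by
    refine ⟨indFun (H.subgroupOf H1)
      (fun x => ψ ⟨(x : H1), Subgroup.mem_subgroupOf.mp x.2⟩), ?_, ?_⟩
    · apply isCharacter_ind
      exact isCharacter_comp (Subgroup.subgroupOfEquivOfLe hHH1).toMonoidHom hψc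
    · rw [indFun_trans H H1 hHH1, hind]
  have hψ1 : IsIrrCharacter H1 ψ1 := irr_of_ind H1 hψ1c (hψ1ind ▸ hχ)
  obtain ⟨K, hKdef⟩ : ∃ K, K = H1.normalCore := ⟨_, rfl⟩
  haveI hKn : K.Normal := by rw [hKdef]; exact Subgroup.normalCore_normal H1
  have hLK : L ≤ K := by
    rw [hKdef]
    exact Subgroup.normal_le_normalCore.2 (hLH.trans hHH1)
  have hKH : K ≤ H1 := by rw [hKdef]; exact H1.normalCore_le
  have hsK : Group.IsSolvable (G ⧸ K) :=
    solv_of_hom (MonoidHom.id G) L K (fun x hx => hLK hx) hs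
  have hQPK : QP K χ := fun N hN hKN => hQP N hN (hLK.trans hKN)
  obtain ⟨φ, e, hφ, he⟩ := hQPK K hKn le_rfl
  have hφ1 : φ 1 = 1 := stepA IH K hsK hχ hn hQPK H1 hKH hH1.1 hψ1 hψ1ind hφ he
  by_cases hKH1 : K = H1
  · apply normal_case H1 hH1.1 hχ _ hψ1 hψ1ind
    exact hQP H1 (hKH1 ▸ hKn) (hLK.trans hKH)
  · exact stepB IH H1 hH1 K hKdef hKH1 hsK hχ hn hQPK hψ1 hψ1ind hφ he hφ1

/-- Berger's theorem, usable form -/
theorem main {G : Type u} [Group G] [Fintype G] (L : Subgroup G) [L.Normal]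
    (hs : Group.IsSolvable (G ⧸ L)) {χ : G → ℂ} (hχ : IsIrrCharacter G χ)
    (hQP : ∀ N : Subgroup G, N.Normal → L ≤ N → ∃ (φ : N → ℂ) (e : ℕ), IsIrrCharacter N φ ∧
      (fun x : N => χ x) = (e : ℂ) • φ) (H : Subgroup G) (hLH : L ≤ H) (hH : H ≠ ⊤) (ψ : H → ℂ)
    (hψ : IsCharacter H ψ) : indFun H ψ ≠ χ := by
  obtain ⟨n, hn⟩ := exists_degree (isCharacter_of_isIrr hχ)
  exact berger n G L hs χ hχ hn hQP H hLH hH ψ hψ

end H19.Berger
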