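import Cfsg.Agent.Lib.H19.Cover

/-!
# Blocks and characters of normal `p'`-subgroups
-/

set_option autoImplicit false
set_option linter.unusedSectionVars false
set_option linter.unusedVariables false
set_option linter.style.haveILetI false
open Cfsg H20.Loc H20.GA H20.Blk H20.DefGrp H20.Orth H19.Second H19.Second3 H19.Cover
open H18.CharQuot
open scoped ComplexConjugate

namespace H19.Cover2

universe u

variable {G : Type u} [Group G]

theorem conjFunN_conjFunN (N : Subgroup G) [hN : N.Normal] (g h : G) (θ : N → ℂ) :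
    conjFunN N g (conjFunN N h θ) = conjFunN N (h * g) θ := by
  funext n
  simp only [conjFunN]
  congr 1
  apply Subtype.ext
  simp [mul_assoc]

theorem conjFunN_one (N : Subgroup G) [hN : N.Normal] (θ : N → ℂ) : conjFunN N 1 θ = θ := by
  funext n
  simp [conjFunN]

/-- conjugation on the irreducible characters of a normal subgroup -/
def conjIrr (N : Subgroup G) [hN : N.Normal] (g : G) : IrrCharacter N ≃ IrrCharacter N where
  toFun θ := ⟨conjFunN N g θ, isIrrCharacter_conjN N g θ.2⟩
  invFun θ := ⟨conjFunN N g⁻¹ θ, isIrrCharacter_conjN N g⁻¹ θ.2⟩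
  left_inv θ := by
    apply Subtype.ext
    change conjFunN N g⁻¹ (conjFunN N g θ) = θ
    rw [conjFunN_conjFunN, mul_inv_cancel, conjFunN_one]
  right_inv θ := by
    apply Subtype.ext
    change conjFunN N g (conjFunN N g⁻¹ θ) = θ
    rw [conjFunN_conjFunN, inv_mul_cancel, conjFunN_one]

theorem conjIrr_apply (N : Subgroup G) [hN : N.Normal] (g : G) (θ : IrrCharacter N) (n : N) :
    (conjIrr N g θ : N → ℂ) n = (θ : N → ℂ) ⟨g * n * g⁻¹, hN.conj_mem n n.2 g⟩ := rfl

/-- `S` is stable under conjugation -/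
def Stable (N : Subgroup G) [hN : N.Normal] (S : Set (IrrCharacter N)) : Prop :=
  ∀ g : G, ∀ θ : IrrCharacter N, θ ∈ S → conjIrr N g θ ∈ S

theorem Stable.iff {N : Subgroup G} [hN : N.Normal] {S : Set (IrrCharacter N)} (hS : Stable N S)
    (g : G) (θ : IrrCharacter N) : conjIrr N g θ ∈ S ↔ θ ∈ S := by
  constructor
  · intro h
    have h1 := hS g⁻¹ _ h
    have h2 : conjIrr N g⁻¹ (conjIrr N g θ) = θ := by
      apply Subtype.ext
      change conjFunN N g⁻¹ (conjFunN N g θ) = θ
      rw [conjFunN_conjFunN, mul_inv_cancel, conjFunN_one]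
    rwa [h2] at h1
  · exact hS g θ

def orbitSet (N : Subgroup G) [hN : N.Normal] (θ : IrrCharacter N) : Set (IrrCharacter N) :=
  {θ' | ∃ g : G, θ' = conjIrr N g θ}

theorem self_mem_orbitSet (N : Subgroup G) [hN : N.Normal] (θ : IrrCharacter N) :
    θ ∈ orbitSet N θ := ⟨1, by apply Subtype.ext; exact (conjFunN_one N _).symm⟩

theorem stable_orbitSet (N : Subgroup G) [hN : N.Normal] (θ : IrrCharacter N) :
    Stable N (orbitSet N θ) := by
  rintro g _ ⟨h, rfl⟩
  refine ⟨h * g, ?_⟩
  apply Subtype.ext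
  exact conjFunN_conjFunN N g h θ

variable [Finite G]

theorem blockCoeff_conj (N : Subgroup G) [hN : N.Normal] {S : Set (IrrCharacter N)}
    (hS : Stable N S) (g : G) (n : N) :
    blockCoeff S ⟨g * n * g⁻¹, hN.conj_mem n n.2 g⟩ = blockCoeff S n := by
  classical
  letI := Fintype.ofFinite (IrrCharacter N)
  rw [blockCoeff_eq_sum, blockCoeff_eq_sum]
  congr 1
  rw [← Equiv.sum_comp (conjIrr N g) (fun χ => if χ ∈ S then (χ : N → ℂ) 1 * conj ((χ : N → ℂ) n) else 0)]
  refine Finset.sum_congr rfl fun χ _ => ?_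
  rw [if_congr (hS.iff g χ) rfl rfl]
  have h1 : (conjIrr N g χ : N → ℂ) 1 = (χ : N → ℂ) 1 := by
    rw [conjIrr_apply]
    exact congrArg (χ : N → ℂ) (Subtype.ext (by simp))
  rw [h1, conjIrr_apply]

open Classical in
/-- The idempotent of a `G`-stable set of characters of `N`, as a central element of `ℂG`. -/
noncomputable def fS (N : Subgroup G) [hN : N.Normal] (S : Set (IrrCharacter N))
    (hS : Stable N S) : ZG G :=
  zof (fun g => if hg : g ∈ N then blockCoeff S ⟨g, hg⟩ else 0) (by
    intro g h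
    by_cases hg : g ∈ N
    · have h1 : h * g * h⁻¹ ∈ N := hN.conj_mem g hg h
      simp only
      rw [dif_pos h1, dif_pos hg]
      exact blockCoeff_conj N hS h ⟨g, hg⟩
    · have h1 : h * g * h⁻¹ ∉ N := by
        intro h2
        apply hg
        have := hN.conj_mem _ h2 h⁻¹
        simpa [mul_assoc] using this
      simp only
      rw [dif_neg h1, dif_neg hg])

theorem zc_fS_mem (N : Subgroup G) [hN : N.Normal] {S : Set (IrrCharacter N)}
    (hS : Stable N S) {g : G} (hg : g ∈ N) : zc (fS N S hS) g = blockCoeff S ⟨g, hg⟩ := dif_pos hg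

theorem zc_fS_notMem (N : Subgroup G) [hN : N.Normal] {S : Set (IrrCharacter N)}
    (hS : Stable N S) {g : G} (hg : g ∉ N) : zc (fS N S hS) g = 0 := dif_neg hg

theorem trunc_fS (N : Subgroup G) [hN : N.Normal] {S : Set (IrrCharacter N)} (hS : Stable N S) :
    trunc N (fS N S hS) = eB S := by
  apply zG_ext
  intro n
  rw [zc_trunc, zc_fS_mem N hS n.2, zc_eB]

theorem blockCoeff_memR_of_not_dvd {p : ℕ} {M : Ideal AlgInt} (hM : IsPModular p M)
    {H : Type u} [Group H] [Finite H] (hH : ¬ p ∣ Nat.card H) (S : Set (IrrCharacter H)) (h : H) :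
    MemLocalRing M (blockCoeff S h) := by
  classical
  haveI := pm_isPrime hM
  letI := Fintype.ofFinite (IrrCharacter H)
  rw [blockCoeff_eq_sum]
  refine locR_mul (locR_natCast_inv hM hH) (locR_sum fun χ _ => ?_)
  split_ifs
  · have h1 : IsIntegral ℤ ((χ : H → ℂ) 1) :=
      H18.CharBasic.char_isIntegral (H18.CharBasic.isCharacter_of_isIrr χ.2) 1
    have h2 : IsIntegral ℤ (conj ((χ : H → ℂ) h)) :=
      H18.CharBasic.char_isIntegral (H18.CharBasic.isCharacter_conj
        (H18.CharBasic.isCharacter_of_isIrr χ.2)) h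
    exact locR_mul (isIntegral_mem h1) (isIntegral_mem h2)
  · exact locR_zero

theorem fS_mem {p : ℕ} {M : Ideal AlgInt} (hM : IsPModular p M) [M.IsPrime] (N : Subgroup G)
    [hN : N.Normal] (hp : ¬ p ∣ Nat.card N) {S : Set (IrrCharacter N)} (hS : Stable N S) :
    fS N S hS ∈ zr M G := by
  intro g
  by_cases hg : g ∈ N
  · rw [zc_fS_mem N hS hg]; exact blockCoeff_memR_of_not_dvd hM hp S _
  · rw [zc_fS_notMem N hS hg]; exact locR_zero

open Classical in
theorem omega_fS [Fintype G] (N : Subgroup G) [hN : N.Normal] [Fintype N] {S : Set (IrrCharacter N)}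
    (hS : Stable N S)
    (χ : IrrCharacter G) (θ : IrrCharacter N)
    (h : classInner (fun n : N => (χ : G → ℂ) n) (θ : N → ℂ) ≠ 0) :
    omega χ (fS N S hS) = if θ ∈ S then 1 else 0 := by
  rw [omega_eq_of_over N χ θ h _ (fun g hg => zc_fS_notMem N hS hg), trunc_fS, omega_eB]

theorem inner_conjIrr [Fintype G] (N : Subgroup G) [hN : N.Normal] [Fintype N] (χ : IrrCharacter G)
    (θ : IrrCharacter N) (g : G) :
    classInner (fun n : N => (χ : G → ℂ) n) (conjIrr N g θ : N → ℂ) =
      classInner (fun n : N => (χ : G → ℂ) n) (θ : N → ℂ) := by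
  rw [← classInner_mulEquiv (MulAut.conjNormal g : N ≃* N) (fun n : N => (χ : G → ℂ) n) (θ : N → ℂ)]
  congr 1
  · funext n
    rw [MulAut.conjNormal_apply]
    exact (H18.CharBasic.isClassFunction_of_isIrr χ.2 (n : G) g).symm

/-- Characters in the same block lie over the same characters of a normal `p'`-subgroup. -/
theorem over_of_sameBlock {p : ℕ} {M : Ideal AlgInt} (hM : IsPModular p M) [Fintype G]
    (N : Subgroup G) [hN : N.Normal] [Fintype N] (hp : ¬ p ∣ Nat.card N) {χ ψ : IrrCharacter G}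
    (h : SameBlock M (χ : G → ℂ) (ψ : G → ℂ)) (θ : IrrCharacter N)
    (hχ : classInner (fun n : N => (χ : G → ℂ) n) (θ : N → ℂ) ≠ 0) :
    classInner (fun n : N => (ψ : G → ℂ) n) (θ : N → ℂ) ≠ 0 := by
  classical
  haveI := pm_isPrime hM
  intro h0
  obtain ⟨η, hη, hne⟩ := exists_constituent_restrict N ψ.2
  have hS := stable_orbitSet N θ
  have h1 := omega_fS N hS χ θ hχ
  rw [if_pos (self_mem_orbitSet N θ)] at h1
  have h2 := omega_fS N hS ψ ⟨η, hη⟩ hne
  rw [if_neg] at h2
  · have h3 := sameBlock_iff.1 h _ (fS_mem hM N hp hS)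
    rw [h1, h2, sub_zero] at h3
    exact not_locI_one h3
  · rintro ⟨g, hg⟩
    have h4 : η = (conjIrr N g θ : N → ℂ) := congrArg Subtype.val hg
    rw [h4, inner_conjIrr] at hne
    exact hne h0

end H19.Cover2
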