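import Mathlib
import Cfsg.Prelude.Def_FischerSpaces
import Cfsg.Agent.Lib.H92.M22
import Cfsg.Agent.Lib.H92.TypeNum
import Cfsg.Agent.Lib.H92.Uniq
import Cfsg.Agent.Lib.H92.Simple

/-!
Central extensions by a group of order two of groups of 3-transpositions: lifts of commuting members commute, lifts of members
are involutions.
-/

set_option autoImplicit false
set_option linter.unusedSectionVars false
set_option linter.style.haveILetI false
set_option linter.unusedVariables false
open Cfsg

namespace H19.DCovA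
open H92.Tri H92.Lev H92.RelList H92.Geo H92.ULift

section abs
variable {C Q : Type*} [Group C] [Group Q] (π : C →* Q) (z : C)

theorem comm_or (hk : ∀ c, π c = 1 → c = 1 ∨ c = z) {x y : C} (h : Commute (π x) (π y)) : Commute x y ∨ x * y = y * x * z := by
  apply lift_eq π z hk
  rw [map_mul, map_mul]
  exact h

theorem anti_list (hz : ∀ c, c * z = z * c) (x : C) (L : List C) (h : ∀ y ∈ L, x * y = y * x * z) :
    x * L.prod = L.prod * x * z ^ L.length := by
  induction L with
  | nil => simp
  | cons a L ih =>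
    rw [List.prod_cons, List.length_cons, pow_succ']
    have h1 := h a (by simp)
    have h2 := ih (fun y hy => h y (by simp [hy]))
    calc x * (a * L.prod) = (x * a) * L.prod := by group
      _ = a * x * (z * L.prod) := by rw [h1]; group
      _ = a * (x * L.prod) * z := by rw [← hz]; group
      _ = a * (L.prod * x * z ^ L.length) * z := by rw [h2]
      _ = a * L.prod * x * (z ^ L.length * z) := by group
      _ = a * L.prod * x * (z * z ^ L.length) := by rw [hz]

theorem pow_odd (hz2 : z * z = 1) {k : ℕ} (hk : Odd k) : z ^ k = z := by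
  obtain ⟨m, rfl⟩ := hk
  rw [pow_succ, pow_mul, pow_two, hz2, one_pow, one_mul]

theorem exists_lifts (hs : Function.Surjective π) : ∀ l : List Q, ∃ L : List C, L.map π = l
  | [] => ⟨[], rfl⟩
  | a :: l => by
    obtain ⟨L, hL⟩ := exists_lifts hs l
    obtain ⟨x, hx⟩ := hs a
    exact ⟨x :: L, by simp [hL, hx]⟩

/-- lifts of commuting members commute -/
theorem comm_all (hs : Function.Surjective π) (hz : ∀ c, c * z = z * c) (hz2 : z * z = 1) (hk : ∀ c, π c = 1 → c = 1 ∨ c = z)
    {E : Set Q} (htr : ∀ a ∈ E, ∀ b ∈ E, ∀ a' ∈ E, ∀ b' ∈ E, a ≠ b → a' ≠ b' → Commute a b → Commute a' b' →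
      ∃ q : Q, q * a * q⁻¹ = a' ∧ q * b * q⁻¹ = b')
    (a : Q) (l : List Q) (hnd : (a :: l).Nodup) (hE : ∀ x ∈ a :: l, x ∈ E) (hc : ∀ x ∈ a :: l, ∀ y ∈ a :: l, Commute x y)
    (hodd : Odd l.length) (hp : (a :: l).prod = 1) :
    ∀ x y, π x ∈ E → π y ∈ E → Commute (π x) (π y) → Commute x y := by
  intro x y hx hy hxy
  by_contra hno
  have hne : π x ≠ π y := by
    intro he
    apply hno
    rcases lift_eq π z hk he with h1 | h1
    · rw [h1]
    · rw [h1]
      show y * z * y = y * (y * z)
      rw [mul_assoc, ← hz y]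
  -- no lifts of distinct commuting members commute
  have hall : ∀ u v, π u ∈ E → π v ∈ E → π u ≠ π v → Commute (π u) (π v) → u * v = v * u * z := by
    intro u v hu hv huv hcuv
    rcases comm_or π z hk hcuv with h1 | h1
    · exfalso
      obtain ⟨q, hq1, hq2⟩ := htr _ hu _ hv _ hx _ hy huv hne hcuv hxy
      obtain ⟨c, rfl⟩ := hs q
      have e1 : π (c * u * c⁻¹) = π x := by rw [map_mul, map_mul, map_inv, hq1]
      have e2 : π (c * v * c⁻¹) = π y := by rw [map_mul, map_mul, map_inv, hq2]
      have h2 : Commute (c * u * c⁻¹) (c * v * c⁻¹) := by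
        show c * u * c⁻¹ * (c * v * c⁻¹) = c * v * c⁻¹ * (c * u * c⁻¹)
        calc c * u * c⁻¹ * (c * v * c⁻¹) = c * (u * v) * c⁻¹ := by group
          _ = c * (v * u) * c⁻¹ := by rw [h1.eq]
          _ = _ := by group
      have h3 := comm_indep π z hz hk e1 e2
      apply hno
      have h4 : c * u * c⁻¹ * (c * v * c⁻¹) * (c * u * c⁻¹)⁻¹ * (c * v * c⁻¹)⁻¹ = 1 := by
        rw [h2.eq]; group
      rw [h4] at h3
      show x * y = y * x
      calc x * y = (x * y * x⁻¹ * y⁻¹) * y * x := by group
        _ = y * x := by rw [← h3, one_mul]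
    · exact h1
  obtain ⟨L, hL⟩ := exists_lifts π hs (a :: l)
  match L, hL with
  | u :: L, hL =>
    rw [List.map_cons, List.cons.injEq] at hL
    obtain ⟨hu, hL⟩ := hL
    have h1 : ∀ v ∈ L, u * v = v * u * z := by
      intro v hv
      have hv' : π v ∈ l := by rw [← hL]; exact List.mem_map_of_mem hv
      apply hall
      · rw [hu]; exact hE a (by simp)
      · exact hE _ (by simp [hv'])
      · rw [hu]
        intro he
        rw [← he] at hv'
        exact (List.nodup_cons.1 hnd).1 hv'
      · rw [hu]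
        exact hc a (by simp) _ (by simp [hv'])
    have h2 := anti_list z hz u L h1
    have h3 : L.length = l.length := by rw [← hL, List.length_map]
    rw [h3, pow_odd z hz2 hodd] at h2
    have h4 : π (u * L.prod) = 1 := by
      rw [map_mul, map_list_prod, hL, hu, ← List.prod_cons, hp]
    have h5 : Commute u (u * L.prod) := by
      rcases hk _ h4 with h6 | h6
      · rw [h6]; exact Commute.one_right u
      · rw [h6]; exact hz u
    have h6 : u * L.prod = L.prod * u := by
      have h7 : u * (u * L.prod) = u * L.prod * u := h5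
      rw [mul_assoc u L.prod u] at h7
      exact mul_left_cancel h7
    rw [h6] at h2
    have h7 : z = 1 := by
      have : L.prod * u * 1 = L.prod * u * z := by rw [mul_one]; exact h2
      exact (mul_left_cancel this).symm
    apply hno
    rcases comm_or π z hk hxy with h8 | h8
    · exact h8
    · rw [h7, mul_one] at h8; exact h8

/-- lifts of members are involutions -/
theorem sq_all (hs : Function.Surjective π) (hz : ∀ c, c * z = z * c) (hz2 : z * z = 1) (hk : ∀ c, π c = 1 → c = 1 ∨ c = z)
    {E : Set Q} (hsq : ∀ a ∈ E, a * a = 1) (htr : ∀ a ∈ E, ∀ b ∈ E, ∃ q : Q, q * a * q⁻¹ = b)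
    (hcomm : ∀ x y, π x ∈ E → π y ∈ E → Commute (π x) (π y) → Commute x y)
    (l : List Q) (hE : ∀ x ∈ l, x ∈ E) (hc : ∀ x ∈ l, ∀ y ∈ l, Commute x y) (hodd : Odd l.length) (hp : l.prod = 1) :
    ∀ x, π x ∈ E → x * x = 1 := by
  intro x hx
  have hz1 : ∀ u, π u ∈ E → u * u = 1 ∨ u * u = z := by
    intro u hu
    apply hk
    rw [map_mul]; exact hsq _ hu
  rcases hz1 x hx with h1 | h1
  · exact h1
  -- all squares are equal to `z`
  have hall : ∀ u, π u ∈ E → u * u = z := by
    intro u hu
    obtain ⟨q, hq⟩ := htr _ hx _ hu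
    obtain ⟨c, rfl⟩ := hs q
    have e1 : π u = π (c * x * c⁻¹) := by rw [map_mul, map_mul, map_inv, hq]
    have e2 : (c * x * c⁻¹) * (c * x * c⁻¹) = z := by
      calc (c * x * c⁻¹) * (c * x * c⁻¹) = c * (x * x) * c⁻¹ := by group
        _ = z := by rw [h1, hz, mul_assoc, mul_inv_cancel, mul_one]
    rcases lift_eq π z hk e1 with h2 | h2
    · rw [h2]; exact e2
    · rw [h2]
      calc c * x * c⁻¹ * z * (c * x * c⁻¹ * z) = c * x * c⁻¹ * (z * (c * x * c⁻¹)) * z := by group
        _ = c * x * c⁻¹ * ((c * x * c⁻¹) * z) * z := by rw [← hz (c * x * c⁻¹)]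
        _ = ((c * x * c⁻¹) * (c * x * c⁻¹)) * (z * z) := by group
        _ = z := by rw [e2, hz2, mul_one]
  obtain ⟨L, hL⟩ := exists_lifts π hs l
  have key : ∀ L : List C, (∀ u ∈ L, π u ∈ E) → (∀ u ∈ L, ∀ v ∈ L, Commute (π u) (π v)) → L.prod * L.prod = z ^ L.length := by
    intro L
    induction L with
    | nil => intro _ _; simp
    | cons a L ih =>
      intro h3 h4
      have ih' := ih (fun u hu => h3 u (by simp [hu])) (fun u hu v hv => h4 u (by simp [hu]) v (by simp [hv]))
      have h5 : Commute a L.prod := Commute.list_prod_right _ _ (fun y hy =>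
        hcomm a y (h3 a (by simp)) (h3 y (by simp [hy])) (h4 a (by simp) y (by simp [hy])))
      rw [List.prod_cons, List.length_cons, pow_succ']
      calc a * L.prod * (a * L.prod) = a * (L.prod * a) * L.prod := by group
        _ = a * (a * L.prod) * L.prod := by rw [h5.eq]
        _ = (a * a) * (L.prod * L.prod) := by group
        _ = _ := by rw [hall a (h3 a (by simp)), ih']
  have hmem : ∀ u ∈ L, π u ∈ l := by
    intro u hu
    rw [← hL]; exact List.mem_map_of_mem hu
  have h6 := key L (fun u hu => hE _ (hmem u hu)) (fun u hu v hv => hc _ (hmem u hu) _ (hmem v hv))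
  have h7 : L.length = l.length := by rw [← hL, List.length_map]
  rw [h7, pow_odd z hz2 hodd] at h6
  have h8 : L.prod * L.prod = 1 := by
    have h9 : π L.prod = 1 := by rw [map_list_prod, hL, hp]
    rcases hk _ h9 with h10 | h10
    · rw [h10, one_mul]
    · rw [h10, hz2]
  rw [h1, ← h6, h8]

end abs

section one
variable {C Q : Type*} [Group C] [Group Q] [Finite Q] (π : C →* Q) (z : C)
  {E : Set Q} (h : LG 1 E) (hE : E.ncard = 3510) (hcl : Subgroup.closure E = ⊤) (hZ : Subgroup.center Q = ⊥)
include h hcl hZ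

omit [Finite Q] h in
theorem prod_one_of_rel {l : List Q} (hl : Rel E l) : l.prod = 1 :=
  H92.QS.central_one hcl hZ _ (fun y hy => hl.cent y hy)

omit [Finite Q] in
theorem comm_lifts (hs : Function.Surjective π) (hz : ∀ c, c * z = z * c) (hz2 : z * z = 1) (hk : ∀ c, π c = 1 → c = 1 ∨ c = z) :
    ∀ x y, π x ∈ E → π y ∈ E → Commute (π x) (π y) → Commute x y := by
  obtain ⟨A, hA1, hA2, hA3, hA4⟩ := H92.QS.exists_list h.lev
  obtain ⟨l, hl, hlen, _, _⟩ := block h A hA1 hA2 hA3 hA4
  match l, hlen, hl with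
  | a :: l, hlen, hl =>
    refine comm_all π z hs hz hz2 hk ?_ a l hl.nodup hl.mem hl.comm ?_ (prod_one_of_rel hcl hZ hl)
    · intro u hu v hv u' hu' v' hv' huv huv' hc hc'
      obtain ⟨g, _, hg⟩ := H92.Uniq.trans_list2 h.lev [u, v] [u', v'] rfl (by simp) (by simpa using huv) (by simpa using huv')
        (by simp [hu, hv]) (by simp [hu', hv'])
        (by intro x hx y hy; simp at hx hy; rcases hx with rfl | rfl <;> rcases hy with rfl | rfl
            exacts [Commute.refl _, hc, hc.symm, Commute.refl _])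
        (by intro x hx y hy; simp at hx hy; rcases hx with rfl | rfl <;> rcases hy with rfl | rfl
            exacts [Commute.refl _, hc', hc'.symm, Commute.refl _])
      simp only [List.map_cons, List.map_nil, List.cons.injEq, and_true] at hg
      exact ⟨g, hg.1, hg.2⟩
    · rw [List.length_cons] at hlen
      exact ⟨2, by omega⟩

omit [Finite Q] in
theorem sq_lifts (hs : Function.Surjective π) (hz : ∀ c, c * z = z * c) (hz2 : z * z = 1) (hk : ∀ c, π c = 1 → c = 1 ∨ c = z) :
    ∀ x, π x ∈ E → x * x = 1 := by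
  obtain ⟨b, hb⟩ := h.lev.nonempty
  obtain ⟨l, hl, hlen⟩ := H92.Simple.hept h hb
  refine sq_all π z hs hz hz2 hk h.lev.tri.sq ?_ (comm_lifts π z h hcl hZ hs hz hz2 hk) (b :: l) hl.mem hl.comm ?_ (prod_one_of_rel hcl hZ hl)
  · intro a ha c hc
    obtain ⟨g, _, hg⟩ := h.lev.trans ha hc
    exact ⟨g, hg⟩
  · rw [List.length_cons, hlen]; exact ⟨3, rfl⟩

include hE
/-- elements over involutions are involutions -/
theorem lift_inv (hs : Function.Surjective π) (hz : ∀ c, c * z = z * c) (hz2 : z * z = 1) (hk : ∀ c, π c = 1 → c = 1 ∨ c = z)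
    {y : C} (hy : π y * π y = 1) : y * y = 1 := by
  obtain ⟨l, l1, l2, l3, l4, l5⟩ := H92.M22.inv_one h hE hcl hZ hy
  obtain ⟨L, hL⟩ := exists_lifts π hs l
  have hmem : ∀ u ∈ L, π u ∈ l := by
    intro u hu
    rw [← hL]; exact List.mem_map_of_mem hu
  have h1 : L.prod * L.prod = 1 := by
    apply list_prod_sq
    · intro u hu
      exact sq_lifts π z h hcl hZ hs hz hz2 hk u (l3 _ (hmem u hu))
    · intro u hu v hv
      exact comm_lifts π z h hcl hZ hs hz hz2 hk u v (l3 _ (hmem u hu)) (l3 _ (hmem v hv)) (l4 _ (hmem u hu) _ (hmem v hv))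
  have h2 : π y = π L.prod := by rw [map_list_prod, hL, l5]
  rcases lift_eq π z hk h2 with h3 | h3
  · rw [h3, h1]
  · rw [h3]
    calc L.prod * z * (L.prod * z) = L.prod * (z * L.prod) * z := by group
      _ = L.prod * (L.prod * z) * z := by rw [← hz L.prod]
      _ = (L.prod * L.prod) * (z * z) := by group
      _ = 1 := by rw [h1, hz2, mul_one]

end one

end H19.DCovA
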