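import Cfsg.Agent.Lib.H84.KO1
import Cfsg.Agent.Lib.H20.PSHeight
import Cfsg.Agent.Lib.H82.IsNav2
import Cfsg.Agent.Lib.H19.ProjExt3

/-!
# Harada's conjecture for `p`-solvable groups: splitting over a normal `p'`-subgroup
-/

set_option autoImplicit false
set_option linter.unusedSectionVars false
set_option linter.unusedVariables false
set_option linter.style.haveILetI false

namespace H19.Harada

open Cfsg H18 H18.CharBasic H18.CharOrtho H18.CharInd H18.CharQuot H31.Clifford
open H77.Cov1 H77.CovFR H77.CovFR2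
open scoped ComplexConjugate

universe u

variable {G : Type u} [Group G] [Finite G]

/-- cosets of a normal `p'`-subgroup are uniformly `p`-singular -/
theorem dvd_orderOf_mul (N : Subgroup G) [N.Normal] {p : ℕ} (hp : p.Prime)
    (hpN : ¬ p ∣ Nat.card N) {g n : G} (hg : p ∣ orderOf g) (hn : n ∈ N) :
    p ∣ orderOf (g * n) := by
  have h1 : orderOf g ∣ orderOf (QuotientGroup.mk' N g) * Nat.card N := by
    apply orderOf_dvd_of_pow_eq_one
    rw [pow_mul]
    have h2 : g ^ orderOf (QuotientGroup.mk' N g) ∈ N := by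
      rw [← QuotientGroup.eq_one_iff]
      show QuotientGroup.mk' N (g ^ orderOf (QuotientGroup.mk' N g)) = 1
      rw [map_pow, pow_orderOf_eq_one]
    have h3 : (⟨_, h2⟩ : N) ^ Nat.card N = 1 := pow_card_eq_one'
    exact congrArg Subtype.val h3
  have h2 : p ∣ orderOf (QuotientGroup.mk' N g) :=
    (hp.dvd_mul.1 (hg.trans h1)).resolve_right hpN
  have h3 : QuotientGroup.mk' N g = QuotientGroup.mk' N (g * n) := by
    rw [map_mul]
    have : QuotientGroup.mk' N n = 1 := (QuotientGroup.eq_one_iff _).2 hn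
    rw [this, mul_one]
  rw [h3] at h2
  exact h2.trans (orderOf_map_dvd _ _)

theorem coset_orth (N : Subgroup G) [Fintype N] {χ ψ : G → ℂ} (hχ : IsCharacter G χ)
    (hψ : IsCharacter G ψ) (h : classInner (fun n : N => χ n) (fun n : N => ψ n) = 0) (g : G) :
    ∑ n : N, χ (g * n) * conj (ψ (g * n)) = 0 := by
  have hN : (Nat.card N : ℂ) ≠ 0 := by exact_mod_cast (Nat.card_pos (α := N)).ne'
  refine H84.KO.sum_coset_zero (κ := χ * fun g => conj (ψ g))
    (isCharacter_mul hχ (isCharacter_conj hψ)) N ?_ g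
  unfold classInner at h
  exact (mul_eq_zero.1 h).resolve_left (inv_ne_zero hN)

/-- Splitting off an `N`-orthogonal part. -/
theorem split_zero (N : Subgroup G) [N.Normal] [Fintype N] {p : ℕ} (hp : p.Prime)
    (hpN : ¬ p ∣ Nat.card N) {ι κ : Type*} (s : Finset ι) (t : Finset κ) (a : ι → ℂ) (b : κ → ℂ)
    (χ : ι → G → ℂ) (ψ : κ → G → ℂ) (hχ : ∀ i ∈ s, IsCharacter G (χ i))
    (hψ : ∀ j ∈ t, IsCharacter G (ψ j))
    (horth : ∀ i ∈ s, ∀ j ∈ t, classInner (fun n : N => χ i n) (fun n : N => ψ j n) = 0)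
    (hvan : ∀ x, p ∣ orderOf x → ∑ i ∈ s, a i * χ i x + ∑ j ∈ t, b j * ψ j x = 0) :
    ∀ x, p ∣ orderOf x → ∑ i ∈ s, a i * χ i x = 0 := by
  intro g hg
  have h1 : ∑ n : N, (∑ i ∈ s, a i * χ i (g * n)) * conj (∑ j ∈ t, b j * ψ j (g * n)) = 0 := by
    have h2 : ∀ n : N, (∑ i ∈ s, a i * χ i (g * n)) * conj (∑ j ∈ t, b j * ψ j (g * n)) =
        ∑ i ∈ s, ∑ j ∈ t, a i * conj (b j) * (χ i (g * n) * conj (ψ j (g * n))) := by
      intro n
      rw [map_sum, Finset.sum_mul_sum]
      refine Finset.sum_congr rfl fun i _ => Finset.sum_congr rfl fun j _ => ?_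
      rw [map_mul]; ring
    rw [Finset.sum_congr rfl fun n _ => h2 n, Finset.sum_comm]
    refine Finset.sum_eq_zero fun i hi => ?_
    rw [Finset.sum_comm]
    refine Finset.sum_eq_zero fun j hj => ?_
    rw [← Finset.mul_sum, coset_orth N (hχ i hi) (hψ j hj) (horth i hi j hj), mul_zero]
  have h2 : ∀ n : N, ∑ j ∈ t, b j * ψ j (g * n) = -∑ i ∈ s, a i * χ i (g * n) := by
    intro n
    have := hvan (g * n) (dvd_orderOf_mul N hp hpN hg n.2)
    linear_combination this
  have h3 : ∑ n : N, ‖∑ i ∈ s, a i * χ i (g * n)‖ ^ 2 = 0 := by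
    have h4 : ∀ n : N, (∑ i ∈ s, a i * χ i (g * n)) * conj (∑ j ∈ t, b j * ψ j (g * n)) =
        ((-(‖∑ i ∈ s, a i * χ i (g * n)‖ ^ 2 : ℝ) : ℝ) : ℂ) := by
      intro n
      rw [h2 n, map_neg, mul_neg, Complex.mul_conj, Complex.normSq_eq_norm_sq]
      push_cast
      ring
    rw [Finset.sum_congr rfl fun n _ => h4 n] at h1
    rw [← Complex.ofReal_sum] at h1
    have h5 := Complex.ofReal_eq_zero.1 h1
    rw [Finset.sum_neg_distrib, neg_eq_zero] at h5
    exact h5
  have h4 := (Finset.sum_eq_zero_iff_of_nonneg (fun n _ => by positivity)).1 h3 1 (Finset.mem_univ _)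
  simpa using h4

/-- two irreducible characters, one over `θ` and one not, are `N`-orthogonal -/
theorem over_orth (N : Subgroup G) [hN : N.Normal] [Fintype N] {χ ψ : G → ℂ}
    (hχ : IsIrrCharacter G χ) (hψ : IsIrrCharacter G ψ) {θ : N → ℂ} (hθ : IsIrrCharacter N θ)
    (h1 : classInner (fun n : N => χ n) θ ≠ 0) (h2 : classInner (fun n : N => ψ n) θ = 0) :
    classInner (fun n : N => χ n) (fun n : N => ψ n) = 0 := by
  classical
  letI := Fintype.ofFinite G
  by_contra hne
  obtain ⟨φ, h3, h4⟩ := exists_common (isCharacter_restrict N (isCharacter_of_isIrr hχ)) hne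
  obtain ⟨g, hg⟩ := constituents_conj N hχ hθ φ.2 h1 h3
  rw [hg, inner_restrict_cj N g (isClassFunction_of_isIrr hψ)] at h4
  exact h4 h2

end H19.Harada
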