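import Cfsg.Agent.Lib.H19.Harada1

/-!
# Harada's conjecture for `p`-solvable groups: extensions
-/

set_option autoImplicit false
set_option linter.unusedSectionVars false
set_option linter.unusedVariables false
set_option linter.style.haveILetI false

namespace H19.Harada

open Cfsg H18 H18.CharBasic H18.CharOrtho H18.CharInd H18.CharQuot H31.Clifford
open H77.Cov1 H77.CovFR H77.CovFR2
open scoped ComplexConjugate

universe u

variable {G : Type u} [Group G] [Finite G]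

/-- the canonical extension of an invariant character of a normal `p'`-subgroup to a normal
subgroup of `p`-power index is invariant -/
theorem exists_can (N L : Subgroup G) [hN : N.Normal] [hL : L.Normal] (hNL : N ≤ L) {p : ℕ}
    [hp : Fact p.Prime] (hpN : ¬ p ∣ Nat.card N) (hpL : ∀ l ∈ L, ∃ k : ℕ, l ^ p ^ k ∈ N)
    {θ : N → ℂ} (hθ : IsIrrCharacter N θ)
    (hinv : ∀ (g : G) (n : N), θ ⟨g * n * g⁻¹, hN.conj_mem n n.2 g⟩ = θ n) :
    ∃ τ : L → ℂ, IsIrrCharacter L τ ∧ (∀ n : N, τ ⟨n, hNL n.2⟩ = θ n) ∧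
      ∀ (g : G) (l : L), τ ⟨g * l * g⁻¹, hL.conj_mem l l.2 g⟩ = τ l := by
  classical
  letI := Fintype.ofFinite G
  have hpg : IsPGroup p (L ⧸ N.subgroupOf L) := by
    intro q
    obtain ⟨l, rfl⟩ := QuotientGroup.mk_surjective q
    obtain ⟨k, hk⟩ := hpL l l.2
    refine ⟨k, ?_⟩
    rw [← QuotientGroup.mk_pow]
    exact (QuotientGroup.eq_one_iff _).2 (by rw [Subgroup.mem_subgroupOf]; simpa using hk)
  have hcard : Nat.card (N.subgroupOf L) = Nat.card N :=
    Nat.card_congr (Subgroup.subgroupOfEquivOfLe hNL).toEquiv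
  have hcop : (Nat.card (N.subgroupOf L)).Coprime (N.subgroupOf L).index := by
    obtain ⟨n, hn⟩ := IsPGroup.iff_card.1 hpg
    rw [hcard, Subgroup.index_eq_card, hn]
    exact Nat.Coprime.pow_right _ ((Nat.Prime.coprime_iff_not_dvd hp.out).2 hpN).symm
  let θL : IrrCharacter (N.subgroupOf L) := ⟨thT N L θ, irr_thT N L hNL hθ⟩
  obtain ⟨χ, h1, h2⟩ := H77.Canon.canon_exists (N.subgroupOf L) hcop θL (fun x n => by
    exact hinv x ⟨n, Subgroup.mem_subgroupOf.1 n.2⟩)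
  have h1' : ∀ n : N, (χ : L → ℂ) ⟨n, hNL n.2⟩ = θ n := fun n =>
    h1 ((Subgroup.subgroupOfEquivOfLe hNL).symm n)
  refine ⟨χ, χ.2, h1', fun g => ?_⟩
  have hd : (detOrder (χ : L → ℂ)).Coprime (N.subgroupOf L).index := hcop.coprime_dvd_left h2
  let φ : G →* MulAut L := MulAut.conjNormal
  have h3 : IsIrrCharacter L (fun l => (χ : L → ℂ) (φ g l)) :=
    isIrrCharacter_comp (φ g).toMonoidHom (φ g).surjective χ.2
  letI := Fintype.ofFinite L
  have h4 := H77.Canon.canon_unique (N.subgroupOf L) hcop h3 χ.2 θL (fun n => ?_) h1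
    (by rw [H82.IsNav.detOrder_act g (isCharacter_of_isIrr χ.2)]; exact hd) hd
  · intro l
    exact congrFun h4 l
  · have h5 := hinv g ⟨n, Subgroup.mem_subgroupOf.1 n.2⟩
    have h6 := h1' ⟨g * n * g⁻¹, hN.conj_mem _ (Subgroup.mem_subgroupOf.1 n.2) g⟩
    exact h6.trans h5

/-- extension to `⟨L, h⟩` -/
theorem exists_cyc (L : Subgroup G) [hL : L.Normal] {τ : L → ℂ} (hτ : IsIrrCharacter L τ)
    (hinv : ∀ (g : G) (l : L), τ ⟨g * l * g⁻¹, hL.conj_mem l l.2 g⟩ = τ l) (h : G) :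
    ∃ (X : Subgroup G) (hLX : L ≤ X) (hh : h ∈ X) (η : X → ℂ), IsIrrCharacter X η ∧
      ∀ l : L, η ⟨l, hLX l.2⟩ = τ l := by
  classical
  letI := Fintype.ofFinite G
  set X := L ⊔ Subgroup.zpowers h with hX
  have hLX : L ≤ X := le_sup_left
  have hhX : h ∈ X := (le_sup_right : Subgroup.zpowers h ≤ X) (Subgroup.mem_zpowers h)
  refine ⟨X, hLX, hhX, ?_⟩
  obtain ⟨d, ρ, hρ, hρτ⟩ := irr_thT L X hLX hτ
  have hcyc : IsCyclic (X ⧸ L.subgroupOf X) := by
    refine ⟨⟨QuotientGroup.mk ⟨h, hhX⟩, ?_⟩⟩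
    intro q
    obtain ⟨x, rfl⟩ := QuotientGroup.mk_surjective q
    obtain ⟨l, hl, z, ⟨k, rfl⟩, hlz⟩ := Subgroup.mem_sup_of_normal_left.1 (show (x : G) ∈ L ⊔ Subgroup.zpowers h from x.2)
    have hlz' : l * h ^ k = (x : G) := hlz
    refine ⟨k, ?_⟩
    show (QuotientGroup.mk ⟨h, hhX⟩ : X ⧸ L.subgroupOf X) ^ k = _
    rw [← QuotientGroup.mk_zpow, QuotientGroup.eq, Subgroup.mem_subgroupOf]
    simp only [Subgroup.coe_mul, Subgroup.coe_inv, SubgroupClass.coe_zpow]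
    rw [← hlz']
    have h1 := hL.conj_mem l hl ((h ^ k)⁻¹)
    simpa [mul_assoc] using h1
  obtain ⟨σ, hσ⟩ := H19.ProjExt3.extend_of_cyclic ρ hρ hcyc (by
    intro g n
    rw [hρτ]
    exact hinv g ⟨n, Subgroup.mem_subgroupOf.1 n.2⟩)
  refine ⟨σ.character, ?_, ?_⟩
  · apply isIrrCharacter_of_rep
    apply H19.ProjExt2.isIrreducible_of_restrict (N := L.subgroupOf X)
    have h1 : (σ.comp (L.subgroupOf X).subtype : Representation ℂ (L.subgroupOf X) (Fin d → ℂ)) = ρ :=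
      MonoidHom.ext fun n => hσ n
    rw [h1]
    exact hρ
  · intro l
    have h1 := hσ ((Subgroup.subgroupOfEquivOfLe hLX).symm l)
    have h2 := congrFun hρτ ((Subgroup.subgroupOfEquivOfLe hLX).symm l)
    have h3 : thT L X τ ((Subgroup.subgroupOfEquivOfLe hLX).symm l) = τ l := rfl
    rw [← h3, ← h2]
    show LinearMap.trace ℂ _ (σ _) = LinearMap.trace ℂ _ (ρ _)
    rw [← h1]
    rfl

/-- Hall–Higman in the form needed. -/
theorem exists_L {p : ℕ} [hp : Fact p.Prime] (hG : IsPSolvable p G) :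
    ∃ L : Subgroup G, L.Normal ∧ pPrimeCore p G ≤ L ∧
      (∀ l ∈ L, ∃ k : ℕ, l ^ p ^ k ∈ pPrimeCore p G) ∧
      ∀ h : G, (∀ l ∈ L, h * l * h⁻¹ * l⁻¹ ∈ pPrimeCore p G) → h ∈ L := by
  set K := pPrimeCore p G with hK
  set O := pCore p (G ⧸ K) with hO
  have hOp : IsPGroup p O := H1.Cores.isPGroup_pCore p
  have hHH : Subgroup.centralizer (O : Set (G ⧸ K)) ≤ O :=
    H37.PSolv.centralizer_pCore_le (H37.PSolv.quotient hG K) (H1.Cores.pPrimeCore_quotient_pPrimeCore p)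
  have hO' : O.Normal := inferInstance
  refine ⟨O.comap (QuotientGroup.mk' K), inferInstance, ?_, ?_, ?_⟩
  · intro x hx
    have h1 : QuotientGroup.mk' K x = 1 := (QuotientGroup.eq_one_iff x).2 hx
    rw [Subgroup.mem_comap, h1]
    exact Subgroup.one_mem _
  · obtain ⟨k, hk⟩ := IsPGroup.iff_card.1 hOp
    intro a ha
    refine ⟨k, ?_⟩
    have h1 := Subgroup.mem_comap.1 ha
    rw [← QuotientGroup.eq_one_iff]
    show QuotientGroup.mk' K (a ^ p ^ k) = 1
    rw [map_pow, ← hk]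
    have h2 : (⟨QuotientGroup.mk' K a, h1⟩ : O) ^ Nat.card O = 1 := pow_card_eq_one'
    exact congrArg Subtype.val h2
  · intro h hh
    rw [Subgroup.mem_comap]
    apply hHH
    rw [Subgroup.mem_centralizer_iff]
    intro y hy
    obtain ⟨x, rfl⟩ := QuotientGroup.mk'_surjective K y
    have h1 := hh x hy
    have h2 : QuotientGroup.mk' K (h * x * h⁻¹ * x⁻¹) = 1 := (QuotientGroup.eq_one_iff _).2 h1
    rw [map_mul, map_mul, map_mul, map_inv, map_inv, mul_inv_eq_one, mul_inv_eq_iff_eq_mul] at h2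
    exact h2.symm

end H19.Harada
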