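import Cfsg.Agent.Lib.H19.Harada2

/-!
# Harada's conjecture for `p`-solvable groups: the invariant case
-/

set_option autoImplicit false
set_option linter.unusedSectionVars false
set_option linter.unusedVariables false
set_option linter.style.haveILetI false

namespace H19.Harada

open Cfsg H18 H18.CharBasic H18.CharOrtho H18.CharInd H18.CharQuot H31.Clifford
open H77.Cov1 H77.CovFR H77.CovFR2
open scoped ComplexConjugate

universe u

variable {G : Type u} [Group G] [Finite G]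

theorem restrict_inv (N : Subgroup G) [hN : N.Normal] [Fintype N] {χ : G → ℂ}
    (hχ : IsIrrCharacter G χ) {θ : N → ℂ} (hθ : IsIrrCharacter N θ)
    (hinv : ∀ (g : G) (n : N), θ ⟨g * n * g⁻¹, hN.conj_mem n n.2 g⟩ = θ n)
    (h1 : classInner (fun n : N => χ n) θ ≠ 0) (n : N) :
    χ n = classInner (fun n : N => χ n) θ * θ n := by
  classical
  letI := Fintype.ofFinite G
  have h2 := restrict_eq N hχ hθ h1
  have h3 : orb N θ = {θ} := by
    ext φ
    rw [mem_orb, Finset.mem_singleton]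
    constructor
    · rintro ⟨g, rfl⟩
      funext n
      exact hinv g n
    · rintro rfl
      exact ⟨1, (cj_one N φ).symm⟩
  rw [h3, Finset.sum_singleton] at h2
  exact congrFun h2 n

section key

variable {p : ℕ} [hp : Fact p.Prime] (N L : Subgroup G) [hN : N.Normal] [hL : L.Normal]
  (hNL : N ≤ L) [Fintype N] [Fintype L] {θ : N → ℂ} {τ : L → ℂ}

open Classical in
theorem key (hpL : ∀ l ∈ L, ∃ k : ℕ, l ^ p ^ k ∈ N) (hθ : IsIrrCharacter N θ)
    (hinv : ∀ (g : G) (n : N), θ ⟨g * n * g⁻¹, hN.conj_mem n n.2 g⟩ = θ n)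
    (hτ : IsIrrCharacter L τ) (hτN : ∀ n : N, τ ⟨n, hNL n.2⟩ = θ n)
    (hτinv : ∀ (g : G) (l : L), τ ⟨g * l * g⁻¹, hL.conj_mem l l.2 g⟩ = τ l)
    (s : Finset (IrrCharacter G))
    (hs : ∀ χ ∈ s, classInner (fun n : N => (χ : G → ℂ) n) θ ≠ 0)
    (hvan : ∀ x : G, p ∣ orderOf x → ∑ χ ∈ s, (χ : G → ℂ) 1 * (χ : G → ℂ) x = 0)
    (t : Finset (IrrCharacter G))
    (ht : t = s.filter (fun χ : IrrCharacter G => classInner (fun l : L => (χ : G → ℂ) l) τ ≠ 0))
    (h : G) (hh : ¬ p ∣ orderOf h) :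
    ∃ m : ℕ, 0 < m ∧ (m = 1 ↔ ∀ l ∈ L, h * l * h⁻¹ * l⁻¹ ∈ N) ∧
      (Nat.card L : ℂ) * ∑ χ ∈ t, (χ : G → ℂ) 1 * (χ : G → ℂ) h =
        Nat.card N * (m * ∑ χ ∈ s, (χ : G → ℂ) 1 * (χ : G → ℂ) h) ∧
      (Nat.card L : ℝ) * ∑ l : L, ‖∑ χ ∈ t, (χ : G → ℂ) 1 * (χ : G → ℂ) (h * l)‖ ^ 2 =
        Nat.card N * (m * ∑ l : L, ‖∑ χ ∈ s, (χ : G → ℂ) 1 * (χ : G → ℂ) (h * l)‖ ^ 2) := by
  letI := Fintype.ofFinite G
  obtain ⟨X, hLX, hhX, η, hη, hηL⟩ := exists_cyc L hτ hτinv h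
  have hNX : N ≤ X := hNL.trans hLX
  letI : Fintype (N.subgroupOf X) := Fintype.ofFinite _
  letI : Fintype (L.subgroupOf X) := Fintype.ofFinite _
  have hηN : ∀ n (hn : n ∈ N), η ⟨n, hNX hn⟩ = θ ⟨n, hn⟩ := by
    intro n hn
    have h1 := hηL ⟨n, hNL hn⟩
    have h2 := hτN ⟨n, hn⟩
    exact h1.trans h2
  have hτ1 : τ 1 = θ 1 := hτN 1
  have hθ0 : θ 1 ≠ 0 := irr_one_ne_zero hθ
  have hmain := H84.KO.coset_main (X := X) (p := p) hp.out (N.subgroupOf X) (L.subgroupOf X)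
    (by intro x hx; rw [Subgroup.mem_subgroupOf] at hx ⊢; exact hNL hx)
    (by
      intro l hl
      obtain ⟨k, hk⟩ := hpL l (Subgroup.mem_subgroupOf.1 hl)
      exact ⟨k, by rw [Subgroup.mem_subgroupOf]; simpa using hk⟩)
    hη
    (by
      have h1 : (fun n : N.subgroupOf X => η n) = thT N X θ := by
        funext n
        exact hηN n (Subgroup.mem_subgroupOf.1 n.2)
      rw [h1]
      exact irr_thT N X hNX hθ)
    s t (by rw [ht]; exact Finset.filter_subset _ _)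
    (fun (χ : IrrCharacter G) (x : X) => (χ : G → ℂ) x) (fun χ => (χ : G → ℂ) 1)
    (fun χ _ => isCharacter_restrict X (isCharacter_of_isIrr χ.2))
    (fun χ => classInner (fun n : N => (χ : G → ℂ) n) θ)
    (by
      intro χ hχ n hn
      have h1 := restrict_inv N χ.2 hθ hinv (hs χ hχ) ⟨n, Subgroup.mem_subgroupOf.1 hn⟩
      rw [← hηN] at h1
      exact h1)
    (by
      intro χ hχ l hl
      rw [ht, Finset.mem_filter] at hχ
      have h1 := restrict_inv L χ.2 hτ hτinv hχ.2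
      have h2 := restrict_inv N χ.2 hθ hinv (hs χ hχ.1) 1
      have h3 := h1 1
      have h4 : classInner (fun l : L => (χ : G → ℂ) l) τ = classInner (fun n : N => (χ : G → ℂ) n) θ := by
        apply mul_right_cancel₀ hθ0
        rw [← h2, ← hτ1, ← h3]
        rfl
      have h5 := h1 ⟨l, Subgroup.mem_subgroupOf.1 hl⟩
      rw [h4, ← hηL] at h5
      exact h5)
    (by
      intro χ hχ hχt
      rw [ht, Finset.mem_filter, not_and, not_not] at hχt
      have h1 := hχt hχ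
      have hL0 : (Nat.card L : ℂ) ≠ 0 := by exact_mod_cast (Nat.card_pos (α := L)).ne'
      unfold classInner at h1
      rw [mul_eq_zero, or_iff_right (inv_ne_zero hL0)] at h1
      rw [← h1]
      refine Fintype.sum_equiv (Subgroup.subgroupOfEquivOfLe hLX).toEquiv _ _ fun l => ?_
      have h2 := hηL (Subgroup.subgroupOfEquivOfLe hLX l)
      rw [MulEquiv.toEquiv_eq_coe, MulEquiv.coe_toEquiv, ← h2]
      rfl)
    (by
      intro x hx
      refine hvan x ?_
      rwa [Subgroup.orderOf_coe])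
    ⟨h, hhX⟩ (by rwa [Subgroup.orderOf_mk])
  have hcN : Nat.card (N.subgroupOf X) = Nat.card N :=
    Nat.card_congr (Subgroup.subgroupOfEquivOfLe hNX).toEquiv
  have hcL : Nat.card (L.subgroupOf X) = Nat.card L :=
    Nat.card_congr (Subgroup.subgroupOfEquivOfLe hLX).toEquiv
  obtain ⟨m, hm1, hm2, hm3, hm4⟩ := hmain
  rw [hcN, hcL] at hm3 hm4
  refine ⟨m, hm1, ?_, hm3, ?_⟩
  · rw [hm2]
    constructor
    · intro h1 l hl
      exact h1 ⟨l, hLX hl⟩ hl
    · intro h1 l hl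
      exact h1 l hl
  · have hsum : ∀ f : G → ℝ, ∑ l : L, f (h * l) =
        ∑ l : L.subgroupOf X, f (h * ((l : X) : G)) := by
      intro f
      exact (Fintype.sum_equiv (Subgroup.subgroupOfEquivOfLe hLX).toEquiv _ _ fun l => rfl).symm
    rw [hsum (fun x => ‖∑ χ ∈ t, (χ : G → ℂ) 1 * (χ : G → ℂ) x‖ ^ 2),
      hsum (fun x => ‖∑ χ ∈ s, (χ : G → ℂ) 1 * (χ : G → ℂ) x‖ ^ 2)]
    exact hm4

end key

end H19.Harada
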