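import Cfsg.Agent.Lib.H19.Harada3

/-!
# Harada's conjecture for `p`-solvable groups: the invariant case, conclusion
-/

set_option autoImplicit false
set_option linter.unusedSectionVars false
set_option linter.unusedVariables false
set_option linter.style.haveILetI false

namespace H19.Harada

open Cfsg H18 H18.CharBasic H18.CharOrtho H18.CharInd H18.CharQuot H31.Clifford
open H77.Cov1 H77.CovFR H77.CovFR2
open scoped ComplexConjugate

universe u

variable {G : Type u} [Group G] [Fintype G]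

/-- the class function `∑ χ(1) χ` -/
noncomputable def Phi (s : Finset (IrrCharacter G)) : G → ℂ :=
  fun g => ∑ χ ∈ s, (χ : G → ℂ) 1 * (χ : G → ℂ) g

theorem phi_eq (s : Finset (IrrCharacter G)) :
    Phi s = ∑ χ ∈ s, ((χ : G → ℂ) 1) • (χ : G → ℂ) := by
  funext g
  simp [Phi, Finset.sum_apply]

open Classical in
theorem inner_phi (s : Finset (IrrCharacter G)) (ψ : IrrCharacter G) :
    classInner (Phi s) (ψ : G → ℂ) = if ψ ∈ s then (ψ : G → ℂ) 1 else 0 := by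
  rw [phi_eq, inner_sum_left]
  have h1 : ∀ χ ∈ s, classInner (((χ : G → ℂ) 1) • (χ : G → ℂ)) (ψ : G → ℂ) =
      if χ = ψ then (ψ : G → ℂ) 1 else 0 := by
    intro χ _
    rw [CharOrtho.inner_smul_left]
    split_ifs with h
    · rw [h, inner_irr_self ψ.2, mul_one]
    · rw [inner_irr_ne χ.2 ψ.2 (fun h' => h (Subtype.ext h')), mul_zero]
  rw [Finset.sum_congr rfl h1, Finset.sum_ite_eq']

theorem phi_one (s : Finset (IrrCharacter G)) :
    Phi s 1 = ((∑ χ ∈ s, (charDegree (χ : G → ℂ)) ^ 2 : ℕ) : ℂ) := by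
  rw [Phi]
  push_cast
  refine Finset.sum_congr rfl fun χ _ => ?_
  rw [H77.PQuot.cast_irr]; ring

theorem norm_phi (s : Finset (IrrCharacter G)) :
    ∑ g : G, ‖Phi s g‖ ^ 2 = (Nat.card G : ℝ) * ((∑ χ ∈ s, (charDegree (χ : G → ℂ)) ^ 2 : ℕ) : ℝ) := by
  classical
  have hG : (Nat.card G : ℂ) ≠ 0 := by exact_mod_cast (Nat.card_pos (α := G)).ne'
  have h1 : classInner (Phi s) (Phi s) = ((∑ χ ∈ s, (charDegree (χ : G → ℂ)) ^ 2 : ℕ) : ℂ) := by
    have h2 : classInner (Phi s) (Phi s) =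
        classInner (Phi s) (∑ χ ∈ s, ((χ : G → ℂ) 1) • (χ : G → ℂ)) := by rw [← phi_eq]
    rw [h2, inner_sum_right]
    push_cast
    refine Finset.sum_congr rfl fun χ hχ => ?_
    rw [CharOrtho.inner_smul_right, inner_phi, if_pos hχ, ← H77.PQuot.cast_irr, Complex.conj_natCast]
    ring
  unfold classInner at h1
  rw [inv_mul_eq_iff_eq_mul₀ hG] at h1
  have h3 : ∑ g : G, Phi s g * conj (Phi s g) = ((∑ g : G, ‖Phi s g‖ ^ 2 : ℝ) : ℂ) := by
    push_cast
    refine Finset.sum_congr rfl fun g _ => ?_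
    rw [Complex.mul_conj, Complex.normSq_eq_norm_sq]
    push_cast
    ring
  rw [h3] at h1
  exact_mod_cast h1

theorem sum_coset_all (L : Subgroup G) [Fintype L] (f : G → ℝ) :
    ∑ g : G, ∑ l : L, f (g * l) = (Nat.card L : ℝ) * ∑ g : G, f g := by
  rw [Finset.sum_comm]
  have h1 : ∀ l : L, ∑ g : G, f (g * l) = ∑ g : G, f g := fun l =>
    Fintype.sum_equiv (Equiv.mulRight (l : G)) _ _ fun g => rfl
  rw [Finset.sum_congr rfl fun l _ => h1 l, Finset.sum_const, Finset.card_univ, nsmul_eq_mul,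
    Nat.card_eq_fintype_card]

theorem sum_coset_mem (L : Subgroup G) [Fintype L] (f : G → ℝ) (g : G) (l₀ : L) :
    ∑ l : L, f (g * l₀ * l) = ∑ l : L, f (g * l) := by
  refine Fintype.sum_equiv (Equiv.mulLeft l₀) _ _ fun l => ?_
  simp [mul_assoc]

variable {p : ℕ} [hp : Fact p.Prime] (N L : Subgroup G) [hN : N.Normal] [hL : L.Normal]
  (hNL : N ≤ L) [Fintype N] [Fintype L] {θ : N → ℂ}

include hNL in
theorem main_inv (hpN : ¬ p ∣ Nat.card N) (hpL : ∀ l ∈ L, ∃ k : ℕ, l ^ p ^ k ∈ N)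
    (hHH : ∀ h : G, (∀ l ∈ L, h * l * h⁻¹ * l⁻¹ ∈ N) → h ∈ L) (hθ : IsIrrCharacter N θ)
    (hinv : ∀ (g : G) (n : N), θ ⟨g * n * g⁻¹, hN.conj_mem n n.2 g⟩ = θ n)
    (s : Finset (IrrCharacter G)) (hne : s.Nonempty)
    (hs : ∀ χ ∈ s, classInner (fun n : N => (χ : G → ℂ) n) θ ≠ 0)
    (hvan : ∀ x : G, p ∣ orderOf x → ∑ χ ∈ s, (χ : G → ℂ) 1 * (χ : G → ℂ) x = 0)
    (ψ : IrrCharacter G) (hψ : classInner (fun n : N => (ψ : G → ℂ) n) θ ≠ 0) : ψ ∈ s := by
  classical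
  obtain ⟨τ, hτ, hτN, hτinv⟩ := exists_can N L hNL hpN hpL hθ hinv
  set t := s.filter (fun χ : IrrCharacter G => classInner (fun l : L => (χ : G → ℂ) l) τ ≠ 0) with ht
  have hkey := key N L hNL hpL hθ hinv hτ hτN hτinv s hs hvan t ht
  have hN0 : (0 : ℝ) < Nat.card N := by exact_mod_cast (Nat.card_pos (α := N))
  have hL0 : (0 : ℝ) < Nat.card L := by exact_mod_cast (Nat.card_pos (α := L))
  set Sx : ℕ := ∑ χ ∈ s, (charDegree (χ : G → ℂ)) ^ 2 with hSx
  set Sy : ℕ := ∑ χ ∈ t, (charDegree (χ : G → ℂ)) ^ 2 with hSy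
  -- the relation at `1`
  have h1 : (Nat.card L : ℝ) * Sy = Nat.card N * Sx := by
    obtain ⟨m, hm1, hm2, hm3, -⟩ := hkey 1 (by rw [orderOf_one]; exact hp.out.one_lt.not_ge ∘ Nat.le_of_dvd one_pos)
    have hm : m = 1 := hm2.2 fun l hl => by simp
    have h2 : (Nat.card L : ℂ) * Phi t 1 = Nat.card N * ((m : ℂ) * Phi s 1) := hm3
    rw [hm, phi_one, phi_one, Nat.cast_one, one_mul] at h2
    exact_mod_cast h2
  -- the difference
  let D : G → ℝ := fun g => (Nat.card L : ℝ) * ∑ l : L, ‖Phi t (g * l)‖ ^ 2 -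
    (Nat.card N : ℝ) * ∑ l : L, ‖Phi s (g * l)‖ ^ 2
  have hDreg : ∀ h : G, ¬ p ∣ orderOf h → ∃ m : ℕ, 0 < m ∧
      (m = 1 ↔ ∀ l ∈ L, h * l * h⁻¹ * l⁻¹ ∈ N) ∧
      D h = (Nat.card N : ℝ) * ((m - 1 : ℝ) * ∑ l : L, ‖Phi s (h * l)‖ ^ 2) := by
    intro h hh
    obtain ⟨m, hm1, hm2, -, hm4⟩ := hkey h hh
    refine ⟨m, hm1, hm2, ?_⟩
    have h2 : (Nat.card L : ℝ) * ∑ l : L, ‖Phi t (h * l)‖ ^ 2 =
        Nat.card N * ((m : ℝ) * ∑ l : L, ‖Phi s (h * l)‖ ^ 2) := hm4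
    show (Nat.card L : ℝ) * ∑ l : L, ‖Phi t (h * l)‖ ^ 2 -
      (Nat.card N : ℝ) * ∑ l : L, ‖Phi s (h * l)‖ ^ 2 = _
    rw [h2]; ring
  have hDmul : ∀ (g : G) (l₀ : L), D (g * l₀) = D g := by
    intro g l₀
    show (Nat.card L : ℝ) * ∑ l : L, ‖Phi t (g * l₀ * l)‖ ^ 2 -
      (Nat.card N : ℝ) * ∑ l : L, ‖Phi s (g * l₀ * l)‖ ^ 2 = _
    rw [sum_coset_mem L (fun x => ‖Phi t x‖ ^ 2) g l₀, sum_coset_mem L (fun x => ‖Phi s x‖ ^ 2) g l₀]
  have hD0 : ∀ g : G, 0 ≤ D g := by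
    intro g
    by_cases hex : ∃ l : L, ¬ p ∣ orderOf (g * l)
    · obtain ⟨l, hl⟩ := hex
      obtain ⟨m, hm1, -, hm⟩ := hDreg _ hl
      rw [← hDmul g l, hm]
      have hm' : (0 : ℝ) ≤ (m : ℝ) - 1 := by
        have : (1 : ℝ) ≤ m := by exact_mod_cast hm1
        linarith
      have h3 : 0 ≤ ∑ l' : L, ‖Phi s (g * l * l')‖ ^ 2 := Finset.sum_nonneg fun _ _ => by positivity
      exact mul_nonneg hN0.le (mul_nonneg hm' h3)
    · push Not at hex
      have h3 : ∑ l : L, ‖Phi s (g * l)‖ ^ 2 = 0 := by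
        refine Finset.sum_eq_zero fun l _ => ?_
        have h4 : Phi s (g * l) = 0 := hvan _ (hex l)
        rw [h4]; simp
      show 0 ≤ (Nat.card L : ℝ) * ∑ l : L, ‖Phi t (g * l)‖ ^ 2 -
        (Nat.card N : ℝ) * ∑ l : L, ‖Phi s (g * l)‖ ^ 2
      rw [h3, mul_zero, sub_zero]
      exact mul_nonneg hL0.le (Finset.sum_nonneg fun _ _ => by positivity)
  have hDsum : ∑ g : G, D g = 0 := by
    show ∑ g : G, ((Nat.card L : ℝ) * ∑ l : L, ‖Phi t (g * l)‖ ^ 2 -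
      (Nat.card N : ℝ) * ∑ l : L, ‖Phi s (g * l)‖ ^ 2) = 0
    rw [Finset.sum_sub_distrib, ← Finset.mul_sum, ← Finset.mul_sum,
      sum_coset_all L (fun x => ‖Phi t x‖ ^ 2), sum_coset_all L (fun x => ‖Phi s x‖ ^ 2),
      norm_phi, norm_phi, ← hSx, ← hSy]
    linear_combination (Nat.card L : ℝ) * (Nat.card G : ℝ) * h1
  have hD : ∀ g : G, D g = 0 := fun g =>
    (Finset.sum_eq_zero_iff_of_nonneg (fun g _ => hD0 g)).1 hDsum g (Finset.mem_univ g)
  -- the support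
  have hsupp : ∀ g : G, g ∉ N → Phi s g = 0 := by
    intro g hg
    by_contra hne0
    have hreg : ¬ p ∣ orderOf g := fun h => hne0 (hvan g h)
    obtain ⟨m, hm1, hm2, hm⟩ := hDreg g hreg
    rw [hD] at hm
    have hpos : 0 < ∑ l : L, ‖Phi s (g * l)‖ ^ 2 := by
      refine Finset.sum_pos' (fun _ _ => by positivity) ⟨1, Finset.mem_univ _, ?_⟩
      rw [OneMemClass.coe_one, mul_one]
      have : 0 < ‖Phi s g‖ := norm_pos_iff.2 hne0
      positivity
    have h2 : (m : ℝ) - 1 = 0 := by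
      rcases mul_eq_zero.1 hm.symm with h3 | h3
      · exact absurd h3 hN0.ne'
      · rcases mul_eq_zero.1 h3 with h4 | h4
        · exact h4
        · exact absurd h4 hpos.ne'
    have h3 : m = 1 := by
      have : (m : ℝ) = 1 := by linarith
      exact_mod_cast this
    have h4 := hHH g (hm2.1 h3)
    obtain ⟨k, hk⟩ := hpL g h4
    apply hg
    have hcop : (orderOf g).Coprime (p ^ k) :=
      Nat.Coprime.pow_right _ ((Nat.Prime.coprime_iff_not_dvd hp.out).2 hreg).symm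
    obtain ⟨j, hj⟩ := exists_pow_eq_self_of_coprime hcop.symm
    rw [← hj]
    exact N.pow_mem hk j
  -- conclusion
  by_contra hψs
  have h2 : classInner (Phi s) (ψ : G → ℂ) = 0 := by rw [inner_phi, if_neg hψs]
  have hG : (Nat.card G : ℂ) ≠ 0 := by exact_mod_cast (Nat.card_pos (α := G)).ne'
  unfold classInner at h2
  rw [mul_eq_zero, or_iff_right (inv_ne_zero hG)] at h2
  have h3 : ∑ g : G, Phi s g * conj ((ψ : G → ℂ) g) = ∑ n : N, Phi s n * conj ((ψ : G → ℂ) n) := by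
    rw [← Finset.sum_subtype (p := fun g : G => g ∈ N) (Finset.univ.filter (fun g => g ∈ N))
      (by simp) (fun g => Phi s g * conj ((ψ : G → ℂ) g)), Finset.sum_filter]
    refine Finset.sum_congr rfl fun g _ => ?_
    split_ifs with h
    · rfl
    · rw [hsupp g h, zero_mul]
  rw [h3] at h2
  have hθ0 : θ 1 ≠ 0 := irr_one_ne_zero hθ
  have h4 : ∀ n : N, Phi s n = (Phi s 1 / θ 1) * θ n := by
    intro n
    rw [Phi, Phi, Finset.sum_div, Finset.sum_mul]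
    refine Finset.sum_congr rfl fun χ hχ => ?_
    have h5 := restrict_inv N χ.2 hθ hinv (hs χ hχ) n
    have h6 := restrict_inv N χ.2 hθ hinv (hs χ hχ) 1
    rw [OneMemClass.coe_one] at h6
    rw [h5, h6]
    field_simp
  have h5 : ∀ n : N, (ψ : G → ℂ) n = classInner (fun n : N => (ψ : G → ℂ) n) θ * θ n :=
    restrict_inv N ψ.2 hθ hinv hψ
  have h6 : ∑ n : N, Phi s n * conj ((ψ : G → ℂ) n) =
      (Phi s 1 / θ 1) * conj (classInner (fun n : N => (ψ : G → ℂ) n) θ) * Nat.card N := by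
    have h7 : ∑ n : N, θ n * conj (θ n) = Nat.card N := by
      have h8 := inner_irr_self hθ
      have hN1 : (Nat.card N : ℂ) ≠ 0 := by exact_mod_cast (Nat.card_pos (α := N)).ne'
      unfold classInner at h8
      rw [inv_mul_eq_iff_eq_mul₀ hN1, mul_one] at h8
      exact h8
    rw [← h7, Finset.mul_sum]
    refine Finset.sum_congr rfl fun n _ => ?_
    rw [h4, h5 n, map_mul]; ring
  rw [h6] at h2
  have hN1 : (Nat.card N : ℂ) ≠ 0 := by exact_mod_cast (Nat.card_pos (α := N)).ne'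
  have hx1 : Phi s 1 ≠ 0 := by
    rw [phi_one]
    obtain ⟨χ, hχ⟩ := hne
    have h7 : 0 < ∑ χ ∈ s, (charDegree (χ : G → ℂ)) ^ 2 := by
      refine Finset.sum_pos' (fun _ _ => Nat.zero_le _) ⟨χ, hχ, ?_⟩
      have h8 : charDegree (χ : G → ℂ) ≠ 0 := by
        intro h9
        have h10 := H77.PQuot.cast_irr χ
        rw [h9, Nat.cast_zero] at h10
        exact irr_one_ne_zero χ.2 h10.symm
      positivity
    exact_mod_cast h7.ne'
  rcases mul_eq_zero.1 h2 with h7 | h7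
  · rcases mul_eq_zero.1 h7 with h8 | h8
    · exact div_ne_zero hx1 hθ0 h8
    · exact hψ ((map_eq_zero _).1 h8)
  · exact hN1 h7

end H19.Harada
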