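import Cfsg.Agent.Lib.H19.Harada4

/-!
# Harada's conjecture for `p`-solvable groups
-/

set_option autoImplicit false
set_option linter.unusedSectionVars false
set_option linter.unusedVariables false
set_option linter.style.haveILetI false

namespace H19.Harada

open Cfsg H18 H18.CharBasic H18.CharOrtho H18.CharInd H18.CharQuot H31.Clifford
open H20.Loc H20.GA H20.Blk H20.DefGrp H20.Defect H20.Orth H20.Height
open H77.Cov1 H77.CovFR H77.CovFR2
open scoped ComplexConjugate

universe u

theorem main (n : ℕ) : ∀ {G : Type u} [Group G] [Finite G], Nat.card G = n →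
    ∀ (p : ℕ) [Fact p.Prime] (M : Ideal AlgInt), IsPModular p M → IsPSolvable p G →
    ∀ (U : Finset (IrrCharacter G)),
    (∀ x : G, p ∣ orderOf x → ∑ χ ∈ U, (χ : G → ℂ) 1 * (χ : G → ℂ) x = 0) →
    ∀ χ ∈ U, ∀ ψ : IrrCharacter G, SameBlock M (χ : G → ℂ) (ψ : G → ℂ) → ψ ∈ U := by
  classical
  induction n using Nat.strong_induction_on with
  | _ n ih =>
  intro G _ _ hn p hp M hM hG U hU χ hχ ψ hψ
  haveI := pm_isPrime hM
  have hpp := pm_prime hM
  letI := Fintype.ofFinite G
  haveI hN : (pPrimeCore p G).Normal := inferInstance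
  obtain ⟨L, hLn, hKL, hpL, hHH⟩ := exists_L hG
  set K := pPrimeCore p G with hK
  letI := Fintype.ofFinite K
  letI := Fintype.ofFinite L
  have hpK : ¬ p ∣ Nat.card K := by
    rw [← hpp.coprime_iff_not_dvd]; exact (H1.Cores.coprime_card_pPrimeCore (G := G) p).symm
  obtain ⟨θ0, hθ0, hne⟩ := H18.CharQuot.exists_constituent_restrict K χ.2
  let θ : IrrCharacter K := ⟨θ0, hθ0⟩
  have hne' : classInner (fun n : K => (χ : G → ℂ) n) (θ : K → ℂ) ≠ 0 := hne
  have hb : IsPBlock M ({θ} : Set (IrrCharacter K)) := by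
    rw [← H20.NPC.blockOf_eq_singleton_of_card hM hpK θ]
    exact isPBlock_blockOf θ
  -- the part of `U` over `θ`
  set U1 := U.filter (fun χ : IrrCharacter G => classInner (fun n : K => (χ : G → ℂ) n) (θ : K → ℂ) ≠ 0)
    with hU1
  have hvan1 : ∀ x : G, p ∣ orderOf x → ∑ χ ∈ U1, (χ : G → ℂ) 1 * (χ : G → ℂ) x = 0 := by
    refine split_zero K hpp hpK U1
      (U.filter (fun χ : IrrCharacter G => ¬ classInner (fun n : K => (χ : G → ℂ) n) (θ : K → ℂ) ≠ 0))
      (fun χ => (χ : G → ℂ) 1) (fun χ => (χ : G → ℂ) 1) (fun χ => (χ : G → ℂ)) (fun χ => (χ : G → ℂ))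
      (fun χ _ => isCharacter_of_isIrr χ.2) (fun χ _ => isCharacter_of_isIrr χ.2) ?_ ?_
    · intro i hi j hj
      rw [hU1, Finset.mem_filter] at hi
      rw [Finset.mem_filter, not_not] at hj
      exact over_orth K i.2 j.2 θ.2 hi.2 hj.2
    · intro x hx
      exact (Finset.sum_filter_add_sum_filter_not U _ _).trans (hU x hx)
  have hχ1 : χ ∈ U1 := Finset.mem_filter.2 ⟨hχ, hne'⟩
  have hU1U : U1 ⊆ U := Finset.filter_subset _ _
  set T := H31.Clifford.inertia K (θ : K → ℂ) with hT
  by_cases hTtop : T = ⊤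
  · have hinv : ∀ (g : G) (n : K), (θ : K → ℂ) ⟨g * n * g⁻¹, hN.conj_mem n n.2 g⟩ = (θ : K → ℂ) n := by
      intro g
      have h1 : g ∈ T := by rw [hTtop]; trivial
      exact (H31.Clifford.mem_inertia_iff K).1 h1
    obtain ⟨B', hB', hmem, -, -⟩ := Cfsg.Agent.S4492.result p M hM hG K rfl θ hinv
    have h1 : χ ∈ B' := (hmem χ).2 hne'
    have h2 : ψ ∈ B' := by
      rw [isPBlock_eq hB' h1]
      exact hψ
    exact hU1U (main_inv K L hKL hpK hpL hHH θ.2 hinv U1 ⟨χ, hχ1⟩
      (fun i hi => (Finset.mem_filter.1 hi).2) hvan1 ψ ((hmem ψ).1 h2))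
  · letI := Fintype.ofFinite T
    letI : Fintype (K.subgroupOf T) := Fintype.ofFinite _
    have hKT : K ≤ T := H31.Clifford.le_inertia K (H18.CharBasic.isClassFunction_of_isIrr θ.2)
    have hTmem : ∀ g : G, g ∈ T ↔ ∀ θ' ∈ ({θ} : Set (IrrCharacter K)), ∀ θ'' : IrrCharacter K,
        (∀ n : K, (θ'' : K → ℂ) n = (θ' : K → ℂ) ⟨g * n * g⁻¹, hN.conj_mem n n.2 g⟩) →
          θ'' ∈ ({θ} : Set (IrrCharacter K)) := by
      intro g
      constructor
      · rintro hg θ' hθ' θ'' h
        obtain rfl := Set.mem_singleton_iff.1 hθ'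
        rw [Set.mem_singleton_iff]
        apply Subtype.ext
        funext n
        rw [h n]
        exact (H31.Clifford.mem_inertia_iff K).1 hg n
      · intro h
        have h1 := Set.mem_singleton_iff.1 (h θ rfl (cI K g θ) (fun n => rfl))
        exact H31.Clifford.mem_inertia K |>.2 (congrArg Subtype.val h1)
    have hst : Stab K ({θ} : Set (IrrCharacter K)) T := stab_of K hb hTmem
    have hTiff : ∀ g : G, g ∈ T ↔ conjFunN K g (θ : K → ℂ) = (θ : K → ℂ) := fun g => Iff.rfl
    -- the Clifford correspondents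
    have hex : ∀ i : IrrCharacter G, ∃ η : IrrCharacter T, i ∈ U1 →
        ((i : G → ℂ) = indFun T (η : T → ℂ) ∧ classInner (resH hKT (η : T → ℂ)) (θ : K → ℂ) ≠ 0) := by
      intro i
      by_cases hi : i ∈ U1
      · obtain ⟨η, h1, h2⟩ := exists_ind_of_over K hKT M hM hst hb i (Set.mem_singleton θ)
          (Finset.mem_filter.1 hi).2
        exact ⟨η, fun _ => ⟨h1, h2⟩⟩
      · exact ⟨⟨_, isIrrCharacter_one⟩, fun h => absurd h hi⟩
    choose f hf using hex
    have honly : ∀ i ∈ U1, Only K hKT ({θ} : Set (IrrCharacter K)) (f i : T → ℂ) := fun i hi =>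
      only_of_cover K hKT M hM hst.1 hb (isPBlock_blockOf (f i)) (mem_blockOf_self (f i))
        (Set.mem_singleton θ) (hf i hi).2 (mem_blockOf_self (f i))
    have hconst : ∀ i ∈ U1, classInner (fun t : T => (i : G → ℂ) t) (f i : T → ℂ) ≠ 0 := by
      intro i hi
      have h1 := (hf i hi).1
      have hχ' : IsIrrCharacter G (indFun T (f i : T → ℂ)) := h1 ▸ i.2
      rw [h1, ← frobenius' T (f i : T → ℂ) (isClassFunction_of_isIrr hχ'), inner_irr_self hχ']
      exact one_ne_zero
    have hcardK : Nat.card (K.subgroupOf T) = Nat.card K :=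
      Nat.card_congr (Subgroup.subgroupOfEquivOfLe hKT).toEquiv
    have hvanT : ∀ x : T, p ∣ orderOf x → ∑ i ∈ U1, (i : G → ℂ) 1 * (f i : T → ℂ) x = 0 := by
      refine split_zero (K.subgroupOf T) hpp (by rw [hcardK]; exact hpK) U1 U1
        (fun χ => (χ : G → ℂ) 1) (fun χ => (χ : G → ℂ) 1) (fun i => (f i : T → ℂ))
        (fun i => (fun t : T => (i : G → ℂ) t) - (f i : T → ℂ))
        (fun i _ => isCharacter_of_isIrr (f i).2)
        (fun i hi => isCharacter_sub_constituent (isCharacter_restrict T (isCharacter_of_isIrr i.2))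
          (f i).2 (hconst i hi)) ?_ ?_
      · intro i hi j hj
        have h1 : classInner (fun x : K.subgroupOf T => (f i : T → ℂ) x)
            (fun x : K.subgroupOf T => ((fun t : T => (j : G → ℂ) t) - (f j : T → ℂ)) x) =
            classInner (resH hKT (f i : T → ℂ)) (resH hKT ((fun t : T => (j : G → ℂ) t) - (f j : T → ℂ))) :=
          classInner_mulEquiv (Subgroup.subgroupOfEquivOfLe hKT) (resH hKT (f i : T → ℂ))
            (resH hKT ((fun t : T => (j : G → ℂ) t) - (f j : T → ℂ)))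
        rw [h1, restrict_T K T hKT θ.2 hTiff (f i).2 (hf i hi).2, CharOrtho.inner_smul_left]
        have h2 : classInner (θ : K → ℂ) (resH hKT ((fun t : T => (j : G → ℂ) t) - (f j : T → ℂ))) = 0 := by
          have h3 : resH hKT ((fun t : T => (j : G → ℂ) t) - (f j : T → ℂ)) =
              (fun n : K => (j : G → ℂ) n) - resH hKT (f j : T → ℂ) := rfl
          by_contra h4
          rw [h3] at h4
          have h5 := classInner_ne_zero_symm.1 h4
          apply h5
          rw [CharOrtho.inner_sub_left, sub_eq_zero]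
          have h6 := inner_ind_of_only K hKT hst (isClassFunction_of_isIrr (f j).2) (honly j hj)
            (Set.mem_singleton θ)
          rw [← (hf j hj).1] at h6
          exact h6
        rw [h2, mul_zero]
      · intro x hx
        rw [← Finset.sum_add_distrib]
        have h1 := hvan1 (x : G) (by rwa [Subgroup.orderOf_coe])
        rw [← h1]
        refine Finset.sum_congr rfl fun i _ => ?_
        simp only [Pi.sub_apply]
        ring
    have hT0 : (T.index : ℂ) ≠ 0 := by
      exact_mod_cast (Subgroup.index_ne_zero_of_finite (H := T))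
    have hfinj : Set.InjOn f (U1 : Set (IrrCharacter G)) := by
      intro i hi j hj h
      apply Subtype.ext
      rw [(hf i hi).1, (hf j hj).1, h]
    have hvanT' : ∀ x : T, p ∣ orderOf x →
        ∑ η ∈ U1.image f, (η : T → ℂ) 1 * (η : T → ℂ) x = 0 := by
      intro x hx
      rw [Finset.sum_image hfinj]
      have h1 := hvanT x hx
      have h2 : ∑ i ∈ U1, (i : G → ℂ) 1 * (f i : T → ℂ) x =
          (T.index : ℂ) * ∑ i ∈ U1, (f i : T → ℂ) 1 * (f i : T → ℂ) x := by
        rw [Finset.mul_sum]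
        refine Finset.sum_congr rfl fun i hi => ?_
        have h3 : (i : G → ℂ) 1 = (T.index : ℂ) * (f i : T → ℂ) 1 := by
          rw [(hf i hi).1, indFun_one]
        rw [h3]; ring
      rw [h2] at h1
      exact (mul_eq_zero.1 h1).resolve_left hT0
    have hB' := isPBlock_blockOf (M := M) (f χ)
    obtain ⟨hirr, B'', hind, hm⟩ := fr K hKT M hM hst hb hB' (mem_blockOf_self (f χ))
      (Set.mem_singleton θ) (hf χ hχ1).2
    have hχ'' : χ ∈ B'' := (hm χ).2 ⟨f χ, mem_blockOf_self (f χ), (hf χ hχ1).1⟩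
    have hψ'' : ψ ∈ B'' := by
      rw [isPBlock_eq hind.2.1 hχ'']
      exact hψ
    obtain ⟨ψ', hψ', h4⟩ := (hm ψ).1 hψ''
    have hcard : Nat.card T < n := by
      rw [← hn]
      refine lt_of_le_of_ne (Nat.le_of_dvd Nat.card_pos (Subgroup.card_subgroup_dvd_card T)) ?_
      intro h
      exact hTtop (Subgroup.eq_top_of_card_eq T h)
    have h5 := ih _ hcard (G := T) rfl p M hM (H37.PSolv.subgroup hG T) (U1.image f) hvanT'
      (f χ) (Finset.mem_image_of_mem f hχ1) ψ' hψ'
    obtain ⟨i, hi, hfi⟩ := Finset.mem_image.1 h5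
    have h6 : ψ = i := Subtype.ext (by rw [h4, ← hfi, (hf i hi).1])
    rw [h6]
    exact hU1U hi

theorem harada {G : Type u} [Group G] [Finite G] (p : ℕ) [Fact p.Prime] (M : Ideal AlgInt)
    (hM : IsPModular p M) (hsolv : IsPSolvable p G) (U : Set (IrrCharacter G))
    (hU : ∀ x : G, p ∣ orderOf x → ∑ᶠ χ ∈ U, (χ : G → ℂ) 1 * (χ : G → ℂ) x = 0)
    (χ : IrrCharacter G) (hχ : χ ∈ U) (ψ : IrrCharacter G)
    (hψ : SameBlock M (χ : G → ℂ) (ψ : G → ℂ)) : ψ ∈ U := by
  classical
  letI := Fintype.ofFinite G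
  letI := Fintype.ofFinite (IrrCharacter G)
  have h1 := main _ rfl p M hM hsolv (Finset.univ.filter (fun χ : IrrCharacter G => χ ∈ U)) (by
    intro x hx
    rw [← hU x hx]
    rw [finsum_mem_eq_sum_filter (fun χ : IrrCharacter G => (χ : G → ℂ) 1 * (χ : G → ℂ) x) U
      (Set.toFinite _)]
    refine Finset.sum_congr_of_eq_on_inter ?_ ?_ ?_
    · intro i hi hi'
      by_contra h0
      apply hi'
      rw [Finset.mem_filter]
      refine ⟨?_, (Finset.mem_filter.1 hi).2⟩
      rw [Set.Finite.mem_toFinset]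
      exact h0
    · intro i hi hi'
      exact absurd (Finset.mem_filter.2 ⟨Finset.mem_univ i, (Finset.mem_filter.1 hi).2⟩) hi'
    · intro i _ _; rfl) χ (Finset.mem_filter.2 ⟨Finset.mem_univ _, hχ⟩) ψ hψ
  exact (Finset.mem_filter.1 h1).2

end H19.Harada
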