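import Cfsg.Agent.Lib.H19.Ito2

/-!
# Groups with a faithful character of small degree: the central case
-/

set_option autoImplicit false
set_option linter.unusedSectionVars false
set_option linter.style.haveILetI false

namespace H19.Ito

open Cfsg H18.CharBasic H18.CharOrtho H18.CharInd H18.CharQuot
open scoped ComplexConjugate

universe u v

variable {G : Type u} [Group G]

theorem coprime_pow_eq_one {M : Type v} [Monoid M] {x : M} {a b : ℕ} (h : Nat.Coprime a b)
    (ha : x ^ a = 1) (hb : x ^ b = 1) : x = 1 := by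
  have h1 := orderOf_dvd_of_pow_eq_one ha
  have h2 := orderOf_dvd_of_pow_eq_one hb
  exact orderOf_eq_one_iff.1 (Nat.eq_one_of_dvd_coprimes h h1 h2)

/-- a homomorphism of `p`-power order nontrivial on a central `p`-element -/
theorem exists_hom [Finite G] {p : ℕ} [hp : Fact p.Prime] {χ : G → ℂ} (hχ : IsIrrCharacter G χ)
    {d : ℕ} (hd : χ 1 = d) (hdp : d < p) {z : G} (hz : z ∈ Subgroup.center G) {k : ℕ}
    (hzk : z ^ p ^ k = 1) (hne : χ z ≠ χ 1) :
    ∃ (f : G →* ℂˣ) (a : ℕ), (∀ g, f g ^ p ^ a = 1) ∧ f z ≠ 1 := by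
  obtain ⟨n, ρ, hρ, rfl⟩ := hχ
  obtain ⟨ω, hω⟩ := H4.CenterIndex.exists_scalar_of_center ρ hρ hz
  replace hω : ρ z = ω • (1 : Module.End ℂ (Fin n → ℂ)) := hω
  have hnd : n = d := by
    rw [Representation.char_one, Module.finrank_fin_fun] at hd
    exact_mod_cast hd
  subst hnd
  have hn0 : n ≠ 0 := by
    have h1 := irr_one_ne_zero (isIrrCharacter_of_rep ρ hρ)
    rw [Representation.char_one, Module.finrank_fin_fun] at h1
    exact_mod_cast h1
  have hn0' : (n : ℂ) ≠ 0 := by exact_mod_cast hn0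
  have hω1 : ω ≠ 1 := by
    rintro rfl
    apply hne
    simp only [Representation.character, hω, one_smul, map_one]
  have hωp : ω ^ p ^ k = 1 := by
    have h1 : (ρ z) ^ (p ^ k) = 1 := by
      rw [← map_pow, hzk, map_one]
    rw [hω, smul_pow, one_pow] at h1
    have h2 := congrArg (LinearMap.trace ℂ (Fin n → ℂ)) h1
    rw [map_smul, LinearMap.trace_one, smul_eq_mul, Module.finrank_fin_fun] at h2
    exact mul_right_cancel₀ hn0' (by rw [h2, one_mul])
  let δ := H18.DetChar.detHom ρ
  have hδz : ((δ z : ℂˣ) : ℂ) = ω ^ n := by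
    have : ((δ z : ℂˣ) : ℂ) = LinearMap.det (ρ z) := rfl
    rw [this, hω, LinearMap.det_smul, Module.finrank_fin_fun, map_one, mul_one]
  obtain ⟨a, m, hm, hcard⟩ := Nat.exists_eq_pow_mul_and_not_dvd (Nat.card_pos (α := G)).ne' p
    hp.out.ne_one
  refine ⟨δ ^ m, a, ?_, ?_⟩
  · intro g
    rw [MonoidHom.pow_apply, ← pow_mul, mul_comm, ← hcard, ← map_pow, pow_card_eq_one', map_one]
  · intro h
    apply hω1
    rw [MonoidHom.pow_apply] at h
    have h1 : ω ^ (n * m) = 1 := by
      rw [pow_mul, ← hδz, ← Units.val_pow_eq_pow_val, h, Units.val_one]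
    refine coprime_pow_eq_one (a := n * m) (b := p ^ k) ?_ h1 hωp
    apply Nat.Coprime.pow_right
    apply Nat.Coprime.mul_left
    · exact (Nat.coprime_of_lt_prime hn0 hdp hp.out).symm
    · exact ((Nat.Prime.coprime_iff_not_dvd hp.out).2 hm).symm

/-- the normal `p`-complement of a normal subgroup with central Sylow `p`-subgroup -/
theorem exists_complement [Finite G] {p : ℕ} [hp : Fact p.Prime] (M : Subgroup G) [hM : M.Normal]
    (hcp : CP p M) (hcen : OS p M hcp ≤ Subgroup.center G) :
    ∃ L : Subgroup G, L.Normal ∧ L ≤ M ∧ Nat.Coprime (Nat.card L) p ∧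
      ∃ b, Nat.card M = Nat.card L * p ^ b := by
  obtain ⟨Q⟩ : Nonempty (Sylow p M) := inferInstance
  have hQc : ∀ x ∈ (Q : Subgroup M), ∀ y : M, x * y = y * x := by
    intro x hx y
    have h1 : (x : G) ∈ OS p M hcp := by
      refine ⟨x.2, ?_⟩
      obtain ⟨k, hk⟩ := Q.isPGroup' ⟨x, hx⟩
      exact ⟨k, congrArg (fun z : Q => ((z : M) : G)) hk⟩
    have h2 := Subgroup.mem_center_iff.1 (hcen h1) (y : G)
    exact Subtype.ext h2.symm
  have hN : Subgroup.normalizer ((Q : Subgroup M) : Set M) ≤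
      Subgroup.centralizer ((Q : Subgroup M) : Set M) := by
    intro y _
    rw [Subgroup.mem_centralizer_iff]
    intro x hx
    exact hQc x hx y
  let τ := MonoidHom.transferSylow Q hN
  have hcompl : Subgroup.IsComplement' τ.ker (Q : Subgroup M) :=
    MonoidHom.ker_transferSylow_isComplement' Q hN
  have hndvd : ¬ p ∣ Nat.card τ.ker := MonoidHom.not_dvd_card_ker_transferSylow Q hN
  have hcop : Nat.Coprime (Nat.card τ.ker) p :=
    ((Nat.Prime.coprime_iff_not_dvd hp.out).2 hndvd).symm
  have hmem : ∀ x : M, x ∈ τ.ker ↔ x ^ (Nat.card τ.ker) = 1 := by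
    intro x
    constructor
    · intro hx
      have h1 : (⟨x, hx⟩ : τ.ker) ^ (Nat.card τ.ker) = 1 := pow_card_eq_one'
      exact congrArg Subtype.val h1
    · intro hx
      rw [MonoidHom.mem_ker]
      obtain ⟨k, hk⟩ := Q.isPGroup' (τ x)
      have h1 : τ x ^ (Nat.card τ.ker) = 1 := by rw [← map_pow, hx, map_one]
      exact coprime_pow_eq_one (hcop.pow_right k) h1 hk
  refine ⟨τ.ker.map M.subtype, ?_, ?_, ?_, ?_⟩
  · constructor
    rintro _ ⟨x, hx, rfl⟩ g
    refine ⟨⟨g * x * g⁻¹, hM.conj_mem x x.2 g⟩, ?_, rfl⟩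
    rw [SetLike.mem_coe, hmem] at hx ⊢
    apply Subtype.ext
    change (g * (x : G) * g⁻¹) ^ _ = 1
    have h1 : (x : G) ^ (Nat.card τ.ker) = 1 := congrArg Subtype.val hx
    rw [conj_pow, h1, mul_one, mul_inv_cancel]
  · rintro _ ⟨x, -, rfl⟩
    exact x.2
  · rw [Subgroup.card_map_of_injective (Subgroup.subtype_injective M)]
    exact hcop
  · obtain ⟨b, hb⟩ := IsPGroup.iff_card.1 Q.isPGroup'
    refine ⟨b, ?_⟩
    rw [Subgroup.card_map_of_injective (Subgroup.subtype_injective M), ← hb]
    exact hcompl.card_mul.symm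

/-- the central case -/
theorem central_case [Fintype G] {p : ℕ} [hp : Fact p.Prime] {f : G → ℂ} (hf : IsCharacter G f)
    (hfaith : ∀ g, f g = f 1 → g = 1) {n : ℕ} (hn : f 1 = n) (hnp : n < p - 1)
    (P : Sylow p G) (hP : ∀ a ∈ (P : Subgroup G), ∀ b ∈ (P : Subgroup G), a * b = b * a)
    (hcp : ∀ K : Subgroup G, K ≠ ⊤ → CP p K)
    (hMP : ∀ M : Subgroup G, M.Normal → (P : Subgroup G) ≤ M → M = ⊤) {z : G}
    (hzP : z ∈ (P : Subgroup G)) (hz : z ∈ Subgroup.center G) (hz1 : z ≠ 1) :
    (P : Subgroup G) ≤ Subgroup.center G := by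
  classical
  -- a constituent
  obtain ⟨χ, hχ, hχf, hne⟩ : ∃ χ : G → ℂ, IsIrrCharacter G χ ∧ classInner f χ ≠ 0 ∧ χ z ≠ χ 1 := by
    by_contra hcon
    push Not at hcon
    exact hz1 (hfaith z (ker_of_constituents hf hcon))
  obtain ⟨d, hd⟩ := exists_degree (isCharacter_of_isIrr hχ)
  have hdn := degree_le hf hχ hχf hn hd
  obtain ⟨k, hk⟩ := P.isPGroup' ⟨z, hzP⟩
  have hzk : z ^ p ^ k = 1 := congrArg Subtype.val hk
  obtain ⟨δ, a, hδ, hδz⟩ := exists_hom hχ hd (by omega) hz hzk hne
  set M := δ.ker with hM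
  have hMtop : M ≠ ⊤ := by
    intro h
    apply hδz
    have : z ∈ M := by rw [h]; trivial
    exact this
  have hcpM := hcp M hMtop
  haveI hQn : (OS p M hcpM).Normal := OS_normal hcpM
  have hQP : OS p M hcpM ≤ P := by
    have h1 : IsPGroup p ((P : Subgroup G) ⊔ OS p M hcpM : Subgroup G) :=
      IsPGroup.to_sup_of_normal_right P.isPGroup' (isPGroup_OS hcpM)
    have h2 := P.is_maximal' h1 le_sup_left
    rw [← h2]
    exact le_sup_right
  have hQc : OS p M hcpM ≤ Subgroup.center G := by
    have h1 := hMP (Subgroup.centralizer (OS p M hcpM : Set G)) inferInstance (by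
      intro x hx
      rw [Subgroup.mem_centralizer_iff]
      intro y hy
      exact hP y (hQP hy) x hx)
    intro x hx
    rw [Subgroup.mem_center_iff]
    intro g
    have h2 : g ∈ Subgroup.centralizer (OS p M hcpM : Set G) := by rw [h1]; trivial
    exact ((Subgroup.mem_centralizer_iff.1 h2) x hx).symm
  obtain ⟨L, hLn, hLM, hLcop, b, hb⟩ := exists_complement M hcpM hQc
  have hidx : ∃ c, M.index = p ^ c := by
    have h1 : IsPGroup p (G ⧸ M) := by
      intro q
      obtain ⟨x, rfl⟩ := QuotientGroup.mk'_surjective M q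
      refine ⟨a, ?_⟩
      rw [← map_pow]
      change ((x ^ p ^ a : G) : G ⧸ M) = 1
      rw [QuotientGroup.eq_one_iff, hM, MonoidHom.mem_ker, map_pow]
      exact hδ x
    obtain ⟨c, hc⟩ := IsPGroup.iff_card.1 h1
    exact ⟨c, hc⟩
  obtain ⟨c, hc⟩ := hidx
  have hcardG : Nat.card G = Nat.card L * p ^ (b + c) := by
    rw [← M.card_mul_index, hb, hc, pow_add, mul_assoc]
  have hLidx : L.index = p ^ (b + c) := by
    have h1 := L.card_mul_index
    rw [hcardG] at h1
    exact Nat.eq_of_mul_eq_mul_left Nat.card_pos h1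
  letI := Fintype.ofFinite L
  -- elements with central `p`-th power are central
  have key : ∀ y : G, y ^ p ∈ Subgroup.center G → y ∈ Subgroup.center G := by
    intro y hy
    rw [Subgroup.mem_center_iff]
    intro g
    have h1 : y * g * y⁻¹ * g⁻¹ = 1 := by
      apply hfaith
      apply ker_of_constituents hf
      intro ψ hψ hψf
      obtain ⟨e, he⟩ := exists_degree (isCharacter_of_isIrr hψ)
      have hen := degree_le hf hψ hψf hn he
      have he0 : e ≠ 0 := by
        rintro rfl
        apply irr_one_ne_zero hψ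
        rw [he]; simp
      obtain ⟨θ, hθ, hθne⟩ := exists_constituent_restrict L hψ
      obtain ⟨t, ht⟩ := exists_degree (isCharacter_of_isIrr hθ)
      obtain ⟨h2, h3⟩ := H19.CharExt.dvd_index hψ hθ hθne e t he ht
      rw [hLidx] at h3
      obtain ⟨j, -, hj⟩ := (Nat.dvd_prime_pow hp.out).1 h3
      have hj0 : j = 0 := by
        by_contra h0
        have h4 : p ≤ p ^ j := Nat.le_self_pow h0 p
        have h5 : e / t ≤ e := Nat.div_le_self e t
        omega
      rw [hj0, pow_zero] at hj
      have het : e = t := by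
        obtain ⟨s, hs⟩ := h2
        have ht0 : 0 < t := by
          rcases Nat.eq_zero_or_pos t with h | h
          · rw [h, zero_mul] at hs; exact absurd hs he0
          · exact h
        rw [hs, Nat.mul_div_cancel_left s ht0] at hj
        rw [hs, hj, mul_one]
      have hψL : IsIrrCharacter L (fun x : L => ψ x) := by
        have h4 := H82.Const.eq_of_constituent_of_degree
          (isCharacter_restrict L (isCharacter_of_isIrr hψ)) hθ hθne (by
            apply le_of_eq
            have e1 : charDegree (fun x : L => ψ x) = e := H82.Deg.charDegree_eq_of he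
            have e2 : charDegree θ = t := H82.Deg.charDegree_eq_of ht
            rw [e1, e2, het])
        rw [h4]
        exact hθ
      have h4 := norm_eq hp.out L hLcop hcardG hψ hψL he (by omega) hy
      exact H19.Berger.comm_of_scalar (isCharacter_of_isIrr hψ) h4 g
    have h2 : y * g = g * y := by
      have := mul_inv_eq_one.1 h1
      exact mul_inv_eq_iff_eq_mul.1 this
    exact h2.symm
  intro x hx
  obtain ⟨k, hk⟩ := P.isPGroup' ⟨x, hx⟩
  have hxk : x ^ p ^ k = 1 := congrArg Subtype.val hk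
  have hind : ∀ j, x ^ p ^ j ∈ Subgroup.center G → x ∈ Subgroup.center G := by
    intro j
    induction j with
    | zero => intro h; rwa [pow_zero, pow_one] at h
    | succ j ih =>
      intro h
      apply ih
      apply key
      rwa [← pow_mul, ← pow_succ]
  exact hind k (by rw [hxk]; exact Subgroup.one_mem _)

end H19.Ito
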