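import Cfsg.Agent.Lib.H19.Ito3

/-!
# Normal Sylow subgroups of groups with a faithful character of small degree
-/

set_option autoImplicit false
set_option linter.unusedSectionVars false
set_option linter.style.haveILetI false

namespace H19.Ito

open Cfsg H18.CharBasic H18.CharOrtho H18.CharInd H18.CharQuot
open scoped ComplexConjugate

universe u v

variable {G : Type u} [Group G]

theorem centralizer_ne_top {g : G} (hg : g ∉ Subgroup.center G) :
    Subgroup.centralizer ({g} : Set G) ≠ ⊤ := by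
  intro h
  apply hg
  rw [Subgroup.mem_center_iff]
  intro x
  have h1 : x ∈ Subgroup.centralizer ({g} : Set G) := by rw [h]; trivial
  exact Subgroup.mem_centralizer_singleton_iff.1 h1

theorem mem_of_inf_ne_bot {p : ℕ} [hp : Fact p.Prime]
    (hab : ∀ P : Sylow p G, ∀ a ∈ (P : Subgroup G), ∀ b ∈ (P : Subgroup G), a * b = b * a)
    (hcp : ∀ K : Subgroup G, K ≠ ⊤ → CP p K) (P : Sylow p G)
    (hZ : (P : Subgroup G) ⊓ Subgroup.center G = ⊥) {g : G}
    (hctop : Subgroup.centralizer ({g} : Set G) ≠ ⊤) (c : G)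
    (hc : Subgroup.centralizer ({g} : Set G) ⊓
      (P : Subgroup G).map (MulAut.conj c).toMonoidHom ≠ ⊥) (S : Sylow p G)
    (hS : OS p (Subgroup.centralizer ({g} : Set G)) (hcp _ hctop) ≤ S) :
    (P : Subgroup G).map (MulAut.conj c).toMonoidHom = S := by
  have hmap : (P : Subgroup G).map (MulAut.conj c).toMonoidHom =
      ((c • P : Sylow p G) : Subgroup G) := rfl
  obtain ⟨⟨x, hxC, hxP⟩, hx1'⟩ := (Subgroup.ne_bot_iff_exists_ne_one).1 hc
  have hx1 : x ≠ 1 := fun h => hx1' (Subtype.ext h)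
  have hxP' : x ∈ ((c • P : Sylow p G) : Subgroup G) := hmap ▸ hxP
  have hxp : ∃ k : ℕ, x ^ p ^ k = 1 := by
    obtain ⟨k, hk⟩ := (c • P : Sylow p G).isPGroup' ⟨x, hxP'⟩
    exact ⟨k, congrArg Subtype.val hk⟩
  have hxS : x ∈ (S : Subgroup G) := hS ⟨hxC, hxp⟩
  have hxc : x ∉ Subgroup.center G := by
    intro hxc
    obtain ⟨y, hy, hyx⟩ := hxP
    have hyx' : c * y * c⁻¹ = x := hyx
    have h1 : y = x := by
      have h2 : y = c⁻¹ * x * c := by rw [← hyx']; group
      rw [h2, mul_assoc, ← Subgroup.mem_center_iff.1 hxc c]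
      group
    have h2 : x ∈ (P : Subgroup G) ⊓ Subgroup.center G := ⟨h1 ▸ hy, hxc⟩
    rw [hZ, Subgroup.mem_bot] at h2
    exact hx1 h2
  have hD := hcp _ (centralizer_ne_top hxc)
  have h1 : ((c • P : Sylow p G) : Subgroup G) ≤ Subgroup.centralizer ({x} : Set G) := by
    intro y hy
    exact Subgroup.mem_centralizer_singleton_iff.2 (hab (c • P) y hy x hxP')
  have h2 : (S : Subgroup G) ≤ Subgroup.centralizer ({x} : Set G) := by
    intro y hy
    exact Subgroup.mem_centralizer_singleton_iff.2 (hab S y hy x hxS)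
  rw [hmap, sylow_eq_OS hD (c • P) h1, sylow_eq_OS hD S h2]

/-- the non-central case -/
theorem noncentral_case [Fintype G] {p : ℕ} [hp : Fact p.Prime] {f : G → ℂ} (hf : IsCharacter G f)
    (hfaith : ∀ g, f g = f 1 → g = 1) {n : ℕ} (hn : f 1 = n)
    (hab : ∀ P : Sylow p G, ∀ a ∈ (P : Subgroup G), ∀ b ∈ (P : Subgroup G), a * b = b * a)
    (hcp : ∀ K : Subgroup G, K ≠ ⊤ → CP p K) (P : Sylow p G)
    (hMP : ∀ M : Subgroup G, M.Normal → (P : Subgroup G) ≤ M → M = ⊤)
    (hZ : (P : Subgroup G) ⊓ Subgroup.center G = ⊥)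
    (hcard : (n + 1) ^ 2 ≤ Nat.card P) (a b : G) : a * b = b * a := by
  classical
  letI := Fintype.ofFinite (P : Subgroup G)
  apply comm_of_linear hf hfaith
  intro χ hχ hχf
  by_contra hχ1
  obtain ⟨d, hd⟩ := exists_degree (isCharacter_of_isIrr hχ)
  have hdn := degree_le hf hχ hχf hn hd
  have h1 := H19.AbTI.part_b (P : Subgroup G) (hab P) hZ (by
    intro g hg a b ha hb
    have hctop := centralizer_ne_top hg
    obtain ⟨S, hS⟩ := (isPGroup_OS (hcp _ hctop)).exists_le_sylow
    rw [mem_of_inf_ne_bot hab hcp P hZ hctop a ha S hS,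
      mem_of_inf_ne_bot hab hcp P hZ hctop b hb S hS]) hχ hχ1 hMP
  rw [hd, Complex.natCast_re] at h1
  have h2 : ((Nat.card P : ℕ) : ℝ) < ((1 + d) ^ 2 : ℕ) := by
    push_cast
    exact h1
  have h3 : Nat.card P < (1 + d) ^ 2 := by exact_mod_cast h2
  have h4 : (1 + d) ^ 2 ≤ (n + 1) ^ 2 := Nat.pow_le_pow_left (by omega) 2
  omega

/-- the main induction -/
theorem main (m : ℕ) : ∀ (G : Type u) [Group G] [Finite G], Nat.card G = m → ∀ (n : ℕ)
    (f : G → ℂ), IsCharacter G f → (∀ g, f g = f 1 → g = 1) → f 1 = n → ∀ (p : ℕ) [Fact p.Prime],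
    ((n + 1) ^ 2 ≤ p ∨ (n + 1 < p ∧ ∀ K : Subgroup G, ¬ p ^ 2 ∣ Nat.card K → CP p K)) →
    CP p G := by
  classical
  induction m using Nat.strong_induction_on with
  | _ m IH =>
  intro G _ _ hGm n f hf hfaith hn p hp h
  letI := Fintype.ofFinite G
  by_contra hG
  -- proper subgroups
  have hcp : ∀ K : Subgroup G, K ≠ ⊤ → CP p K := by
    intro K hK
    have hlt : Nat.card K < m := by
      rw [← hGm]
      have h1 := K.card_mul_index
      have h2 : K.index ≠ 1 := fun h => hK (Subgroup.index_eq_one.1 h)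
      have h3 : K.index ≠ 0 := Subgroup.index_ne_zero_of_finite
      have h4 : 0 < Nat.card K := Nat.card_pos
      rw [← h1]
      nlinarith [Nat.lt_mul_iff_one_lt_right h4 |>.2 (by omega : 1 < K.index)]
    refine IH _ hlt K rfl n (fun x : K => f x) (isCharacter_restrict K hf) ?_ hn p ?_
    · intro g hg
      exact Subtype.ext (hfaith g hg)
    · rcases h with h | ⟨h1, h2⟩
      · exact Or.inl h
      · refine Or.inr ⟨h1, fun K' hK' => ?_⟩
        let e : K' ≃* K'.map K.subtype := K'.equivMapOfInjective _ (Subgroup.subtype_injective K)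
        have h3 : CP p (K'.map K.subtype) := by
          apply h2
          rwa [Subgroup.card_map_of_injective (Subgroup.subtype_injective K)]
        exact cp_of_injective e.toMonoidHom e.injective h3
  -- degree
  have hn0 : n ≠ 0 := by
    rintro rfl
    apply hG
    have h1 : ∀ g : G, g = 1 := by
      intro g
      apply hfaith
      have h2 := H19.Berger.char_eq_zero hf (by rw [hn]; simp)
      rw [h2]; rfl
    intro x y _ _
    exact ⟨0, h1 _⟩
  have hnp : n + 1 < p := by
    rcases h with h | h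
    · have h1 : 1 ≤ n := Nat.one_le_iff_ne_zero.2 hn0
      have h2 : (n + 1) * 1 < (n + 1) * (n + 1) := Nat.mul_lt_mul_of_pos_left (by omega) (by omega)
      rw [sq] at h
      omega
    · exact h.1
  have hpd : p ∣ Nat.card G := by
    by_contra hnd
    apply hG
    have h1 : ∀ x : G, (∃ k : ℕ, x ^ p ^ k = 1) → x = 1 := by
      rintro x ⟨k, hk⟩
      refine coprime_pow_eq_one (a := p ^ k) (b := Nat.card G) ?_ hk pow_card_eq_one'
      exact (((Nat.Prime.coprime_iff_not_dvd hp.out).2 hnd)).pow_left k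
    intro x y hx hy
    exact ⟨0, by rw [h1 x hx, h1 y hy]; simp⟩
  obtain ⟨P⟩ : Nonempty (Sylow p G) := inferInstance
  have hPn : ¬ (P : Subgroup G).Normal := fun h => hG (cp_of_normal P h)
  have hab : ∀ P : Sylow p G, ∀ a ∈ (P : Subgroup G), ∀ b ∈ (P : Subgroup G), a * b = b * a := by
    intro P a ha b hb
    letI := Fintype.ofFinite (P : Subgroup G)
    have h1 := comm_of_pgroup (G := (P : Subgroup G)) P.isPGroup'
      (isCharacter_restrict (P : Subgroup G) hf)
      (fun g hg => Subtype.ext (hfaith g hg)) (n := n) hn (by omega) ⟨a, ha⟩ ⟨b, hb⟩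
    exact congrArg Subtype.val h1
  have hMP : ∀ M : Subgroup G, M.Normal → (P : Subgroup G) ≤ M → M = ⊤ := by
    intro M hM hPM
    by_contra hMtop
    apply hPn
    have hc := hcp M hMtop
    rw [sylow_eq_OS hc P hPM]
    exact OS_normal hc
  by_cases hZ : (P : Subgroup G) ⊓ Subgroup.center G = ⊥
  · have hcard : (n + 1) ^ 2 ≤ Nat.card P := by
      rcases h with h | ⟨h1, h2⟩
      · refine h.trans (Nat.le_of_dvd Nat.card_pos ?_)
        exact P.dvd_card_of_dvd_card hpd
      · have h3 : p ^ 2 ∣ Nat.card G := by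
          by_contra hnd
          apply hG
          have h4 : CP p (⊤ : Subgroup G) := h2 ⊤ (by rwa [Subgroup.card_top])
          exact cp_of_injective (Subgroup.topEquiv (G := G)).symm.toMonoidHom
            (Subgroup.topEquiv (G := G)).symm.injective h4
        have h4 : p ^ 2 ∣ Nat.card P := P.pow_dvd_card_of_pow_dvd_card h3
        calc (n + 1) ^ 2 ≤ p ^ 2 := Nat.pow_le_pow_left h1.le 2
          _ ≤ _ := Nat.le_of_dvd Nat.card_pos h4
    have hcomm := noncentral_case hf hfaith hn hab hcp P hMP hZ hcard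
    apply hPn
    constructor
    intro x hx g
    rw [hcomm g x, mul_inv_cancel_right]
    exact hx
  · obtain ⟨⟨z, hzP, hzc⟩, hz1'⟩ := (Subgroup.ne_bot_iff_exists_ne_one).1 hZ
    have hz1 : z ≠ 1 := fun h => hz1' (Subtype.ext h)
    have h1 := central_case hf hfaith hn (by omega) P (hab P) hcp hMP hzP hzc hz1
    apply hPn
    constructor
    intro x hx g
    have h2 := Subgroup.mem_center_iff.1 (h1 hx) g
    rw [h2, mul_inv_cancel_right]
    exact hx

/-- S0899 -/
theorem sylow_normal {G : Type u} [Group G] [Finite G] (n : ℕ)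
    (ρ : Representation ℂ G (Fin n → ℂ)) (hρ : Function.Injective ρ) (p : ℕ) [Fact p.Prime]
    (h : (n + 1) ^ 2 ≤ p ∨ (n + 1 < p ∧ ∀ K : Subgroup G, ¬ p ^ 2 ∣ Nat.card K →
      ∀ Q : Sylow p K, (Q : Subgroup K).Normal)) (P : Sylow p G) : (P : Subgroup G).Normal := by
  apply normal_of_cp
  refine main _ G rfl n ρ.character (isCharacter_of_rep ρ) ?_ ?_ p ?_
  · intro g hg
    apply hρ
    rw [map_one]
    exact (rep_eq_one_iff ρ g).1 hg
  · simp
  · rcases h with h | ⟨h1, h2⟩
    · exact Or.inl h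
    · refine Or.inr ⟨h1, fun K hK => ?_⟩
      obtain ⟨Q⟩ : Nonempty (Sylow p K) := inferInstance
      exact cp_of_normal Q (h2 K hK Q)

end H19.Ito
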