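import Mathlib

/-!
Elementary abelian 2-groups generated by the 21 points of a projective plane of order four and a central element: normal
forms and the order.
-/

set_option autoImplicit false
set_option linter.unusedSectionVars false
set_option linter.style.haveILetI false
set_option linter.unusedVariables false

namespace H19.RMod
open Finset

variable {V : Type*} [CommGroup V] [DecidableEq V]

/-- three points not on a line -/
def Trg (L : Set (Finset V)) (x y w : V) : Prop := x ≠ y ∧ ∀ l ∈ L, x ∈ l → y ∈ l → w ∉ l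

/-- the relations of the 21 points of a plane -/
structure Plane (z : V) (F : Finset V) (L : Set (Finset V)) : Prop where
  sq : ∀ v : V, v * v = 1
  z1 : z ≠ 1
  card : F.card = 21
  gen : Subgroup.closure (insert z (F : Set V)) = ⊤
  lsub : ∀ l ∈ L, l ⊆ F
  lcard : ∀ l ∈ L, l.card = 5
  lrel : ∀ l ∈ L, ∏ x ∈ l, x = z
  ex : ∀ x ∈ F, ∀ y ∈ F, x ≠ y → ∃ l ∈ L, x ∈ l ∧ y ∈ l
  uq : ∀ x ∈ F, ∀ y ∈ F, x ≠ y → ∀ l ∈ L, ∀ l' ∈ L, x ∈ l → y ∈ l → x ∈ l' → y ∈ l' → l = l'
  rel : ∀ s ⊆ F, s.card ≤ 5 → (∏ x ∈ s, x = 1 ∨ ∏ x ∈ s, x = z) → s = ∅ ∨ s ∈ L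
  hyp : ∀ x ∈ F, ∀ y ∈ F, ∀ w ∈ F, Trg L x y w → ∃ h : Fin 3 → Finset V,
    (∀ c, h c ⊆ F ∧ (h c).card = 6 ∧ x ∈ h c ∧ y ∈ h c ∧ w ∈ h c ∧ (∏ u ∈ h c, u = 1 ∨ ∏ u ∈ h c, u = z)) ∧
    ∀ c c', c ≠ c' → ∀ u ∈ h c, u ∈ h c' → u = x ∨ u = y ∨ u = w

/-- relations -/
def Rl (z : V) (F : Finset V) (s : Finset V) : Prop := s ⊆ F ∧ (∏ x ∈ s, x = 1 ∨ ∏ x ∈ s, x = z)

theorem prod_symmDiff (hsq : ∀ v : V, v * v = 1) (s t : Finset V) :
    (∏ x ∈ s, x) * (∏ x ∈ t, x) = ∏ x ∈ symmDiff s t, x := by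
  rw [← Finset.sdiff_union_inter s t, Finset.prod_union (Finset.disjoint_sdiff_inter s t)]
  have h1 : ∏ x ∈ t, x = (∏ x ∈ t \ s, x) * ∏ x ∈ s ∩ t, x := by
    rw [← Finset.prod_union]
    · rw [Finset.inter_comm, Finset.sdiff_union_inter]
    · rw [Finset.inter_comm]; exact Finset.disjoint_sdiff_inter t s
  rw [h1, Finset.sdiff_union_inter]
  have h2 : symmDiff s t = (s \ t) ∪ (t \ s) := rfl
  rw [h2, Finset.prod_union]
  · calc (∏ x ∈ s \ t, x) * (∏ x ∈ s ∩ t, x) * ((∏ x ∈ t \ s, x) * ∏ x ∈ s ∩ t, x)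
        = ((∏ x ∈ s \ t, x) * (∏ x ∈ t \ s, x)) * ((∏ x ∈ s ∩ t, x) * ∏ x ∈ s ∩ t, x) := by
          rw [mul_mul_mul_comm]
      _ = _ := by rw [hsq, mul_one]
  · exact disjoint_sdiff_sdiff

theorem card_symmDiff (s t : Finset V) : (symmDiff s t).card + 2 * (s ∩ t).card = s.card + t.card := by
  have h2 : symmDiff s t = (s \ t) ∪ (t \ s) := rfl
  rw [h2, Finset.card_union_of_disjoint disjoint_sdiff_sdiff]
  have h3 := Finset.card_sdiff_add_card_inter s t
  have h4 := Finset.card_sdiff_add_card_inter t s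
  rw [Finset.inter_comm t s] at h4
  omega

variable {z : V} {F : Finset V} {L : Set (Finset V)} (P : Plane z F L)
include P

theorem Plane.zz : z * z = 1 := P.sq z

theorem Plane.rl_symm {s t : Finset V} (hs : Rl z F s) (ht : Rl z F t) : Rl z F (symmDiff s t) := by
  refine ⟨?_, ?_⟩
  · intro x hx
    rw [Finset.mem_symmDiff] at hx
    rcases hx with hx | hx
    · exact hs.1 hx.1
    · exact ht.1 hx.1
  · rw [← prod_symmDiff P.sq]
    rcases hs.2 with h1 | h1 <;> rcases ht.2 with h2 | h2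
    · left; rw [h1, h2, mul_one]
    · right; rw [h1, h2, one_mul]
    · right; rw [h1, h2, mul_one]
    · left; rw [h1, h2, P.sq]

theorem Plane.rl_line {l : Finset V} (hl : l ∈ L) : Rl z F l := ⟨P.lsub l hl, Or.inr (P.lrel l hl)⟩

theorem Plane.rl_small {s : Finset V} (hs : Rl z F s) (h : s.card ≤ 5) : s = ∅ ∨ s ∈ L := P.rel s hs.1 h hs.2

/-- symmetric forms of triangles -/
theorem Plane.trg_ne {x y w : V} (hx : x ∈ F) (hy : y ∈ F) (h : Trg L x y w) : w ≠ x ∧ w ≠ y := by
  obtain ⟨l, hl, hxl, hyl⟩ := P.ex x hx y hy h.1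
  have := h.2 l hl hxl hyl
  exact ⟨fun e => this (by rw [e]; exact hxl), fun e => this (by rw [e]; exact hyl)⟩

theorem Plane.trg_swap {x y w : V} (h : Trg L x y w) : Trg L y x w := ⟨h.1.symm, fun l hl h1 h2 => h.2 l hl h2 h1⟩

theorem Plane.trg_rot {x y w : V} (hx : x ∈ F) (hy : y ∈ F) (hw : w ∈ F) (h : Trg L x y w) : Trg L y w x := by
  have hne := P.trg_ne hx hy h
  exact ⟨hne.2.symm, fun l hl h1 h2 h3 => h.2 l hl h3 h1 h2⟩

/-- not a triangle: on a line -/
theorem Plane.not_trg {x y w : V} (hxy : x ≠ y) (h : ¬ Trg L x y w) : ∃ l ∈ L, x ∈ l ∧ y ∈ l ∧ w ∈ l := by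
  by_contra hno
  apply h
  refine ⟨hxy, fun l hl h1 h2 h3 => hno ⟨l, hl, h1, h2, h3⟩⟩

/-- a hyperoval through a triangle has no further point on a side -/
theorem Plane.hyp_side {x y w u : V} (hx : x ∈ F) (hy : y ∈ F) (hw : w ∈ F) (h : Trg L x y w) {s : Finset V} (hs : Rl z F s)
    (hc : s.card = 6) (hxs : x ∈ s) (hys : y ∈ s) (hws : w ∈ s) (hus : u ∈ s) (hux : u ≠ x) (huy : u ≠ y) : Trg L x y u := by
  refine ⟨h.1, fun l hl h1 h2 h3 => ?_⟩
  have hwl := h.2 l hl h1 h2
  have hsub : ({x, y, u} : Finset V) ⊆ s ∩ l := by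
    intro a ha
    simp only [Finset.mem_insert, Finset.mem_singleton] at ha
    rw [Finset.mem_inter]
    rcases ha with rfl | rfl | rfl
    · exact ⟨hxs, h1⟩
    · exact ⟨hys, h2⟩
    · exact ⟨hus, h3⟩
  have h3' : 3 ≤ (s ∩ l).card := by
    have := Finset.card_le_card hsub
    rw [Finset.card_eq_three.2 ⟨x, y, u, h.1, hux.symm, huy.symm, rfl⟩] at this
    exact this
  have hcs := card_symmDiff s l
  rw [hc, P.lcard l hl] at hcs
  rcases P.rl_small (P.rl_symm hs (P.rl_line hl)) (by omega) with h4 | h4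
  · rw [h4, Finset.card_empty] at hcs; omega
  · have h5 := P.lcard _ h4
    have h6 : (s ∩ l).card = 3 := by omega
    -- the two other points of l lie in the symmetric difference
    have h7 : (l \ s).card = 2 := by
      have := Finset.card_sdiff_add_card_inter l s
      rw [Finset.inter_comm, P.lcard l hl, h6] at this
      omega
    obtain ⟨a, b, hab, h8⟩ := Finset.card_eq_two.1 h7
    have ha : a ∈ l \ s := by rw [h8]; simp
    have hb : b ∈ l \ s := by rw [h8]; simp
    rw [Finset.mem_sdiff] at ha hb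
    have e := P.uq a (P.lsub l hl ha.1) b (P.lsub l hl hb.1) hab l hl _ h4 ha.1 hb.1
      (by rw [Finset.mem_symmDiff]; exact Or.inr ⟨ha.1, ha.2⟩) (by rw [Finset.mem_symmDiff]; exact Or.inr ⟨hb.1, hb.2⟩)
    have h9 : w ∈ symmDiff s l := by rw [Finset.mem_symmDiff]; exact Or.inl ⟨hws, hwl⟩
    rw [← e] at h9
    exact hwl h9

/-- every point is on a side or on one of the three hyperovals -/
theorem Plane.cover {x y w : V} (hx : x ∈ F) (hy : y ∈ F) (hw : w ∈ F) (h : Trg L x y w) (u : V) (hu : u ∈ F) :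
    (∃ l ∈ L, u ∈ l ∧ ((x ∈ l ∧ y ∈ l) ∨ (y ∈ l ∧ w ∈ l) ∨ (w ∈ l ∧ x ∈ l))) ∨
    ∃ s, Rl z F s ∧ s.card = 6 ∧ x ∈ s ∧ y ∈ s ∧ w ∈ s ∧ u ∈ s := by
  obtain ⟨hs, h1, h2⟩ := P.hyp x hx y hy w hw h
  obtain ⟨l1, hl1, a1, b1⟩ := P.ex x hx y hy h.1
  have hne := P.trg_ne hx hy h
  obtain ⟨l2, hl2, a2, b2⟩ := P.ex y hy w hw hne.2.symm
  obtain ⟨l3, hl3, a3, b3⟩ := P.ex w hw x hx hne.1
  have t2 := P.trg_rot hx hy hw h
  have t3 := P.trg_rot hy hw hx t2
  by_contra hno
  push Not at hno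
  obtain ⟨n1, n2⟩ := hno
  -- the union has 21 elements
  have hd12 : ∀ v ∈ l1, v ∈ l2 → v = y := by
    intro v hv1 hv2
    by_contra hvy
    have := P.uq v (P.lsub l1 hl1 hv1) y hy hvy l1 hl1 l2 hl2 hv1 b1 hv2 a2
    exact h.2 l1 hl1 a1 b1 (by rw [this]; exact b2)
  have hd23 : ∀ v ∈ l2, v ∈ l3 → v = w := by
    intro v hv1 hv2
    by_contra hvy
    have := P.uq v (P.lsub l2 hl2 hv1) w hw hvy l2 hl2 l3 hl3 hv1 b2 hv2 a3
    exact t2.2 l2 hl2 a2 b2 (by rw [this]; exact b3)
  have hd31 : ∀ v ∈ l3, v ∈ l1 → v = x := by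
    intro v hv1 hv2
    by_contra hvy
    have := P.uq v (P.lsub l3 hl3 hv1) x hx hvy l3 hl3 l1 hl1 hv1 b3 hv2 a1
    exact t3.2 l3 hl3 a3 b3 (by rw [this]; exact b1)
  set T : Finset V := {x, y, w} with hT
  have hTc : T.card = 3 := Finset.card_eq_three.2 ⟨x, y, w, h.1, hne.1.symm, hne.2.symm, rfl⟩
  have hm : ∀ v, v ∈ T ↔ v = x ∨ v = y ∨ v = w := by intro v; simp [hT]
  -- side remainders
  have hr : ∀ l ∈ L, ∀ a ∈ l, ∀ b ∈ l, a ≠ b → (∀ v ∈ T, v ∈ l → v = a ∨ v = b) → (l \ T).card ≥ 3 := by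
    intro l hl a ha b hb hab hv
    have h3 := Finset.card_sdiff_add_card_inter l T
    have h4 : (l ∩ T).card ≤ 2 := by
      have : l ∩ T ⊆ {a, b} := by
        intro v hv'
        rw [Finset.mem_inter] at hv'
        rcases hv v hv'.2 hv'.1 with h5 | h5 <;> simp [h5]
      exact (Finset.card_le_card this).trans Finset.card_le_two
    rw [P.lcard l hl] at h3
    omega
  have c1 : (l1 \ T).card ≥ 3 := hr l1 hl1 x a1 y b1 h.1 (by
    intro v hv hvl
    rcases (hm v).1 hv with h3 | h3 | h3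
    · exact Or.inl h3
    · exact Or.inr h3
    · exact absurd (h3 ▸ hvl) (h.2 l1 hl1 a1 b1))
  have c2 : (l2 \ T).card ≥ 3 := hr l2 hl2 y a2 w b2 hne.2.symm (by
    intro v hv hvl
    rcases (hm v).1 hv with h3 | h3 | h3
    · exact absurd (h3 ▸ hvl) (t2.2 l2 hl2 a2 b2)
    · exact Or.inl h3
    · exact Or.inr h3)
  have c3 : (l3 \ T).card ≥ 3 := hr l3 hl3 w a3 x b3 hne.1 (by
    intro v hv hvl
    rcases (hm v).1 hv with h3 | h3 | h3
    · exact Or.inr h3
    · exact absurd (h3 ▸ hvl) (t3.2 l3 hl3 a3 b3)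
    · exact Or.inl h3)
  have hrl : ∀ c, Rl z F (hs c) := fun c => ⟨(h1 c).1, (h1 c).2.2.2.2.2⟩
  have d : ∀ c, (hs c \ T).card = 3 := by
    intro c
    have h3 : T ⊆ hs c := by
      intro v hv
      rcases (hm v).1 hv with h3 | h3 | h3
      · rw [h3]; exact (h1 c).2.2.1
      · rw [h3]; exact (h1 c).2.2.2.1
      · rw [h3]; exact (h1 c).2.2.2.2.1
    rw [Finset.card_sdiff_of_subset h3, hTc, (h1 c).2.1]
  have hside : ∀ c, ∀ v ∈ hs c \ T, v ∉ l1 ∧ v ∉ l2 ∧ v ∉ l3 := by
    intro c v hv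
    rw [Finset.mem_sdiff, hm] at hv
    push Not at hv
    obtain ⟨hv, e1, e2, e3⟩ := hv
    refine ⟨?_, ?_, ?_⟩
    · exact (P.hyp_side hx hy hw h (hrl c) (h1 c).2.1 (h1 c).2.2.1 (h1 c).2.2.2.1 (h1 c).2.2.2.2.1 hv e1 e2).2 l1 hl1 a1 b1
    · exact (P.hyp_side hy hw hx t2 (hrl c) (h1 c).2.1 (h1 c).2.2.2.1 (h1 c).2.2.2.2.1 (h1 c).2.2.1 hv e2 e3).2 l2 hl2 a2 b2
    · exact (P.hyp_side hw hx hy t3 (hrl c) (h1 c).2.1 (h1 c).2.2.2.2.1 (h1 c).2.2.1 (h1 c).2.2.2.1 hv e3 e1).2 l3 hl3 a3 b3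
  -- disjointness
  have q12 : Disjoint (l1 \ T) (l2 \ T) := by
    rw [Finset.disjoint_left]; intro v hv hv'
    rw [Finset.mem_sdiff] at hv hv'
    exact hv.2 ((hm v).2 (Or.inr (Or.inl (hd12 v hv.1 hv'.1))))
  have q23 : Disjoint (l2 \ T) (l3 \ T) := by
    rw [Finset.disjoint_left]; intro v hv hv'
    rw [Finset.mem_sdiff] at hv hv'
    exact hv.2 ((hm v).2 (Or.inr (Or.inr (hd23 v hv.1 hv'.1))))
  have q31 : Disjoint (l1 \ T) (l3 \ T) := by
    rw [Finset.disjoint_left]; intro v hv hv'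
    rw [Finset.mem_sdiff] at hv hv'
    exact hv.2 ((hm v).2 (Or.inl (hd31 v hv'.1 hv.1)))
  have qh : ∀ c c', c ≠ c' → Disjoint (hs c \ T) (hs c' \ T) := by
    intro c c' hcc
    rw [Finset.disjoint_left]; intro v hv hv'
    rw [Finset.mem_sdiff] at hv hv'
    exact hv.2 ((hm v).2 (h2 c c' hcc v hv.1 hv'.1))
  have qs : ∀ c, Disjoint ((l1 \ T) ∪ (l2 \ T) ∪ (l3 \ T)) (hs c \ T) := by
    intro c
    rw [Finset.disjoint_left]; intro v hv hv'
    obtain ⟨g1, g2, g3⟩ := hside c v hv'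
    rw [Finset.mem_union, Finset.mem_union, Finset.mem_sdiff, Finset.mem_sdiff, Finset.mem_sdiff] at hv
    rcases hv with (hv | hv) | hv
    · exact g1 hv.1
    · exact g2 hv.1
    · exact g3 hv.1
  set A := (l1 \ T) ∪ (l2 \ T) ∪ (l3 \ T) with hA
  have hAc : 9 ≤ A.card := by
    rw [hA, Finset.card_union_of_disjoint (by
      rw [Finset.disjoint_union_left]; exact ⟨q31, q23⟩), Finset.card_union_of_disjoint q12]
    omega
  set Bq := (hs 0 \ T) ∪ (hs 1 \ T) ∪ (hs 2 \ T) with hB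
  have hBc : Bq.card = 9 := by
    rw [hB, Finset.card_union_of_disjoint (by
      rw [Finset.disjoint_union_left]; exact ⟨qh 0 2 (by decide), qh 1 2 (by decide)⟩),
      Finset.card_union_of_disjoint (qh 0 1 (by decide)), d, d, d]
  have hAB : Disjoint A Bq := by
    rw [hB, Finset.disjoint_union_right, Finset.disjoint_union_right]
    exact ⟨⟨qs 0, qs 1⟩, qs 2⟩
  have hTA : Disjoint T (A ∪ Bq) := by
    rw [Finset.disjoint_left]
    intro v hv hv'
    rw [Finset.mem_union, hA, hB] at hv'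
    simp only [Finset.mem_union, Finset.mem_sdiff] at hv'
    tauto
  have hsubF : T ∪ (A ∪ Bq) ⊆ F := by
    intro v hv
    rw [Finset.mem_union, Finset.mem_union, hA, hB] at hv
    simp only [Finset.mem_union, Finset.mem_sdiff] at hv
    rcases hv with hv | ((hv | hv) | hv) | ((hv | hv) | hv)
    · rcases (hm v).1 hv with h3 | h3 | h3 <;> rw [h3] <;> assumption
    · exact P.lsub l1 hl1 hv.1
    · exact P.lsub l2 hl2 hv.1
    · exact P.lsub l3 hl3 hv.1
    · exact (h1 _).1 hv.1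
    · exact (h1 _).1 hv.1
    · exact (h1 _).1 hv.1
  have heq : T ∪ (A ∪ Bq) = F := by
    apply Finset.eq_of_subset_of_card_le hsubF
    rw [Finset.card_union_of_disjoint hTA, Finset.card_union_of_disjoint hAB, hTc, hBc, P.card]
    omega
  rw [← heq] at hu
  rw [Finset.mem_union, Finset.mem_union, hA, hB] at hu
  simp only [Finset.mem_union, Finset.mem_sdiff] at hu
  rcases hu with hv | ((hv | hv) | hv) | ((hv | hv) | hv)
  · rcases (hm u).1 hv with h3 | h3 | h3
    · exact n1 l1 hl1 (by rw [h3]; exact a1) |>.1 a1 b1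
    · exact n1 l1 hl1 (by rw [h3]; exact b1) |>.1 a1 b1
    · exact (n1 l2 hl2 (by rw [h3]; exact b2)).2.1 a2 b2
  · exact (n1 l1 hl1 hv.1).1 a1 b1
  · exact (n1 l2 hl2 hv.1).2.1 a2 b2
  · exact (n1 l3 hl3 hv.1).2.2 a3 b3
  · exact n2 (hs 0) (hrl 0) (h1 0).2.1 (h1 0).2.2.1 (h1 0).2.2.2.1 (h1 0).2.2.2.2.1 hv.1
  · exact n2 (hs 1) (hrl 1) (h1 1).2.1 (h1 1).2.2.1 (h1 1).2.2.2.1 (h1 1).2.2.2.2.1 hv.1
  · exact n2 (hs 2) (hrl 2) (h1 2).2.1 (h1 2).2.2.1 (h1 2).2.2.2.1 (h1 2).2.2.2.2.1 hv.1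

/-- equality up to `z` -/
def Eqz (z a b : V) : Prop := a = b ∨ a = b * z

omit P in
theorem Eqz.refl' (a : V) : Eqz z a a := Or.inl rfl

theorem Plane.eqz_symm {a b : V} (h : Eqz z a b) : Eqz z b a := by
  rcases h with h | h
  · exact Or.inl h.symm
  · right; rw [h, mul_assoc, P.zz, mul_one]

theorem Plane.eqz_trans {a b c : V} (h : Eqz z a b) (h' : Eqz z b c) : Eqz z a c := by
  rcases h with h | h <;> rcases h' with h' | h'
  · left; rw [h, h']
  · right; rw [h, h']
  · right; rw [h, h']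
  · left; rw [h, h', mul_assoc, P.zz, mul_one]

theorem Plane.eqz_mul {a b : V} (c : V) (h : Eqz z a b) : Eqz z (c * a) (c * b) := by
  rcases h with h | h
  · left; rw [h]
  · right; rw [h, mul_assoc]

theorem Plane.mod_rel (s : Finset V) {r : Finset V} (hr : Rl z F r) : Eqz z (∏ x ∈ s, x) (∏ x ∈ symmDiff s r, x) := by
  rw [← prod_symmDiff P.sq]
  rcases hr.2 with h | h
  · left; rw [h, mul_one]
  · right; rw [h, mul_assoc, P.zz, mul_one]

theorem Plane.rl_of_eqz {s t : Finset V} (hs : s ⊆ F) (ht : t ⊆ F) (h : Eqz z (∏ x ∈ s, x) (∏ x ∈ t, x)) : Rl z F (symmDiff s t) := by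
  refine ⟨?_, ?_⟩
  · intro x hx
    rw [Finset.mem_symmDiff] at hx
    rcases hx with hx | hx
    · exact hs hx.1
    · exact ht hx.1
  · rw [← prod_symmDiff P.sq]
    rcases h with h | h
    · left; rw [h, P.sq]
    · right; rw [h, mul_assoc, mul_comm z, ← mul_assoc, P.sq, one_mul]

/-- triangles as sets -/
def Tset (F : Finset V) (L : Set (Finset V)) (s : Finset V) : Prop := ∃ x ∈ F, ∃ y ∈ F, ∃ w ∈ F, Trg L x y w ∧ s = {x, y, w}

theorem Plane.tset_card {s : Finset V} (h : Tset F L s) : s.card = 3 := by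
  obtain ⟨x, hx, y, hy, w, hw, h1, rfl⟩ := h
  have hne := P.trg_ne hx hy h1
  exact Finset.card_eq_three.2 ⟨x, y, w, h1.1, hne.1.symm, hne.2.symm, rfl⟩

theorem Plane.tset_sub {s : Finset V} (h : Tset F L s) : s ⊆ F := by
  obtain ⟨x, hx, y, hy, w, hw, h1, rfl⟩ := h
  intro v hv
  simp only [Finset.mem_insert, Finset.mem_singleton] at hv
  rcases hv with rfl | rfl | rfl <;> assumption

theorem Plane.tset_not_line {s l : Finset V} (h : Tset F L s) (hl : l ∈ L) : ¬ s ⊆ l := by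
  obtain ⟨x, hx, y, hy, w, hw, h1, rfl⟩ := h
  intro hsub
  exact h1.2 l hl (hsub (by simp)) (hsub (by simp)) (hsub (by simp))

/-- normal form -/
def Good (F : Finset V) (L : Set (Finset V)) (s : Finset V) : Prop := (s ⊆ F ∧ s.card ≤ 2) ∨ Tset F L s

theorem Plane.good_sub {s : Finset V} (h : Good F L s) : s ⊆ F := by
  rcases h with h | h
  · exact h.1
  · exact P.tset_sub h

theorem Plane.normal_form (v : V) : ∃ s, Good F L s ∧ Eqz z v (∏ x ∈ s, x) := by
  have hzN : ∀ v, (∃ s, Good F L s ∧ Eqz z v (∏ x ∈ s, x)) → ∃ s, Good F L s ∧ Eqz z (z * v) (∏ x ∈ s, x) := by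
    rintro v ⟨s, h1, h2⟩
    refine ⟨s, h1, ?_⟩
    apply P.eqz_trans _ h2
    right; rw [mul_comm]
  -- products over small sets
  have key2 : ∀ s ⊆ F, s.card ≤ 2 → ∀ x ∈ F, ∃ t, Good F L t ∧ Eqz z (x * ∏ u ∈ s, u) (∏ u ∈ t, u) := by
    intro s hs hc x hx
    have e : x * ∏ u ∈ s, u = ∏ u ∈ symmDiff {x} s, u := by
      rw [← prod_symmDiff P.sq, Finset.prod_singleton]
    rw [e]
    have hcs := card_symmDiff {x} s
    rw [Finset.card_singleton] at hcs
    have hsub : symmDiff {x} s ⊆ F := by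
      intro u hu
      rw [Finset.mem_symmDiff, Finset.mem_singleton] at hu
      rcases hu with ⟨rfl, _⟩ | ⟨hu, _⟩
      · exact hx
      · exact hs hu
    by_cases h2 : (symmDiff {x} s).card ≤ 2
    · exact ⟨_, Or.inl ⟨hsub, h2⟩, Or.inl rfl⟩
    · have h3 : (symmDiff {x} s).card = 3 := by omega
      obtain ⟨a, b, c, hab, hac, hbc, he⟩ := Finset.card_eq_three.1 h3
      rw [he] at hsub ⊢
      have ha : a ∈ F := hsub (by simp)
      have hb : b ∈ F := hsub (by simp)
      have hcF : c ∈ F := hsub (by simp)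
      by_cases ht : Trg L a b c
      · exact ⟨_, Or.inr ⟨a, ha, b, hb, c, hcF, ht, rfl⟩, Or.inl rfl⟩
      · obtain ⟨l, hl, h5, h6, h7⟩ := P.not_trg hab ht
        refine ⟨symmDiff {a, b, c} l, Or.inl ?_, P.mod_rel _ (P.rl_line hl)⟩
        have hsub' : ({a, b, c} : Finset V) ⊆ l := by
          intro u hu
          simp only [Finset.mem_insert, Finset.mem_singleton] at hu
          rcases hu with rfl | rfl | rfl <;> assumption
        refine ⟨?_, ?_⟩
        · intro u hu
          rw [Finset.mem_symmDiff] at hu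
          rcases hu with hu | hu
          · exact hsub hu.1
          · exact P.lsub l hl hu.1
        · have h8 := card_symmDiff {a, b, c} l
          rw [Finset.inter_eq_left.2 hsub', Finset.card_eq_three.2 ⟨a, b, c, hab, hac, hbc, rfl⟩, P.lcard l hl] at h8
          omega
  have key3 : ∀ s, Tset F L s → ∀ x ∈ F, ∃ t, Good F L t ∧ Eqz z (x * ∏ u ∈ s, u) (∏ u ∈ t, u) := by
    intro s hs x hx
    have hs3 := P.tset_card hs
    have hsF := P.tset_sub hs
    have e : x * ∏ u ∈ s, u = ∏ u ∈ symmDiff {x} s, u := by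
      rw [← prod_symmDiff P.sq, Finset.prod_singleton]
    rw [e]
    have hsub : symmDiff {x} s ⊆ F := by
      intro u hu
      rw [Finset.mem_symmDiff, Finset.mem_singleton] at hu
      rcases hu with ⟨rfl, _⟩ | ⟨hu, _⟩
      · exact hx
      · exact hsF hu
    have hcs := card_symmDiff {x} s
    rw [Finset.card_singleton, hs3] at hcs
    by_cases hxs : x ∈ s
    · have : ({x} ∩ s).card = 1 := by
        rw [Finset.inter_eq_left.2 (by simpa using hxs), Finset.card_singleton]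
      exact ⟨_, Or.inl ⟨hsub, by omega⟩, Or.inl rfl⟩
    have hdis : ({x} ∩ s : Finset V) = ∅ := by
      rw [Finset.singleton_inter_of_notMem hxs]
    rw [hdis, Finset.card_empty] at hcs
    have hsd : symmDiff {x} s = insert x s := by
      ext u
      simp only [Finset.mem_symmDiff, Finset.mem_singleton, Finset.mem_insert]
      constructor
      · rintro (⟨h, _⟩ | ⟨h, _⟩)
        · exact Or.inl h
        · exact Or.inr h
      · rintro (h | h)
        · exact Or.inl ⟨h, by rw [h]; exact hxs⟩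
        · exact Or.inr ⟨h, by rintro rfl; exact hxs h⟩
    -- the case of a side
    have hsidecase : ∀ a ∈ F, ∀ b ∈ F, ∀ c ∈ F, Trg L a b c → s = {a, b, c} → ∀ l ∈ L, x ∈ l → a ∈ l → b ∈ l →
        ∃ t, Good F L t ∧ Eqz z (∏ u ∈ symmDiff {x} s, u) (∏ u ∈ t, u) := by
      intro a ha b hb c hc habc hs l hl hxl hal hbl
      have hcl := habc.2 l hl hal hbl
      have hxa : x ≠ a := by rintro rfl; exact hxs (by rw [hs]; simp)
      have hxb : x ≠ b := by rintro rfl; exact hxs (by rw [hs]; simp)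
      have h7 : (l \ {x, a, b}).card = 2 := by
        rw [Finset.card_sdiff_of_subset (by
          intro u hu
          simp only [Finset.mem_insert, Finset.mem_singleton] at hu
          rcases hu with rfl | rfl | rfl <;> assumption), P.lcard l hl,
          Finset.card_eq_three.2 ⟨x, a, b, hxa, hxb, habc.1, rfl⟩]
      obtain ⟨p, q, hpq, h8⟩ := Finset.card_eq_two.1 h7
      have hp : p ∈ l \ {x, a, b} := by rw [h8]; simp
      have hq : q ∈ l \ {x, a, b} := by rw [h8]; simp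
      rw [Finset.mem_sdiff] at hp hq
      have e2 : symmDiff (symmDiff {x} s) l = {p, q, c} := by
        rw [hsd, hs]
        ext u
        have h9 : u ∈ l \ {x, a, b} ↔ u ∈ ({p, q} : Finset V) := by rw [h8]
        simp only [Finset.mem_sdiff, Finset.mem_insert, Finset.mem_singleton] at h9
        simp only [Finset.mem_symmDiff, Finset.mem_insert, Finset.mem_singleton]
        constructor
        · rintro (⟨h, h'⟩ | ⟨h, h'⟩)
          · rcases h with rfl | rfl | rfl | rfl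
            · exact absurd hxl h'
            · exact absurd hal h'
            · exact absurd hbl h'
            · exact Or.inr (Or.inr rfl)
          · have := h9.1 ⟨h, by tauto⟩
            tauto
        · rintro (h | h | h)
          · have := h9.2 (Or.inl h)
            refine Or.inr ⟨this.1, ?_⟩
            rintro (h' | h' | h' | h')
            · exact this.2 (Or.inl h')
            · exact this.2 (Or.inr (Or.inl h'))
            · exact this.2 (Or.inr (Or.inr h'))
            · exact hcl (h' ▸ this.1)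
          · have := h9.2 (Or.inr h)
            refine Or.inr ⟨this.1, ?_⟩
            rintro (h' | h' | h' | h')
            · exact this.2 (Or.inl h')
            · exact this.2 (Or.inr (Or.inl h'))
            · exact this.2 (Or.inr (Or.inr h'))
            · exact hcl (h' ▸ this.1)
          · exact Or.inl ⟨by tauto, by rw [h]; exact hcl⟩
      refine ⟨{p, q, c}, Or.inr ⟨p, P.lsub l hl hp.1, q, P.lsub l hl hq.1, c, hc, ⟨hpq, ?_⟩, rfl⟩, ?_⟩
      · intro l' hl' h1 h2
        have := P.uq p (P.lsub l hl hp.1) q (P.lsub l hl hq.1) hpq l hl l' hl' hp.1 hq.1 h1 h2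
        rw [← this]; exact hcl
      · rw [← e2]
        exact P.mod_rel _ (P.rl_line hl)
    obtain ⟨a, ha, b, hb, c, hc, habc, hs'⟩ := hs
    have t2 := P.trg_rot ha hb hc habc
    have t3 := P.trg_rot hb hc ha t2
    rcases P.cover ha hb hc habc x hx with ⟨l, hl, hxl, h1 | h1 | h1⟩ | ⟨r, hr, hrc, har, hbr, hcr, hxr⟩
    · exact hsidecase a ha b hb c hc habc hs' l hl hxl h1.1 h1.2
    · exact hsidecase b hb c hc a ha t2 (by rw [hs']; ext u; simp; tauto) l hl hxl h1.1 h1.2
    · exact hsidecase c hc a ha b hb t3 (by rw [hs']; ext u; simp; tauto) l hl hxl h1.1 h1.2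
    · refine ⟨symmDiff (symmDiff {x} s) r, Or.inl ?_, P.mod_rel _ hr⟩
      have hsub' : symmDiff {x} s ⊆ r := by
        rw [hsd, hs']
        intro u hu
        simp only [Finset.mem_insert, Finset.mem_singleton] at hu
        rcases hu with rfl | rfl | rfl | rfl <;> assumption
      refine ⟨?_, ?_⟩
      · intro u hu
        rw [Finset.mem_symmDiff] at hu
        rcases hu with hu | hu
        · exact hsub hu.1
        · exact hr.1 hu.1
      · have h8 := card_symmDiff (symmDiff {x} s) r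
        rw [Finset.inter_eq_left.2 hsub', hrc] at h8
        omega
  have hmulN : ∀ x ∈ F, ∀ v, (∃ s, Good F L s ∧ Eqz z v (∏ x ∈ s, x)) → ∃ s, Good F L s ∧ Eqz z (x * v) (∏ x ∈ s, x) := by
    rintro x hx v ⟨s, h1, h2⟩
    have h3 : ∃ t, Good F L t ∧ Eqz z (x * ∏ u ∈ s, u) (∏ u ∈ t, u) := by
      rcases h1 with h1 | h1
      · exact key2 s h1.1 h1.2 x hx
      · exact key3 s h1 x hx
    obtain ⟨t, h4, h5⟩ := h3
    exact ⟨t, h4, P.eqz_trans (P.eqz_mul x h2) h5⟩
  have hv : v ∈ Subgroup.closure (insert z (F : Set V)) := by rw [P.gen]; trivial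
  have hinv : ∀ x : V, x⁻¹ = x := fun x => inv_eq_of_mul_eq_one_left (P.sq x)
  induction hv using Subgroup.closure_induction_left with
  | one => exact ⟨∅, Or.inl ⟨Finset.empty_subset _, by simp⟩, Or.inl (by simp)⟩
  | mul_left x hx y hy ih =>
    rcases Set.mem_insert_iff.1 hx with rfl | hx
    · exact hzN y ih
    · exact hmulN x hx y ih
  | inv_mul_cancel x hx y hy ih =>
    rw [hinv]
    rcases Set.mem_insert_iff.1 hx with rfl | hx
    · exact hzN y ih
    · exact hmulN x hx y ih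

/-- uniqueness for short products -/
theorem Plane.uniq_small {s t : Finset V} (hs : s ⊆ F) (ht : t ⊆ F) (hc : s.card + t.card ≤ 4 + 2 * (s ∩ t).card)
    (h : Eqz z (∏ x ∈ s, x) (∏ x ∈ t, x)) : s = t := by
  have h1 := P.rl_of_eqz hs ht h
  have h2 := card_symmDiff s t
  rcases P.rl_small h1 (by omega) with h3 | h3
  · exact symmDiff_eq_bot.1 h3
  · have := P.lcard _ h3
    omega

theorem Plane.uniq_two_three {s t : Finset V} (hs : s ⊆ F) (hs2 : s.card ≤ 2) (ht : Tset F L t)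
    (h : Eqz z (∏ x ∈ s, x) (∏ x ∈ t, x)) : False := by
  have h1 := P.rl_of_eqz hs (P.tset_sub ht) h
  have h2 := card_symmDiff s t
  have h3 := P.tset_card ht
  rcases P.rl_small h1 (by omega) with h4 | h4
  · have := symmDiff_eq_bot.1 h4
    rw [this] at hs2; omega
  · have h5 := P.lcard _ h4
    have h6 : (s ∩ t).card = 0 := by omega
    rw [Finset.card_eq_zero] at h6
    apply P.tset_not_line ht h4
    intro u hu
    rw [Finset.mem_symmDiff]
    right
    refine ⟨hu, fun hus => ?_⟩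
    have : u ∈ s ∩ t := Finset.mem_inter.2 ⟨hus, hu⟩
    rw [h6] at this
    exact absurd this (Finset.notMem_empty u)

theorem Plane.uniq_three {s t : Finset V} (hs : Tset F L s) (ht : Tset F L t)
    (h : Eqz z (∏ x ∈ s, x) (∏ x ∈ t, x)) : s = t ∨ s ∩ t = ∅ := by
  by_cases h0 : s ∩ t = ∅
  · exact Or.inr h0
  · left
    apply P.uniq_small (P.tset_sub hs) (P.tset_sub ht) _ h
    rw [P.tset_card hs, P.tset_card ht]
    have : 0 < (s ∩ t).card := Finset.card_pos.2 (Finset.nonempty_iff_ne_empty.2 h0)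
    omega

/-- the small sets -/
def F2 (F : Finset V) : Finset (Finset V) := F.powersetCard 0 ∪ F.powersetCard 1 ∪ F.powersetCard 2

omit P in
theorem mem_F2 {s : Finset V} : s ∈ F2 F ↔ s ⊆ F ∧ s.card ≤ 2 := by
  simp only [F2, Finset.mem_union, Finset.mem_powersetCard]
  constructor
  · rintro ((h | h) | h) <;> exact ⟨h.1, by omega⟩
  · rintro ⟨h1, h2⟩
    rcases Nat.lt_or_ge s.card 1 with h3 | h3
    · exact Or.inl (Or.inl ⟨h1, by omega⟩)
    · rcases Nat.lt_or_ge s.card 2 with h4 | h4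
      · exact Or.inl (Or.inr ⟨h1, by omega⟩)
      · exact Or.inr ⟨h1, by omega⟩

theorem Plane.card_F2 : (F2 F).card = 232 := by
  have h01 : Disjoint (F.powersetCard 0) (F.powersetCard 1) := Finset.pairwise_disjoint_powersetCard F (by decide)
  have h02 : Disjoint (F.powersetCard 0) (F.powersetCard 2) := Finset.pairwise_disjoint_powersetCard F (by decide)
  have h12 : Disjoint (F.powersetCard 1) (F.powersetCard 2) := Finset.pairwise_disjoint_powersetCard F (by decide)
  rw [F2, Finset.card_union_of_disjoint (by rw [Finset.disjoint_union_left]; exact ⟨h02, h12⟩),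
    Finset.card_union_of_disjoint h01, Finset.card_powersetCard, Finset.card_powersetCard, Finset.card_powersetCard, P.card]
  rfl

/-- the parametrisation -/
def phi (z : V) (q : Finset V × Bool) : V := (∏ x ∈ q.1, x) * (if q.2 then z else 1)

omit P in
theorem eqz_phi (z : V) (q : Finset V × Bool) : Eqz z (phi z q) (∏ x ∈ q.1, x) := by
  unfold phi
  by_cases h : q.2 = true
  · rw [if_pos h]; exact Or.inr rfl
  · rw [if_neg h, mul_one]; exact Or.inl rfl

theorem Plane.phi_inj {q q' : Finset V × Bool} (h : phi z q = phi z q') (h1 : q.1 = q'.1) : q = q' := by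
  refine Prod.ext h1 ?_
  unfold phi at h
  rw [h1] at h
  have h2 := mul_left_cancel h
  have hz := P.z1
  by_cases a : q.2 = true <;> by_cases b : q'.2 = true
  · rw [a, b]
  · rw [if_pos a, if_neg b] at h2; exact absurd h2 hz
  · rw [if_neg a, if_pos b] at h2; exact absurd h2.symm hz
  · rw [Bool.not_eq_true] at a b; rw [a, b]

variable [Fintype V]

theorem Plane.card_small : ((F2 F ×ˢ (Finset.univ : Finset Bool)).image (phi z)).card = 464 := by
  rw [Finset.card_image_of_injOn, Finset.card_product, P.card_F2, Finset.card_univ, Fintype.card_bool]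
  intro q hq q' hq' h
  rw [Finset.mem_coe, Finset.mem_product, mem_F2] at hq hq'
  apply P.phi_inj h
  apply P.uniq_small hq.1.1 hq'.1.1 (by have := hq.1.2; have := hq'.1.2; omega)
  apply P.eqz_trans (P.eqz_symm (eqz_phi z q))
  rw [h]; exact eqz_phi z q'

open Classical in
/-- elements of rank three -/
noncomputable def R3 (z : V) (F : Finset V) (L : Set (Finset V)) : Finset V :=
  Finset.univ.filter (fun v => ∃ s, Tset F L s ∧ Eqz z v (∏ x ∈ s, x))

theorem Plane.mem_R3 {v : V} : v ∈ R3 z F L ↔ ∃ s, Tset F L s ∧ Eqz z v (∏ x ∈ s, x) := by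
  simp only [R3, Finset.mem_filter, Finset.mem_univ, true_and]

theorem Plane.disj : Disjoint ((F2 F ×ˢ (Finset.univ : Finset Bool)).image (phi z)) (R3 z F L) := by
  rw [Finset.disjoint_left]
  intro v hv hv'
  rw [P.mem_R3] at hv'
  obtain ⟨t, ht, h1⟩ := hv'
  rw [Finset.mem_image] at hv
  obtain ⟨q, hq, rfl⟩ := hv
  rw [Finset.mem_product, mem_F2] at hq
  exact P.uniq_two_three hq.1.1 hq.1.2 ht (P.eqz_trans (P.eqz_symm (eqz_phi z q)) h1)

theorem Plane.mem_small {v : V} {s : Finset V} (hs : s ⊆ F) (hc : s.card ≤ 2) (h : Eqz z v (∏ x ∈ s, x)) :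
    v ∈ (F2 F ×ˢ (Finset.univ : Finset Bool)).image (phi z) := by
  rw [Finset.mem_image]
  rcases h with h | h
  · exact ⟨(s, false), by simp [mem_F2, hs, hc], by simp [phi, h]⟩
  · exact ⟨(s, true), by simp [mem_F2, hs, hc], by simp [phi, h]⟩

theorem Plane.union_univ : (F2 F ×ˢ (Finset.univ : Finset Bool)).image (phi z) ∪ R3 z F L = Finset.univ := by
  rw [Finset.eq_univ_iff_forall]
  intro v
  rw [Finset.mem_union]
  obtain ⟨s, hs, h⟩ := P.normal_form v
  rcases hs with hs | hs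
  · exact Or.inl (P.mem_small hs.1 hs.2 h)
  · exact Or.inr (P.mem_R3.2 ⟨s, hs, h⟩)

theorem Plane.card_V_eq : Fintype.card V = 464 + (R3 z F L).card := by
  rw [← Finset.card_univ, ← P.union_univ, Finset.card_union_of_disjoint P.disj, P.card_small]

theorem Plane.exists_triangle : ∃ x ∈ F, ∃ y ∈ F, ∃ w ∈ F, Trg L x y w := by
  have h1 : 1 < F.card := by rw [P.card]; norm_num
  obtain ⟨x, hx, y, hy, hxy⟩ := Finset.one_lt_card.1 h1
  obtain ⟨l, hl, hxl, hyl⟩ := P.ex x hx y hy hxy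
  have h2 : ∃ w ∈ F, w ∉ l := by
    by_contra hno
    push Not at hno
    have := Finset.card_le_card (show F ⊆ l from hno)
    rw [P.card, P.lcard l hl] at this
    omega
  obtain ⟨w, hw, hwl⟩ := h2
  refine ⟨x, hx, y, hy, w, hw, hxy, fun l' hl' h3 h4 => ?_⟩
  rw [← P.uq x hx y hy hxy l hl l' hl' hxl hyl h3 h4]; exact hwl

/-- at least 62 elements of rank three -/
theorem Plane.R3_lower : 62 ≤ (R3 z F L).card := by
  obtain ⟨x, hx, y, hy, w, hw, ht⟩ := P.exists_triangle
  have hne := P.trg_ne hx hy ht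
  obtain ⟨l1, hl1, a1, b1⟩ := P.ex x hx y hy ht.1
  obtain ⟨l2, hl2, a2, b2⟩ := P.ex x hx w hw hne.1.symm
  have hyl2 : y ∉ l2 := (P.trg_rot hy hw hx (P.trg_rot hx hy hw ht)).2 l2 hl2 b2 a2
  -- triangles
  have tr1 : ∀ u ∈ F \ l1, Tset F L {x, y, u} := by
    intro u hu
    rw [Finset.mem_sdiff] at hu
    refine ⟨x, hx, y, hy, u, hu.1, ⟨ht.1, fun l hl h1 h2 => ?_⟩, rfl⟩
    rw [← P.uq x hx y hy ht.1 l1 hl1 l hl a1 b1 h1 h2]; exact hu.2
  have tr2 : ∀ u ∈ (F \ l2) \ {y}, Tset F L {x, w, u} := by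
    intro u hu
    rw [Finset.mem_sdiff, Finset.mem_sdiff] at hu
    refine ⟨x, hx, w, hw, u, hu.1.1, ⟨hne.1.symm, fun l hl h1 h2 => ?_⟩, rfl⟩
    rw [← P.uq x hx w hw hne.1.symm l2 hl2 l hl a2 b2 h1 h2]; exact hu.1.2
  set T1 : Finset (Finset V) := (F \ l1).image (fun u => {x, y, u}) with hT1
  set T2 : Finset (Finset V) := ((F \ l2) \ {y}).image (fun u => {x, w, u}) with hT2
  have c1 : T1.card = 16 := by
    rw [hT1, Finset.card_image_of_injOn, Finset.card_sdiff_of_subset (P.lsub l1 hl1), P.card, P.lcard l1 hl1]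
    intro u hu u' hu' h
    have hu1 : u ≠ x ∧ u ≠ y := by
      rw [Finset.mem_coe, Finset.mem_sdiff] at hu
      exact ⟨fun e => hu.2 (by rw [e]; exact a1), fun e => hu.2 (by rw [e]; exact b1)⟩
    have : u ∈ ({x, y, u'} : Finset V) := by
      have h2 : ({x, y, u} : Finset V) = {x, y, u'} := h
      rw [← h2]; simp
    simp only [Finset.mem_insert, Finset.mem_singleton] at this
    tauto
  have c2 : T2.card = 15 := by
    rw [hT2, Finset.card_image_of_injOn, Finset.card_sdiff_of_subset (by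
      intro u hu; rw [Finset.mem_singleton] at hu; rw [hu, Finset.mem_sdiff]; exact ⟨hy, hyl2⟩),
      Finset.card_sdiff_of_subset (P.lsub l2 hl2), P.card, P.lcard l2 hl2, Finset.card_singleton]
    intro u hu u' hu' h
    have hu1 : u ≠ x ∧ u ≠ w := by
      rw [Finset.mem_coe, Finset.mem_sdiff, Finset.mem_sdiff] at hu
      exact ⟨fun e => hu.1.2 (by rw [e]; exact a2), fun e => hu.1.2 (by rw [e]; exact b2)⟩
    have : u ∈ ({x, w, u'} : Finset V) := by
      have h2 : ({x, w, u} : Finset V) = {x, w, u'} := h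
      rw [← h2]; simp
    simp only [Finset.mem_insert, Finset.mem_singleton] at this
    tauto
  have hd : Disjoint T1 T2 := by
    rw [Finset.disjoint_left]
    intro s h1 h2
    rw [hT1, Finset.mem_image] at h1
    rw [hT2, Finset.mem_image] at h2
    obtain ⟨u, hu, rfl⟩ := h1
    obtain ⟨u', hu', h3⟩ := h2
    have : y ∈ ({x, w, u'} : Finset V) := by rw [h3]; simp
    simp only [Finset.mem_insert, Finset.mem_singleton] at this
    rcases this with h4 | h4 | h4
    · exact ht.1 h4.symm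
    · exact hne.2 h4.symm
    · rw [Finset.mem_sdiff, Finset.mem_singleton] at hu'
      exact hu'.2 h4.symm
  have hT : ∀ s ∈ T1 ∪ T2, Tset F L s ∧ x ∈ s := by
    intro s hs
    rw [Finset.mem_union, hT1, hT2, Finset.mem_image, Finset.mem_image] at hs
    rcases hs with ⟨u, hu, rfl⟩ | ⟨u, hu, rfl⟩
    · exact ⟨tr1 u hu, by simp⟩
    · exact ⟨tr2 u hu, by simp⟩
  have hsub : ((T1 ∪ T2) ×ˢ (Finset.univ : Finset Bool)).image (phi z) ⊆ R3 z F L := by
    intro v hv
    rw [Finset.mem_image] at hv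
    obtain ⟨q, hq, rfl⟩ := hv
    rw [Finset.mem_product] at hq
    rw [P.mem_R3]
    exact ⟨q.1, (hT _ hq.1).1, eqz_phi z q⟩
  have h3 := Finset.card_le_card hsub
  rw [Finset.card_image_of_injOn, Finset.card_product, Finset.card_union_of_disjoint hd, c1, c2, Finset.card_univ,
    Fintype.card_bool] at h3
  · exact h3
  · intro q hq q' hq' h
    rw [Finset.mem_coe, Finset.mem_product] at hq hq'
    apply P.phi_inj h
    obtain ⟨g1, g2⟩ := hT _ hq.1
    obtain ⟨g3, g4⟩ := hT _ hq'.1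
    rcases P.uniq_three g1 g3 (by
      apply P.eqz_trans (P.eqz_symm (eqz_phi z q))
      rw [h]; exact eqz_phi z q') with h5 | h5
    · exact h5
    · exfalso
      have : x ∈ q.1 ∩ q'.1 := Finset.mem_inter.2 ⟨g2, g4⟩
      rw [h5] at this
      exact absurd this (Finset.notMem_empty x)

/-- four triangles with the same product -/
theorem Plane.four (v : V) (hv : v ∈ R3 z F L) : ∃ 𝒯 : Finset (Finset V), 𝒯.card = 4 ∧ ∀ s ∈ 𝒯, s ⊆ F ∧ s.card = 3 ∧ Eqz z v (∏ x ∈ s, x) := by
  rw [P.mem_R3] at hv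
  obtain ⟨s, hs, hv⟩ := hv
  have hs3 := P.tset_card hs
  have hsF := P.tset_sub hs
  obtain ⟨x, hx, y, hy, w, hw, ht, hs'⟩ := hs
  obtain ⟨h, h1, h2⟩ := P.hyp x hx y hy w hw ht
  have hsub : ∀ c, s ⊆ h c := by
    intro c u hu
    rw [hs'] at hu
    simp only [Finset.mem_insert, Finset.mem_singleton] at hu
    rcases hu with rfl | rfl | rfl
    · exact (h1 c).2.2.1
    · exact (h1 c).2.2.2.1
    · exact (h1 c).2.2.2.2.1
  have hc3 : ∀ c, (h c \ s).card = 3 := by
    intro c; rw [Finset.card_sdiff_of_subset (hsub c), (h1 c).2.1, hs3]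
  have hE : ∀ c, Eqz z v (∏ x ∈ h c \ s, x) := by
    intro c
    have h3 := P.mod_rel s (r := h c) ⟨(h1 c).1, (h1 c).2.2.2.2.2⟩
    have h4 : symmDiff s (h c) = h c \ s := by
      have : symmDiff s (h c) = (s \ h c) ∪ (h c \ s) := rfl
      rw [this, Finset.sdiff_eq_empty_iff_subset.2 (hsub c), Finset.empty_union]
    rw [h4] at h3
    exact P.eqz_trans hv h3
  have hdis : ∀ c c', c ≠ c' → h c \ s ≠ h c' \ s := by
    intro c c' hcc he
    have : (h c \ s).Nonempty := by rw [← Finset.card_pos, hc3]; norm_num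
    obtain ⟨u, hu⟩ := this
    have hu' := hu
    rw [he] at hu'
    rw [Finset.mem_sdiff] at hu hu'
    apply hu.2
    rw [hs']
    have := h2 c c' hcc u hu.1 hu'.1
    simp only [Finset.mem_insert, Finset.mem_singleton]
    exact this
  have hne : ∀ c, s ≠ h c \ s := by
    intro c he
    have hx' : x ∈ s := by rw [hs']; simp
    have := hx'
    rw [he, Finset.mem_sdiff] at this
    exact this.2 hx'
  refine ⟨{s, h 0 \ s, h 1 \ s, h 2 \ s}, ?_, ?_⟩
  · rw [Finset.card_insert_of_notMem (by simp [hne]), Finset.card_insert_of_notMem (by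
      simp [hdis 0 1 (by decide), hdis 0 2 (by decide)]), Finset.card_insert_of_notMem (by simp [hdis 1 2 (by decide)]),
      Finset.card_singleton]
  · intro t ht
    simp only [Finset.mem_insert, Finset.mem_singleton] at ht
    rcases ht with rfl | rfl | rfl | rfl
    · exact ⟨hsF, hs3, hv⟩
    · exact ⟨fun u hu => (h1 _).1 (Finset.mem_sdiff.1 hu).1, hc3 _, hE _⟩
    · exact ⟨fun u hu => (h1 _).1 (Finset.mem_sdiff.1 hu).1, hc3 _, hE _⟩
    · exact ⟨fun u hu => (h1 _).1 (Finset.mem_sdiff.1 hu).1, hc3 _, hE _⟩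

theorem Plane.R3_upper : (R3 z F L).card * 4 ≤ 1330 * 2 := by
  classical
  have h := Finset.card_mul_le_card_mul (s := R3 z F L) (t := F.powersetCard 3) (fun v s => Eqz z v (∏ x ∈ s, x)) (m := 4) (n := 2)
    (by
      intro v hv
      obtain ⟨𝒯, h1, h2⟩ := P.four v hv
      rw [← h1]
      apply Finset.card_le_card
      intro s hs
      rw [Finset.mem_bipartiteAbove, Finset.mem_powersetCard]
      exact ⟨⟨(h2 s hs).1, (h2 s hs).2.1⟩, (h2 s hs).2.2⟩)
    (by
      intro s hs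
      refine (Finset.card_le_card (t := {∏ x ∈ s, x, (∏ x ∈ s, x) * z}) ?_).trans Finset.card_le_two
      intro v hv
      rw [Finset.mem_bipartiteBelow] at hv
      simp only [Finset.mem_insert, Finset.mem_singleton]
      exact hv.2)
  rw [Finset.card_powersetCard, P.card] at h
  exact h

/-- the order -/
theorem Plane.card_V : Fintype.card V = 1024 := by
  have h1 := P.card_V_eq
  have h2 := P.R3_lower
  have h3 := P.R3_upper
  have hp : IsPGroup 2 V := by
    intro v
    exact ⟨1, by rw [pow_one, pow_two]; exact P.sq v⟩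
  obtain ⟨k, hk⟩ := IsPGroup.iff_card.1 hp
  rw [Nat.card_eq_fintype_card] at hk
  have h4 : 2 ^ k ≤ 464 + 665 := by rw [← hk]; omega
  have h5 : 464 + 62 ≤ 2 ^ k := by rw [← hk]; omega
  have hk1 : k < 11 := by
    by_contra hk'
    push Not at hk'
    have := Nat.pow_le_pow_right (show 0 < 2 by norm_num) hk'
    omega
  have hk2 : 9 < k := by
    by_contra hk'
    push Not at hk'
    have := Nat.pow_le_pow_right (show 0 < 2 by norm_num) hk'
    omega
  have : k = 10 := by omega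
  rw [hk, this]; norm_num

theorem Plane.card_R3 : (R3 z F L).card = 560 := by
  have h1 := P.card_V_eq
  rw [P.card_V] at h1
  omega

end H19.RMod
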