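import Mathlib
import Cfsg.Agent.Lib.H19.RMod

/-!
Invariant subsets of the group of a plane.
-/

set_option autoImplicit false
set_option linter.unusedSectionVars false
set_option linter.unusedVariables false

namespace H19.RMod2
open Finset H19.RMod

variable {V : Type*} [CommGroup V] [DecidableEq V] [Fintype V] {z : V} {F : Finset V} {L : Set (Finset V)}

/-- invariant sets -/
structure Act (z : V) (F : Finset V) (L : Set (Finset V)) (X : Finset V) : Prop where
  P : Plane z F L
  tr : ∀ x ∈ F, ∀ y ∈ F, ∀ w ∈ F, Trg L x y w → ∀ x' ∈ F, ∀ y' ∈ F, ∀ w' ∈ F, Trg L x' y' w' →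
    ∃ φ : V ≃* V, φ x = x' ∧ φ y = y' ∧ φ w = w' ∧ φ z = z ∧ ∀ v, (v ∈ X ↔ φ v ∈ X)
  hz : z ∈ X
  h1 : (1 : V) ∉ X
  gt : ∀ v ∈ X, ∃ ψ : V ≃* V, ψ z = v ∧ ∀ u, (u ∈ X ↔ ψ u ∈ X)
  ns : ∃ x ∈ F, ∃ y ∈ F, ∃ w ∈ F, Trg L x y w ∧ ∃ x' ∈ F, ∃ y' ∈ F, ∃ w' ∈ F, Trg L x' y' w' ∧ x * y * w = x' * y' * w' * z

variable {X : Finset V}

omit [Fintype V] in
theorem _root_.H19.RMod.Plane.exists_third (P : Plane z F L) {x y : V} (hx : x ∈ F) (hy : y ∈ F) (hne : x ≠ y) : ∃ w ∈ F, Trg L x y w := by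
  obtain ⟨l, hl, hxl, hyl⟩ := P.ex x hx y hy hne
  have h2 : ∃ w ∈ F, w ∉ l := by
    by_contra hno
    push Not at hno
    have := Finset.card_le_card (show F ⊆ l from hno)
    rw [P.card, P.lcard l hl] at this
    omega
  obtain ⟨w, hw, hwl⟩ := h2
  refine ⟨w, hw, hne, fun l' hl' h3 h4 => ?_⟩
  rw [← P.uq x hx y hy hne l hl l' hl' hxl hyl h3 h4]; exact hwl

omit [Fintype V] in
theorem _root_.H19.RMod.Plane.exists_other (P : Plane z F L) {x : V} (hx : x ∈ F) : ∃ y ∈ F, x ≠ y := by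
  have h1 : 1 < F.card := by rw [P.card]; norm_num
  obtain ⟨y, hy, hne⟩ := Finset.exists_mem_ne h1 x
  exact ⟨y, hy, hne.symm⟩

variable (A : Act z F L X)
include A

theorem one_iff {x x' : V} (hx : x ∈ F) (hx' : x' ∈ F) : (x ∈ X ↔ x' ∈ X) ∧ (x * z ∈ X ↔ x' * z ∈ X) := by
  obtain ⟨y, hy, hne⟩ := A.P.exists_other hx
  obtain ⟨w, hw, ht⟩ := A.P.exists_third hx hy hne
  obtain ⟨y', hy', hne'⟩ := A.P.exists_other hx'
  obtain ⟨w', hw', ht'⟩ := A.P.exists_third hx' hy' hne'
  obtain ⟨φ, h1, h2, h3, h4, h5⟩ := A.tr x hx y hy w hw ht x' hx' y' hy' w' hw' ht'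
  refine ⟨by rw [h5, h1], by rw [h5, map_mul, h1, h4]⟩

theorem two_iff {x y x' y' : V} (hx : x ∈ F) (hy : y ∈ F) (hne : x ≠ y) (hx' : x' ∈ F) (hy' : y' ∈ F) (hne' : x' ≠ y') :
    (x * y ∈ X ↔ x' * y' ∈ X) ∧ (x * y * z ∈ X ↔ x' * y' * z ∈ X) := by
  obtain ⟨w, hw, ht⟩ := A.P.exists_third hx hy hne
  obtain ⟨w', hw', ht'⟩ := A.P.exists_third hx' hy' hne'
  obtain ⟨φ, h1, h2, h3, h4, h5⟩ := A.tr x hx y hy w hw ht x' hx' y' hy' w' hw' ht'
  refine ⟨by rw [h5, map_mul, h1, h2], by rw [h5, map_mul, map_mul, h1, h2, h4]⟩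

theorem three_iff {x y w x' y' w' : V} (hx : x ∈ F) (hy : y ∈ F) (hw : w ∈ F) (ht : Trg L x y w) (hx' : x' ∈ F) (hy' : y' ∈ F) (hw' : w' ∈ F)
    (ht' : Trg L x' y' w') :
    (x * y * w ∈ X ↔ x' * y' * w' ∈ X) ∧ (x * y * w * z ∈ X ↔ x' * y' * w' * z ∈ X) := by
  obtain ⟨φ, h1, h2, h3, h4, h5⟩ := A.tr x hx y hy w hw ht x' hx' y' hy' w' hw' ht'
  refine ⟨by rw [h5, map_mul, map_mul, h1, h2, h3], by rw [h5, map_mul, map_mul, map_mul, h1, h2, h3, h4]⟩

omit A in
theorem tset_form {s : Finset V} (h : Tset F L s) (P : Plane z F L) : ∃ x ∈ F, ∃ y ∈ F, ∃ w ∈ F, Trg L x y w ∧ ∏ u ∈ s, u = x * y * w := by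
  obtain ⟨x, hx, y, hy, w, hw, ht, rfl⟩ := h
  refine ⟨x, hx, y, hy, w, hw, ht, ?_⟩
  have h1 := P.trg_ne hx hy ht
  rw [Finset.prod_insert, Finset.prod_insert, Finset.prod_singleton, mul_assoc]
  · rw [Finset.mem_singleton]; exact h1.2.symm
  · rw [Finset.mem_insert, Finset.mem_singleton]
    rintro (h | h)
    · exact ht.1 h
    · exact h1.1 h.symm

theorem r3_const : (∀ v ∈ R3 z F L, v ∈ X) ∨ (∀ v ∈ R3 z F L, v ∉ X) := by
  obtain ⟨x0, hx0, y0, hy0, w0, hw0, ht0, x1, hx1, y1, hy1, w1, hw1, ht1, he⟩ := A.ns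
  have key : ∀ v ∈ R3 z F L, (v ∈ X ↔ x0 * y0 * w0 ∈ X) := by
    intro v hv
    rw [A.P.mem_R3] at hv
    obtain ⟨s, hs, h⟩ := hv
    obtain ⟨x, hx, y, hy, w, hw, ht, hp⟩ := tset_form hs A.P
    rw [hp] at h
    rcases h with rfl | rfl
    · exact (three_iff A hx hy hw ht hx0 hy0 hw0 ht0).1
    · rw [he]
      exact (three_iff A hx hy hw ht hx1 hy1 hw1 ht1).2
  by_cases h : x0 * y0 * w0 ∈ X
  · left
    intro v hv
    exact (key v hv).2 h
  · right
    intro v hv
    exact (key v hv).not.2 h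

/-- the shape of invariant sets -/
theorem shape : ∃ c10 c11 c20 c21 c3 : ℕ, c10 ≤ 1 ∧ c11 ≤ 1 ∧ c20 ≤ 1 ∧ c21 ≤ 1 ∧ c3 ≤ 1 ∧
    X.card = 1 + 21 * (c10 + c11) + 210 * (c20 + c21) + 560 * c3 ∧
    (∀ x ∈ F, (if x ∈ X then 1 else 0) = c10) ∧ (∀ x ∈ F, (if x * z ∈ X then 1 else 0) = c11) ∧
    (∀ x ∈ F, ∀ y ∈ F, x ≠ y → (if x * y ∈ X then 1 else 0) = c20) ∧
    (∀ x ∈ F, ∀ y ∈ F, x ≠ y → (if x * y * z ∈ X then 1 else 0) = c21) ∧
    (∀ v ∈ R3 z F L, (if v ∈ X then 1 else 0) = c3) := by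
  obtain ⟨x0, hx0, y0, hy0, w0, hw0, ht0⟩ := A.P.exists_triangle
  have hxy0 := ht0.1
  obtain ⟨v0, hv0⟩ : ∃ v, v ∈ R3 z F L := by
    have : (R3 z F L).Nonempty := by
      rw [← Finset.card_pos, A.P.card_R3]; norm_num
    exact this
  have hle : ∀ (p : Prop) [Decidable p], (if p then 1 else 0) ≤ 1 := by
    intro p _; split_ifs <;> norm_num
  have hcong : ∀ (p q : Prop) [Decidable p] [Decidable q], (p ↔ q) → (if p then 1 else 0) = (if q then 1 else 0) := by
    intro p q _ _ h; by_cases hp : p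
    · rw [if_pos hp, if_pos (h.1 hp)]
    · rw [if_neg hp, if_neg (fun hq => hp (h.2 hq))]
  have e10 : ∀ x ∈ F, (if x ∈ X then 1 else 0) = (if x0 ∈ X then 1 else 0) := fun x hx => hcong _ _ (one_iff A hx hx0).1
  have e11 : ∀ x ∈ F, (if x * z ∈ X then 1 else 0) = (if x0 * z ∈ X then 1 else 0) := fun x hx => hcong _ _ (one_iff A hx hx0).2
  have e20 : ∀ x ∈ F, ∀ y ∈ F, x ≠ y → (if x * y ∈ X then 1 else 0) = (if x0 * y0 ∈ X then 1 else 0) :=
    fun x hx y hy hne => hcong _ _ (two_iff A hx hy hne hx0 hy0 hxy0).1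
  have e21 : ∀ x ∈ F, ∀ y ∈ F, x ≠ y → (if x * y * z ∈ X then 1 else 0) = (if x0 * y0 * z ∈ X then 1 else 0) :=
    fun x hx y hy hne => hcong _ _ (two_iff A hx hy hne hx0 hy0 hxy0).2
  have e3 : ∀ v ∈ R3 z F L, (if v ∈ X then 1 else 0) = (if v0 ∈ X then 1 else 0) := by
    intro v hv
    apply hcong
    rcases r3_const A with h | h
    · exact ⟨fun _ => h v0 hv0, fun _ => h v hv⟩
    · exact ⟨fun h' => absurd h' (h v hv), fun h' => absurd h' (h v0 hv0)⟩
  refine ⟨_, _, _, _, _, hle (x0 ∈ X), hle (x0 * z ∈ X), hle (x0 * y0 ∈ X), hle (x0 * y0 * z ∈ X), hle (v0 ∈ X), ?_, e10, e11, e20, e21, e3⟩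
  -- counting
  have h1 : X.card = ∑ v : V, (if v ∈ X then 1 else 0) := by
    rw [Finset.sum_ite_mem, Finset.univ_inter, Finset.sum_const, smul_eq_mul, mul_one]
  rw [h1, ← A.P.union_univ, Finset.sum_union A.P.disj, Finset.sum_congr rfl e3, Finset.sum_const, A.P.card_R3, Finset.sum_image]
  · rw [Finset.sum_product]
    have h01 : Disjoint (F.powersetCard 0) (F.powersetCard 1) := Finset.pairwise_disjoint_powersetCard F (by decide)
    have h02 : Disjoint (F.powersetCard 0) (F.powersetCard 2) := Finset.pairwise_disjoint_powersetCard F (by decide)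
    have h12 : Disjoint (F.powersetCard 1) (F.powersetCard 2) := Finset.pairwise_disjoint_powersetCard F (by decide)
    rw [F2, Finset.sum_union (by rw [Finset.disjoint_union_left]; exact ⟨h02, h12⟩), Finset.sum_union h01]
    have s0 : ∑ s ∈ F.powersetCard 0, ∑ b : Bool, (if phi z (s, b) ∈ X then 1 else 0) = 1 := by
      rw [Finset.powersetCard_zero, Finset.sum_singleton, Fintype.sum_bool]
      simp only [phi, Finset.prod_empty, if_true, one_mul]
      rw [if_pos A.hz]
      simp [A.h1]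
    have s1 : ∑ s ∈ F.powersetCard 1, ∑ b : Bool, (if phi z (s, b) ∈ X then 1 else 0) =
        21 * ((if x0 ∈ X then 1 else 0) + (if x0 * z ∈ X then 1 else 0)) := by
      rw [Finset.sum_congr rfl (g := fun _ => (if x0 ∈ X then 1 else 0) + (if x0 * z ∈ X then 1 else 0)), Finset.sum_const,
        Finset.card_powersetCard, A.P.card, smul_eq_mul]
      · rfl
      · intro s hs
        obtain ⟨hs1, hs2⟩ := Finset.mem_powersetCard.1 hs
        obtain ⟨x, rfl⟩ := Finset.card_eq_one.1 hs2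
        have hx : x ∈ F := hs1 (Finset.mem_singleton_self x)
        rw [Fintype.sum_bool, add_comm]
        simp only [phi, Finset.prod_singleton, if_true]
        rw [← e10 x hx, ← e11 x hx]
        simp
    have s2 : ∑ s ∈ F.powersetCard 2, ∑ b : Bool, (if phi z (s, b) ∈ X then 1 else 0) =
        210 * ((if x0 * y0 ∈ X then 1 else 0) + (if x0 * y0 * z ∈ X then 1 else 0)) := by
      rw [Finset.sum_congr rfl (g := fun _ => (if x0 * y0 ∈ X then 1 else 0) + (if x0 * y0 * z ∈ X then 1 else 0)), Finset.sum_const,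
        Finset.card_powersetCard, A.P.card, smul_eq_mul]
      · rfl
      · intro s hs
        obtain ⟨hs1, hs2⟩ := Finset.mem_powersetCard.1 hs
        obtain ⟨x, y, hxy, rfl⟩ := Finset.card_eq_two.1 hs2
        have hx : x ∈ F := hs1 (by simp)
        have hy : y ∈ F := hs1 (by simp)
        rw [Fintype.sum_bool, add_comm]
        simp only [phi, Finset.prod_pair hxy, if_true]
        rw [← e20 x hx y hy hxy, ← e21 x hx y hy hxy]
        simp
    rw [s0, s1, s2, smul_eq_mul]
  · intro q hq q' hq' h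
    rw [Finset.mem_coe, Finset.mem_product, mem_F2] at hq hq'
    apply A.P.phi_inj h
    apply A.P.uniq_small hq.1.1 hq'.1.1 (by have := hq.1.2; have := hq'.1.2; omega)
    apply A.P.eqz_trans (A.P.eqz_symm (eqz_phi z q))
    rw [h]; exact eqz_phi z q'

theorem sub1 (h : ∀ v ∈ X, z * v ∈ X ∨ z * v = 1) : X.card + 1 ∣ 1024 := by
  have hsq := A.P.sq
  let S : Subgroup V :=
    { carrier := {v | v ∈ X ∨ v = 1}
      one_mem' := Or.inr rfl
      mul_mem' := by
        rintro a b (ha | rfl) (hb | rfl)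
        · obtain ⟨ψ, h1, h2⟩ := A.gt a ha
          have h3 : ψ.symm b ∈ X := by rw [h2, MulEquiv.apply_symm_apply]; exact hb
          rcases h _ h3 with h4 | h4
          · left
            rw [h2, map_mul, h1, MulEquiv.apply_symm_apply] at h4
            exact h4
          · right
            have := congrArg ψ h4
            rw [map_mul, h1, MulEquiv.apply_symm_apply, map_one] at this
            exact this
        · rw [mul_one]; exact Or.inl ha
        · rw [one_mul]; exact Or.inl hb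
        · rw [one_mul]; exact Or.inr rfl
      inv_mem' := by
        intro a ha
        rw [inv_eq_of_mul_eq_one_left (hsq a)]
        exact ha }
  have h1 : Nat.card S = X.card + 1 := by
    have : (S : Set V) = ((insert 1 X : Finset V) : Set V) := by
      ext v
      simp only [Finset.coe_insert, Set.mem_insert_iff, Finset.mem_coe]
      constructor
      · rintro (h | h)
        exacts [Or.inr h, Or.inl h]
      · rintro (h | h)
        exacts [Or.inr h, Or.inl h]
    have h2 : Nat.card S = (S : Set V).ncard := rfl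
    rw [h2, this, Set.ncard_coe_finset, Finset.card_insert_of_notMem A.h1]
  rw [← h1, ← A.P.card_V, ← Nat.card_eq_fintype_card]
  exact Subgroup.card_subgroup_dvd_card S

theorem sub2 (h : ∀ v, v ∉ X → v ≠ 1 → z * v ∈ X) : 1024 - X.card ∣ 1024 := by
  have hsq := A.P.sq
  let S : Subgroup V :=
    { carrier := {v | v ∉ X}
      one_mem' := A.h1
      mul_mem' := by
        intro a b ha hb hab
        have ha1 : a ≠ 1 := by
          rintro rfl
          rw [one_mul] at hab
          exact hb hab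
        obtain ⟨ψ, h1, h2⟩ := A.gt (a * b) hab
        have h3 : ψ.symm a ∉ X := by rw [h2, MulEquiv.apply_symm_apply]; exact ha
        have h4 : ψ.symm a ≠ 1 := by
          intro e
          apply ha1
          have := congrArg ψ e
          rwa [MulEquiv.apply_symm_apply, map_one] at this
        have h5 := h _ h3 h4
        rw [h2, map_mul, h1, MulEquiv.apply_symm_apply] at h5
        have e : a * b * a = b := by rw [mul_comm, ← mul_assoc, hsq, one_mul]
        rw [e] at h5
        exact hb h5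
      inv_mem' := by
        intro a ha
        rw [inv_eq_of_mul_eq_one_left (hsq a)]
        exact ha }
  have h1 : Nat.card S = 1024 - X.card := by
    have : (S : Set V) = ((Xᶜ : Finset V) : Set V) := by
      ext v
      simp only [Finset.coe_compl, Set.mem_compl_iff, Finset.mem_coe]
      exact Iff.rfl
    have h2 : Nat.card S = (S : Set V).ncard := rfl
    rw [h2, this, Set.ncard_coe_finset, Finset.card_compl, A.P.card_V]
  rw [← h1]
  have h2 : 1024 = Nat.card V := by rw [Nat.card_eq_fintype_card, A.P.card_V]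
  conv_rhs => rw [h2]
  exact Subgroup.card_subgroup_dvd_card S

omit A in
theorem r3_mul (P : Plane z F L) {v : V} (hv : v ∈ R3 z F L) : z * v ∈ R3 z F L := by
  rw [P.mem_R3] at hv ⊢
  obtain ⟨s, hs, h⟩ := hv
  refine ⟨s, hs, ?_⟩
  rcases h with h | h
  · right; rw [h, mul_comm]
  · left; rw [h, mul_comm, mul_assoc, P.sq z, mul_one]

omit A in
/-- the elements outside -/
theorem cases_univ (P : Plane z F L) (v : V) : v = 1 ∨ v = z ∨ v ∈ F ∨ (∃ x ∈ F, v = x * z) ∨ (∃ x ∈ F, ∃ y ∈ F, x ≠ y ∧ v = x * y) ∨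
    (∃ x ∈ F, ∃ y ∈ F, x ≠ y ∧ v = x * y * z) ∨ v ∈ R3 z F L := by
  obtain ⟨s, hs, h⟩ := P.normal_form v
  rcases hs with ⟨hs, hc⟩ | hs
  · rcases Nat.lt_or_ge s.card 1 with h0 | h0
    · have : s = ∅ := Finset.card_eq_zero.1 (by omega)
      rw [this, Finset.prod_empty] at h
      rcases h with h | h
      · exact Or.inl h
      · right; left; rw [h, one_mul]
    · rcases Nat.lt_or_ge s.card 2 with h1 | h1
      · obtain ⟨x, rfl⟩ := Finset.card_eq_one.1 (show s.card = 1 by omega)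
        rw [Finset.prod_singleton] at h
        have hx : x ∈ F := hs (by simp)
        rcases h with h | h
        · right; right; left; rw [h]; exact hx
        · right; right; right; left; exact ⟨x, hx, h⟩
      · obtain ⟨x, y, hxy, rfl⟩ := Finset.card_eq_two.1 (show s.card = 2 by omega)
        rw [Finset.prod_pair hxy] at h
        have hx : x ∈ F := hs (by simp)
        have hy : y ∈ F := hs (by simp)
        rcases h with h | h
        · right; right; right; right; left; exact ⟨x, hx, y, hy, hxy, h⟩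
        · right; right; right; right; right; left; exact ⟨x, hx, y, hy, hxy, h⟩
  · right; right; right; right; right; right
    exact P.mem_R3.2 ⟨s, hs, h⟩

/-- the sizes of invariant sets -/
theorem sizes (hbad : ∀ n ∈ [43, 211, 232, 253, 421, 442, 463, 582, 603, 771, 813, 981, 1002], X.card ≠ n) (h1 : X.card ≠ 1) :
    X.card = 22 ∨ X.card = 1023 := by
  obtain ⟨c10, c11, c20, c21, c3, b10, b11, b20, b21, b3, hX, e10, e11, e20, e21, e3⟩ := shape A
  by_contra hno
  push Not at hno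
  obtain ⟨n22, n1023⟩ := hno
  have hb : X.card = 561 ∨ X.card = 792 := by
    simp only [List.mem_cons, List.not_mem_nil, or_false, forall_eq_or_imp, forall_eq] at hbad
    rcases (show c3 = 0 ∨ c3 = 1 by omega) with h3 | h3 <;>
    rcases (show c10 + c11 = 0 ∨ c10 + c11 = 1 ∨ c10 + c11 = 2 by omega) with h4 | h4 | h4 <;>
    rcases (show c20 + c21 = 0 ∨ c20 + c21 = 1 ∨ c20 + c21 = 2 by omega) with h5 | h5 | h5 <;>
    rw [h3, h4, h5] at hX <;> omega
  rcases hb with hb | hb
  · have h2 : c10 = 0 ∧ c11 = 0 ∧ c20 = 0 ∧ c21 = 0 ∧ c3 = 1 := by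
      rcases (show c3 = 0 ∨ c3 = 1 by omega) with h3 | h3 <;>
      rcases (show c10 + c11 = 0 ∨ c10 + c11 = 1 ∨ c10 + c11 = 2 by omega) with h4 | h4 | h4 <;>
      rcases (show c20 + c21 = 0 ∨ c20 + c21 = 1 ∨ c20 + c21 = 2 by omega) with h5 | h5 | h5 <;>
      rw [h3, h4, h5] at hX <;> omega
    obtain ⟨rfl, rfl, rfl, rfl, rfl⟩ := h2
    have h3 := sub1 A (by
      intro v hv
      rcases cases_univ A.P v with h | h | h | ⟨x, hx, h⟩ | ⟨x, hx, y, hy, hxy, h⟩ | ⟨x, hx, y, hy, hxy, h⟩ | h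
      · rw [h] at hv; exact absurd hv A.h1
      · right; rw [h]; exact A.P.sq z
      · have := e10 v h; rw [if_pos hv] at this; omega
      · have := e11 x hx; rw [← h, if_pos hv] at this; omega
      · have := e20 x hx y hy hxy; rw [← h, if_pos hv] at this; omega
      · have := e21 x hx y hy hxy; rw [← h, if_pos hv] at this; omega
      · left
        by_contra hn
        have := e3 _ (r3_mul A.P h)
        rw [if_neg hn] at this
        omega)
    rw [hb] at h3
    revert h3; decide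
  · have h2 : c10 + c11 = 1 ∧ c20 + c21 = 1 ∧ c3 = 1 := by
      rcases (show c3 = 0 ∨ c3 = 1 by omega) with h3 | h3 <;>
      rcases (show c10 + c11 = 0 ∨ c10 + c11 = 1 ∨ c10 + c11 = 2 by omega) with h4 | h4 | h4 <;>
      rcases (show c20 + c21 = 0 ∨ c20 + c21 = 1 ∨ c20 + c21 = 2 by omega) with h5 | h5 | h5 <;>
      rw [h3, h4, h5] at hX <;> omega
    obtain ⟨h21, h22, rfl⟩ := h2
    have hzz := A.P.sq z
    have h3 := sub2 A (by
      intro v hv hv1
      rcases cases_univ A.P v with h | h | h | ⟨x, hx, h⟩ | ⟨x, hx, y, hy, hxy, h⟩ | ⟨x, hx, y, hy, hxy, h⟩ | h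
      · exact absurd h hv1
      · rw [h] at hv; exact absurd A.hz hv
      · have h4 := e10 v h; rw [if_neg hv] at h4
        by_contra hn
        have h5 := e11 v h
        rw [mul_comm v z, if_neg hn] at h5
        omega
      · have h4 := e11 x hx; rw [← h, if_neg hv] at h4
        by_contra hn
        have h5 := e10 x hx
        have e : z * v = x := by rw [h, mul_comm, mul_assoc, hzz, mul_one]
        rw [e] at hn
        rw [if_neg hn] at h5
        omega
      · have h4 := e20 x hx y hy hxy; rw [← h, if_neg hv] at h4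
        by_contra hn
        have h5 := e21 x hx y hy hxy
        rw [← h, mul_comm v z, if_neg hn] at h5
        omega
      · have h4 := e21 x hx y hy hxy; rw [← h, if_neg hv] at h4
        by_contra hn
        have h5 := e20 x hx y hy hxy
        have e : z * v = x * y := by rw [h, mul_comm, mul_assoc, hzz, mul_one]
        rw [e] at hn
        rw [if_neg hn] at h5
        omega
      · have := e3 _ h
        rw [if_neg hv] at this
        omega)
    rw [hb] at h3
    revert h3; decide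

end H19.RMod2
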