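import Mathlib
import Cfsg.Agent.Lib.H19.RMod2

/-!
Involutory automorphisms of the group of a plane.
-/

set_option autoImplicit false
set_option linter.unusedSectionVars false
set_option linter.unusedVariables false

namespace H19.RMod3
open Finset H19.RMod H19.RMod2

variable {V : Type*} [CommGroup V] [DecidableEq V] [Fintype V] {z : V} {F : Finset V} {L : Set (Finset V)}

/-- the homomorphism `v ↦ v φ(v)` -/
def cm (φ : V ≃* V) : V →* V := (MonoidHom.id V) * φ.toMonoidHom

omit [DecidableEq V] [Fintype V] in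
theorem cm_apply (φ : V ≃* V) (v : V) : cm φ v = v * φ v := rfl

/-- involutory automorphisms stabilizing the points -/
structure Inv (z : V) (F : Finset V) (φ : V ≃* V) : Prop where
  sq : ∀ v, φ (φ v) = v
  pz : φ z = z
  pF : ∀ x ∈ F, φ x ∈ F

/-- moved pairs -/
def MP (F : Finset V) (φ : V ≃* V) : Finset (Finset V) := (F.filter (fun x => φ x ≠ x)).image (fun x => {x, φ x})

def Fx (F : Finset V) (φ : V ≃* V) : Finset V := F.filter (fun x => φ x = x)

variable (P : Plane z F L) {φ : V ≃* V} (I : Inv z F φ)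
include P I

theorem mem_ker {v : V} : v ∈ (cm φ).ker ↔ φ v = v := by
  rw [MonoidHom.mem_ker, cm_apply]
  constructor
  · intro h
    have := eq_inv_of_mul_eq_one_right h
    rw [this]; exact inv_eq_of_mul_eq_one_left (P.sq v)
  · intro h
    rw [h]; exact P.sq v

theorem card_moved : 2 * (MP F φ).card + (Fx F φ).card = 21 := by
  have h1 : (F.filter (fun x => φ x ≠ x)).card = ∑ b ∈ MP F φ, ((F.filter (fun x => φ x ≠ x)).filter (fun x => ({x, φ x} : Finset V) = b)).card :=
    Finset.card_eq_sum_card_image _ _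
  have h2 : ∀ b ∈ MP F φ, ((F.filter (fun x => φ x ≠ x)).filter (fun x => ({x, φ x} : Finset V) = b)).card = 2 := by
    intro b hb
    obtain ⟨x, hx, rfl⟩ := Finset.mem_image.1 hb
    rw [Finset.mem_filter] at hx
    have : ((F.filter (fun x => φ x ≠ x)).filter (fun y => ({y, φ y} : Finset V) = {x, φ x})) = {x, φ x} := by
      ext y
      simp only [Finset.mem_filter, Finset.mem_insert, Finset.mem_singleton]
      constructor
      · rintro ⟨_, h⟩
        have : y ∈ ({y, φ y} : Finset V) := by simp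
        rw [h] at this
        simpa using this
      · rintro (rfl | rfl)
        · exact ⟨⟨hx.1, hx.2⟩, rfl⟩
        · refine ⟨⟨I.pF x hx.1, ?_⟩, ?_⟩
          · rw [I.sq]; exact hx.2.symm
          · rw [I.sq]; exact Finset.pair_comm _ _
    rw [this, Finset.card_pair hx.2.symm]
  rw [Finset.sum_congr rfl h2, Finset.sum_const, smul_eq_mul] at h1
  have h3 := Finset.card_filter_add_card_filter_not (s := F) (fun x => φ x = x)
  have h4 : (F.filter (fun x => ¬ φ x = x)).card = (MP F φ).card * 2 := h1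
  rw [h4, P.card] at h3
  have h5 : (Fx F φ).card = (F.filter (fun x => φ x = x)).card := rfl
  omega

theorem mem_MP {s : Finset V} (hs : s ∈ MP F φ) : ∃ x ∈ F, φ x ≠ x ∧ s = {x, φ x} ∧ ∏ u ∈ s, u = x * φ x ∧ s ⊆ F ∧ s.card = 2 := by
  obtain ⟨x, hx, rfl⟩ := Finset.mem_image.1 hs
  rw [Finset.mem_filter] at hx
  refine ⟨x, hx.1, hx.2, rfl, Finset.prod_pair hx.2.symm, ?_, Finset.card_pair hx.2.symm⟩
  intro y hy
  simp only [Finset.mem_insert, Finset.mem_singleton] at hy
  rcases hy with rfl | rfl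
  exacts [hx.1, I.pF x hx.1]

omit I in
theorem card_phi_image {S : Finset (Finset V)} (hS : S ⊆ F2 F) (b : Finset Bool) : ((S ×ˢ b).image (phi z)).card = S.card * b.card := by
  rw [Finset.card_image_of_injOn, Finset.card_product]
  intro q hq q' hq' h
  rw [Finset.mem_coe, Finset.mem_product] at hq hq'
  have h1 := mem_F2.1 (hS hq.1)
  have h2 := mem_F2.1 (hS hq'.1)
  apply P.phi_inj h
  apply P.uniq_small h1.1 h2.1 (by have := h1.2; have := h2.2; omega)
  apply P.eqz_trans (P.eqz_symm (eqz_phi z q))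
  rw [h]; exact eqz_phi z q'

/-- fixed sets -/
def FS (F : Finset V) (φ : V ≃* V) : Finset (Finset V) :=
  F.powersetCard 0 ∪ (Fx F φ).powersetCard 1 ∪ (Fx F φ).powersetCard 2 ∪ MP F φ

theorem card_FS : (FS F φ).card = 1 + (Fx F φ).card + (Fx F φ).card.choose 2 + (MP F φ).card := by
  have hc : ∀ (k l : ℕ) (A B : Finset V), k ≠ l → Disjoint (A.powersetCard k) (B.powersetCard l) := by
    intro k l A B hkl
    rw [Finset.disjoint_left]
    intro s hs hs'
    rw [Finset.mem_powersetCard] at hs hs'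
    omega
  have hd : Disjoint (F.powersetCard 0 ∪ (Fx F φ).powersetCard 1 ∪ (Fx F φ).powersetCard 2) (MP F φ) := by
    rw [Finset.disjoint_left]
    intro s hs hs'
    obtain ⟨x, hx, hne, rfl, h1, h2, h3⟩ := mem_MP P I hs'
    rw [Finset.mem_union, Finset.mem_union, Finset.mem_powersetCard, Finset.mem_powersetCard, Finset.mem_powersetCard] at hs
    rcases hs with (hs | hs) | hs
    · omega
    · omega
    · have : x ∈ Fx F φ := hs.1 (by simp)
      rw [Fx, Finset.mem_filter] at this
      exact hne this.2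
  rw [FS, Finset.card_union_of_disjoint hd, Finset.card_union_of_disjoint, Finset.card_union_of_disjoint (hc _ _ _ _ (by norm_num)),
    Finset.card_powersetCard, Finset.card_powersetCard, Finset.card_powersetCard, Nat.choose_zero_right, Nat.choose_one_right]
  rw [Finset.disjoint_union_left]
  exact ⟨hc _ _ _ _ (by norm_num), hc _ _ _ _ (by norm_num)⟩

theorem FS_sub : FS F φ ⊆ F2 F := by
  intro s hs
  rw [mem_F2]
  rw [FS, Finset.mem_union, Finset.mem_union, Finset.mem_union, Finset.mem_powersetCard, Finset.mem_powersetCard, Finset.mem_powersetCard] at hs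
  have hsub : Fx F φ ⊆ F := Finset.filter_subset _ _
  rcases hs with ((hs | hs) | hs) | hs
  · exact ⟨hs.1, by omega⟩
  · exact ⟨hs.1.trans hsub, by omega⟩
  · exact ⟨hs.1.trans hsub, by omega⟩
  · obtain ⟨x, hx, hne, rfl, h1, h2, h3⟩ := mem_MP P I hs
    exact ⟨h2, by omega⟩

theorem fix_lower : 2 * (1 + (Fx F φ).card + (Fx F φ).card.choose 2 + (MP F φ).card) ≤ Nat.card (cm φ).ker := by
  have h1 := card_phi_image P (FS_sub P I) Finset.univ
  rw [Finset.card_univ, Fintype.card_bool, card_FS P I] at h1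
  rw [mul_comm, ← h1]
  have h2 : Nat.card (cm φ).ker = ((cm φ).ker : Set V).ncard := rfl
  rw [h2, ← Set.ncard_coe_finset]
  apply Set.ncard_le_ncard _ (Set.toFinite _)
  intro v hv
  rw [Finset.mem_coe, Finset.mem_image] at hv
  obtain ⟨⟨s, b⟩, hq, rfl⟩ := hv
  rw [Finset.mem_product] at hq
  rw [SetLike.mem_coe, mem_ker P I]
  have h3 : φ (∏ u ∈ s, u) = ∏ u ∈ s, u := by
    have hs := hq.1
    rw [FS, Finset.mem_union, Finset.mem_union, Finset.mem_union, Finset.mem_powersetCard, Finset.mem_powersetCard, Finset.mem_powersetCard] at hs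
    rcases hs with ((hs | hs) | hs) | hs
    · have : s = ∅ := Finset.card_eq_zero.1 hs.2
      rw [this, Finset.prod_empty, map_one]
    · rw [map_prod]
      apply Finset.prod_congr rfl
      intro x hx
      exact (Finset.mem_filter.1 (hs.1 hx)).2
    · rw [map_prod]
      apply Finset.prod_congr rfl
      intro x hx
      exact (Finset.mem_filter.1 (hs.1 hx)).2
    · obtain ⟨x, hx, hne, -, h1, h2, h3⟩ := mem_MP P I hs
      rw [h1, map_mul, I.sq, mul_comm]
  unfold phi
  rw [map_mul, h3]
  by_cases hb : b = true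
  · simp only [hb, if_true, I.pz]
  · simp [hb]

theorem im_lower : 1 + (MP F φ).card ≤ Nat.card (cm φ).range := by
  have hsub : insert ∅ (MP F φ) ⊆ F2 F := by
    intro s hs
    rw [mem_F2]
    rcases Finset.mem_insert.1 hs with rfl | hs
    · exact ⟨Finset.empty_subset _, by simp⟩
    · obtain ⟨x, hx, hne, -, h1, h2, h3⟩ := mem_MP P I hs
      exact ⟨h2, by omega⟩
  have hn : ∅ ∉ MP F φ := by
    intro hs
    obtain ⟨x, hx, hne, -, h1, h2, h3⟩ := mem_MP P I hs
    simp at h3
  have h1 := card_phi_image P hsub {false}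
  rw [Finset.card_singleton, mul_one, Finset.card_insert_of_notMem hn] at h1
  rw [add_comm, ← h1]
  have h2 : Nat.card (cm φ).range = ((cm φ).range : Set V).ncard := rfl
  rw [h2, ← Set.ncard_coe_finset]
  apply Set.ncard_le_ncard _ (Set.toFinite _)
  intro v hv
  rw [Finset.mem_coe, Finset.mem_image] at hv
  obtain ⟨⟨s, b⟩, hq, rfl⟩ := hv
  rw [Finset.mem_product, Finset.mem_singleton] at hq
  obtain ⟨hs, rfl⟩ := hq
  rcases Finset.mem_insert.1 hs with rfl | hs
  · refine ⟨1, ?_⟩
    simp [phi]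
  · obtain ⟨x, hx, hne, -, h1, h2, h3⟩ := mem_MP P I hs
    refine ⟨x, ?_⟩
    simp [phi, h1, cm_apply]

theorem im_lower' (hz : z ∈ (cm φ).range) : 2 * (1 + (MP F φ).card) ≤ Nat.card (cm φ).range := by
  have hsub : insert ∅ (MP F φ) ⊆ F2 F := by
    intro s hs
    rw [mem_F2]
    rcases Finset.mem_insert.1 hs with rfl | hs
    · exact ⟨Finset.empty_subset _, by simp⟩
    · obtain ⟨x, hx, hne, -, h1, h2, h3⟩ := mem_MP P I hs
      exact ⟨h2, by omega⟩
  have hn : ∅ ∉ MP F φ := by
    intro hs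
    obtain ⟨x, hx, hne, -, h1, h2, h3⟩ := mem_MP P I hs
    simp at h3
  have h1 := card_phi_image P hsub Finset.univ
  rw [Finset.card_univ, Fintype.card_bool, Finset.card_insert_of_notMem hn] at h1
  rw [add_comm, mul_comm, ← h1]
  have h2 : Nat.card (cm φ).range = ((cm φ).range : Set V).ncard := rfl
  rw [h2, ← Set.ncard_coe_finset]
  apply Set.ncard_le_ncard _ (Set.toFinite _)
  intro v hv
  rw [Finset.mem_coe, Finset.mem_image] at hv
  obtain ⟨⟨s, b⟩, hq, rfl⟩ := hv
  rw [Finset.mem_product] at hq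
  obtain ⟨hs, -⟩ := hq
  rw [SetLike.mem_coe]
  unfold phi
  apply Subgroup.mul_mem
  · rcases Finset.mem_insert.1 hs with rfl | hs
    · simp only [Finset.prod_empty]; exact Subgroup.one_mem _
    · obtain ⟨x, hx, hne, -, h1, h2, h3⟩ := mem_MP P I hs
      exact ⟨x, by simp only [h1, cm_apply]⟩
  · split_ifs
    · exact hz
    · exact Subgroup.one_mem _

omit I in
theorem card_mul : Nat.card (cm φ).ker * Nat.card (cm φ).range = 1024 := by
  rw [← Subgroup.index_ker, Subgroup.card_mul_index, Nat.card_eq_fintype_card, P.card_V]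

omit I in
/-- no involutory automorphism with five fixed points when everything is conjugate to `z` -/
theorem no_all (I : Inv z F φ) (h5 : (Fx F φ).card = 5)
    (hconj : ∀ x : V, x ≠ 1 → ∃ ψ : V ≃* V, ψ x = z ∧ (ψ (φ (ψ.symm z)) = z → ∀ y ∈ F, ψ (φ (ψ.symm y)) ∈ F)) : False := by
  have hm := card_moved P I
  have hf := fix_lower P I
  have hi := im_lower P I
  have hmul := card_mul P (φ := φ)
  have hm8 : (MP F φ).card = 8 := by omega
  rw [h5, hm8] at hf
  rw [hm8] at hi
  have hch : Nat.choose 5 2 = 10 := rfl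
  rw [hch] at hf
  have hk : Nat.card (cm φ).ker = 64 ∧ Nat.card (cm φ).range = 16 := by
    have h2 : Nat.card (cm φ).ker ∣ 2 ^ 10 := ⟨_, hmul.symm⟩
    obtain ⟨i, hi1, hi2⟩ := (Nat.dvd_prime_pow Nat.prime_two).1 h2
    rw [hi2] at hmul hf ⊢
    have : i ≤ 10 := hi1
    interval_cases i <;> omega
  obtain ⟨hker, him⟩ := hk
  -- an element of the image
  obtain ⟨x, hx, hx1⟩ : ∃ x ∈ (cm φ).range, x ≠ 1 := by
    by_contra hno
    push Not at hno
    have : (cm φ).range = ⊥ := by
      rw [eq_bot_iff]; intro x hx; exact hno x hx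
    rw [this, Subgroup.card_bot] at him
    omega
  obtain ⟨ψ, hψ, hψF⟩ := hconj x hx1
  let φ' : V ≃* V := (ψ.symm.trans φ).trans ψ
  have hφ' : ∀ v, φ' v = ψ (φ (ψ.symm v)) := fun v => rfl
  obtain ⟨u, hu⟩ := hx
  rw [cm_apply] at hu
  have hfx : φ x = x := by rw [← hu, map_mul, I.sq, mul_comm]
  have hz' : φ' z = z := by
    rw [hφ', ← hψ, MulEquiv.symm_apply_apply, hfx]
  have I' : Inv z F φ' := by
    refine ⟨?_, hz', ?_⟩
    · intro v
      rw [hφ', hφ', MulEquiv.symm_apply_apply, I.sq, MulEquiv.apply_symm_apply]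
    · intro y hy
      rw [hφ']
      exact hψF hz' y hy
  have hzr : z ∈ (cm φ').range := by
    refine ⟨ψ u, ?_⟩
    rw [cm_apply, hφ', MulEquiv.symm_apply_apply, ← map_mul, hu, hψ]
  have hker' : Nat.card (cm φ').ker = 64 := by
    rw [← hker]
    apply Nat.card_congr
    refine ⟨fun v => ⟨ψ.symm v, ?_⟩, fun v => ⟨ψ v, ?_⟩, ?_, ?_⟩
    · have := (mem_ker P I').1 v.2
      rw [mem_ker P I]
      rw [hφ'] at this
      have h1 := congrArg ψ.symm this
      rwa [MulEquiv.symm_apply_apply] at h1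
    · have := (mem_ker P I).1 v.2
      rw [mem_ker P I', hφ', MulEquiv.symm_apply_apply, this]
    · intro v
      exact Subtype.ext (MulEquiv.apply_symm_apply ψ _)
    · intro v
      exact Subtype.ext (MulEquiv.symm_apply_apply ψ _)
  have hmul' := card_mul P (φ := φ')
  have hm' := card_moved P I'
  have hf' := fix_lower P I'
  have hi' := im_lower' P I' hzr
  rw [hker'] at hmul' hf'
  have him' : Nat.card (cm φ').range = 16 := by omega
  rw [him'] at hi'
  have hle : (MP F φ').card ≤ 7 := by omega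
  have hFx : (Fx F φ').card = 21 - 2 * (MP F φ').card := by omega
  rw [hFx] at hf'
  generalize (MP F φ').card = m at hle hf'
  interval_cases m <;> revert hf' <;> decide

end H19.RMod3
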