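import Mathlib
import Cfsg.Agent.Lib.H19.RMod

/-!
The split case: the twisted points generate a complement.
-/

set_option autoImplicit false
set_option linter.unusedSectionVars false
set_option linter.unusedVariables false

namespace H19.RMod4
open Finset H19.RMod

variable {V : Type*} [CommGroup V] [DecidableEq V] {z : V} {F : Finset V} {L : Set (Finset V)}

/-- twisted products -/
def ez (z : V) (s : Finset V) : V := (∏ x ∈ s, x) * z ^ s.card

theorem ez_singleton (x : V) : ez z {x} = x * z := by
  simp [ez]

variable (P : Plane z F L)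
include P

theorem ez_symm (s t : Finset V) : ez z s * ez z t = ez z (symmDiff s t) := by
  unfold ez
  rw [← prod_symmDiff P.sq, mul_mul_mul_comm, ← pow_add, ← card_symmDiff s t, pow_add, pow_mul, pow_two, P.sq, one_pow, mul_one]

theorem ez_mod (s : Finset V) {r : Finset V} (hr : ez z r = 1) : ez z s = ez z (symmDiff s r) := by
  rw [← ez_symm P, hr, mul_one]

theorem ez_line {l : Finset V} (hl : l ∈ L) : ez z l = 1 := by
  unfold ez
  rw [P.lrel l hl, P.lcard l hl, ← pow_succ']
  have : z ^ (5 + 1) = (z * z) ^ 3 := by rw [← pow_two, ← pow_mul]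
  rw [this, P.sq, one_pow]

theorem exact_form (hN : ∀ r, Rl z F r → r.card = 6 → ez z r = 1) (v : V)
    (hv : v ∈ Subgroup.closure ((fun x => x * z) '' (F : Set V))) : ∃ s, Good F L s ∧ v = ez z s := by
  -- products over small sets
  have key2 : ∀ s ⊆ F, s.card ≤ 2 → ∀ x ∈ F, ∃ t, Good F L t ∧ x * z * ez z s = ez z t := by
    intro s hs hc x hx
    have e : x * z * ez z s = ez z (symmDiff {x} s) := by
      rw [← ez_symm P, ez_singleton]
    rw [e]
    have hcs := card_symmDiff {x} s
    rw [Finset.card_singleton] at hcs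
    have hsub : symmDiff {x} s ⊆ F := by
      intro u hu
      rw [Finset.mem_symmDiff, Finset.mem_singleton] at hu
      rcases hu with ⟨rfl, _⟩ | ⟨hu, _⟩
      · exact hx
      · exact hs hu
    by_cases h2 : (symmDiff {x} s).card ≤ 2
    · exact ⟨_, Or.inl ⟨hsub, h2⟩, rfl⟩
    · have h3 : (symmDiff {x} s).card = 3 := by omega
      obtain ⟨a, b, c, hab, hac, hbc, he⟩ := Finset.card_eq_three.1 h3
      rw [he] at hsub ⊢
      have ha : a ∈ F := hsub (by simp)
      have hb : b ∈ F := hsub (by simp)
      have hcF : c ∈ F := hsub (by simp)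
      by_cases ht : Trg L a b c
      · exact ⟨_, Or.inr ⟨a, ha, b, hb, c, hcF, ht, rfl⟩, rfl⟩
      · obtain ⟨l, hl, h5, h6, h7⟩ := P.not_trg hab ht
        refine ⟨symmDiff {a, b, c} l, Or.inl ?_, ez_mod P _ (ez_line P hl)⟩
        have hsub' : ({a, b, c} : Finset V) ⊆ l := by
          intro u hu
          simp only [Finset.mem_insert, Finset.mem_singleton] at hu
          rcases hu with rfl | rfl | rfl <;> assumption
        refine ⟨?_, ?_⟩
        · intro u hu
          rw [Finset.mem_symmDiff] at hu
          rcases hu with hu | hu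
          · exact hsub hu.1
          · exact P.lsub l hl hu.1
        · have h8 := card_symmDiff {a, b, c} l
          rw [Finset.inter_eq_left.2 hsub', Finset.card_eq_three.2 ⟨a, b, c, hab, hac, hbc, rfl⟩, P.lcard l hl] at h8
          omega
  have key3 : ∀ s, Tset F L s → ∀ x ∈ F, ∃ t, Good F L t ∧ x * z * ez z s = ez z t := by
    intro s hs x hx
    have hs3 := P.tset_card hs
    have hsF := P.tset_sub hs
    have e : x * z * ez z s = ez z (symmDiff {x} s) := by
      rw [← ez_symm P, ez_singleton]
    rw [e]
    have hsub : symmDiff {x} s ⊆ F := by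
      intro u hu
      rw [Finset.mem_symmDiff, Finset.mem_singleton] at hu
      rcases hu with ⟨rfl, _⟩ | ⟨hu, _⟩
      · exact hx
      · exact hsF hu
    have hcs := card_symmDiff {x} s
    rw [Finset.card_singleton, hs3] at hcs
    by_cases hxs : x ∈ s
    · have : ({x} ∩ s).card = 1 := by
        rw [Finset.inter_eq_left.2 (by simpa using hxs), Finset.card_singleton]
      exact ⟨_, Or.inl ⟨hsub, by omega⟩, rfl⟩
    have hdis : ({x} ∩ s : Finset V) = ∅ := by
      rw [Finset.singleton_inter_of_notMem hxs]
    rw [hdis, Finset.card_empty] at hcs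
    have hsd : symmDiff {x} s = insert x s := by
      ext u
      simp only [Finset.mem_symmDiff, Finset.mem_singleton, Finset.mem_insert]
      constructor
      · rintro (⟨h, _⟩ | ⟨h, _⟩)
        · exact Or.inl h
        · exact Or.inr h
      · rintro (h | h)
        · exact Or.inl ⟨h, by rw [h]; exact hxs⟩
        · exact Or.inr ⟨h, by rintro rfl; exact hxs h⟩
    -- the case of a side
    have hsidecase : ∀ a ∈ F, ∀ b ∈ F, ∀ c ∈ F, Trg L a b c → s = {a, b, c} → ∀ l ∈ L, x ∈ l → a ∈ l → b ∈ l →
        ∃ t, Good F L t ∧ ez z (symmDiff {x} s) = ez z t := by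
      intro a ha b hb c hc habc hs l hl hxl hal hbl
      have hcl := habc.2 l hl hal hbl
      have hxa : x ≠ a := by rintro rfl; exact hxs (by rw [hs]; simp)
      have hxb : x ≠ b := by rintro rfl; exact hxs (by rw [hs]; simp)
      have h7 : (l \ {x, a, b}).card = 2 := by
        rw [Finset.card_sdiff_of_subset (by
          intro u hu
          simp only [Finset.mem_insert, Finset.mem_singleton] at hu
          rcases hu with rfl | rfl | rfl <;> assumption), P.lcard l hl,
          Finset.card_eq_three.2 ⟨x, a, b, hxa, hxb, habc.1, rfl⟩]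
      obtain ⟨p, q, hpq, h8⟩ := Finset.card_eq_two.1 h7
      have hp : p ∈ l \ {x, a, b} := by rw [h8]; simp
      have hq : q ∈ l \ {x, a, b} := by rw [h8]; simp
      rw [Finset.mem_sdiff] at hp hq
      have e2 : symmDiff (symmDiff {x} s) l = {p, q, c} := by
        rw [hsd, hs]
        ext u
        have h9 : u ∈ l \ {x, a, b} ↔ u ∈ ({p, q} : Finset V) := by rw [h8]
        simp only [Finset.mem_sdiff, Finset.mem_insert, Finset.mem_singleton] at h9
        simp only [Finset.mem_symmDiff, Finset.mem_insert, Finset.mem_singleton]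
        constructor
        · rintro (⟨h, h'⟩ | ⟨h, h'⟩)
          · rcases h with rfl | rfl | rfl | rfl
            · exact absurd hxl h'
            · exact absurd hal h'
            · exact absurd hbl h'
            · exact Or.inr (Or.inr rfl)
          · have := h9.1 ⟨h, by tauto⟩
            tauto
        · rintro (h | h | h)
          · have := h9.2 (Or.inl h)
            refine Or.inr ⟨this.1, ?_⟩
            rintro (h' | h' | h' | h')
            · exact this.2 (Or.inl h')
            · exact this.2 (Or.inr (Or.inl h'))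
            · exact this.2 (Or.inr (Or.inr h'))
            · exact hcl (h' ▸ this.1)
          · have := h9.2 (Or.inr h)
            refine Or.inr ⟨this.1, ?_⟩
            rintro (h' | h' | h' | h')
            · exact this.2 (Or.inl h')
            · exact this.2 (Or.inr (Or.inl h'))
            · exact this.2 (Or.inr (Or.inr h'))
            · exact hcl (h' ▸ this.1)
          · exact Or.inl ⟨by tauto, by rw [h]; exact hcl⟩
      refine ⟨{p, q, c}, Or.inr ⟨p, P.lsub l hl hp.1, q, P.lsub l hl hq.1, c, hc, ⟨hpq, ?_⟩, rfl⟩, ?_⟩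
      · intro l' hl' h1 h2
        have := P.uq p (P.lsub l hl hp.1) q (P.lsub l hl hq.1) hpq l hl l' hl' hp.1 hq.1 h1 h2
        rw [← this]; exact hcl
      · rw [← e2]
        exact ez_mod P _ (ez_line P hl)
    obtain ⟨a, ha, b, hb, c, hc, habc, hs'⟩ := hs
    have t2 := P.trg_rot ha hb hc habc
    have t3 := P.trg_rot hb hc ha t2
    rcases P.cover ha hb hc habc x hx with ⟨l, hl, hxl, h1 | h1 | h1⟩ | ⟨r, hr, hrc, har, hbr, hcr, hxr⟩
    · exact hsidecase a ha b hb c hc habc hs' l hl hxl h1.1 h1.2
    · exact hsidecase b hb c hc a ha t2 (by rw [hs']; ext u; simp; tauto) l hl hxl h1.1 h1.2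
    · exact hsidecase c hc a ha b hb t3 (by rw [hs']; ext u; simp; tauto) l hl hxl h1.1 h1.2
    · refine ⟨symmDiff (symmDiff {x} s) r, Or.inl ?_, ez_mod P _ (hN r hr hrc)⟩
      have hsub' : symmDiff {x} s ⊆ r := by
        rw [hsd, hs']
        intro u hu
        simp only [Finset.mem_insert, Finset.mem_singleton] at hu
        rcases hu with rfl | rfl | rfl | rfl <;> assumption
      refine ⟨?_, ?_⟩
      · intro u hu
        rw [Finset.mem_symmDiff] at hu
        rcases hu with hu | hu
        · exact hsub hu.1
        · exact hr.1 hu.1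
      · have h8 := card_symmDiff (symmDiff {x} s) r
        rw [Finset.inter_eq_left.2 hsub', hrc] at h8
        omega
  have hmulN : ∀ x ∈ F, ∀ v, (∃ s, Good F L s ∧ v = ez z s) → ∃ s, Good F L s ∧ x * z * v = ez z s := by
    rintro x hx v ⟨s, h1, rfl⟩
    rcases h1 with h1 | h1
    · exact key2 s h1.1 h1.2 x hx
    · exact key3 s h1 x hx
  have hinv : ∀ x : V, x⁻¹ = x := fun x => inv_eq_of_mul_eq_one_left (P.sq x)
  induction hv using Subgroup.closure_induction_left with
  | one => exact ⟨∅, Or.inl ⟨Finset.empty_subset _, by simp⟩, by simp [ez]⟩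
  | mul_left x hx y hy ih =>
    obtain ⟨x, hx, rfl⟩ := hx
    exact hmulN x hx y ih
  | inv_mul_cancel x hx y hy ih =>
    rw [hinv]
    obtain ⟨x, hx, rfl⟩ := hx
    exact hmulN x hx y ih

theorem z_notMem (hN : ∀ r, Rl z F r → r.card = 6 → ez z r = 1) : z ∉ Subgroup.closure ((fun x => x * z) '' (F : Set V)) := by
  intro hm
  obtain ⟨s, hs, he⟩ := exact_form P hN z hm
  have hsub := P.good_sub hs
  have hc : s.card ≤ 3 := by
    rcases hs with hs | hs
    · omega
    · rw [P.tset_card hs]
  have hz : ∀ n : ℕ, z ^ n = 1 ∨ z ^ n = z := by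
    intro n
    induction n with
    | zero => left; simp
    | succ n ih =>
      rw [pow_succ]
      rcases ih with ih | ih
      · right; rw [ih, one_mul]
      · left; rw [ih, P.sq]
  have hp : ∏ x ∈ s, x = 1 ∨ ∏ x ∈ s, x = z := by
    unfold ez at he
    rcases hz s.card with h1 | h1
    · right; rw [h1, mul_one] at he; exact he.symm
    · left
      rw [h1] at he
      have : (1 : V) * z = (∏ x ∈ s, x) * z := by rw [one_mul]; exact he
      exact (mul_right_cancel this).symm
  rcases P.rel s hsub (by omega) hp with h1 | h1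
  · rw [h1] at he
    simp [ez] at he
    exact P.z1 he
  · have := P.lcard _ h1
    omega

end H19.RMod4
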