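import Mathlib
import Cfsg.Agent.Lib.H19.RMod

/-!
Elementary abelian 2-groups generated by the 22 points of a Witt design and a central element: normal forms and the order.
-/

set_option autoImplicit false
set_option linter.unusedSectionVars false
set_option linter.style.haveILetI false
set_option linter.unusedVariables false

namespace H19.RWit
open Finset H19.RMod

variable {V : Type*} [CommGroup V] [DecidableEq V]

/-- the relations of the 22 points -/
structure Wt (z : V) (F : Finset V) : Prop where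
  sq : ∀ v : V, v * v = 1
  z1 : z ≠ 1
  card : F.card = 22
  gen : Subgroup.closure (insert z (F : Set V)) = ⊤
  small : ∀ s, Rl z F s → s.card ≤ 5 → s = ∅
  three : ∀ s ⊆ F, s.card = 3 → ∃ h, Rl z F h ∧ h.card = 6 ∧ s ⊆ h
  four : ∀ s ⊆ F, s.card = 4 → ∃ h, Rl z F h ∧ (h.card = 6 ∨ h.card = 7) ∧ s ⊆ h
  uq : ∀ h h', Rl z F h → Rl z F h' → h.card = 6 → h'.card = 6 → 3 ≤ (h ∩ h').card → h = h'

variable {z : V} {F : Finset V} (W : Wt z F)
include W

theorem Wt.rl_symm {s t : Finset V} (hs : Rl z F s) (ht : Rl z F t) : Rl z F (symmDiff s t) := by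
  refine ⟨?_, ?_⟩
  · intro x hx
    rw [Finset.mem_symmDiff] at hx
    rcases hx with hx | hx
    · exact hs.1 hx.1
    · exact ht.1 hx.1
  · rw [← prod_symmDiff W.sq]
    rcases hs.2 with h1 | h1 <;> rcases ht.2 with h2 | h2
    · left; rw [h1, h2, mul_one]
    · right; rw [h1, h2, one_mul]
    · right; rw [h1, h2, mul_one]
    · left; rw [h1, h2, W.sq]

theorem Wt.eqz_symm {a b : V} (h : Eqz z a b) : Eqz z b a := by
  rcases h with h | h
  · exact Or.inl h.symm
  · right; rw [h, mul_assoc, W.sq, mul_one]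

theorem Wt.eqz_trans {a b c : V} (h : Eqz z a b) (h' : Eqz z b c) : Eqz z a c := by
  rcases h with h | h <;> rcases h' with h' | h'
  · left; rw [h, h']
  · right; rw [h, h']
  · right; rw [h, h']
  · left; rw [h, h', mul_assoc, W.sq, mul_one]

omit [DecidableEq V] W in
theorem eqz_mul {a b : V} (c : V) (h : Eqz z a b) : Eqz z (c * a) (c * b) := by
  rcases h with h | h
  · left; rw [h]
  · right; rw [h, mul_assoc]

theorem Wt.mod_rel (s : Finset V) {r : Finset V} (hr : Rl z F r) : Eqz z (∏ x ∈ s, x) (∏ x ∈ symmDiff s r, x) := by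
  rw [← prod_symmDiff W.sq]
  rcases hr.2 with h | h
  · left; rw [h, mul_one]
  · right; rw [h, mul_assoc, W.sq, mul_one]

theorem Wt.rl_of_eqz {s t : Finset V} (hs : s ⊆ F) (ht : t ⊆ F) (h : Eqz z (∏ x ∈ s, x) (∏ x ∈ t, x)) : Rl z F (symmDiff s t) := by
  refine ⟨?_, ?_⟩
  · intro x hx
    rw [Finset.mem_symmDiff] at hx
    rcases hx with hx | hx
    · exact hs hx.1
    · exact ht hx.1
  · rw [← prod_symmDiff W.sq]
    rcases h with h | h
    · left; rw [h, W.sq]
    · right; rw [h, mul_assoc, mul_comm z, ← mul_assoc, W.sq, one_mul]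

theorem Wt.uniq {s t : Finset V} (hs : s ⊆ F) (ht : t ⊆ F) (hc : s.card + t.card ≤ 5 + 2 * (s ∩ t).card)
    (h : Eqz z (∏ x ∈ s, x) (∏ x ∈ t, x)) : s = t := by
  have h1 := W.rl_of_eqz hs ht h
  have h2 := card_symmDiff s t
  exact symmDiff_eq_bot.1 (W.small _ h1 (by omega))

theorem Wt.normal_form (v : V) : ∃ s ⊆ F, s.card ≤ 3 ∧ Eqz z v (∏ x ∈ s, x) := by
  have hv : v ∈ Subgroup.closure (insert z (F : Set V)) := by rw [W.gen]; trivial
  have hinv : ∀ x : V, x⁻¹ = x := fun x => inv_eq_of_mul_eq_one_left (W.sq x)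
  have hz : ∀ v, (∃ s ⊆ F, s.card ≤ 3 ∧ Eqz z v (∏ x ∈ s, x)) → ∃ s ⊆ F, s.card ≤ 3 ∧ Eqz z (z * v) (∏ x ∈ s, x) := by
    rintro v ⟨s, h1, h2, h3⟩
    refine ⟨s, h1, h2, ?_⟩
    rcases h3 with h3 | h3
    · right; rw [h3, mul_comm]
    · left; rw [h3, mul_comm, mul_assoc, W.sq, mul_one]
  have hx : ∀ x ∈ F, ∀ v, (∃ s ⊆ F, s.card ≤ 3 ∧ Eqz z v (∏ x ∈ s, x)) → ∃ s ⊆ F, s.card ≤ 3 ∧ Eqz z (x * v) (∏ x ∈ s, x) := by
    rintro x hx v ⟨s, h1, h2, h3⟩
    have h4 : Eqz z (x * v) (∏ x ∈ symmDiff {x} s, x) := by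
      rw [← prod_symmDiff W.sq, Finset.prod_singleton]
      exact eqz_mul x h3
    have hsub : symmDiff {x} s ⊆ F := by
      intro u hu
      rw [Finset.mem_symmDiff, Finset.mem_singleton] at hu
      rcases hu with ⟨rfl, _⟩ | ⟨hu, _⟩
      · exact hx
      · exact h1 hu
    have hc := card_symmDiff {x} s
    rw [Finset.card_singleton] at hc
    by_cases h5 : (symmDiff {x} s).card ≤ 3
    · exact ⟨_, hsub, h5, h4⟩
    · obtain ⟨h, g1, g2, g3⟩ := W.four _ hsub (by omega)
      refine ⟨symmDiff (symmDiff {x} s) h, ?_, ?_, W.eqz_trans h4 (W.mod_rel _ g1)⟩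
      · intro u hu
        rw [Finset.mem_symmDiff] at hu
        rcases hu with hu | hu
        · exact hsub hu.1
        · exact g1.1 hu.1
      · have h6 := card_symmDiff (symmDiff {x} s) h
        rw [Finset.inter_eq_left.2 g3] at h6
        omega
  induction hv using Subgroup.closure_induction_left with
  | one => exact ⟨∅, by simp, by simp, Or.inl (by simp)⟩
  | mul_left x hx' y hy ih =>
    rcases Set.mem_insert_iff.1 hx' with rfl | hx'
    · exact hz y ih
    · exact hx x (Finset.mem_coe.1 hx') y ih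
  | inv_mul_cancel x hx' y hy ih =>
    rw [hinv]
    rcases Set.mem_insert_iff.1 hx' with rfl | hx'
    · exact hz y ih
    · exact hx x (Finset.mem_coe.1 hx') y ih

theorem Wt.card_F2 : (F2 F).card = 254 := by
  have h01 : Disjoint (F.powersetCard 0) (F.powersetCard 1) := Finset.pairwise_disjoint_powersetCard F (by decide)
  have h02 : Disjoint (F.powersetCard 0) (F.powersetCard 2) := Finset.pairwise_disjoint_powersetCard F (by decide)
  have h12 : Disjoint (F.powersetCard 1) (F.powersetCard 2) := Finset.pairwise_disjoint_powersetCard F (by decide)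
  rw [F2, Finset.card_union_of_disjoint (by rw [Finset.disjoint_union_left]; exact ⟨h02, h12⟩),
    Finset.card_union_of_disjoint h01, Finset.card_powersetCard, Finset.card_powersetCard, Finset.card_powersetCard, W.card]
  rfl

theorem Wt.phi_inj {q q' : Finset V × Bool} (h : phi z q = phi z q') (h1 : q.1 = q'.1) : q = q' := by
  refine Prod.ext h1 ?_
  unfold phi at h
  rw [h1] at h
  have h2 := mul_left_cancel h
  have hz := W.z1
  by_cases a : q.2 = true <;> by_cases b : q'.2 = true
  · rw [a, b]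
  · rw [if_pos a, if_neg b] at h2; exact absurd h2 hz
  · rw [if_neg a, if_pos b] at h2; exact absurd h2.symm hz
  · rw [Bool.not_eq_true] at a b; rw [a, b]

theorem Wt.phi_injOn : Set.InjOn (phi z) ((F2 F ×ˢ (Finset.univ : Finset Bool) : Finset (Finset V × Bool)) : Set (Finset V × Bool)) := by
  intro q hq q' hq' h
  rw [Finset.mem_coe, Finset.mem_product, mem_F2] at hq hq'
  apply W.phi_inj h
  apply W.uniq hq.1.1 hq'.1.1 (by have := hq.1.2; have := hq'.1.2; omega)
  apply W.eqz_trans (W.eqz_symm (eqz_phi z q))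
  rw [h]; exact eqz_phi z q'

theorem Wt.card_small : ((F2 F ×ˢ (Finset.univ : Finset Bool)).image (phi z)).card = 508 := by
  rw [Finset.card_image_of_injOn W.phi_injOn, Finset.card_product, W.card_F2, Finset.card_univ, Fintype.card_bool]

omit W in
/-- elements of rank three -/
def R3 (F : Finset V) : Finset V := (F.powersetCard 3).image (fun s => ∏ x ∈ s, x)

omit W in
theorem mem_R3 {v : V} : v ∈ R3 F ↔ ∃ s ⊆ F, s.card = 3 ∧ ∏ x ∈ s, x = v := by
  simp only [R3, Finset.mem_image, Finset.mem_powersetCard]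
  constructor
  · rintro ⟨s, ⟨h1, h2⟩, h3⟩; exact ⟨s, h1, h2, h3⟩
  · rintro ⟨s, h1, h2, h3⟩; exact ⟨s, ⟨h1, h2⟩, h3⟩

theorem Wt.mem_small {v : V} {s : Finset V} (hs : s ⊆ F) (hc : s.card ≤ 2) (h : Eqz z v (∏ x ∈ s, x)) :
    v ∈ (F2 F ×ˢ (Finset.univ : Finset Bool)).image (phi z) := by
  rw [Finset.mem_image]
  rcases h with h | h
  · exact ⟨(s, false), by simp [mem_F2, hs, hc], by simp [phi, h]⟩
  · exact ⟨(s, true), by simp [mem_F2, hs, hc], by simp [phi, h]⟩

theorem Wt.disj : Disjoint ((F2 F ×ˢ (Finset.univ : Finset Bool)).image (phi z)) (R3 F) := by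
  rw [Finset.disjoint_left]
  intro v hv hv'
  rw [mem_R3] at hv'
  obtain ⟨t, ht, h0, h1⟩ := hv'
  rw [Finset.mem_image] at hv
  obtain ⟨q, hq, rfl⟩ := hv
  rw [Finset.mem_product, mem_F2] at hq
  have h2 := W.uniq hq.1.1 ht (by have := hq.1.2; omega) (by rw [h1]; exact W.eqz_symm (eqz_phi z q))
  rw [← h2] at h0
  have := hq.1.2
  omega

/-- hexads as pairs of triples -/
theorem Wt.compl {s : Finset V} (hs : s ⊆ F) (hc : s.card = 3) : ∃ t ⊆ F, t.card = 3 ∧ Disjoint s t ∧ Rl z F (s ∪ t) ∧ (s ∪ t).card = 6 := by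
  obtain ⟨h, h1, h2, h3⟩ := W.three s hs hc
  refine ⟨h \ s, fun u hu => h1.1 (Finset.mem_sdiff.1 hu).1, ?_, Finset.disjoint_sdiff, ?_, ?_⟩
  · rw [Finset.card_sdiff_of_subset h3]; omega
  · rw [Finset.union_sdiff_of_subset h3]; exact h1
  · rw [Finset.union_sdiff_of_subset h3]; exact h2

/-! ### the nonsplit case -/

/-- all hexads have product `z` -/
theorem Wt.r3_z (hN : ∀ h, Rl z F h → h.card = 6 → ∏ x ∈ h, x = z) {v : V} (hv : v ∈ R3 F) : z * v ∈ R3 F := by
  rw [mem_R3] at hv ⊢
  obtain ⟨s, h1, h2, h3⟩ := hv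
  obtain ⟨t, g1, g2, g3, g4, g5⟩ := W.compl h1 h2
  refine ⟨t, g1, g2, ?_⟩
  have h4 := hN _ g4 g5
  rw [Finset.prod_union g3, h3] at h4
  rw [← h4, mul_comm v, mul_assoc, W.sq, mul_one]

theorem Wt.union_univ [Fintype V] (hN : ∀ h, Rl z F h → h.card = 6 → ∏ x ∈ h, x = z) :
    (F2 F ×ˢ (Finset.univ : Finset Bool)).image (phi z) ∪ R3 F = Finset.univ := by
  rw [Finset.eq_univ_iff_forall]
  intro v
  rw [Finset.mem_union]
  obtain ⟨s, hs, hc, h⟩ := W.normal_form v
  rcases Nat.lt_or_ge s.card 3 with h3 | h3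
  · exact Or.inl (W.mem_small hs (by omega) h)
  · right
    rcases h with h | h
    · exact mem_R3.2 ⟨s, hs, by omega, h.symm⟩
    · rw [h, mul_comm]
      exact W.r3_z hN (mem_R3.2 ⟨s, hs, by omega, rfl⟩)

theorem Wt.prod3_inj (hN : ∀ h, Rl z F h → h.card = 6 → ∏ x ∈ h, x = z) {s t : Finset V} (hs : s ⊆ F) (ht : t ⊆ F) (hs3 : s.card = 3)
    (ht3 : t.card = 3) (h : ∏ x ∈ s, x = ∏ x ∈ t, x) : s = t := by
  by_cases h0 : (s ∩ t).card = 0
  · exfalso
    have h1 := W.rl_of_eqz hs ht (Or.inl h)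
    have h2 := card_symmDiff s t
    have h3 := hN _ h1 (by omega)
    rw [← prod_symmDiff W.sq, h, W.sq] at h3
    exact W.z1 h3.symm
  · exact W.uniq hs ht (by omega) (Or.inl h)

theorem Wt.card_R3 (hN : ∀ h, Rl z F h → h.card = 6 → ∏ x ∈ h, x = z) : (R3 F).card = 1540 := by
  rw [R3, Finset.card_image_of_injOn, Finset.card_powersetCard, W.card]
  · rfl
  · intro s hs t ht h
    rw [Finset.mem_coe, Finset.mem_powersetCard] at hs ht
    exact W.prod3_inj hN hs.1 ht.1 hs.2 ht.2 h

theorem Wt.card_V [Fintype V] (hN : ∀ h, Rl z F h → h.card = 6 → ∏ x ∈ h, x = z) : Fintype.card V = 2048 := by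
  rw [← Finset.card_univ, ← W.union_univ hN, Finset.card_union_of_disjoint W.disj, W.card_small, W.card_R3 hN]

/-! ### the split case -/

theorem Wt.all_one (hN : ∀ h, Rl z F h → h.card = 6 ∨ h.card = 7 → ∏ x ∈ h, x = 1) : ∀ (n : ℕ) (r : Finset V), r.card ≤ n → Rl z F r →
    ∏ x ∈ r, x = 1 := by
  intro n
  induction n with
  | zero =>
    intro r h0 hr
    rw [Finset.card_eq_zero.1 (by omega : r.card = 0)]; rfl
  | succ n ih =>
    intro r hrn hr
    rcases Nat.lt_or_ge r.card 4 with h4 | h4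
    · rw [W.small r hr (by omega)]; rfl
    · obtain ⟨s, hs, hs4⟩ := Finset.exists_subset_card_eq h4
      obtain ⟨h, h1, h2, h3⟩ := W.four s (hs.trans hr.1) hs4
      have h5 := card_symmDiff r h
      have h6 : 4 ≤ (r ∩ h).card := by
        rw [← hs4]
        exact Finset.card_le_card (Finset.subset_inter hs h3)
      have h7 := ih (symmDiff r h) (by omega) (W.rl_symm hr h1)
      rw [← prod_symmDiff W.sq, hN h h1 h2, mul_one] at h7
      exact h7

theorem Wt.z_notMem (hN : ∀ h, Rl z F h → h.card = 6 ∨ h.card = 7 → ∏ x ∈ h, x = 1) : z ∉ Subgroup.closure (F : Set V) := by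
  have hinv : ∀ x : V, x⁻¹ = x := fun x => inv_eq_of_mul_eq_one_left (W.sq x)
  have key : ∀ v ∈ Subgroup.closure (F : Set V), ∃ s ⊆ F, v = ∏ x ∈ s, x := by
    intro v hv
    induction hv using Subgroup.closure_induction with
    | mem x hx => exact ⟨{x}, by simpa using hx, by simp⟩
    | one => exact ⟨∅, by simp, by simp⟩
    | mul a b _ _ ha hb =>
      obtain ⟨s, hs, rfl⟩ := ha
      obtain ⟨t, ht, rfl⟩ := hb
      refine ⟨symmDiff s t, ?_, prod_symmDiff W.sq s t⟩
      intro x hx
      rw [Finset.mem_symmDiff] at hx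
      rcases hx with hx | hx
      · exact hs hx.1
      · exact ht hx.1
    | inv a _ ha => rw [hinv]; exact ha
  intro hz
  obtain ⟨s, hs, h⟩ := key z hz
  have h1 := W.all_one hN s.card s le_rfl ⟨hs, Or.inr h.symm⟩
  rw [h1] at h
  exact W.z1 h

theorem Wt.card_closure (hN : ∀ h, Rl z F h → h.card = 6 ∨ h.card = 7 → ∏ x ∈ h, x = 1) [Finite V] : 1024 ≤ Nat.card (Subgroup.closure (F : Set V)) := by
  have hN' := W.all_one hN
  have h1 : (R3 F).card * 2 ≥ 1540 := by
    have h2 := Finset.card_le_mul_card_image (s := F.powersetCard 3) (f := fun s => ∏ x ∈ s, x) 2 (by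
      intro v hv
      rw [Finset.mem_image] at hv
      obtain ⟨s, hs, rfl⟩ := hv
      rw [Finset.mem_powersetCard] at hs
      obtain ⟨t, t1, t2, t3, t4, t5⟩ := W.compl hs.1 hs.2
      have h3 : (F.powersetCard 3).filter (fun r => ∏ x ∈ r, x = ∏ x ∈ s, x) ⊆ {s, t} := by
        intro r hr
        rw [Finset.mem_filter, Finset.mem_powersetCard] at hr
        obtain ⟨⟨r1, r2⟩, r3⟩ := hr
        rw [Finset.mem_insert, Finset.mem_singleton]
        by_cases h0 : (r ∩ s).card = 0
        · right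
          have h4 := W.rl_of_eqz r1 hs.1 (Or.inl r3)
          have h5 := card_symmDiff r s
          have h6 : symmDiff r s = r ∪ s := by
            rw [Finset.card_eq_zero] at h0
            exact (Finset.disjoint_iff_inter_eq_empty.2 h0).symmDiff_eq_sup
          rw [h6] at h4 h5
          have h7 := W.uq _ _ h4 t4 (by omega) t5 (by
            rw [← hs.2]
            apply Finset.card_le_card
            intro u hu
            rw [Finset.mem_inter, Finset.mem_union, Finset.mem_union]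
            exact ⟨Or.inr hu, Or.inl hu⟩)
          have hd : Disjoint r s := Finset.disjoint_iff_inter_eq_empty.2 (Finset.card_eq_zero.1 h0)
          ext u
          have h8 : u ∈ r ∪ s ↔ u ∈ s ∪ t := by rw [h7]
          rw [Finset.mem_union, Finset.mem_union] at h8
          have h9 : u ∈ r → u ∉ s := fun h => Finset.disjoint_left.1 hd h
          have h10 : u ∈ s → u ∉ t := fun h => Finset.disjoint_left.1 t3 h
          tauto
        · left
          exact W.uniq r1 hs.1 (by have := hs.2; omega) (Or.inl r3)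
      exact (Finset.card_le_card h3).trans Finset.card_le_two)
    rw [Finset.card_powersetCard, W.card] at h2
    have h3 : Nat.choose 22 3 = 1540 := rfl
    rw [h3] at h2
    rw [mul_comm]; exact h2
  have h2 : (((F2 F ×ˢ ({false} : Finset Bool)).image (phi z)) ∪ R3 F).card ≥ 1024 := by
    rw [Finset.card_union_of_disjoint, Finset.card_image_of_injOn, Finset.card_product, W.card_F2, Finset.card_singleton]
    · omega
    · intro q hq q' hq' h
      rw [Finset.mem_coe, Finset.mem_product] at hq hq'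
      exact W.phi_injOn (by rw [Finset.mem_coe, Finset.mem_product]; exact ⟨hq.1, Finset.mem_univ _⟩)
        (by rw [Finset.mem_coe, Finset.mem_product]; exact ⟨hq'.1, Finset.mem_univ _⟩) h
    · apply Finset.disjoint_of_subset_left _ W.disj
      apply Finset.image_subset_image
      exact Finset.product_subset_product_right (Finset.subset_univ _)
  have h3 : ((((F2 F ×ˢ ({false} : Finset Bool)).image (phi z)) ∪ R3 F : Finset V) : Set V) ⊆ (Subgroup.closure (F : Set V) : Set V) := by
    have hp : ∀ s ⊆ F, ∏ x ∈ s, x ∈ Subgroup.closure (F : Set V) := by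
      intro s hs
      apply Subgroup.prod_mem
      intro x hx
      exact Subgroup.subset_closure (hs hx)
    intro v hv
    rw [Finset.mem_coe, Finset.mem_union] at hv
    rcases hv with hv | hv
    · rw [Finset.mem_image] at hv
      obtain ⟨⟨s, b⟩, hq, rfl⟩ := hv
      rw [Finset.mem_product, mem_F2, Finset.mem_singleton] at hq
      obtain ⟨hq1, rfl⟩ := hq
      simp only [phi]
      rw [if_neg (by simp), mul_one]
      exact hp s hq1.1
    · rw [mem_R3] at hv
      obtain ⟨s, hs, _, rfl⟩ := hv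
      exact hp s hs
  have h4 := Set.ncard_le_ncard h3 (Set.toFinite _)
  rw [Set.ncard_coe_finset] at h4
  exact h2.trans h4

end H19.RWit
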