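import Mathlib
import Cfsg.Agent.Lib.H19.RWit

/-!
Orbits of groups acting on the group of a Witt design.
-/

set_option autoImplicit false
set_option linter.unusedSectionVars false
set_option linter.style.haveILetI false
set_option linter.unusedVariables false

namespace H19.RWit2
open Finset H19.RMod H19.RWit

variable {V : Type*} [CommGroup V] [DecidableEq V]

/-- groups acting on the group of a Witt design -/
structure Act2 (z : V) (F X : Finset V) (𝒢 : Subgroup (MulAut V)) : Prop where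
  W : Wt z F
  ns : ∀ h, Rl z F h → h.card = 6 → ∏ x ∈ h, x = z
  tr : ∀ x ∈ F, ∀ y ∈ F, ∀ w ∈ F, x ≠ y → x ≠ w → y ≠ w → ∀ x' ∈ F, ∀ y' ∈ F, ∀ w' ∈ F, x' ≠ y' → x' ≠ w' → y' ≠ w' →
    ∃ g ∈ 𝒢, g z = z ∧ g x = x' ∧ g y = y' ∧ g w = w'
  st : ∀ g ∈ 𝒢, g z = z → ∀ x ∈ F, g x ∈ F
  orb : ∀ v, v ∈ X ↔ ∃ g ∈ 𝒢, g z = v

variable {z : V} {F X : Finset V} {𝒢 : Subgroup (MulAut V)} (A : Act2 z F X 𝒢)
include A

theorem Act2.inv {g : MulAut V} (hg : g ∈ 𝒢) (v : V) : v ∈ X ↔ g v ∈ X := by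
  rw [A.orb, A.orb]
  constructor
  · rintro ⟨k, hk, rfl⟩; exact ⟨g * k, 𝒢.mul_mem hg hk, rfl⟩
  · rintro ⟨k, hk, h⟩
    exact ⟨g⁻¹ * k, 𝒢.mul_mem (𝒢.inv_mem hg) hk, by rw [MulAut.mul_apply, h]; exact MulAut.inv_apply_self _ _ _⟩

theorem Act2.hz : z ∈ X := (A.orb z).2 ⟨1, 𝒢.one_mem, rfl⟩

theorem Act2.h1 : (1 : V) ∉ X := by
  intro h
  obtain ⟨g, _, hg⟩ := (A.orb 1).1 h
  apply A.W.z1
  apply g.injective
  rw [hg, map_one]

theorem Act2.third {x y : V} (hx : x ∈ F) (hy : y ∈ F) : ∃ w ∈ F, x ≠ w ∧ y ≠ w := by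
  by_contra hno
  push Not at hno
  have h1 : F ⊆ {x, y} := by
    intro w hw
    rw [Finset.mem_insert, Finset.mem_singleton]
    by_cases h : x = w
    · exact Or.inl h.symm
    · exact Or.inr (hno w hw h).symm
  have h2 := Finset.card_le_card h1
  have h3 : ({x, y} : Finset V).card ≤ 2 := Finset.card_le_two
  rw [A.W.card] at h2
  omega

omit A in
/-- sets invariant under the stabilizer of `z` -/
def Iv (z : V) (𝒢 : Subgroup (MulAut V)) (Y : Finset V) : Prop := ∀ g ∈ 𝒢, g z = z → ∀ v, (v ∈ Y ↔ g v ∈ Y)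

section shape
variable {Y : Finset V} (hY : Iv z 𝒢 Y)
include hY

theorem two_iff {x y x' y' : V} (hx : x ∈ F) (hy : y ∈ F) (hne : x ≠ y) (hx' : x' ∈ F) (hy' : y' ∈ F) (hne' : x' ≠ y') :
    (x ∈ Y ↔ x' ∈ Y) ∧ (x * z ∈ Y ↔ x' * z ∈ Y) ∧ (x * y ∈ Y ↔ x' * y' ∈ Y) ∧ (x * y * z ∈ Y ↔ x' * y' * z ∈ Y) := by
  obtain ⟨w, hw, h1, h2⟩ := A.third hx hy
  obtain ⟨w', hw', h1', h2'⟩ := A.third hx' hy'
  obtain ⟨g, hg, e1, e2, e3, e4⟩ := A.tr x hx y hy w hw hne h1 h2 x' hx' y' hy' w' hw' hne' h1' h2'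
  have hv := hY g hg e1
  refine ⟨by rw [hv, e2], by rw [hv, map_mul, e2, e1], by rw [hv, map_mul, e2, e3], by rw [hv, map_mul, map_mul, e2, e3, e1]⟩

theorem three_iff {v v' : V} (hv : v ∈ R3 F) (hv' : v' ∈ R3 F) : v ∈ Y ↔ v' ∈ Y := by
  rw [mem_R3] at hv hv'
  obtain ⟨s, h1, h2, rfl⟩ := hv
  obtain ⟨s', h1', h2', rfl⟩ := hv'
  obtain ⟨x, y, w, hxy, hxw, hyw, rfl⟩ := Finset.card_eq_three.1 h2
  obtain ⟨x', y', w', hxy', hxw', hyw', rfl⟩ := Finset.card_eq_three.1 h2'
  obtain ⟨g, hg, e1, e2, e3, e4⟩ := A.tr x (h1 (by simp)) y (h1 (by simp)) w (h1 (by simp)) hxy hxw hyw x' (h1' (by simp)) y' (h1' (by simp))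
    w' (h1' (by simp)) hxy' hxw' hyw'
  have p1 : ∏ x ∈ ({x, y, w} : Finset V), x = x * (y * w) := by
    rw [Finset.prod_insert (by simp [hxy, hxw]), Finset.prod_pair hyw]
  have p2 : ∏ x ∈ ({x', y', w'} : Finset V), x = x' * (y' * w') := by
    rw [Finset.prod_insert (by simp [hxy', hxw']), Finset.prod_pair hyw']
  rw [p1, p2, hY g hg e1, map_mul, map_mul, e2, e3, e4]

/-- the shape of invariant sets -/
theorem shape [Fintype V] (h1Y : (1 : V) ∉ Y) : ∃ c10 c11 c20 c21 c3 : ℕ, c10 ≤ 1 ∧ c11 ≤ 1 ∧ c20 ≤ 1 ∧ c21 ≤ 1 ∧ c3 ≤ 1 ∧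
    Y.card = (if z ∈ Y then 1 else 0) + 22 * (c10 + c11) + 231 * (c20 + c21) + 1540 * c3 ∧
    (∀ x ∈ F, (if x ∈ Y then 1 else 0) = c10) ∧ (∀ x ∈ F, (if x * z ∈ Y then 1 else 0) = c11) ∧
    (∀ x ∈ F, ∀ y ∈ F, x ≠ y → (if x * y ∈ Y then 1 else 0) = c20) ∧
    (∀ x ∈ F, ∀ y ∈ F, x ≠ y → (if x * y * z ∈ Y then 1 else 0) = c21) ∧
    (∀ v ∈ R3 F, (if v ∈ Y then 1 else 0) = c3) := by
  obtain ⟨x0, hx0, y0, hy0, hxy0⟩ := Finset.one_lt_card.1 (show 1 < F.card by rw [A.W.card]; norm_num)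
  obtain ⟨v0, hv0⟩ : ∃ v, v ∈ R3 F := by
    have : (R3 F).Nonempty := by
      rw [← Finset.card_pos, A.W.card_R3 A.ns]; norm_num
    exact this
  have hle : ∀ (p : Prop) [Decidable p], (if p then 1 else 0) ≤ 1 := by
    intro p _; split_ifs <;> norm_num
  have hcong : ∀ (p q : Prop) [Decidable p] [Decidable q], (p ↔ q) → (if p then 1 else 0) = (if q then 1 else 0) := by
    intro p q _ _ h; by_cases hp : p
    · rw [if_pos hp, if_pos (h.1 hp)]
    · rw [if_neg hp, if_neg (fun hq => hp (h.2 hq))]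
  have hother : ∀ x ∈ F, ∃ y ∈ F, x ≠ y := by
    intro x hx
    obtain ⟨w, hw, h, _⟩ := A.third hx hx
    exact ⟨w, hw, h⟩
  have e10 : ∀ x ∈ F, (if x ∈ Y then 1 else 0) = (if x0 ∈ Y then 1 else 0) := fun x hx => by
    obtain ⟨y, hy, hxy⟩ := hother x hx
    exact hcong _ _ (two_iff A hY hx hy hxy hx0 hy0 hxy0).1
  have e11 : ∀ x ∈ F, (if x * z ∈ Y then 1 else 0) = (if x0 * z ∈ Y then 1 else 0) := fun x hx => by
    obtain ⟨y, hy, hxy⟩ := hother x hx
    exact hcong _ _ (two_iff A hY hx hy hxy hx0 hy0 hxy0).2.1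
  have e20 : ∀ x ∈ F, ∀ y ∈ F, x ≠ y → (if x * y ∈ Y then 1 else 0) = (if x0 * y0 ∈ Y then 1 else 0) :=
    fun x hx y hy hne => hcong _ _ (two_iff A hY hx hy hne hx0 hy0 hxy0).2.2.1
  have e21 : ∀ x ∈ F, ∀ y ∈ F, x ≠ y → (if x * y * z ∈ Y then 1 else 0) = (if x0 * y0 * z ∈ Y then 1 else 0) :=
    fun x hx y hy hne => hcong _ _ (two_iff A hY hx hy hne hx0 hy0 hxy0).2.2.2
  have e3 : ∀ v ∈ R3 F, (if v ∈ Y then 1 else 0) = (if v0 ∈ Y then 1 else 0) := fun v hv => hcong _ _ (three_iff A hY hv hv0)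
  refine ⟨_, _, _, _, _, hle (x0 ∈ Y), hle (x0 * z ∈ Y), hle (x0 * y0 ∈ Y), hle (x0 * y0 * z ∈ Y), hle (v0 ∈ Y), ?_, e10, e11, e20, e21, e3⟩
  -- counting
  have h1 : Y.card = ∑ v : V, (if v ∈ Y then 1 else 0) := by
    rw [Finset.sum_ite_mem, Finset.univ_inter, Finset.sum_const, smul_eq_mul, mul_one]
  rw [h1, ← A.W.union_univ A.ns, Finset.sum_union A.W.disj, Finset.sum_congr rfl e3, Finset.sum_const, A.W.card_R3 A.ns,
    Finset.sum_image A.W.phi_injOn, Finset.sum_product]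
  have h01 : Disjoint (F.powersetCard 0) (F.powersetCard 1) := Finset.pairwise_disjoint_powersetCard F (by decide)
  have h02 : Disjoint (F.powersetCard 0) (F.powersetCard 2) := Finset.pairwise_disjoint_powersetCard F (by decide)
  have h12 : Disjoint (F.powersetCard 1) (F.powersetCard 2) := Finset.pairwise_disjoint_powersetCard F (by decide)
  rw [F2, Finset.sum_union (by rw [Finset.disjoint_union_left]; exact ⟨h02, h12⟩), Finset.sum_union h01]
  have s0 : ∑ s ∈ F.powersetCard 0, ∑ b : Bool, (if phi z (s, b) ∈ Y then 1 else 0) = (if z ∈ Y then 1 else 0) := by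
    rw [Finset.powersetCard_zero, Finset.sum_singleton, Fintype.sum_bool]
    simp only [phi, Finset.prod_empty, if_true, one_mul]
    simp [h1Y]
  have s1 : ∑ s ∈ F.powersetCard 1, ∑ b : Bool, (if phi z (s, b) ∈ Y then 1 else 0) =
      22 * ((if x0 ∈ Y then 1 else 0) + (if x0 * z ∈ Y then 1 else 0)) := by
    rw [Finset.sum_congr rfl (g := fun _ => (if x0 ∈ Y then 1 else 0) + (if x0 * z ∈ Y then 1 else 0)), Finset.sum_const,
      Finset.card_powersetCard, A.W.card, smul_eq_mul]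
    · rfl
    · intro s hs
      obtain ⟨hs1, hs2⟩ := Finset.mem_powersetCard.1 hs
      obtain ⟨x, rfl⟩ := Finset.card_eq_one.1 hs2
      have hx : x ∈ F := hs1 (Finset.mem_singleton_self x)
      rw [Fintype.sum_bool, add_comm]
      simp only [phi, Finset.prod_singleton, if_true]
      rw [← e10 x hx, ← e11 x hx]
      simp
  have s2 : ∑ s ∈ F.powersetCard 2, ∑ b : Bool, (if phi z (s, b) ∈ Y then 1 else 0) =
      231 * ((if x0 * y0 ∈ Y then 1 else 0) + (if x0 * y0 * z ∈ Y then 1 else 0)) := by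
    rw [Finset.sum_congr rfl (g := fun _ => (if x0 * y0 ∈ Y then 1 else 0) + (if x0 * y0 * z ∈ Y then 1 else 0)), Finset.sum_const,
      Finset.card_powersetCard, A.W.card, smul_eq_mul]
    · rfl
    · intro s hs
      obtain ⟨hs1, hs2⟩ := Finset.mem_powersetCard.1 hs
      obtain ⟨x, y, hxy, rfl⟩ := Finset.card_eq_two.1 hs2
      have hx : x ∈ F := hs1 (by simp)
      have hy : y ∈ F := hs1 (by simp)
      rw [Fintype.sum_bool, add_comm]
      simp only [phi, Finset.prod_pair hxy, if_true]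
      rw [← e20 x hx y hy hxy, ← e21 x hx y hy hxy]
      simp
  rw [s0, s1, s2, smul_eq_mul]

end shape

theorem Act2.iv : Iv z 𝒢 X := fun g hg _ v => A.inv hg v

theorem sub1 [Fintype V] (h : ∀ v ∈ X, z * v ∈ X ∨ z * v = 1) : X.card + 1 ∣ 2048 := by
  have hsq := A.W.sq
  let S : Subgroup V :=
    { carrier := {v | v ∈ X ∨ v = 1}
      one_mem' := Or.inr rfl
      mul_mem' := by
        rintro a b (ha | rfl) (hb | rfl)
        · obtain ⟨g, hg, rfl⟩ := (A.orb a).1 ha
          have h3 : g⁻¹ b ∈ X := (A.inv (𝒢.inv_mem hg) b).1 hb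
          rcases h _ h3 with h4 | h4
          · left
            rw [A.inv hg, map_mul, MulAut.apply_inv_self] at h4
            exact h4
          · right
            have := congrArg g h4
            rwa [map_mul, MulAut.apply_inv_self, map_one] at this
        · rw [mul_one]; exact Or.inl ha
        · rw [one_mul]; exact Or.inl hb
        · rw [one_mul]; exact Or.inr rfl
      inv_mem' := by
        intro a ha
        rw [inv_eq_of_mul_eq_one_left (hsq a)]
        exact ha }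
  have h1 : Nat.card S = X.card + 1 := by
    have : (S : Set V) = ((insert 1 X : Finset V) : Set V) := by
      ext v
      simp only [Finset.coe_insert, Set.mem_insert_iff, Finset.mem_coe]
      constructor
      · rintro (h | h)
        exacts [Or.inr h, Or.inl h]
      · rintro (h | h)
        exacts [Or.inr h, Or.inl h]
    have h2 : Nat.card S = (S : Set V).ncard := rfl
    rw [h2, this, Set.ncard_coe_finset, Finset.card_insert_of_notMem A.h1]
  rw [← h1, ← A.W.card_V A.ns, ← Nat.card_eq_fintype_card]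
  exact Subgroup.card_subgroup_dvd_card S

theorem sub2 [Fintype V] (h : ∀ v, v ∉ X → v ≠ 1 → z * v ∈ X) : 2048 - X.card ∣ 2048 := by
  have hsq := A.W.sq
  let S : Subgroup V :=
    { carrier := {v | v ∉ X}
      one_mem' := A.h1
      mul_mem' := by
        intro a b ha hb hab
        have ha1 : a ≠ 1 := by
          rintro rfl
          rw [one_mul] at hab
          exact hb hab
        obtain ⟨g, hg, h2⟩ := (A.orb (a * b)).1 hab
        have h3 : g⁻¹ a ∉ X := by
          rw [A.inv hg, MulAut.apply_inv_self]; exact ha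
        have h4 : g⁻¹ a ≠ 1 := by
          intro e
          apply ha1
          have := congrArg g e
          rwa [MulAut.apply_inv_self, map_one] at this
        have h5 := h _ h3 h4
        rw [A.inv hg, map_mul, h2, MulAut.apply_inv_self] at h5
        have e : a * b * a = b := by rw [mul_comm, ← mul_assoc, hsq, one_mul]
        rw [e] at h5
        exact hb h5
      inv_mem' := by
        intro a ha
        rw [inv_eq_of_mul_eq_one_left (hsq a)]
        exact ha }
  have h1 : Nat.card S = 2048 - X.card := by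
    have : (S : Set V) = ((Xᶜ : Finset V) : Set V) := by
      ext v
      simp only [Finset.coe_compl, Set.mem_compl_iff, Finset.mem_coe]
      exact Iff.rfl
    have h2 : Nat.card S = (S : Set V).ncard := rfl
    rw [h2, this, Set.ncard_coe_finset, Finset.card_compl, A.W.card_V A.ns]
  rw [← h1]
  have h2 : 2048 = Nat.card V := by rw [Nat.card_eq_fintype_card, A.W.card_V A.ns]
  conv_rhs => rw [h2]
  exact Subgroup.card_subgroup_dvd_card S

omit A in
/-- the elements outside -/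
theorem cases_univ (W : Wt z F) (hN : ∀ h, Rl z F h → h.card = 6 → ∏ x ∈ h, x = z) (v : V) : v = 1 ∨ v = z ∨ v ∈ F ∨ (∃ x ∈ F, v = x * z) ∨
    (∃ x ∈ F, ∃ y ∈ F, x ≠ y ∧ v = x * y) ∨ (∃ x ∈ F, ∃ y ∈ F, x ≠ y ∧ v = x * y * z) ∨ v ∈ R3 F := by
  obtain ⟨s, hs, hc, h⟩ := W.normal_form v
  rcases Nat.lt_or_ge s.card 3 with h3 | h3
  · rcases Nat.lt_or_ge s.card 1 with h0 | h0
    · have : s = ∅ := Finset.card_eq_zero.1 (by omega)
      rw [this, Finset.prod_empty] at h
      rcases h with h | h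
      · exact Or.inl h
      · right; left; rw [h, one_mul]
    · rcases Nat.lt_or_ge s.card 2 with h1 | h1
      · obtain ⟨x, rfl⟩ := Finset.card_eq_one.1 (show s.card = 1 by omega)
        rw [Finset.prod_singleton] at h
        have hx : x ∈ F := hs (by simp)
        rcases h with h | h
        · right; right; left; rw [h]; exact hx
        · right; right; right; left; exact ⟨x, hx, h⟩
      · obtain ⟨x, y, hxy, rfl⟩ := Finset.card_eq_two.1 (show s.card = 2 by omega)
        rw [Finset.prod_pair hxy] at h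
        have hx : x ∈ F := hs (by simp)
        have hy : y ∈ F := hs (by simp)
        rcases h with h | h
        · right; right; right; right; left; exact ⟨x, hx, y, hy, hxy, h⟩
        · right; right; right; right; right; left; exact ⟨x, hx, y, hy, hxy, h⟩
  · right; right; right; right; right; right
    rcases h with h | h
    · exact mem_R3.2 ⟨s, hs, by omega, h.symm⟩
    · rw [h, mul_comm]
      exact W.r3_z hN (mem_R3.2 ⟨s, hs, by omega, rfl⟩)

omit A in
theorem mul3_mem {x y w : V} (hx : x ∈ F) (hy : y ∈ F) (hw : w ∈ F) (hxy : x ≠ y) (hxw : x ≠ w) (hyw : y ≠ w) : x * y * w ∈ R3 F := by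
  rw [mem_R3]
  refine ⟨{x, y, w}, ?_, Finset.card_eq_three.2 ⟨x, y, w, hxy, hxw, hyw, rfl⟩, ?_⟩
  · intro u hu
    simp only [Finset.mem_insert, Finset.mem_singleton] at hu
    rcases hu with rfl | rfl | rfl <;> assumption
  · rw [Finset.prod_insert (by simp [hxy, hxw]), Finset.prod_pair hyw, mul_assoc]

end H19.RWit2
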