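import Mathlib
import Cfsg.Agent.Lib.H19.RWit2

/-!
Orbits of groups acting on the group of a Witt design: the sizes.
-/

set_option autoImplicit false
set_option linter.unusedSectionVars false
set_option linter.style.haveILetI false
set_option linter.unusedVariables false

namespace H19.RWit3
open Finset H19.RMod H19.RWit H19.RWit2

variable {V : Type*} [CommGroup V] [DecidableEq V]
variable {z : V} {F X : Finset V} {𝒢 : Subgroup (MulAut V)} (A : Act2 z F X 𝒢)
include A

theorem zf_notMem {f : V} (hf : f ∈ F) : f * z ∉ F := by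
  intro h
  have h1 := A.W.uniq (s := {f * z}) (t := {f}) (by simpa using h) (by simpa using hf) (by rw [Finset.card_singleton, Finset.card_singleton]; omega) (Or.inr (by simp))
  rw [Finset.singleton_inj] at h1
  exact A.W.z1 (by simpa using h1)

theorem z_notMemF : z ∉ F := by
  intro h
  have h1 := A.W.small {z} ⟨by simpa using h, Or.inr (by simp)⟩ (by simp)
  simp at h1

theorem one_notMemF : (1 : V) ∉ F := by
  intro h
  have h1 := A.W.small {1} ⟨by simpa using h, Or.inl (by simp)⟩ (by simp)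
  simp at h1

theorem trip : ∃ x ∈ F, ∃ y ∈ F, ∃ w ∈ F, x ≠ y ∧ x ≠ w ∧ y ≠ w := by
  obtain ⟨x, hx, y, hy, hxy⟩ := Finset.one_lt_card.1 (show 1 < F.card by rw [A.W.card]; norm_num)
  obtain ⟨w, hw, h1, h2⟩ := A.third hx hy
  exact ⟨x, hx, y, hy, w, hw, hxy, h1, h2⟩

theorem no254 (h1 : (∀ x ∈ F, x ∈ X) ∨ (∀ x ∈ F, x * z ∈ X))
    (h2 : (∀ x ∈ F, ∀ y ∈ F, x ≠ y → x * y ∈ X) ∨ (∀ x ∈ F, ∀ y ∈ F, x ≠ y → x * y * z ∈ X))
    (hz : ∀ v ∈ X, z * v ∉ X) : False := by
  have hsq := A.W.sq
  have hz' : ∀ u ∈ X, ∀ v ∈ X, u * v ∉ X := by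
    intro u hu v hv h
    obtain ⟨g, hg, rfl⟩ := (A.orb u).1 hu
    apply hz (g⁻¹ v) ((A.inv (𝒢.inv_mem hg) v).1 hv)
    rw [A.inv hg, map_mul, MulAut.apply_inv_self]
    exact h
  obtain ⟨x, hx, y, hy, w, hw, hxy, hxw, hyw⟩ := trip A
  rcases h2 with h2 | h2
  · rcases h1 with h1 | h1
    · apply hz' x (h1 x hx) (x * y) (h2 x hx y hy hxy)
      rw [← mul_assoc, hsq, one_mul]
      exact h1 y hy
    · apply hz' (x * z) (h1 x hx) (y * z) (h1 y hy)
      rw [mul_mul_mul_comm, hsq z, mul_one]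
      exact h2 x hx y hy hxy
  · -- hexads
    obtain ⟨t, t1, t2, t3, t4, t5⟩ := A.W.compl (s := {x, y, w}) (by
      intro u hu
      simp only [Finset.mem_insert, Finset.mem_singleton] at hu
      rcases hu with rfl | rfl | rfl <;> assumption) (Finset.card_eq_three.2 ⟨x, y, w, hxy, hxw, hyw, rfl⟩)
    have h3 := A.ns _ t4 t5
    obtain ⟨p, q, r, hpq, hpr, hqr, rfl⟩ := Finset.card_eq_three.1 t2
    rw [Finset.prod_union t3, Finset.prod_insert (by simp [hxy, hxw]), Finset.prod_pair hyw, Finset.prod_insert (by simp [hpq, hpr]),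
      Finset.prod_pair hqr] at h3
    have hwp : w ≠ p := by
      intro e
      exact Finset.disjoint_left.1 t3 (show w ∈ ({x, y, w} : Finset V) by simp) (by rw [e]; simp)
    apply hz' (x * y * z) (h2 x hx y hy hxy) (w * p * z) (h2 w hw p (t1 (by simp)) hwp)
    have e : x * y * z * (w * p * z) = q * r * z := by
      have e1 : x * y * w * p = q * r * z := by
        have h4 : x * y * w * p * (q * r) = z := by
          rw [← h3]
          simp only [mul_assoc]
        calc x * y * w * p = x * y * w * p * ((q * r) * (q * r)) := by rw [hsq (q * r), mul_one]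
          _ = (x * y * w * p * (q * r)) * (q * r) := by rw [mul_assoc (x * y * w * p)]
          _ = q * r * z := by rw [h4, mul_comm]
      calc x * y * z * (w * p * z) = (x * y * w * p) * (z * z) := by
            rw [show w * p * z = (w * p) * z from rfl, mul_mul_mul_comm, ← mul_assoc (x * y) w p]
        _ = q * r * z := by rw [hsq z, mul_one, e1]
    rw [e]
    exact h2 q (t1 (by simp)) r (t1 (by simp)) hqr

section a2
variable (hF : ∀ x ∈ F, x ∈ X) (hFz : ∀ x ∈ F, x * z ∈ X) (h3 : ∀ v ∈ R3 F, v ∉ X)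
include hF hFz h3

theorem no276a (h2 : ∀ x ∈ F, ∀ y ∈ F, x ≠ y → x * y ∈ X) (h2' : ∀ x ∈ F, ∀ y ∈ F, x ≠ y → x * y * z ∉ X) : False := by
  have hsq := A.W.sq
  obtain ⟨x, hx, y, hy, w, hw, hxy, hxw, hyw⟩ := trip A
  obtain ⟨g, hg, hgz⟩ := (A.orb _).1 (h2 x hx y hy hxy)
  obtain ⟨φ, hφ, e1, e2, e3, e4⟩ := A.tr x hx y hy w hw hxy hxw hyw y hy x hx w hw hxy.symm hyw hxw
  have hN : ∀ v ∈ X, z * v ∈ X → v ∈ F ∨ ∃ f ∈ F, v = f * z := by
    intro v hv hzv
    rcases cases_univ A.W A.ns v with h | h | h | h | ⟨a, ha, b, hb, hab, h⟩ | ⟨a, ha, b, hb, hab, h⟩ | h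
    · rw [h] at hv; exact absurd hv A.h1
    · rw [h, hsq] at hzv; exact absurd hzv A.h1
    · exact Or.inl h
    · exact Or.inr h
    · rw [h, mul_comm] at hzv; exact absurd hzv (h2' a ha b hb hab)
    · rw [h] at hv; exact absurd hv (h2' a ha b hb hab)
    · exact absurd hv (h3 v h)
  set w0 := g⁻¹ x with hw0
  have hgw0 : g w0 = x := MulAut.apply_inv_self _ _ _
  have hw0X : w0 ∈ X := (A.inv (𝒢.inv_mem hg) x).1 (hF x hx)
  have hzw0 : g (z * w0) = y := by
    rw [map_mul, hgz, hgw0, mul_comm, ← mul_assoc, hsq, one_mul]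
  have hzw0X : z * w0 ∈ X := by rw [A.inv hg, hzw0]; exact hF y hy
  have hh : g⁻¹ * φ * g ∈ 𝒢 := 𝒢.mul_mem (𝒢.mul_mem (𝒢.inv_mem hg) hφ) hg
  have happ : ∀ v, (g⁻¹ * φ * g) v = g⁻¹ (φ (g v)) := fun v => rfl
  have hhz : (g⁻¹ * φ * g) z = z := by
    rw [happ, hgz, map_mul, e2, e3, mul_comm, ← hgz]
    exact MulAut.inv_apply_self _ _ _
  have hhw : (g⁻¹ * φ * g) w0 = z * w0 := by
    rw [happ, hgw0, e2, ← hzw0]
    exact MulAut.inv_apply_self _ _ _
  rcases hN w0 hw0X hzw0X with h | ⟨f, hf, h⟩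
  · have := A.st _ hh hhz w0 h
    rw [hhw, mul_comm] at this
    exact zf_notMem A h this
  · rw [h, map_mul, hhz] at hhw
    have h4 : (g⁻¹ * φ * g) f = f * z := by
      have : (g⁻¹ * φ * g) f * z = f * z * z := by rw [hhw, mul_comm z]
      exact mul_right_cancel this
    have := A.st _ hh hhz f hf
    rw [h4] at this
    exact zf_notMem A hf this

theorem no276b (h2 : ∀ x ∈ F, ∀ y ∈ F, x ≠ y → x * y ∉ X) (h2' : ∀ x ∈ F, ∀ y ∈ F, x ≠ y → x * y * z ∈ X) : False := by
  have hsq := A.W.sq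
  have hr3 : ∀ v ∈ R3 F, z * v ∉ X := fun v hv => h3 _ (A.W.r3_z A.ns hv)
  obtain ⟨x, hx, y, hy, w, hw, hxy, hxw, hyw⟩ := trip A
  obtain ⟨g, hg, hgz⟩ := (A.orb _).1 (h2' x hx y hy hxy)
  obtain ⟨f, hf, hfe⟩ : ∃ f ∈ F, g f ∉ ({x, y, x * z, y * z} : Finset V) := by
    by_contra hno
    push Not at hno
    have h4 : F.image g ⊆ {x, y, x * z, y * z} := by
      intro u hu
      obtain ⟨f, hf, rfl⟩ := Finset.mem_image.1 hu
      exact hno f hf
    have h5 := Finset.card_le_card h4
    rw [Finset.card_image_of_injective _ g.injective, A.W.card] at h5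
    have h6 : ({x, y, x * z, y * z} : Finset V).card ≤ 4 := Finset.card_le_four
    omega
  simp only [Finset.mem_insert, Finset.mem_singleton, not_or] at hfe
  obtain ⟨n1, n2, n3, n4⟩ := hfe
  set u := g f with hu
  have huX : u ∈ X := (A.inv hg f).1 (hF f hf)
  have hvu : x * y * z * u ∈ X := by
    have : x * y * z * u = g (z * f) := by rw [map_mul, hgz]
    rw [this, ← A.inv hg, mul_comm]; exact hFz f hf
  have hN : ∀ v ∈ X, z * v ∈ X → v ∈ F ∨ ∃ f ∈ F, v = f * z := by
    intro v hv hzv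
    rcases cases_univ A.W A.ns v with h | h | h | h | ⟨a, ha, b, hb, hab, h⟩ | ⟨a, ha, b, hb, hab, h⟩ | h
    · rw [h] at hv; exact absurd hv A.h1
    · rw [h, hsq] at hzv; exact absurd hzv A.h1
    · exact Or.inl h
    · exact Or.inr h
    · rw [h] at hv; exact absurd hv (h2 a ha b hb hab)
    · rw [h, mul_comm, mul_assoc, hsq, mul_one] at hzv; exact absurd hzv (h2 a ha b hb hab)
    · exact absurd hv (h3 v h)
  have main : ∀ p ∈ F, ∀ q ∈ F, p ≠ q → p ≠ x → p ≠ y → q ≠ x → q ≠ y → u ≠ p * q * z := by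
    intro p hp q hq hpq hpx hpy hqx hqy hue
    set w0 := g⁻¹ x with hw0
    have hgw0 : g w0 = x := MulAut.apply_inv_self _ _ _
    have hw0X : w0 ∈ X := (A.inv (𝒢.inv_mem hg) x).1 (hF x hx)
    have hzw0 : g (z * w0) = y * z := by
      rw [map_mul, hgz, hgw0]
      calc x * y * z * x = (x * x) * (y * z) := by
            rw [mul_assoc x y z, mul_comm (x * (y * z)) x, mul_assoc]
        _ = y * z := by rw [hsq, one_mul]
    have hzw0X : z * w0 ∈ X := by rw [A.inv hg, hzw0]; exact hFz y hy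
    have hfin : ∀ f0 ∈ F, f ≠ f0 → u * g f0 * (x * y * z) ∈ X := by
      intro f0 hf0 hne
      have h5 := h2' f hf f0 hf0 hne
      rw [A.inv hg, map_mul, map_mul, hgz] at h5
      exact h5
    rcases hN w0 hw0X hzw0X with h | ⟨f0, hf0, h⟩
    · have hne : f ≠ w0 := by
        rintro he
        apply n1
        rw [hu, he, hgw0]
      have h5 := hfin w0 h hne
      rw [hgw0, hue] at h5
      apply h3 (p * q * y) (mul3_mem hp hq hy hpq hpy hqy)
      have e : p * q * z * x * (x * y * z) = p * q * y := by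
        calc p * q * z * x * (x * y * z) = (p * q) * (z * x) * ((z * x) * y) := by
              rw [mul_assoc (p * q) z x, mul_comm (x * y) z, ← mul_assoc z x y]
          _ = (p * q) * ((z * x) * (z * x)) * y := by rw [← mul_assoc, mul_assoc (p * q) (z * x) (z * x)]
          _ = _ := by rw [hsq, mul_one]
      rw [← e]; exact h5
    · have hgf0 : g f0 = x * (x * y * z) := by
        have h6 : g w0 = g f0 * (x * y * z) := by rw [h, map_mul, hgz]
        rw [hgw0] at h6
        calc g f0 = g f0 * ((x * y * z) * (x * y * z)) := by rw [hsq, mul_one]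
          _ = x * (x * y * z) := by rw [← mul_assoc, ← h6]
      have hne : f ≠ f0 := by
        rintro he
        apply n4
        rw [hu, he, hgf0, mul_assoc x y z, ← mul_assoc x x, hsq, one_mul]
      have h5 := hfin f0 hf0 hne
      rw [hgf0, hue] at h5
      apply hr3 (p * q * x) (mul3_mem hp hq hx hpq hpx hqx)
      have e : p * q * z * (x * (x * y * z)) * (x * y * z) = z * (p * q * x) := by
        calc p * q * z * (x * (x * y * z)) * (x * y * z) = p * q * z * x * ((x * y * z) * (x * y * z)) := by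
              simp only [mul_assoc]
          _ = p * q * z * x := by rw [hsq, mul_one]
          _ = z * (p * q * x) := by rw [mul_comm (p * q) z, mul_assoc z]
      rw [← e]; exact h5
  have c1 : ∀ a b c : V, x * y * z * (a * z) = x * y * a := by
    intro a _ _
    calc x * y * z * (a * z) = (x * y * a) * (z * z) := by rw [mul_mul_mul_comm]
      _ = _ := by rw [hsq, mul_one]
  rcases cases_univ A.W A.ns u with h | h | h | ⟨p, hp, h⟩ | ⟨p, hp, q, hq, hpq, h⟩ | ⟨p, hp, q, hq, hpq, h⟩ | h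
  · rw [h] at huX; exact A.h1 huX
  · rw [h, mul_assoc, hsq, mul_one] at hvu; exact h2 x hx y hy hxy hvu
  · apply hr3 (x * y * u) (mul3_mem hx hy h hxy (Ne.symm n1) (Ne.symm n2))
    have e : x * y * z * u = z * (x * y * u) := by rw [mul_comm (x * y) z, mul_assoc]
    rw [← e]; exact hvu
  · have hpx : p ≠ x := by rintro rfl; exact n3 h
    have hpy : p ≠ y := by rintro rfl; exact n4 h
    apply h3 (x * y * p) (mul3_mem hx hy hp hxy hpx.symm hpy.symm)
    rw [h, c1 p 1 1] at hvu
    exact hvu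
  · rw [h] at huX; exact h2 p hp q hq hpq huX
  · by_cases hpx : p = x
    · subst hpx
      by_cases hqy : q = y
      · subst hqy
        rw [h, hsq] at hvu; exact A.h1 hvu
      · apply h2 y hy q hq (Ne.symm hqy)
        rw [h, c1 _ 1 1] at hvu
        have e : p * y * (p * q) = y * q := by
          rw [mul_mul_mul_comm, hsq, one_mul]
        rw [← e]; exact hvu
    by_cases hpy : p = y
    · subst hpy
      by_cases hqx : q = x
      · subst hqx
        rw [h, mul_comm p q, hsq] at hvu; exact A.h1 hvu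
      · apply h2 x hx q hq (Ne.symm hqx)
        rw [h, c1 _ 1 1] at hvu
        have e : x * p * (p * q) = x * q := by
          rw [mul_assoc, ← mul_assoc p p, hsq, one_mul]
        rw [← e]; exact hvu
    by_cases hqx : q = x
    · subst hqx
      apply h2 y hy p hp (Ne.symm hpy)
      rw [h, c1 _ 1 1] at hvu
      have e : q * y * (p * q) = y * p := by
        rw [mul_comm p q, mul_mul_mul_comm, hsq, one_mul]
      rw [← e]; exact hvu
    by_cases hqy : q = y
    · subst hqy
      apply h2 x hx p hp (Ne.symm hpx)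
      rw [h, c1 _ 1 1] at hvu
      have e : x * q * (p * q) = x * p := by
        rw [mul_mul_mul_comm, hsq, mul_one]
      rw [← e]; exact hvu
    exact main p hp q hq hpq hpx hpy hqx hqy h
  · exact h3 u h huX

end a2

end H19.RWit3
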