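import Mathlib
import Cfsg.Agent.Lib.H19.RWit3

/-!
Orbits of groups acting on the group of a Witt design: the sizes.
-/

set_option autoImplicit false
set_option linter.unusedSectionVars false
set_option linter.style.haveILetI false
set_option linter.unusedVariables false

namespace H19.RWit4
open Finset H19.RMod H19.RWit H19.RWit2 H19.RWit3

variable {V : Type*} [CommGroup V] [DecidableEq V] [Fintype V]
variable {z : V} {F X : Finset V} {𝒢 : Subgroup (MulAut V)} (A : Act2 z F X 𝒢)

/-- the neighbours of `z` -/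
def TT (z : V) (F : Finset V) : Finset V := F ∪ F.image (fun f => f * z)

omit [Fintype V] in
theorem mem_TT {v : V} : v ∈ TT z F ↔ v ∈ F ∨ ∃ f ∈ F, f * z = v := by
  rw [TT, Finset.mem_union, Finset.mem_image]

open Classical in
/-- the relation -/
noncomputable def RR (z : V) (F : Finset V) (𝒢 : Subgroup (MulAut V)) : Finset (V × V) :=
  Finset.univ.filter (fun p => ∃ g ∈ 𝒢, g z = p.1 ∧ ∃ t ∈ TT z F, g t = p.2)

theorem mem_RR {u v : V} : (u, v) ∈ RR z F 𝒢 ↔ ∃ g ∈ 𝒢, g z = u ∧ ∃ t ∈ TT z F, g t = v := by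
  simp [RR]

include A

omit [Fintype V] in
theorem card_TT : (TT z F).card = 44 := by
  rw [TT, Finset.card_union_of_disjoint, Finset.card_image_of_injective _ (fun a b h => mul_right_cancel h), A.W.card]
  rw [Finset.disjoint_left]
  intro v hv hv'
  obtain ⟨f, hf, rfl⟩ := Finset.mem_image.1 hv'
  exact zf_notMem A hf hv

omit [Fintype V] in
theorem TT_z {t : V} (ht : t ∈ TT z F) : z * t ∈ TT z F := by
  rw [mem_TT] at ht ⊢
  rcases ht with h | ⟨f, hf, rfl⟩
  · exact Or.inr ⟨t, h, mul_comm _ _⟩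
  · left
    have : z * (f * z) = f := by rw [mul_comm, mul_assoc, A.W.sq, mul_one]
    rw [this]; exact hf

omit [Fintype V] in
theorem TT_st {g : MulAut V} (hg : g ∈ 𝒢) (hgz : g z = z) {t : V} (ht : t ∈ TT z F) : g t ∈ TT z F := by
  rw [mem_TT] at ht ⊢
  rcases ht with h | ⟨f, hf, rfl⟩
  · exact Or.inl (A.st g hg hgz t h)
  · right
    exact ⟨g f, A.st g hg hgz f hf, by rw [map_mul, hgz]⟩

omit [Fintype V] in
theorem TT_ne {t : V} (ht : t ∈ TT z F) : t ≠ 1 ∧ t ≠ z := by
  rw [mem_TT] at ht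
  rcases ht with h | ⟨f, hf, rfl⟩
  · exact ⟨fun e => one_notMemF A (e ▸ h), fun e => z_notMemF A (e ▸ h)⟩
  · refine ⟨fun e => ?_, fun e => ?_⟩
    · have h1 : f = z := by
        calc f = f * z * z := by rw [mul_assoc, A.W.sq, mul_one]
          _ = z := by rw [e, one_mul]
      exact z_notMemF A (h1 ▸ hf)
    · have h1 : f = 1 := by
        apply mul_right_cancel (b := z)
        rw [e, one_mul]
      exact one_notMemF A (h1 ▸ hf)

theorem row {g : MulAut V} (hg : g ∈ 𝒢) {v : V} : (g z, v) ∈ RR z F 𝒢 ↔ g⁻¹ v ∈ TT z F := by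
  rw [mem_RR]
  constructor
  · rintro ⟨k, hk, h1, t, ht, rfl⟩
    have h2 : (g⁻¹ * k) z = z := by
      show g⁻¹ (k z) = z
      rw [h1]; exact MulAut.inv_apply_self _ _ _
    exact TT_st A (𝒢.mul_mem (𝒢.inv_mem hg) hk) h2 ht
  · intro h
    exact ⟨g, hg, rfl, _, h, MulAut.apply_inv_self _ _ _⟩

theorem RR_inv {g : MulAut V} (hg : g ∈ 𝒢) {u v : V} : (u, v) ∈ RR z F 𝒢 ↔ (g u, g v) ∈ RR z F 𝒢 := by
  rw [mem_RR, mem_RR]
  constructor
  · rintro ⟨k, hk, rfl, t, ht, rfl⟩
    exact ⟨g * k, 𝒢.mul_mem hg hk, rfl, t, ht, rfl⟩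
  · rintro ⟨k, hk, h1, t, ht, h2⟩
    refine ⟨g⁻¹ * k, 𝒢.mul_mem (𝒢.inv_mem hg) hk, ?_, t, ht, ?_⟩
    · show g⁻¹ (k z) = u
      rw [h1]; exact MulAut.inv_apply_self _ _ _
    · show g⁻¹ (k t) = v
      rw [h2]; exact MulAut.inv_apply_self _ _ _

theorem no2047 (hall : ∀ v : V, v ≠ 1 → v ∈ X) (hX : X.card = 2047) : False := by
  have hsq := A.W.sq
  -- the rows
  have hrow : ∀ u ∈ X, ((RR z F 𝒢).filter (fun p => p.1 = u)).card = 44 := by
    intro u hu
    obtain ⟨g, hg, rfl⟩ := (A.orb u).1 hu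
    rw [← card_TT A, ← Finset.card_image_of_injective (TT z F) (f := fun t => (g z, g t))
      (fun a b h => g.injective (Prod.ext_iff.1 h).2)]
    congr 1
    ext ⟨a, b⟩
    rw [Finset.mem_filter, Finset.mem_image]
    constructor
    · rintro ⟨h1, h2⟩
      have h2' : a = g z := h2
      subst h2'
      exact ⟨g⁻¹ b, (row A hg).1 h1, by rw [MulAut.apply_inv_self]⟩
    · rintro ⟨t, ht, h⟩
      obtain ⟨h1, h2⟩ := Prod.ext_iff.1 h
      have h1' : g z = a := h1
      have h2' : g t = b := h2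
      subst h1'
      subst h2'
      exact ⟨(row A hg).2 (by rw [MulAut.inv_apply_self]; exact ht), rfl⟩
  have hR1 : (RR z F 𝒢).card = 44 * 2047 := by
    rw [Finset.card_eq_sum_card_fiberwise (f := Prod.fst) (t := X), Finset.sum_congr rfl hrow, Finset.sum_const, hX, smul_eq_mul, mul_comm]
    rintro ⟨a, b⟩ h
    rw [Finset.mem_coe, mem_RR] at h
    obtain ⟨g, hg, h1, -⟩ := h
    exact (A.orb _).2 ⟨g, hg, h1⟩
  have hcol : ∀ v ∈ X, ((RR z F 𝒢).filter (fun p => p.2 = v)).card = ((RR z F 𝒢).filter (fun p => p.2 = z)).card := by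
    intro v hv
    obtain ⟨g, hg, rfl⟩ := (A.orb v).1 hv
    rw [← Finset.card_image_of_injective ((RR z F 𝒢).filter (fun p => p.2 = z)) (f := fun p => (g p.1, g p.2))
      (fun a b h => Prod.ext (g.injective (Prod.ext_iff.1 h).1) (g.injective (Prod.ext_iff.1 h).2))]
    congr 1
    ext ⟨a, b⟩
    rw [Finset.mem_filter, Finset.mem_image]
    constructor
    · rintro ⟨h1, h2⟩
      have h2' : b = g z := h2
      subst h2'
      refine ⟨(g⁻¹ a, z), ?_, by rw [MulAut.apply_inv_self]⟩
      rw [Finset.mem_filter]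
      refine ⟨?_, rfl⟩
      rw [RR_inv A hg, MulAut.apply_inv_self]
      exact h1
    · rintro ⟨⟨c, e⟩, hce, h⟩
      rw [Finset.mem_filter] at hce
      obtain ⟨h3, h4⟩ := hce
      have h4' : e = z := h4
      subst h4'
      obtain ⟨h1, h2⟩ := Prod.ext_iff.1 h
      have h1' : g c = a := h1
      have h2' : g e = b := h2
      subst h1'
      subst h2'
      exact ⟨(RR_inv A hg).1 h3, rfl⟩
  have hsnd : ∀ a b : V, (a, b) ∈ RR z F 𝒢 → a ≠ 1 ∧ b ≠ 1 := by
    intro a b h
    rw [mem_RR] at h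
    obtain ⟨g, hg, h1, t, ht, h2⟩ := h
    refine ⟨fun e => ?_, fun e => ?_⟩
    · apply A.W.z1
      apply g.injective
      rw [h1, e, map_one]
    · apply (TT_ne A ht).1
      apply g.injective
      rw [h2, e, map_one]
  have hR2 : (RR z F 𝒢).card = 2047 * ((RR z F 𝒢).filter (fun p => p.2 = z)).card := by
    rw [Finset.card_eq_sum_card_fiberwise (f := Prod.snd) (t := X), Finset.sum_congr rfl hcol, Finset.sum_const, hX, smul_eq_mul]
    rintro ⟨a, b⟩ h
    exact hall b (hsnd a b h).2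
  have hc44 : ((RR z F 𝒢).filter (fun p => p.2 = z)).card = 44 := by
    rw [hR1] at hR2; omega
  -- the column of `z`
  classical
  let Y : Finset V := Finset.univ.filter (fun u => (u, z) ∈ RR z F 𝒢)
  have hY : ∀ u, u ∈ Y ↔ (u, z) ∈ RR z F 𝒢 := fun u => by simp [Y]
  have hYc : Y.card = 44 := by
    rw [← hc44, ← Finset.card_image_of_injective Y (f := fun u => (u, z)) (fun a b h => (Prod.ext_iff.1 h).1)]
    congr 1
    ext ⟨a, b⟩
    rw [Finset.mem_filter, Finset.mem_image]
    constructor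
    · rintro ⟨u, hu, h⟩
      obtain ⟨h1, h2⟩ := Prod.ext_iff.1 h
      have h1' : u = a := h1
      have h2' : z = b := h2
      subst h1'
      subst h2'
      exact ⟨(hY u).1 hu, rfl⟩
    · rintro ⟨h1, h2⟩
      have h2' : b = z := h2
      subst h2'
      exact ⟨a, (hY a).2 h1, rfl⟩
  have hYI : Iv z 𝒢 Y := by
    intro g hg hgz v
    rw [hY, hY, RR_inv A hg, hgz]
  have h1Y : (1 : V) ∉ Y := by
    rw [hY]; intro h; exact (hsnd _ _ h).1 rfl
  have hzY : z ∉ Y := by
    rw [hY]
    intro h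
    have := (row A 𝒢.one_mem (v := z)).1 h
    exact (TT_ne A this).2 rfl
  obtain ⟨c10, c11, c20, c21, c3, b10, b11, b20, b21, b3, hsh, e10, e11, e20, e21, e3⟩ := shape A hYI h1Y
  rw [hYc, if_neg hzY] at hsh
  have hc1 : c10 = 1 ∧ c11 = 1 := by
    rcases (show c3 = 0 ∨ c3 = 1 by omega) with q3 | q3 <;>
    rcases (show c10 + c11 = 0 ∨ c10 + c11 = 1 ∨ c10 + c11 = 2 by omega) with q4 | q4 | q4 <;>
    rcases (show c20 + c21 = 0 ∨ c20 + c21 = 1 ∨ c20 + c21 = 2 by omega) with q5 | q5 | q5 <;>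
    rw [q3, q4, q5] at hsh <;> omega
  have hTY : TT z F ⊆ Y := by
    intro t ht
    rw [mem_TT] at ht
    rcases ht with h | ⟨f, hf, rfl⟩
    · by_contra hn
      have := e10 t h
      rw [if_neg hn] at this
      omega
    · by_contra hn
      have := e11 f hf
      rw [if_neg hn] at this
      omega
  have hYT : TT z F = Y := Finset.eq_of_subset_of_card_le hTY (by rw [hYc, card_TT A])
  have hsym : ∀ u v, (u, v) ∈ RR z F 𝒢 → (v, u) ∈ RR z F 𝒢 := by
    intro u v h
    obtain ⟨g, hg, rfl⟩ := (A.orb v).1 (hall v (hsnd u v h).2)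
    rw [row A hg, hYT, hY, RR_inv A hg, MulAut.apply_inv_self]
    exact h
  have hmul : ∀ u v, (u, v) ∈ RR z F 𝒢 → (u, u * v) ∈ RR z F 𝒢 := by
    intro u v h
    rw [mem_RR] at h ⊢
    obtain ⟨g, hg, rfl, t, ht, rfl⟩ := h
    exact ⟨g, hg, rfl, z * t, TT_z A ht, map_mul g z t⟩
  -- the permutation of order three
  let σ : Function.End (RR z F 𝒢) := fun p => ⟨(p.1.2, p.1.1 * p.1.2), by
    have h2 := hmul _ _ (hsym _ _ p.2)
    rw [mul_comm] at h2
    exact h2⟩
  have hσ : ∀ p : RR z F 𝒢, (σ p).1 = (p.1.2, p.1.1 * p.1.2) := fun p => rfl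
  haveI : Fact (Nat.Prime 3) := ⟨Nat.prime_three⟩
  have h3 : σ ^ 3 ^ 1 = 1 := by
    rw [pow_one]
    funext p
    apply Subtype.ext
    show (σ (σ (σ p))).1 = p.1
    rw [hσ, hσ, hσ]
    obtain ⟨⟨a, b⟩, hp⟩ := p
    simp only
    have e1 : b * (a * b) = a := by rw [mul_comm a b, ← mul_assoc, hsq, one_mul]
    rw [e1]
    have e2 : a * b * a = b := by rw [mul_comm a b, mul_assoc, hsq, mul_one]
    rw [e2]
  have h4 := Equiv.Perm.card_fixedPoints_modEq h3
  have h5 : Fintype.card (Function.fixedPoints σ) = 0 := by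
    rw [Fintype.card_eq_zero_iff]
    constructor
    rintro ⟨⟨⟨a, b⟩, hp⟩, h⟩
    have h6 := congrArg Subtype.val h
    rw [hσ] at h6
    obtain ⟨h7, h8⟩ := Prod.ext_iff.1 h6
    have h7' : b = a := h7
    have h8' : a * b = b := h8
    rw [h7', hsq] at h8'
    exact (hsnd _ _ hp).1 h8'.symm
  rw [h5, Fintype.card_coe, hR1] at h4
  exact absurd h4 (by decide)

theorem size (hbad : ∀ n ∈ [232, 485, 1563, 1772], X.card ≠ n) (h1 : X.card ≠ 1) : X.card = 23 := by
  obtain ⟨c10, c11, c20, c21, c3, b10, b11, b20, b21, b3, hX, e10, e11, e20, e21, e3⟩ := shape A A.iv A.h1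
  rw [if_pos A.hz] at hX
  simp only [List.mem_cons, List.not_mem_nil, or_false, forall_eq_or_imp, forall_eq] at hbad
  obtain ⟨m1, m2, m3, m4⟩ := hbad
  have hsq := A.W.sq
  have i10 : ∀ x ∈ F, x ∈ X ↔ c10 = 1 := fun x hx => by
    have := e10 x hx
    by_cases h : x ∈ X
    · rw [if_pos h] at this; exact ⟨fun _ => this.symm, fun _ => h⟩
    · rw [if_neg h] at this; exact ⟨fun h' => absurd h' h, fun h' => by omega⟩
  have i11 : ∀ x ∈ F, x * z ∈ X ↔ c11 = 1 := fun x hx => by
    have := e11 x hx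
    by_cases h : x * z ∈ X
    · rw [if_pos h] at this; exact ⟨fun _ => this.symm, fun _ => h⟩
    · rw [if_neg h] at this; exact ⟨fun h' => absurd h' h, fun h' => by omega⟩
  have i20 : ∀ x ∈ F, ∀ y ∈ F, x ≠ y → (x * y ∈ X ↔ c20 = 1) := fun x hx y hy hxy => by
    have := e20 x hx y hy hxy
    by_cases h : x * y ∈ X
    · rw [if_pos h] at this; exact ⟨fun _ => this.symm, fun _ => h⟩
    · rw [if_neg h] at this; exact ⟨fun h' => absurd h' h, fun h' => by omega⟩
  have i21 : ∀ x ∈ F, ∀ y ∈ F, x ≠ y → (x * y * z ∈ X ↔ c21 = 1) := fun x hx y hy hxy => by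
    have := e21 x hx y hy hxy
    by_cases h : x * y * z ∈ X
    · rw [if_pos h] at this; exact ⟨fun _ => this.symm, fun _ => h⟩
    · rw [if_neg h] at this; exact ⟨fun h' => absurd h' h, fun h' => by omega⟩
  have i3 : ∀ v ∈ R3 F, v ∈ X ↔ c3 = 1 := fun v hv => by
    have := e3 v hv
    by_cases h : v ∈ X
    · rw [if_pos h] at this; exact ⟨fun _ => this.symm, fun _ => h⟩
    · rw [if_neg h] at this; exact ⟨fun h' => absurd h' h, fun h' => by omega⟩
  -- everything
  have hno : X.card ≠ 2047 := by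
    intro h
    apply no2047 A _ h
    intro v hv
    by_contra hn
    have h1 : X ⊆ (Finset.univ.erase v).erase 1 := by
      intro u hu
      rw [Finset.mem_erase, Finset.mem_erase]
      refine ⟨?_, ?_, Finset.mem_univ _⟩
      · rintro rfl; exact A.h1 hu
      · rintro rfl; exact hn hu
    have h2 := Finset.card_le_card h1
    rw [Finset.card_erase_of_mem (by rw [Finset.mem_erase]; exact ⟨hv.symm, Finset.mem_univ _⟩), Finset.card_erase_of_mem (Finset.mem_univ _),
      Finset.card_univ, A.W.card_V A.ns, h] at h2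
    norm_num at h2
  -- translates by `z`
  have hz1 : c10 = c11 → c20 = c21 → X.card + 1 ∣ 2048 := by
    intro ha hb
    apply sub1 A
    intro v hv
    rcases cases_univ A.W A.ns v with h | h | h | ⟨x, hx, h⟩ | ⟨x, hx, y, hy, hxy, h⟩ | ⟨x, hx, y, hy, hxy, h⟩ | h
    · rw [h] at hv; exact absurd hv A.h1
    · right; rw [h]; exact hsq z
    · left
      rw [mul_comm, i11 v h, ← ha, ← i10 v h]; exact hv
    · left
      have : z * v = x := by rw [h, mul_comm, mul_assoc, hsq, mul_one]
      rw [this, i10 x hx, ha, ← i11 x hx, ← h]; exact hv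
    · left
      rw [h, mul_comm, i21 x hx y hy hxy, ← hb, ← i20 x hx y hy hxy, ← h]; exact hv
    · left
      have : z * v = x * y := by rw [h, mul_comm, mul_assoc, hsq, mul_one]
      rw [this, i20 x hx y hy hxy, hb, ← i21 x hx y hy hxy, ← h]; exact hv
    · left
      rw [i3 _ (A.W.r3_z A.ns h), ← i3 _ h]; exact hv
  have hz2 : 1 ≤ c10 + c11 → 1 ≤ c20 + c21 → c3 = 1 → 2048 - X.card ∣ 2048 := by
    intro ha hb hc
    apply sub2 A
    intro v hv hv1
    rcases cases_univ A.W A.ns v with h | h | h | ⟨x, hx, h⟩ | ⟨x, hx, y, hy, hxy, h⟩ | ⟨x, hx, y, hy, hxy, h⟩ | h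
    · exact absurd h hv1
    · rw [h] at hv; exact absurd A.hz hv
    · rw [mul_comm, i11 v h]
      rw [i10 v h] at hv
      omega
    · have : z * v = x := by rw [h, mul_comm, mul_assoc, hsq, mul_one]
      rw [this, i10 x hx]
      rw [h, i11 x hx] at hv
      omega
    · rw [h, mul_comm, i21 x hx y hy hxy]
      rw [h, i20 x hx y hy hxy] at hv
      omega
    · have : z * v = x * y := by rw [h, mul_comm, mul_assoc, hsq, mul_one]
      rw [this, i20 x hx y hy hxy]
      rw [h, i21 x hx y hy hxy] at hv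
      omega
    · exact absurd ((i3 v h).2 hc) hv
  rcases (show c3 = 0 ∨ c3 = 1 by omega) with q3 | q3 <;>
  rcases (show c10 + c11 = 0 ∨ c10 + c11 = 1 ∨ c10 + c11 = 2 by omega) with q4 | q4 | q4 <;>
  rcases (show c20 + c21 = 0 ∨ c20 + c21 = 1 ∨ c20 + c21 = 2 by omega) with q5 | q5 | q5 <;>
  rw [q3, q4, q5] at hX
  · exact absurd hX h1
  · exact absurd hX m1
  · have := hz1 (by omega) (by omega)
    rw [hX] at this
    exact absurd this (by decide)
  · exact hX
  · exfalso
    apply no254 A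
    · rcases (show c10 = 1 ∨ c11 = 1 by omega) with h | h
      · exact Or.inl (fun x hx => (i10 x hx).2 h)
      · exact Or.inr (fun x hx => (i11 x hx).2 h)
    · rcases (show c20 = 1 ∨ c21 = 1 by omega) with h | h
      · exact Or.inl (fun x hx y hy hxy => (i20 x hx y hy hxy).2 h)
      · exact Or.inr (fun x hx y hy hxy => (i21 x hx y hy hxy).2 h)
    · intro v hv hzv
      rcases cases_univ A.W A.ns v with h | h | h | ⟨x, hx, h⟩ | ⟨x, hx, y, hy, hxy, h⟩ | ⟨x, hx, y, hy, hxy, h⟩ | h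
      · rw [h] at hv; exact A.h1 hv
      · rw [h, hsq] at hzv; exact A.h1 hzv
      · rw [mul_comm, i11 v h] at hzv
        rw [i10 v h] at hv
        omega
      · have : z * v = x := by rw [h, mul_comm, mul_assoc, hsq, mul_one]
        rw [this, i10 x hx] at hzv
        rw [h, i11 x hx] at hv
        omega
      · rw [h, mul_comm, i21 x hx y hy hxy] at hzv
        rw [h, i20 x hx y hy hxy] at hv
        omega
      · have : z * v = x * y := by rw [h, mul_comm, mul_assoc, hsq, mul_one]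
        rw [this, i20 x hx y hy hxy] at hzv
        rw [h, i21 x hx y hy hxy] at hv
        omega
      · rw [i3 v h] at hv
        omega
  · exact absurd hX m2
  · have := hz1 (by omega) (by omega)
    rw [hX] at this
    exact absurd this (by decide)
  · exfalso
    have hF : ∀ x ∈ F, x ∈ X := fun x hx => (i10 x hx).2 (by omega)
    have hFz : ∀ x ∈ F, x * z ∈ X := fun x hx => (i11 x hx).2 (by omega)
    have h3 : ∀ v ∈ R3 F, v ∉ X := fun v hv h => by
      rw [i3 v hv] at h; omega
    rcases (show (c20 = 1 ∧ c21 = 0) ∨ (c20 = 0 ∧ c21 = 1) by omega) with ⟨h, h'⟩ | ⟨h, h'⟩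
    · apply no276a A hF hFz h3 (fun x hx y hy hxy => (i20 x hx y hy hxy).2 h)
      intro x hx y hy hxy h4
      rw [i21 x hx y hy hxy] at h4
      omega
    · apply no276b A hF hFz h3 _ (fun x hx y hy hxy => (i21 x hx y hy hxy).2 h')
      intro x hx y hy hxy h4
      rw [i20 x hx y hy hxy] at h4
      omega
  · have := hz1 (by omega) (by omega)
    rw [hX] at this
    exact absurd this (by decide)
  · have := hz1 (by omega) (by omega)
    rw [hX] at this
    exact absurd this (by decide)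
  · exact absurd hX m4
  · have := hz1 (by omega) (by omega)
    rw [hX] at this
    exact absurd this (by decide)
  · exact absurd hX m3
  · have := hz2 (by omega) (by omega) q3
    rw [hX] at this
    exact absurd this (by decide)
  · have := hz2 (by omega) (by omega) q3
    rw [hX] at this
    exact absurd this (by decide)
  · have := hz1 (by omega) (by omega)
    rw [hX] at this
    exact absurd this (by decide)
  · have := hz2 (by omega) (by omega) q3
    rw [hX] at this
    exact absurd this (by decide)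
  · exact absurd hX hno

end H19.RWit4
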