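import Cfsg.Agent.Lib.H20.DefZero
import Cfsg.Agent.Lib.H82.BZero
import Cfsg.Agent.Lib.H78.Cong

/-!
# The principal block of a simple group: prime power degrees; Sylow centralizers
-/

set_option autoImplicit false
set_option linter.unusedSectionVars false
set_option linter.unusedVariables false
set_option linter.style.haveILetI false
open Cfsg H20.Loc H20.GA H20.Blk H20.DefGrp H20.Orth H20.DefZero H82.Simple H82.Deg
open scoped ComplexConjugate

namespace H19.SimpleBlock

universe u

variable {G : Type u} [Group G] [Finite G] {p : ℕ} {M : Ideal AlgInt}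

/-- a nonidentity element of a nontrivial group with class size prime to `p`. -/
theorem exists_ne_one_class_not_dvd [Nontrivial G] (hp : p.Prime) :
    ∃ g : G, g ≠ 1 ∧ ¬ p ∣ (Subgroup.centralizer ({g} : Set G)).index := by
  haveI : Fact p.Prime := ⟨hp⟩
  obtain ⟨P⟩ : Nonempty (Sylow p G) := inferInstance
  by_cases hP : Nontrivial P
  · obtain ⟨z, hz⟩ : ∃ z : Subgroup.center P, z ≠ 1 := by
      haveI := P.2.center_nontrivial
      exact exists_ne 1
    refine ⟨((z : P) : G), ?_, ?_⟩
    · intro h
      apply hz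
      apply Subtype.ext
      apply Subtype.ext
      exact h
    · intro hdvd
      have hle : (P : Subgroup G) ≤ Subgroup.centralizer ({((z : P) : G)} : Set G) := by
        intro x hx
        rw [Subgroup.mem_centralizer_singleton_iff]
        have := (Subgroup.mem_center_iff.1 z.2) ⟨x, hx⟩
        exact congrArg Subtype.val this
      exact P.not_dvd_index (hdvd.trans (Subgroup.index_dvd_of_le hle))
  · obtain ⟨g, hg⟩ := exists_ne (1 : G)
    refine ⟨g, hg, ?_⟩
    intro hdvd
    have h1 : p ∣ Nat.card G := hdvd.trans (Subgroup.index_dvd_card _)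
    rw [← Subgroup.card_mul_index (P : Subgroup G)] at h1
    have h2 : Nat.card P = 1 := by
      rw [not_nontrivial_iff_subsingleton] at hP
      exact Nat.card_unique
    rw [h2, one_mul] at h1
    exact P.not_dvd_index h1

theorem centralChar_triv (g : G) :
    centralChar (fun _ : G => (1 : ℂ)) g = ((Subgroup.centralizer ({g} : Set G)).index : ℂ) := by
  rw [centralChar]; simp

/-- In a simple group that is not of prime order a character in the principal `p`-block of `p`-power
degree is principal. -/
theorem eq_triv_of_degree_pow (hM : IsPModular p M) [IsSimpleGroup G] (hnp : ¬ (Nat.card G).Prime)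
    {χ : IrrCharacter G} (hχ : χ ∈ principalBlock M G) {k : ℕ}
    (hdeg : charDegree (χ : G → ℂ) = p ^ k) : χ = triv G := by
  haveI := pm_isPrime hM
  by_contra hne
  obtain ⟨g, hg1, hg2⟩ := exists_ne_one_class_not_dvd (G := G) (pm_prime hM)
  have h1 := H82.BZero.eq_zero_of_coprime hnp hne hg1 (by
    rw [hdeg]
    exact Nat.Coprime.pow_left _ ((Nat.Prime.coprime_iff_not_dvd (pm_prime hM)).2 hg2))
  have h2 := hχ g
  rw [centralChar_triv, centralChar, h1, mul_zero, zero_div, sub_zero, locI_natCast_iff hM] at h2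
  exact hg2 h2

theorem not_prime_card_of_nonabelian (h : ∃ a b : G, a * b ≠ b * a) : ¬ (Nat.card G).Prime := by
  intro hp
  haveI : Fact (Nat.card G).Prime := ⟨hp⟩
  haveI := isCyclic_of_prime_card (α := G) (p := Nat.card G) rfl
  obtain ⟨a, b, hab⟩ := h
  letI := IsCyclic.commGroup (α := G)
  exact hab (mul_comm a b)

theorem isUnion_principal [M.IsPrime] : IsUnion M (principalBlock M G) :=
  isUnion_of_isPBlock (B := principalBlock M G) ⟨triv G, rfl⟩

theorem triv_mem_principal [M.IsPrime] : triv G ∈ principalBlock M G := sameBlock_refl _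

/-- A simple group of order `p^a q^b r`, not of prime order, has no element of order divisible by `pr`. -/
theorem no_elt [IsSimpleGroup G] (hnp : ¬ (Nat.card G).Prime) {p q r a b : ℕ} (hp : p.Prime)
    (hq : q.Prime) (hr : r.Prime) (hpq : p ≠ q) (hpr : p ≠ r) (hqr : q ≠ r)
    (hcard : Nat.card G = p ^ a * q ^ b * r) {y : G} (hpy : p ∣ orderOf y) (hry : r ∣ orderOf y) :
    False := by
  classical
  letI := Fintype.ofFinite G
  letI := Fintype.ofFinite (IrrCharacter G)
  obtain ⟨M, hM⟩ := H78.Cong.exists_isPModular hp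
  obtain ⟨Mq, hMq⟩ := H78.Cong.exists_isPModular hq
  obtain ⟨Mr, hMr⟩ := H78.Cong.exists_isPModular hr
  haveI := pm_isPrime hM
  haveI := pm_isPrime hMq
  have horth := weak_orth hM (isUnion_principal (G := G) (M := M)) (x := 1) (y := y)
    (by rw [orderOf_one]; exact hp.one_lt.ne' ∘ Nat.dvd_one.1) hpy
  obtain ⟨χ, hχB, hχ1, hχq, hχy⟩ : ∃ χ ∈ principalBlock M G, χ ≠ triv G ∧
      ¬ q ∣ charDegree (χ : G → ℂ) ∧ (χ : G → ℂ) y ≠ 0 := by
    by_contra! hno
    rw [← Finset.add_sum_erase _ _ (Finset.mem_univ (triv G)), if_pos triv_mem_principal] at horth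
    have h1 : MemLocalIdeal Mq (∑ χ ∈ Finset.univ.erase (triv G),
        (if χ ∈ principalBlock M G then (χ : G → ℂ) 1 * conj ((χ : G → ℂ) y) else 0)) := by
      refine locI_sum fun χ hχ => ?_
      split_ifs with hχB
      · by_cases hd : q ∣ charDegree (χ : G → ℂ)
        · rw [← coe_charDegree' χ]
          refine locI_mul_right ((locI_natCast_iff hMq).2 hd) ?_
          exact isIntegral_mem (H18.CharBasic.char_isIntegral (H18.CharBasic.isCharacter_conj
            (H18.CharBasic.isCharacter_of_isIrr χ.2)) y)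
        · rw [hno χ hχB (Finset.ne_of_mem_erase hχ) hd, map_zero, mul_zero]
          exact locI_zero
      · exact locI_zero
    rw [triv_apply, triv_apply, map_one, mul_one] at horth
    have h2 : MemLocalIdeal Mq (-(1 : ℂ)) := by
      rw [← eq_neg_iff_add_eq_zero.2 ((add_comm _ _).trans horth)]
      exact h1
    have h3 := locI_neg h2
    rw [neg_neg] at h3
    exact not_locI_one h3
  have hdvd : charDegree (χ : G → ℂ) ∣ p ^ a * q ^ b * r := hcard ▸ degree_dvd_card χ
  have hr_not : ¬ r ∣ charDegree (χ : G → ℂ) := by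
    intro hrd
    apply hχy
    refine vanish_of_full_degree hMr ?_ hry
    have e1 : (Nat.card G).factorization r = 1 := by
      have h5 : ¬ r ∣ p ^ a * q ^ b := by
        intro h
        rcases (hr.dvd_mul).1 h with h | h
        · exact hpr ((Nat.prime_dvd_prime_iff_eq hr hp).1 (hr.dvd_of_dvd_pow h)).symm
        · exact hqr ((Nat.prime_dvd_prime_iff_eq hr hq).1 (hr.dvd_of_dvd_pow h)).symm
      rw [hcard, Nat.factorization_mul (mul_ne_zero (pow_ne_zero _ hp.ne_zero)
        (pow_ne_zero _ hq.ne_zero)) hr.ne_zero, Finsupp.add_apply,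
        Nat.factorization_eq_zero_of_not_dvd h5, hr.factorization_self]
    rw [e1]
    apply le_antisymm
    · rw [← e1]
      exact (Nat.factorization_le_iff_dvd (H82.Deg.charDegree_ne_zero χ)
        (Nat.card_pos (α := G)).ne').2 (degree_dvd_card χ) r
    · exact (hr.dvd_iff_one_le_factorization (H82.Deg.charDegree_ne_zero χ)).1 hrd
  have h6 : charDegree (χ : G → ℂ) ∣ p ^ a := by
    have c1 : Nat.Coprime (charDegree (χ : G → ℂ)) r :=
      ((Nat.Prime.coprime_iff_not_dvd hr).2 hr_not).symm
    have c2 : Nat.Coprime (charDegree (χ : G → ℂ)) (q ^ b) :=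
      (((Nat.Prime.coprime_iff_not_dvd hq).2 hχq).symm).pow_right b
    exact c2.dvd_of_dvd_mul_right (c1.dvd_of_dvd_mul_right hdvd)
  obtain ⟨k, _, hk⟩ := (Nat.dvd_prime_pow hp).1 h6
  exact hχ1 (eq_triv_of_degree_pow hM hnp hχB hk)

/-- Sylow `r`-subgroups of simple groups of order `p^a q^b r` are self-centralizing. -/
theorem centralizer_sylow [IsSimpleGroup G] {p q r a b : ℕ} (hp : p.Prime)
    (hq : q.Prime) [hr : Fact r.Prime] (hpq : p ≠ q) (hpr : p ≠ r) (hqr : q ≠ r)
    (hcard : Nat.card G = p ^ a * q ^ b * r) (S : Sylow r G) :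
    Subgroup.centralizer (S : Set G) = (S : Subgroup G) := by
  have hr' := hr.out
  have h5 : ¬ r ∣ p ^ a * q ^ b := by
    intro h
    rcases (hr'.dvd_mul).1 h with h | h
    · exact hpr ((Nat.prime_dvd_prime_iff_eq hr' hp).1 (hr'.dvd_of_dvd_pow h)).symm
    · exact hqr ((Nat.prime_dvd_prime_iff_eq hr' hq).1 (hr'.dvd_of_dvd_pow h)).symm
  have hSc : Nat.card S = r := by
    rw [Sylow.card_eq_multiplicity, hcard, Nat.factorization_mul (mul_ne_zero (pow_ne_zero _ hp.ne_zero)
        (pow_ne_zero _ hq.ne_zero)) hr'.ne_zero, Finsupp.add_apply,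
        Nat.factorization_eq_zero_of_not_dvd h5, hr'.factorization_self, zero_add, pow_one]
  haveI hcyc : IsCyclic S := isCyclic_of_prime_card hSc
  have hSC : (S : Subgroup G) ≤ Subgroup.centralizer (S : Set G) := by
    intro x hx
    rw [Subgroup.mem_centralizer_iff]
    intro y hy
    letI := IsCyclic.commGroup (α := S)
    exact congrArg Subtype.val (mul_comm (⟨y, hy⟩ : S) ⟨x, hx⟩)
  by_cases hnp : (Nat.card G).Prime
  · have h1 : Nat.card G = r := by
      have : r ∣ Nat.card G := hcard ▸ dvd_mul_left _ _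
      exact ((Nat.prime_dvd_prime_iff_eq hr' hnp).1 this).symm
    have h2 : (S : Subgroup G) = ⊤ := Subgroup.eq_top_of_card_eq _ (by rw [h1]; exact hSc)
    rw [h2] at hSC ⊢
    exact top_le_iff.1 hSC
  · by_contra hne
    set C := Subgroup.centralizer (S : Set G) with hC
    have h1 : (S : Subgroup G).relIndex C ≠ 1 := by
      intro h
      rw [Subgroup.relIndex_eq_one] at h
      exact hne (le_antisymm h hSC)
    obtain ⟨t, ht, htd⟩ := Nat.exists_prime_and_dvd h1
    have h2 : Nat.card (S : Subgroup G) * (S : Subgroup G).relIndex C = Nat.card C := by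
      have := Subgroup.relIndex_mul_relIndex ⊥ (S : Subgroup G) C bot_le hSC
      rwa [Subgroup.relIndex_bot_left, Subgroup.relIndex_bot_left] at this
    have h3 : t ∣ p ^ a * q ^ b := by
      have h4 : r * t ∣ r * (p ^ a * q ^ b) := by
        calc r * t ∣ Nat.card (S : Subgroup G) * (S : Subgroup G).relIndex C := by
              exact Nat.mul_dvd_mul (by rw [hSc]) htd
          _ = Nat.card C := h2
          _ ∣ Nat.card G := Subgroup.card_subgroup_dvd_card C
          _ = r * (p ^ a * q ^ b) := by rw [hcard, mul_comm]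
      exact Nat.dvd_of_mul_dvd_mul_left hr'.pos h4
    haveI : Fact t.Prime := ⟨ht⟩
    obtain ⟨s, hs⟩ := exists_prime_orderOf_dvd_card' (G := C) t
      ((htd.trans (Dvd.intro_left _ h2)))
    obtain ⟨v, hv⟩ := exists_prime_orderOf_dvd_card' (G := S) r (by rw [hSc])
    have hcomm : Commute (s : G) (v : G) :=
      (Subgroup.mem_centralizer_iff.1 s.2 v v.2).symm
    have htr : t ≠ r := by
      rintro rfl
      exact h5 h3
    have hord : orderOf ((s : G) * (v : G)) = t * r := by
      rw [hcomm.orderOf_mul_eq_mul_orderOf_of_coprime, Subgroup.orderOf_coe, Subgroup.orderOf_coe,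
        hs, hv]
      rw [Subgroup.orderOf_coe, Subgroup.orderOf_coe, hs, hv]
      exact (Nat.coprime_primes ht hr').2 htr
    have htpq : t = p ∨ t = q := by
      rcases (ht.dvd_mul).1 h3 with h | h
      · left; exact (Nat.prime_dvd_prime_iff_eq ht hp).1 (ht.dvd_of_dvd_pow h)
      · right; exact (Nat.prime_dvd_prime_iff_eq ht hq).1 (ht.dvd_of_dvd_pow h)
    rcases htpq with rfl | rfl
    · exact no_elt hnp ht hq hr' hpq hpr hqr hcard (hord ▸ dvd_mul_right _ _)
        (hord ▸ dvd_mul_left _ _)
    · exact no_elt (a := b) (b := a) hnp ht hp hr' hpq.symm hqr hpr (by rw [hcard]; ring)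
        (hord ▸ dvd_mul_right _ _) (hord ▸ dvd_mul_left _ _)

end H19.SimpleBlock
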