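import Mathlib
import Cfsg.Agent.Lib.H92.Frame
import Cfsg.Agent.Lib.H92.Thomp22
import Cfsg.Agent.S0607

/-!
The Thompson subgroup of a 2-group acting on a set of commuting involutions with few fixed points (abstract version of the
argument of `H92.Thomp22`, with an additional central involution).
-/

set_option autoImplicit false
set_option linter.dupNamespace false
set_option linter.unusedSectionVars false
set_option linter.style.haveILetI false
set_option linter.unusedVariables false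
open Cfsg
open scoped commutatorElement

universe u

namespace H19.ThAbs
open H92.Frame H92.Thomp22

variable {G : Type u} [Group G] [Finite G]

/-- the abstract situation -/
structure Sit (z : G) (Δ : Set G) (m : ℕ) : Prop where
  zc : ∀ c, c * z = z * c
  zz : z * z = 1
  sq : ∀ x ∈ Δ, x * x = 1
  comm : ∀ a ∈ Δ, ∀ b ∈ Δ, Commute a b
  mem : ∀ b : G, b * b = 1 → (∀ y ∈ Δ, Commute b y) → b ∈ Subgroup.closure (insert z Δ)
  fix : ∀ b : G, b * b = 1 → b ∉ Subgroup.closure (insert z Δ) → {y | y ∈ Δ ∧ Commute b y}.ncard ≤ m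
  hm : 3 * m < Δ.ncard
  hm2 : m + 2 < Δ.ncard
  pair : ∀ x ∈ Δ, ∀ y ∈ Δ, ∀ u ∈ Δ, ∀ w ∈ Δ, x ≠ y → u ≠ w → x * y = u * w → u = x ∨ u = y

variable {z : G} {Δ : Set G} {m : ℕ} (h : Sit z Δ m)
include h

theorem Sit.comm' : ∀ a ∈ insert z Δ, ∀ b ∈ insert z Δ, Commute a b := by
  intro a ha b hb
  rcases Set.mem_insert_iff.1 ha with rfl | ha
  · exact (h.zc b).symm
  · rcases Set.mem_insert_iff.1 hb with rfl | hb
    · exact h.zc a
    · exact h.comm a ha b hb

theorem Sit.sq' : ∀ a ∈ insert z Δ, a * a = 1 := by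
  intro a ha
  rcases Set.mem_insert_iff.1 ha with rfl | ha
  · exact h.zz
  · exact h.sq a ha

theorem Sit.closure_comm : ∀ a ∈ Subgroup.closure (insert z Δ), ∀ b ∈ Subgroup.closure (insert z Δ), Commute a b := by
  have h1 : Subgroup.closure (insert z Δ) ≤ Subgroup.centralizer (Subgroup.closure (insert z Δ) : Set G) := by
    rw [Subgroup.closure_le]
    intro a ha
    rw [SetLike.mem_coe, Subgroup.mem_centralizer_iff]
    intro b hb
    have : Subgroup.closure (insert z Δ) ≤ Subgroup.centralizer ({a} : Set G) := by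
      rw [Subgroup.closure_le]
      intro c hc
      rw [SetLike.mem_coe, Subgroup.mem_centralizer_singleton_iff]
      exact h.comm' c hc a ha
    exact Subgroup.mem_centralizer_singleton_iff.1 (this hb)
  intro a ha b hb
  exact (Subgroup.mem_centralizer_iff.1 (h1 ha) b hb).symm

theorem Sit.closure_sq' : ∀ a ∈ Subgroup.closure (insert z Δ), a * a = 1 := fun a ha => closure_sq h.sq' h.comm' ha

/-- a quadratic elementary abelian subgroup of maximal order centralizes the frame -/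
theorem Sit.no_quadratic (B : Subgroup G) (hBc : ∀ b ∈ B, ∀ c ∈ B, Commute b c) (hB2 : ∀ b ∈ B, b * b = 1) (hN : ∀ b ∈ B, ∀ y ∈ Δ, b * y * b⁻¹ ∈ Δ)
    (hquad : ∀ b ∈ B, ∀ c ∈ B, ∀ x ∈ Δ, Commute c (x * (b * x * b⁻¹)))
    (hmax : Nat.card ↥(Subgroup.closure (insert z Δ)) ≤ Nat.card B) : ∀ b ∈ B, ∀ y ∈ Δ, Commute b y := by
  classical
  set V := Subgroup.closure (insert z Δ) with hV
  have hΔV : ∀ y ∈ Δ, y ∈ V := fun y hy => Subgroup.subset_closure (Set.mem_insert_of_mem _ hy)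
  by_contra hno
  push Not at hno
  obtain ⟨b, hb, y0, hy0, hby0⟩ := hno
  have hbV : b ∉ V := by
    intro hm
    exact hby0 (h.closure_comm b hm y0 (hΔV y0 hy0))
  have hbb := hB2 b hb
  have hinv : ∀ b ∈ B, b⁻¹ = b := fun b hb => inv_eq_of_mul_eq_one_left (hB2 b hb)
  have hmv : ∀ b ∈ B, ∀ x : G, ¬ Commute b x → b * x * b⁻¹ ≠ x := by
    intro b hb x hx he
    exact hx (mul_inv_eq_iff_eq_mul.1 he)
  -- orbits have length at most two
  have horb : ∀ b ∈ B, ∀ c ∈ B, ∀ x ∈ Δ, ¬ Commute b x → ¬ Commute c x → Commute (b * c) x := by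
    intro b hb c hc x hx h1 h2
    have h3 := hquad b hb c hc x hx
    have e : (c * x * c⁻¹) * (c * (b * x * b⁻¹) * c⁻¹) = x * (b * x * b⁻¹) := by
      calc (c * x * c⁻¹) * (c * (b * x * b⁻¹) * c⁻¹) = c * (x * (b * x * b⁻¹)) * c⁻¹ := by group
        _ = x * (b * x * b⁻¹) := by rw [h3.eq, mul_inv_cancel_right]
    have hne : x ≠ b * x * b⁻¹ := fun e => hmv b hb x h1 e.symm
    have hne' : c * x * c⁻¹ ≠ c * (b * x * b⁻¹) * c⁻¹ := fun e => hne (mul_left_cancel (mul_right_cancel e))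
    rcases h.pair x hx _ (hN b hb x hx) _ (hN c hc x hx) _ (hN c hc _ (hN b hb x hx)) hne hne' e.symm with h4 | h4
    · exact absurd h4 (hmv c hc x h2)
    · show b * c * x = x * (b * c)
      have h5 : c * x = (b * x * b⁻¹) * c := by rw [← h4]; group
      calc b * c * x = b * (c * x) := by group
        _ = b * ((b * x * b⁻¹) * c) := by rw [h5]
        _ = (b * b) * x * b⁻¹ * c := by group
        _ = x * (b * c) := by rw [hB2 b hb, one_mul, hinv b hb]; group
  have hone : ∀ c ∈ B, c ∈ B ⊓ V ∨ b * c ∈ B ⊓ V := by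
    intro c hc
    by_contra hno
    push Not at hno
    obtain ⟨n1, n2⟩ := hno
    have hcV : c ∉ V := fun hm => n1 ⟨hc, hm⟩
    have hbc : b * c ∈ B := B.mul_mem hb hc
    have hbcV : b * c ∉ V := fun hm => n2 ⟨hbc, hm⟩
    have f1 := h.fix b hbb hbV
    have f2 := h.fix c (hB2 c hc) hcV
    have f3 := h.fix (b * c) (hB2 _ hbc) hbcV
    have hsub : Δ ⊆ ({y | y ∈ Δ ∧ Commute b y} ∪ {y | y ∈ Δ ∧ Commute c y}) ∪ {y | y ∈ Δ ∧ Commute (b * c) y} := by
      intro x hx
      by_cases c1 : Commute b x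
      · exact Or.inl (Or.inl ⟨hx, c1⟩)
      · by_cases c2 : Commute c x
        · exact Or.inl (Or.inr ⟨hx, c2⟩)
        · exact Or.inr ⟨hx, horb b hb c hc x hx c1 c2⟩
    have h1 := Set.ncard_le_ncard hsub (Set.toFinite _)
    have h2 := Set.ncard_union_le ({y | y ∈ Δ ∧ Commute b y} ∪ {y | y ∈ Δ ∧ Commute c y}) {y | y ∈ Δ ∧ Commute (b * c) y}
    have h3 := Set.ncard_union_le {y | y ∈ Δ ∧ Commute b y} {y | y ∈ Δ ∧ Commute c y}
    have h4 := h.hm
    omega
  have hcard := card_le_two (inf_le_left : B ⊓ V ≤ B) hone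
  have hcard2 : Nat.card V ≤ 2 * Nat.card ↥(B ⊓ V) := hmax.trans hcard
  -- two members moved by b in different orbits
  have hex : ∃ x2 ∈ Δ, ¬ Commute b x2 ∧ x2 ≠ y0 ∧ x2 ≠ b * y0 * b⁻¹ := by
    by_contra hno
    push Not at hno
    have hsub : Δ ⊆ {y | y ∈ Δ ∧ Commute b y} ∪ {y0, b * y0 * b⁻¹} := by
      intro x hx
      by_cases c1 : Commute b x
      · exact Or.inl ⟨hx, c1⟩
      · by_cases c2 : x = y0
        · exact Or.inr (Or.inl c2)
        · exact Or.inr (Or.inr (hno x hx c1 c2))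
    have h1 := Set.ncard_le_ncard hsub (Set.toFinite _)
    have h2 := Set.ncard_union_le {y | y ∈ Δ ∧ Commute b y} {y0, b * y0 * b⁻¹}
    have h3 : ({y0, b * y0 * b⁻¹} : Set G).ncard ≤ 2 := by
      refine (Set.ncard_insert_le _ _).trans ?_
      rw [Set.ncard_singleton]
    have f1 := h.fix b hbb hbV
    have h4 := h.hm2
    omega
  obtain ⟨x2, hx2, hbx2, n1, n2⟩ := hex
  have hnm : ∀ x : G, ¬ Commute b x → x ∉ B ⊓ V := fun x hx hm => hx (hBc b hb x hm.1)
  have hm := half (inf_le_right : B ⊓ V ≤ V) hcard2 (hΔV y0 hy0) (hΔV x2 hx2) (hnm _ hby0) (hnm _ hbx2)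
  have hcm := hBc b hb _ hm.1
  have e : (b * y0 * b⁻¹) * (b * x2 * b⁻¹) = y0 * x2 := by
    calc (b * y0 * b⁻¹) * (b * x2 * b⁻¹) = b * (y0 * x2) * b⁻¹ := by group
      _ = y0 * x2 := by rw [hcm.eq, mul_inv_cancel_right]
  have hne' : b * y0 * b⁻¹ ≠ b * x2 * b⁻¹ := fun e => n1 (mul_left_cancel (mul_right_cancel e)).symm
  rcases h.pair y0 hy0 x2 hx2 _ (hN b hb y0 hy0) _ (hN b hb x2 hx2) (Ne.symm n1) hne' e.symm with h4 | h4
  · exact hmv b hb y0 hby0 h4
  · exact n2 h4.symm

theorem Sit.thompson (T : Sylow 2 G) (hΔ : ∀ q ∈ (T : Subgroup G), ∀ y ∈ Δ, q * y * q⁻¹ ∈ Δ) :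
    Subgroup.closure (insert z Δ) ≤ (T : Subgroup G) ∧
    thompsonSubgroupOf 2 (T : Subgroup G) = Subgroup.closure (insert z Δ) ∧
    ∀ B : Subgroup G, B ≤ (T : Subgroup G) → (∀ a ∈ B, ∀ b ∈ B, Commute a b) → (∀ a ∈ B, a * a = 1) →
      Nat.card ↥(Subgroup.closure (insert z Δ)) ≤ Nat.card B → B = Subgroup.closure (insert z Δ) := by
  haveI : Fact (Nat.Prime 2) := ⟨Nat.prime_two⟩
  set V := Subgroup.closure (insert z Δ) with hV
  have hΔV : ∀ y ∈ Δ, y ∈ V := fun y hy => Subgroup.subset_closure (Set.mem_insert_of_mem _ hy)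
  have hVsq : ∀ z ∈ V, z * z = 1 := h.closure_sq'
  have hVcomm : ∀ a ∈ V, ∀ b ∈ V, Commute a b := h.closure_comm
  -- V is normalized by T and contained in it
  have hTN : (T : Subgroup G) ≤ Subgroup.normalizer (V : Set G) := by
    intro t htT
    have key : ∀ t ∈ (T : Subgroup G), ∀ z ∈ V, t * z * t⁻¹ ∈ V := by
      intro t htT w hw
      have h1 : V ≤ V.comap (MulAut.conj t).toMonoidHom := by
        conv_lhs => rw [hV]
        rw [Subgroup.closure_le]
        intro y hy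
        rcases Set.mem_insert_iff.1 hy with rfl | hy
        · show t * y * t⁻¹ ∈ V
          rw [h.zc, mul_inv_cancel_right]
          exact Subgroup.subset_closure (Set.mem_insert _ _)
        · exact hΔV _ (hΔ t htT y hy)
      exact h1 hw
    rw [Subgroup.mem_normalizer_iff]
    intro w
    constructor
    · exact key t htT w
    · intro hw
      have := key t⁻¹ (Subgroup.inv_mem _ htT) _ hw
      have e : t⁻¹ * (t * w * t⁻¹) * t⁻¹⁻¹ = w := by group
      rwa [e] at this
  have hVp : IsPGroup 2 V := by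
    intro w
    exact ⟨1, Subtype.ext (by show (w : G) ^ 2 ^ 1 = 1; rw [pow_one, pow_two]; exact hVsq w w.2)⟩
  have hVT : V ≤ (T : Subgroup G) := by
    have h1 : IsPGroup 2 ((T : Subgroup G) ⊔ V : Subgroup G) := IsPGroup.to_sup_of_normal_right' T.2 hVp hTN
    have h2 := T.3 h1 le_sup_left
    rw [← h2]
    exact le_sup_right
  -- work inside T
  set P := (T : Subgroup G) with hP
  set VP : Subgroup P := V.subgroupOf P with hVP
  have hn : VP.Normal := by
    constructor
    intro w hw g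
    rw [hVP, Subgroup.mem_subgroupOf] at hw ⊢
    exact (Subgroup.mem_normalizer_iff.1 (hTN g.2) _).1 hw
  have hea : IsElementaryAbelian 2 VP := by
    refine ⟨⟨⟨?_⟩⟩, ?_⟩
    · rintro ⟨a, ha⟩ ⟨b, hb⟩
      exact Subtype.ext (Subtype.ext (hVcomm _ ha _ hb))
    · intro a ha
      rw [pow_two]
      exact Subtype.ext (hVsq _ ha)
  have hcardVP : Nat.card VP = Nat.card V := Nat.card_congr (Subgroup.subgroupOfEquivOfLe hVT).toEquiv
  have hall : ∀ A ∈ maxElementaryAbelianSubgroups 2 P, A = VP := by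
    intro A hA
    -- general properties of members of maximal order
    have prop : ∀ B ∈ maxElementaryAbelianSubgroups 2 P, (∀ b ∈ B.map P.subtype, ∀ c ∈ B.map P.subtype, Commute b c) ∧
        (∀ b ∈ B.map P.subtype, b * b = 1) ∧ (∀ b ∈ B.map P.subtype, ∀ y ∈ Δ, b * y * b⁻¹ ∈ Δ) ∧ Nat.card V ≤ Nat.card (B.map P.subtype) := by
      intro B hB
      refine ⟨?_, ?_, ?_, ?_⟩
      · rintro _ ⟨b, hb, rfl⟩ _ ⟨c, hc, rfl⟩
        have h1 := hB.1.1.1.1 (⟨b, hb⟩ : B) ⟨c, hc⟩
        exact congrArg (fun x : B => ((x : P) : G)) h1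
      · rintro _ ⟨b, hb, rfl⟩
        have h1 := hB.1.2 b hb
        rw [pow_two] at h1
        exact congrArg Subtype.val h1
      · rintro _ ⟨b, hb, rfl⟩ y hy
        exact hΔ b b.2 y hy
      · rw [Subgroup.card_map_of_injective P.subtype_injective, ← hcardVP]
        exact hB.2 VP hea
    have hcomm : ⁅VP, A⁆ = ⊥ := by
      by_contra hne
      obtain ⟨r1, r2, r3⟩ := Cfsg.Agent.S0607.result VP hea A hA
      set A0 := ⁅VP, A⁆ ⊔ (A ⊓ Subgroup.centralizer ((⁅VP, A⁆ : Subgroup P) : Set P)) with hA0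
      obtain ⟨p1, p2, p3, p4⟩ := prop A0 r1
      have hquad : ∀ b ∈ A0.map P.subtype, ∀ c ∈ A0.map P.subtype, ∀ x ∈ Δ, Commute c (x * (b * x * b⁻¹)) := by
        rintro _ ⟨b, hb, rfl⟩ _ ⟨c, hc, rfl⟩ x hx
        have hxP : x ∈ P := hVT (hΔV x hx)
        have hxV : (⟨x, hxP⟩ : P) ∈ VP := hΔV x hx
        have h1 : ⁅(⟨x, hxP⟩ : P), b⁆ ∈ ⁅VP, A0⁆ := Subgroup.commutator_mem_commutator hxV hb
        have h2 : ⁅⁅(⟨x, hxP⟩ : P), b⁆, c⁆ ∈ ⁅⁅VP, A0⁆, A0⁆ := Subgroup.commutator_mem_commutator h1 hc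
        rw [r2, Subgroup.mem_bot, commutatorElement_eq_one_iff_commute] at h2
        have h3 : Commute (x * b * x⁻¹ * (b : G)⁻¹) (c : G) := congrArg Subtype.val h2
        have h4 : x⁻¹ = x := inv_eq_of_mul_eq_one_left (h.sq x hx)
        rw [h4] at h3
        have e : x * (b : G) * x * (b : G)⁻¹ = x * ((b : G) * x * (b : G)⁻¹) := by group
        rw [e] at h3
        exact h3.symm
      have hnq := h.no_quadratic (A0.map P.subtype) p1 p2 p3 hquad p4
      apply r3 hne
      rw [Subgroup.commutator_eq_bot_iff_le_centralizer]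
      intro w hw
      rw [Subgroup.mem_centralizer_iff]
      intro c hc
      have h5 : V ≤ Subgroup.centralizer ({(c : G)} : Set G) := by
        rw [hV, Subgroup.closure_le]
        intro y hy
        rw [SetLike.mem_coe, Subgroup.mem_centralizer_singleton_iff]
        rcases Set.mem_insert_iff.1 hy with rfl | hy
        · exact (h.zc c).symm
        · exact (hnq c ⟨c, hc, rfl⟩ y hy).symm
      exact Subtype.ext (Subgroup.mem_centralizer_singleton_iff.1 (h5 hw)).symm
    have hle : A ≤ VP := by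
      intro a ha
      obtain ⟨p1, p2, p3, p4⟩ := prop A hA
      apply h.mem _ (p2 a ⟨a, ha, rfl⟩)
      intro y hy
      rw [Subgroup.commutator_eq_bot_iff_le_centralizer] at hcomm
      have h1 := Subgroup.mem_centralizer_iff.1 (hcomm (show (⟨y, hVT (hΔV y hy)⟩ : P) ∈ VP from hΔV y hy)) a ha
      exact congrArg Subtype.val h1
    apply Subgroup.eq_of_le_of_card_ge hle
    exact hA.2 VP hea
  obtain ⟨A, hA⟩ := H13.Thompson.exists_mem_max (G := P) 2
  have hth : thompsonSubgroup 2 P = VP := by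
    apply le_antisymm
    · apply sSup_le
      intro B hB
      exact (hall B hB).le
    · have := H13.Thompson.le_thompson hA
      rwa [hall A hA] at this
  have hVmax : VP ∈ maxElementaryAbelianSubgroups 2 P := by
    rw [hall A hA] at hA; exact hA
  refine ⟨hVT, by rw [thompsonSubgroupOf, hth, hVP, Subgroup.map_subgroupOf_eq_of_le hVT], ?_⟩
  intro B hBT hBc hB2 hBcard
  have hBP : B.subgroupOf P ∈ maxElementaryAbelianSubgroups 2 P := by
    refine ⟨⟨⟨⟨?_⟩⟩, ?_⟩, ?_⟩
    · rintro ⟨a, ha⟩ ⟨b, hb⟩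
      exact Subtype.ext (Subtype.ext (hBc _ ha _ hb))
    · intro a ha
      rw [pow_two]
      exact Subtype.ext (hB2 _ ha)
    · intro B' hB'
      refine (hVmax.2 B' hB').trans ?_
      rw [hcardVP]
      refine hBcard.trans (le_of_eq ?_)
      exact (Nat.card_congr (Subgroup.subgroupOfEquivOfLe hBT).toEquiv).symm
  have h1 := hall _ hBP
  have h2 := congrArg (Subgroup.map P.subtype) h1
  rw [Subgroup.map_subgroupOf_eq_of_le hBT, hVP, Subgroup.map_subgroupOf_eq_of_le hVT] at h2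
  exact h2

end H19.ThAbs
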