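import Mathlib
import Cfsg.Agent.Lib.H19.U35CData

/-!
The configuration of 45 points of `3.M10` in `SU_3(5)`, over an abstract field with 25 elements.
-/

set_option autoImplicit false
set_option linter.unusedSectionVars false
set_option linter.style.longLine false

namespace H19.U35C

open Cfsg Cfsg.Geo Matrix H97.AschRad H97.AschEnv H97.AschNonab H97.AschGrp H97.AschLinear H97.AschIdem H97.AschDecomp
open H97.AschForm H97.AschSubfield H97.AschReal H97.AschNCU H97.AschUSymp H97.AschUPair H97.AschUElim H97.AschPauli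
open H97.AschCases H97.AschNC H97.AschHex
open H96.AschSympType1 H96.AschSympType2 H96.AschSympType3 H96.AschSubForm H96.AschSympType5 H96.AschAdj
open H96.AschComm H96.AschField H96.AschSympEx
open H96.AschSp H96.AschSp2 H96.AschSU H96.AschSU2 H96.AschOdd2 H96.AschDescent H96.AschSU3

variable {F : Type*} [Field F]

/-- the value of a pair -/
def ph (s : F) (x : ℕ × ℕ) : F := (x.1 : F) + (x.2 : F) * s

lemma cast_mod (h5 : (5 : F) = 0) (n : ℕ) : ((n % 5 : ℕ) : F) = (n : F) := by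
  conv_rhs => rw [← Nat.div_add_mod n 5]
  push_cast
  rw [h5]
  ring

lemma cast_neg (h5 : (5 : F) = 0) (n : ℕ) : (((5 - n % 5) % 5 : ℕ) : F) = -(n : F) := by
  rw [cast_mod h5, Nat.cast_sub (Nat.mod_lt n (by norm_num)).le, cast_mod h5]
  push_cast
  rw [h5]
  ring

lemma ph_add (h5 : (5 : F) = 0) (s : F) (x y : ℕ × ℕ) : ph s (kadd x y) = ph s x + ph s y := by
  simp only [ph, kadd, cast_mod h5]
  push_cast
  ring

lemma ph_mul (h5 : (5 : F) = 0) {s : F} (hs : s * s = 2) (x y : ℕ × ℕ) : ph s (kmul x y) = ph s x * ph s y := by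
  simp only [ph, kmul, cast_mod h5]
  push_cast
  linear_combination (-(x.2 : F) * (y.2 : F)) * hs

lemma ph_neg (h5 : (5 : F) = 0) (s : F) (x : ℕ × ℕ) : ph s (kneg x) = - ph s x := by
  simp only [ph, kneg, cast_neg h5]
  ring

lemma ph_zero (s : F) : ph s (0, 0) = 0 := by simp [ph]
lemma ph_one (s : F) : ph s (1, 0) = 1 := by simp [ph]

theorem k_inv : ∀ a b : Fin 5, ((a : ℕ), (b : ℕ)) ≠ (0, 0) → ∃ c d : Fin 5, kmul ((a : ℕ), (b : ℕ)) ((c : ℕ), (d : ℕ)) = (1, 0) := by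
  decide +kernel

theorem k_sub : ∀ a b c d : Fin 5, kadd ((a : ℕ), (b : ℕ)) (kneg ((c : ℕ), (d : ℕ))) = (0, 0) → a = c ∧ b = d := by
  decide +kernel

lemma ph_ne (h5 : (5 : F) = 0) {s : F} (hs : s * s = 2) {x : ℕ × ℕ} (hx : Red x) (h : x ≠ (0, 0)) : ph s x ≠ 0 := by
  obtain ⟨c, d, hcd⟩ := k_inv ⟨x.1, hx.1⟩ ⟨x.2, hx.2⟩ h
  have h1 := ph_mul h5 hs x ((c : ℕ), (d : ℕ))
  have h2 : kmul x ((c : ℕ), (d : ℕ)) = (1, 0) := hcd
  rw [h2, ph_one] at h1
  intro h0
  rw [h0, zero_mul] at h1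
  exact one_ne_zero h1

lemma ph_inj (h5 : (5 : F) = 0) {s : F} (hs : s * s = 2) {x y : ℕ × ℕ} (hx : Red x) (hy : Red y)
    (h : ph s x = ph s y) : x = y := by
  have h1 : ph s (kadd x (kneg y)) = 0 := by rw [ph_add h5, ph_neg h5, h]; ring
  have hr : Red (kadd x (kneg y)) := ⟨Nat.mod_lt _ (by norm_num), Nat.mod_lt _ (by norm_num)⟩
  by_contra hne
  refine ph_ne h5 hs hr ?_ h1
  intro h0
  have := k_sub ⟨x.1, hx.1⟩ ⟨x.2, hx.2⟩ ⟨y.1, hy.1⟩ ⟨y.2, hy.2⟩ h0
  apply hne
  exact Prod.ext (congrArg Fin.val this.1) (congrArg Fin.val this.2)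

lemma red_mul (x y : ℕ × ℕ) : Red (kmul x y) := ⟨Nat.mod_lt _ (by norm_num), Nat.mod_lt _ (by norm_num)⟩
lemma red_add (x y : ℕ × ℕ) : Red (kadd x y) := ⟨Nat.mod_lt _ (by norm_num), Nat.mod_lt _ (by norm_num)⟩

/-- the matrix -/
def toM (s : F) (A : KM) : Matrix (Fin 3) (Fin 3) F := fun i j => ph s (A i j)

/-- the setting -/
structure S5 (σ : F ≃+* F) (s : F) : Prop where
  five : (5 : F) = 0
  sq : s * s = 2
  conj : σ s = -s

variable {σ : F ≃+* F} {s : F}

lemma S5.mm (S : S5 σ s) (A B : KM) : toM s (mm A B) = toM s A * toM s B := by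
  ext i j
  simp only [toM, U35C.mm, Matrix.mul_apply, Fin.sum_univ_three, ph_add S.five, ph_mul S.five S.sq]

lemma S5.one (_S : S5 σ s) : toM s one = 1 := by
  ext i j
  fin_cases i <;> fin_cases j <;> simp [toM, U35C.one, ph]

lemma S5.inj (S : S5 σ s) {A B : KM} (hA : ∀ i j, Red (A i j)) (hB : ∀ i j, Red (B i j))
    (h : toM s A = toM s B) : A = B := by
  ext1 i; ext1 j
  exact ph_inj S.five S.sq (hA i j) (hB i j) (congrFun (congrFun h i) j)

lemma S5.det (S : S5 σ s) (A : KM) : (toM s A).det = ph s (kdet A) := by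
  rw [Matrix.det_fin_three]
  simp only [kdet, ph_add S.five, ph_mul S.five S.sq, ph_neg S.five, toM]
  ring

lemma S5.sig (S : S5 σ s) (x : ℕ × ℕ) : σ (ph s x) = ph s (kconj x) := by
  simp only [ph, kconj, cast_neg S.five, cast_mod S.five, map_add, map_mul, map_natCast, S.conj]
  ring

/-- `g` has matrix `A` -/
def IsM (s : F) (g : GL (Fin 3) F) (A : KM) : Prop := (g : Matrix (Fin 3) (Fin 3) F) = toM s A

lemma S5.isM_mul (S : S5 σ s) {g h : GL (Fin 3) F} {A B : KM} (hg : IsM s g A) (hh : IsM s h B) :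
    IsM s (g * h) (U35C.mm A B) := by
  unfold IsM at *
  rw [Units.val_mul, hg, hh, S.mm]

lemma isM_eq {g h : GL (Fin 3) F} {A : KM} (hg : IsM s g A) (hh : IsM s h A) : g = h := by
  unfold IsM at *
  exact Units.ext (hg.trans hh.symm)

lemma S5.isM_one (S : S5 σ s) : IsM s 1 U35C.one := by
  unfold IsM
  rw [S.one, Units.val_one]

variable [Fintype F] {q : ℕ}

lemma mem_GU_of (h : Ctx (F := F) σ 3 q) {g : GL (Fin 3) F}
    (hg : ∀ j k, hermForm 3 F q ((g : Matrix (Fin 3) (Fin 3) F) *ᵥ Pi.single j 1)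
      ((g : Matrix (Fin 3) (Fin 3) F) *ᵥ Pi.single k 1) = if j = k then 1 else 0) : g ∈ GU 3 F q := by
  intro u v
  have hS := h.form.sesq
  change hermForm 3 F q ((g : Matrix (Fin 3) (Fin 3) F) *ᵥ u) ((g : Matrix (Fin 3) (Fin 3) F) *ᵥ v) = _
  have hexp : ∀ u : Fin 3 → F, (g : Matrix (Fin 3) (Fin 3) F) *ᵥ u =
      ∑ j, u j • ((g : Matrix (Fin 3) (Fin 3) F) *ᵥ (Pi.single j 1 : Fin 3 → F)) := by
    intro u
    ext i
    simp only [Matrix.mulVec, dotProduct, Finset.sum_apply, Pi.smul_apply, smul_eq_mul]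
    refine Finset.sum_congr rfl (fun j _ => ?_)
    rw [Finset.sum_eq_single j]
    · rw [Pi.single_eq_same]; ring
    · intro b _ hb
      rw [Pi.single_eq_of_ne hb, mul_zero]
    · intro h; exact absurd (Finset.mem_univ _) h
  rw [hexp u, hexp v, hS.sum_left]
  have : ∀ j, hermForm 3 F q (u j • ((g : Matrix (Fin 3) (Fin 3) F) *ᵥ (Pi.single j 1 : Fin 3 → F)))
      (∑ k, v k • ((g : Matrix (Fin 3) (Fin 3) F) *ᵥ (Pi.single k 1 : Fin 3 → F))) = u j * (v j) ^ q := by
    intro j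
    rw [hS.sum_right, Finset.sum_eq_single j]
    · rw [hS.smul_left, hS.smul_right, hg, if_pos rfl, mul_one, h.val]
    · intro b _ hb
      rw [hS.smul_left, hS.smul_right, hg, if_neg (Ne.symm hb), mul_zero, mul_zero]
    · intro h; exact absurd (Finset.mem_univ _) h
  simp only [this]
  rfl

lemma mem_SL' {g : GL (Fin 3) F} : g ∈ specialLinear (Fin 3) F ↔ (g : Matrix (Fin 3) (Fin 3) F).det = 1 := by
  constructor
  · intro hg
    have h1 : Matrix.GeneralLinearGroup.det g = 1 := hg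
    have h3 := congrArg Units.val h1
    simpa using h3
  · intro hg
    change Matrix.GeneralLinearGroup.det g = 1
    apply Units.ext
    simpa using hg

/-- realisation of unit matrices -/
theorem exists_gl (h : Ctx (F := F) σ 3 q) (S : S5 σ s) (A : KM)
    (hA : U35C.mm A (star A) = U35C.one ∧ U35C.mm (star A) A = U35C.one ∧ kdet A = (1, 0)) :
    ∃ g : GL (Fin 3) F, IsM s g A ∧ g ∈ GU 3 F q ⊓ specialLinear (Fin 3) F := by
  refine ⟨⟨toM s A, toM s (star A), by rw [← S.mm, hA.1, S.one], by rw [← S.mm, hA.2.1, S.one]⟩, rfl, ?_, ?_⟩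
  · apply mem_GU_of h
    intro j k
    have h1 := congrFun (congrFun (congrArg (toM s) hA.2.1) k) j
    rw [S.mm, S.one, Matrix.mul_apply] at h1
    have h2 : ∀ i, toM s (star A) k i = σ (toM s A i k) := fun i => (S.sig _).symm
    simp only [h2] at h1
    rw [hermForm]
    simp only [Matrix.mulVec_single_one, Matrix.col_apply, ← h.val]
    rw [Matrix.one_apply] at h1
    rw [show (if j = k then (1 : F) else 0) = if k = j then 1 else 0 by simp only [eq_comm], ← h1]
    refine Finset.sum_congr rfl (fun i _ => ?_)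
    ring
  · refine mem_SL'.mpr ?_
    change (toM s A).det = 1
    rw [S.det, hA.2.2, ph_one]

/-- the configuration -/
def Om (s : F) (v : Fin 3 → F) : Prop := ∃ m : Fin 45, ∃ c : F, c ≠ 0 ∧ ∀ i, v i = c * ph s (pts m i)

/-- its stabiliser -/
def stab (s : F) : Subgroup (GL (Fin 3) F) where
  carrier := {g | ∀ v, Om s v → Om s ((g : Matrix (Fin 3) (Fin 3) F) *ᵥ v)}
  one_mem' := fun v hv => by rwa [Units.val_one, Matrix.one_mulVec]
  mul_mem' := by
    intro a b ha hb v hv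
    rw [Units.val_mul, ← Matrix.mulVec_mulVec]
    exact ha _ (hb _ hv)
  inv_mem' := by
    intro a ha
    have hpow : ∀ n : ℕ, ∀ v, Om s v → Om s (((a ^ n : GL (Fin 3) F) : Matrix (Fin 3) (Fin 3) F) *ᵥ v) := by
      intro n
      induction n with
      | zero => intro v hv; rwa [pow_zero, Units.val_one, Matrix.one_mulVec]
      | succ n ih =>
        intro v hv
        rw [pow_succ, Units.val_mul, ← Matrix.mulVec_mulVec]
        exact ih _ (ha _ hv)
    have hfin : 0 < orderOf a := orderOf_pos a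
    have h1 : a⁻¹ = a ^ (orderOf a - 1) := by
      rw [inv_eq_iff_mul_eq_one, ← pow_succ', Nat.sub_add_cancel hfin, pow_orderOf_eq_one]
    change ∀ v, Om s v → Om s (((a⁻¹ : GL (Fin 3) F) : Matrix (Fin 3) (Fin 3) F) *ᵥ v)
    rw [h1]
    exact hpow _

lemma Om_smul {v : Fin 3 → F} (hv : Om s v) {a : F} (ha : a ≠ 0) : Om s (a • v) := by
  obtain ⟨m, c, hc, h⟩ := hv
  exact ⟨m, a * c, mul_ne_zero ha hc, fun i => by rw [Pi.smul_apply, h, smul_eq_mul]; ring⟩

lemma S5.mv (S : S5 σ s) (A : KM) (v : KV) (i : Fin 3) :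
    ph s (mv A v i) = ∑ j, toM s A i j * ph s (v j) := by
  simp only [U35C.mv, ph_add S.five, ph_mul S.five S.sq, Fin.sum_univ_three, toM]

theorem S5.mem_stab (S : S5 σ s) {g : GL (Fin 3) F} (n : Fin 11) (hg : IsM s g (fam n)) : g ∈ stab (F := F) s := by
  rintro v ⟨m, c, hc, hv⟩
  refine ⟨prm n m, c * ph s (scl n m), mul_ne_zero hc ?_, ?_⟩
  · obtain ⟨a, b, hab⟩ := scl_inv n m
    intro h0
    have h1 := ph_mul S.five S.sq (scl n m) (a.1, b.1)
    rw [hab, ph_one, h0, zero_mul] at h1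
    exact one_ne_zero h1
  · intro i
    rw [mul_assoc, ← ph_mul S.five S.sq, ← fam_pres, S.mv]
    rw [show (g : Matrix (Fin 3) (Fin 3) F) = toM s (fam n) from hg, Matrix.mulVec, dotProduct, Finset.mul_sum]
    refine Finset.sum_congr rfl (fun j _ => ?_)
    rw [hv]; ring

theorem pts_red : ∀ m : Fin 45, ∀ i : Fin 3, Red (pts m i) := by decide +kernel

/-- some element does not preserve the configuration -/
theorem exists_not (h : Ctx (F := F) σ 3 q) (S : S5 σ s) :
    ∃ g ∈ GU 3 F q ⊓ specialLinear (Fin 3) F, g ∉ stab (F := F) s := by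
  obtain ⟨g, hg, hgL⟩ := exists_gl h S BB bb_unit
  refine ⟨g, hgL, fun hgs => ?_⟩
  obtain ⟨m0, hm0⟩ := bb_move
  obtain ⟨m, c, hc, hv⟩ := hgs (fun i => ph s (pts m0 i)) ⟨m0, 1, one_ne_zero, fun i => by rw [one_mul]⟩
  obtain ⟨i, j, hij⟩ := hm0 m
  have h1 : ∀ i, ph s (U35C.mv BB (pts m0) i) = c * ph s (pts m i) := by
    intro i
    rw [← hv i, S.mv, show (g : Matrix (Fin 3) (Fin 3) F) = toM s BB from hg, Matrix.mulVec, dotProduct]
  apply hij
  apply ph_inj S.five S.sq (red_mul _ _) (red_mul _ _)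
  rw [ph_mul S.five S.sq, ph_mul S.five S.sq, h1, h1]
  ring

end H19.U35C
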