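import Mathlib
import Cfsg.Agent.Lib.H19.U35CField

/-!
The normaliser of the extraspecial group of order 27 in `SU_3(5)` preserves the configuration of 45 points.
-/

set_option autoImplicit false
set_option linter.unusedSectionVars false
set_option linter.style.longLine false

namespace H19.U35C

open Cfsg Cfsg.Geo Matrix H97.AschRad H97.AschEnv H97.AschNonab H97.AschGrp H97.AschLinear H97.AschIdem H97.AschDecomp
open H97.AschForm H97.AschSubfield H97.AschReal H97.AschNCU H97.AschUSymp H97.AschUPair H97.AschUElim H97.AschPauli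
open H97.AschCases H97.AschNC H97.AschHex
open H96.AschSympType1 H96.AschSympType2 H96.AschSympType3 H96.AschSubForm H96.AschSympType5 H96.AschAdj
open H96.AschComm H96.AschField H96.AschSympEx
open H96.AschSp H96.AschSp2 H96.AschSU H96.AschSU2 H96.AschOdd2 H96.AschDescent H96.AschSU3

variable {F : Type*} [Field F] [Fintype F] {q : ℕ} {σ : F ≃+* F} {s : F}

theorem rm_010 : Rm 0 1 0 = XX 1 := by decide +kernel
theorem rm_001 : Rm 0 0 1 = YY 1 := by decide +kernel
theorem rm_000 : Rm 0 0 0 = one := by decide +kernel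
theorem rm_comm : mm (Rm 1 0 0) (mm (Rm 0 0 1) (Rm 0 1 0)) = mm (Rm 0 1 0) (Rm 0 0 1) := by decide +kernel
theorem rm_200 : mm (Rm 1 0 0) (Rm 1 0 0) = Rm 2 0 0 := by decide +kernel
theorem rm_020 : mm (Rm 0 1 0) (Rm 0 1 0) = Rm 0 2 0 := by decide +kernel
theorem rm_002 : mm (Rm 0 0 1) (Rm 0 0 1) = Rm 0 0 2 := by decide +kernel
theorem rm_prod : ∀ i j k : Fin 3, mm (Rm i 0 0) (mm (Rm 0 j 0) (Rm 0 0 k)) = Rm i j k := by decide +kernel
theorem rm_YY : ∀ k : Fin 3, Rm 0 0 k = YY k := by decide +kernel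

/-- the family of all 27 elements -/
structure Fam (s : F) (gR : Fin 3 → Fin 3 → Fin 3 → GL (Fin 3) F) : Prop where
  isM : ∀ i j k, IsM s (gR i j k) (Rm i j k)

variable {gR : Fin 3 → Fin 3 → Fin 3 → GL (Fin 3) F}

lemma Fam.mem (hf : Fam s gR) (S : S5 σ s) {T : Subgroup (GL (Fin 3) F)} (hx : gR 0 1 0 ∈ T) (hy : gR 0 0 1 ∈ T)
    (i j k : Fin 3) : gR i j k ∈ T := by
  have h000 : gR 0 0 0 = 1 := isM_eq (hf.isM 0 0 0) (by rw [rm_000]; exact S.isM_one)
  have h100 : gR 1 0 0 ∈ T := by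
    have h1 : gR 1 0 0 * (gR 0 0 1 * gR 0 1 0) = gR 0 1 0 * gR 0 0 1 := by
      refine isM_eq (S.isM_mul (hf.isM _ _ _) (S.isM_mul (hf.isM _ _ _) (hf.isM _ _ _))) ?_
      rw [rm_comm]
      exact S.isM_mul (hf.isM _ _ _) (hf.isM _ _ _)
    rw [eq_mul_inv_of_mul_eq h1]
    exact T.mul_mem (T.mul_mem hx hy) (T.inv_mem (T.mul_mem hy hx))
  have h200 : gR 2 0 0 ∈ T := by
    have h1 : gR 1 0 0 * gR 1 0 0 = gR 2 0 0 := by
      refine isM_eq (S.isM_mul (hf.isM _ _ _) (hf.isM _ _ _)) ?_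
      rw [rm_200]; exact hf.isM _ _ _
    rw [← h1]; exact T.mul_mem h100 h100
  have h020 : gR 0 2 0 ∈ T := by
    have h1 : gR 0 1 0 * gR 0 1 0 = gR 0 2 0 := by
      refine isM_eq (S.isM_mul (hf.isM _ _ _) (hf.isM _ _ _)) ?_
      rw [rm_020]; exact hf.isM _ _ _
    rw [← h1]; exact T.mul_mem hx hx
  have h002 : gR 0 0 2 ∈ T := by
    have h1 : gR 0 0 1 * gR 0 0 1 = gR 0 0 2 := by
      refine isM_eq (S.isM_mul (hf.isM _ _ _) (hf.isM _ _ _)) ?_
      rw [rm_002]; exact hf.isM _ _ _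
    rw [← h1]; exact T.mul_mem hy hy
  have hi : ∀ i : Fin 3, gR i 0 0 ∈ T := by
    intro i; fin_cases i
    · change gR 0 0 0 ∈ T; rw [h000]; exact T.one_mem
    · exact h100
    · exact h200
  have hj : ∀ j : Fin 3, gR 0 j 0 ∈ T := by
    intro j; fin_cases j
    · change gR 0 0 0 ∈ T; rw [h000]; exact T.one_mem
    · exact hx
    · exact h020
  have hk : ∀ k : Fin 3, gR 0 0 k ∈ T := by
    intro k; fin_cases k
    · change gR 0 0 0 ∈ T; rw [h000]; exact T.one_mem
    · exact hy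
    · exact h002
  have h1 : gR i 0 0 * (gR 0 j 0 * gR 0 0 k) = gR i j k := by
    refine isM_eq (S.isM_mul (hf.isM _ _ _) (S.isM_mul (hf.isM _ _ _) (hf.isM _ _ _))) ?_
    rw [rm_prod]; exact hf.isM _ _ _
  rw [← h1]
  exact T.mul_mem (hi i) (T.mul_mem (hj j) (hk k))

theorem om_diag : ∀ i j k : Fin 3, Rm i j k 1 0 = (0, 0) ∨
    (Rm i j k 1 0 = kmul (om i) (om j) ∧ Rm i j k 2 1 = kmul (om i) (kmul (om j) (om j))) := by decide +kernel

theorem om_sq : ∀ j : Fin 3, kmul (om j) (om j) = (1, 0) → j = 0 := by decide +kernel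
theorem om_cube : ∀ j : Fin 3, kmul (om j) (kmul (om j) (om j)) = (1, 0) := by decide +kernel
theorem om_red : ∀ j : Fin 3, Red (om j) := by decide +kernel
theorem rx_diag : ∀ i : Fin 3, XX i = ![![(1, 0), (0, 0), (0, 0)], ![(0, 0), om i, (0, 0)],
  ![(0, 0), (0, 0), kmul (om i) (om i)]] := by decide +kernel
theorem x_scal : ∀ i : Fin 3, XX 1 ≠ Rm i 0 0 := by decide +kernel
theorem x_red : ∀ i j : Fin 3, Red (XX 1 i j) := by decide +kernel
theorem rm_i00 : ∀ i a b : Fin 3, Rm i 0 0 a b = kmul (om i) (one a b) := by decide +kernel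
theorem rm_0i0 : ∀ i : Fin 3, Rm 0 i 0 = XX i := by decide +kernel
theorem fam_eight : fam 8 = XX 1 := by decide +kernel
theorem fam_nine : fam 9 = YY 1 := by decide +kernel

/-- **the normaliser preserves the configuration** -/
theorem core (h : Ctx (F := F) σ 3 q) (hq : q = 5) (S : S5 σ s) (hf : Fam s gR) {T : Subgroup (GL (Fin 3) F)}
    (hT : ∀ g, g ∈ T ↔ ∃ i j k, g = gR i j k) {g : GL (Fin 3) F} (hg : g ∈ GU 3 F q ⊓ specialLinear (Fin 3) F)
    (hgT : ∀ r ∈ T, g * r * g⁻¹ ∈ T) : g ∈ stab (F := F) s := by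
  classical
  have h5 := S.five
  have hs := S.sq
  have hX : IsM s (gR 0 1 0) (XX 1) := by rw [← rm_010]; exact hf.isM _ _ _
  have hY : IsM s (gR 0 0 1) (YY 1) := by rw [← rm_001]; exact hf.isM _ _ _
  have hXs : gR 0 1 0 ∈ stab (F := F) s := S.mem_stab 8 (by rw [fam_eight]; exact hX)
  have hYs : gR 0 0 1 ∈ stab (F := F) s := S.mem_stab 9 (by rw [fam_nine]; exact hY)
  have hXT : gR 0 1 0 ∈ T := (hT _).mpr ⟨_, _, _, rfl⟩
  have hYT : gR 0 0 1 ∈ T := (hT _).mpr ⟨_, _, _, rfl⟩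
  have hRs : ∀ i j k, gR i j k ∈ stab (F := F) s := fun i j k => hf.mem S hXs hYs i j k
  -- the eight representatives
  choose A hA hAL using fun n : Fin 8 => exists_gl h S (fam (n.castLE (by norm_num))) (fam_unit _)
  have hAs : ∀ n, A n ∈ stab (F := F) s := fun n => S.mem_stab _ (hA n)
  have hAn : ∀ n, ∀ r ∈ T, A n * r * (A n)⁻¹ ∈ T := by
    intro n
    have hx : gR 0 1 0 ∈ T.comap (MulAut.conj (A n)).toMonoidHom := by
      change A n * gR 0 1 0 * (A n)⁻¹ ∈ T
      obtain ⟨i, j, k, hijk⟩ := norm_X n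
      have h1 : A n * gR 0 1 0 = gR i j k * A n := by
        refine isM_eq (S.isM_mul (hA n) hX) ?_
        rw [hijk]; exact S.isM_mul (hf.isM _ _ _) (hA n)
      rw [h1, mul_inv_cancel_right]
      exact (hT _).mpr ⟨_, _, _, rfl⟩
    have hy : gR 0 0 1 ∈ T.comap (MulAut.conj (A n)).toMonoidHom := by
      change A n * gR 0 0 1 * (A n)⁻¹ ∈ T
      obtain ⟨i, j, k, hijk⟩ := norm_Y n
      have h1 : A n * gR 0 0 1 = gR i j k * A n := by
        refine isM_eq (S.isM_mul (hA n) hY) ?_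
        rw [hijk]; exact S.isM_mul (hf.isM _ _ _) (hA n)
      rw [h1, mul_inv_cancel_right]
      exact (hT _).mpr ⟨_, _, _, rfl⟩
    intro r hr
    obtain ⟨i, j, k, rfl⟩ := (hT r).mp hr
    exact hf.mem S hx hy i j k
  have hAnorm : ∀ n, A n ∈ Subgroup.normalizer (T : Set (GL (Fin 3) F)) :=
    fun n => Subgroup.mem_normalizer_fintype (fun r hr => hAn n r hr)
  have hgnorm : g ∈ Subgroup.normalizer (T : Set (GL (Fin 3) F)) :=
    Subgroup.mem_normalizer_fintype (fun r hr => hgT r hr)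
  have hRL : ∀ i j k, gR i j k ∈ GU 3 F q ⊓ specialLinear (Fin 3) F := by
    intro i j k
    obtain ⟨g', hg', hL⟩ := exists_gl h S (Rm i j k) (rm_unit i j k)
    rw [isM_eq (hf.isM i j k) hg']; exact hL
  -- the image of `x`
  obtain ⟨i, j, k, hijk⟩ := (hT _).mp (hgT _ hXT)
  have hgx : g * gR 0 1 0 = gR i j k * g := by rw [← hijk]; group
  have hne : j ≠ 0 ∨ k ≠ 0 := by
    by_contra hcon
    push Not at hcon
    obtain ⟨rfl, rfl⟩ := hcon
    have hc : gR i 0 0 * g = g * gR i 0 0 := by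
      have hsc : ∀ M : Matrix (Fin 3) (Fin 3) F, toM s (Rm i 0 0) * M = M * toM s (Rm i 0 0) := by
        have h1 : toM s (Rm i 0 0) = ph s (om i) • (1 : Matrix (Fin 3) (Fin 3) F) := by
          have h2 := rm_i00 i
          ext a b
          have h3 := congrFun (congrFun S.one a) b
          rw [toM, h2, ph_mul h5 hs, Matrix.smul_apply, ← h3]
          rfl
        intro M
        rw [h1, Matrix.smul_mul, Matrix.mul_smul, Matrix.one_mul, Matrix.mul_one]
      apply Units.ext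
      rw [Units.val_mul, Units.val_mul, show (gR i 0 0 : Matrix (Fin 3) (Fin 3) F) = _ from hf.isM i 0 0, hsc]
    rw [hc] at hgx
    have h1 := mul_left_cancel hgx
    apply x_scal i
    apply S.inj x_red (rm_red _ _ _)
    rw [← show ((gR 0 1 0 : GL (Fin 3) F) : Matrix (Fin 3) (Fin 3) F) = _ from hX, h1]
    exact hf.isM i 0 0
  obtain ⟨n, m, hnm⟩ := hit i j k hne
  have hYm : IsM s (gR 0 0 m) (YY m) := by rw [← rm_YY]; exact hf.isM _ _ _
  set B : GL (Fin 3) F := A n * gR 0 0 m with hB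
  have hBx : B * gR 0 1 0 = gR i j k * B := by
    refine isM_eq (S.isM_mul (S.isM_mul (hA n) hYm) hX) ?_
    rw [hnm]
    exact S.isM_mul (hf.isM _ _ _) (S.isM_mul (hA n) hYm)
  have hBs : B ∈ stab (F := F) s := (stab s).mul_mem (hAs n) (hRs _ _ _)
  have hBn : B ∈ Subgroup.normalizer (T : Set (GL (Fin 3) F)) :=
    Subgroup.mul_mem _ (hAnorm n) (Subgroup.le_normalizer ((hT _).mpr ⟨_, _, _, rfl⟩))
  have hBL : B ∈ GU 3 F q ⊓ specialLinear (Fin 3) F := Subgroup.mul_mem _ (hAL n) (hRL _ _ _)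
  set d : GL (Fin 3) F := B⁻¹ * g with hd
  have hgd : g = B * d := by rw [hd, mul_inv_cancel_left]
  rw [hgd]
  refine (stab s).mul_mem hBs ?_
  have hdn : d ∈ Subgroup.normalizer (T : Set (GL (Fin 3) F)) :=
    Subgroup.mul_mem _ (Subgroup.inv_mem _ hBn) hgnorm
  have hdL : d ∈ GU 3 F q ⊓ specialLinear (Fin 3) F := Subgroup.mul_mem _ (Subgroup.inv_mem _ hBL) hg
  have hdx : d * gR 0 1 0 = gR 0 1 0 * d := by
    rw [hd, mul_assoc, hgx, ← mul_assoc, ← mul_assoc]
    congr 1
    rw [inv_mul_eq_iff_eq_mul, ← mul_assoc, hBx, mul_inv_cancel_right]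
  -- entries
  set D : Matrix (Fin 3) (Fin 3) F := (d : Matrix (Fin 3) (Fin 3) F) with hD
  have hXd := rx_diag 1
  have hw0 : ph s (om 1) ≠ 0 := ph_ne h5 hs (om_red 1) (by decide)
  have hw1 : ph s (om 1) ≠ 1 := by
    intro h1
    have := ph_inj h5 hs (om_red 1) (y := (1, 0)) ⟨by norm_num, by norm_num⟩ (by rw [h1, ph_one])
    exact absurd this (by decide)
  have hw2 : ph s (om 1) * ph s (om 1) ≠ 1 := by
    intro h1
    rw [← ph_mul h5 hs] at h1
    have := ph_inj h5 hs (red_mul _ _) (y := (1, 0)) ⟨by norm_num, by norm_num⟩ (by rw [h1, ph_one])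
    exact absurd this (by decide)
  have hXe : ∀ a b, toM s (XX 1) a b = if a = b then (![1, ph s (om 1), ph s (om 1) * ph s (om 1)] : Fin 3 → F) a else 0 := by
    intro a b
    rw [hXd, toM]
    fin_cases a <;> fin_cases b <;> simp [ph_one, ph_zero, ph_mul h5 hs]
  have hcomm : D * toM s (XX 1) = toM s (XX 1) * D := by
    have := congrArg (fun z : GL (Fin 3) F => (z : Matrix (Fin 3) (Fin 3) F)) hdx
    simp only [Units.val_mul] at this
    rw [show ((gR 0 1 0 : GL (Fin 3) F) : Matrix (Fin 3) (Fin 3) F) = _ from hX] at this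
    exact this
  have hent : ∀ a b, D a b * (![1, ph s (om 1), ph s (om 1) * ph s (om 1)] : Fin 3 → F) b =
      (![1, ph s (om 1), ph s (om 1) * ph s (om 1)] : Fin 3 → F) a * D a b := by
    intro a b
    have h1 := congrFun (congrFun hcomm a) b
    rw [Matrix.mul_apply, Matrix.mul_apply, Finset.sum_eq_single b, Finset.sum_eq_single a] at h1
    · rwa [hXe, hXe, if_pos rfl, if_pos rfl] at h1
    · intro c _ hc; rw [hXe, if_neg (Ne.symm hc), zero_mul]
    · intro h; exact absurd (Finset.mem_univ _) h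
    · intro c _ hc; rw [hXe, if_neg hc, mul_zero]
    · intro h; exact absurd (Finset.mem_univ _) h
  have hw1' : ph s (om 1) - 1 ≠ 0 := sub_ne_zero.mpr hw1
  have hw2' : ph s (om 1) * ph s (om 1) - 1 ≠ 0 := sub_ne_zero.mpr hw2
  have d01 : D 0 1 = 0 := by
    have h1 := hent 0 1
    simp at h1
    have : D 0 1 * (ph s (om 1) - 1) = 0 := by linear_combination h1
    exact (mul_eq_zero.mp this).resolve_right hw1'
  have d02 : D 0 2 = 0 := by
    have h1 := hent 0 2
    simp at h1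
    have : D 0 2 * (ph s (om 1) * ph s (om 1) - 1) = 0 := by linear_combination h1
    exact (mul_eq_zero.mp this).resolve_right hw2'
  have d10 : D 1 0 = 0 := by
    have h1 := hent 1 0
    simp at h1
    have : D 1 0 * (ph s (om 1) - 1) = 0 := by linear_combination -h1
    exact (mul_eq_zero.mp this).resolve_right hw1'
  have d12 : D 1 2 = 0 := by
    have h1 := hent 1 2
    simp at h1
    have : D 1 2 * (ph s (om 1) * (ph s (om 1) - 1)) = 0 := by linear_combination h1
    exact (mul_eq_zero.mp this).resolve_right (mul_ne_zero hw0 hw1')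
  have d20 : D 2 0 = 0 := by
    have h1 := hent 2 0
    simp at h1
    have : D 2 0 * (ph s (om 1) * ph s (om 1) - 1) = 0 := by linear_combination -h1
    exact (mul_eq_zero.mp this).resolve_right hw2'
  have d21 : D 2 1 = 0 := by
    have h1 := hent 2 1
    simp at h1
    have : D 2 1 * (ph s (om 1) * (ph s (om 1) - 1)) = 0 := by linear_combination -h1
    exact (mul_eq_zero.mp this).resolve_right (mul_ne_zero hw0 hw1')
  -- norm and determinant
  have hdet : D 0 0 * D 1 1 * D 2 2 = 1 := by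
    have h1 := mem_SL'.mp hdL.2
    rw [← hD, Matrix.det_fin_three, d01, d02, d10, d12, d20, d21] at h1
    linear_combination h1
  have hnorm : D 0 0 * (D 0 0) ^ 5 = 1 := by
    have h1 := hdL.1 (Pi.single 0 1) (Pi.single 0 1)
    have h2 := h.single (0 : Fin 3) 0
    rw [if_pos rfl] at h2
    rw [h2] at h1
    change hermForm 3 F q (D *ᵥ _) (D *ᵥ _) = 1 at h1
    rw [hermForm, Fin.sum_univ_three] at h1
    simp only [Matrix.mulVec_single_one, Matrix.col_apply, d10, d20, zero_mul, add_zero] at h1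
    rwa [hq] at h1
  -- the image of `y`
  have hyT : d * gR 0 0 1 * d⁻¹ ∈ T := (Subgroup.mem_normalizer_iff.mp hdn _).mp hYT
  obtain ⟨i', j', k', hy'⟩ := (hT _).mp hyT
  have hdy : d * gR 0 0 1 = gR i' j' k' * d := by rw [← hy']; group
  have hmy : D * toM s (YY 1) = toM s (Rm i' j' k') * D := by
    have := congrArg (fun z : GL (Fin 3) F => (z : Matrix (Fin 3) (Fin 3) F)) hdy
    simp only [Units.val_mul] at this
    rw [show ((gR 0 0 1 : GL (Fin 3) F) : Matrix (Fin 3) (Fin 3) F) = _ from hY,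
      show ((gR i' j' k' : GL (Fin 3) F) : Matrix (Fin 3) (Fin 3) F) = _ from hf.isM _ _ _] at this
    exact this
  have e10 : D 1 1 = ph s (Rm i' j' k' 1 0) * D 0 0 := by
    have h1 := congrFun (congrFun hmy 1) 0
    rw [Matrix.mul_apply, Matrix.mul_apply, Fin.sum_univ_three, Fin.sum_univ_three, d10, d12, d20] at h1
    simp [toM, YY, ph_one, ph_zero] at h1
    exact h1
  have e21 : D 2 2 = ph s (Rm i' j' k' 2 1) * D 1 1 := by
    have h1 := congrFun (congrFun hmy 2) 1
    rw [Matrix.mul_apply, Matrix.mul_apply, Fin.sum_univ_three, Fin.sum_univ_three, d20, d21, d01] at h1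
    simp [toM, YY, ph_one, ph_zero] at h1
    exact h1
  have ha0 : D 0 0 ≠ 0 := by intro h0; rw [h0] at hdet; simp at hdet
  rcases om_diag i' j' k' with hz | ⟨hz1, hz2⟩
  · rw [hz, ph_zero, zero_mul] at e10
    rw [e10] at hdet
    simp at hdet
  rw [hz1, ph_mul h5 hs] at e10
  rw [hz2, ph_mul h5 hs, ph_mul h5 hs] at e21
  have ci := congrArg (ph s) (om_cube i')
  have cj := congrArg (ph s) (om_cube j')
  rw [ph_mul h5 hs, ph_mul h5 hs, ph_one] at ci cj
  set a := D 0 0 with haD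
  set u := ph s (om i') with hu
  set v := ph s (om j') with hv
  have h3 : a ^ 3 * v = 1 := by
    rw [e21, e10] at hdet
    linear_combination hdet - a ^ 3 * v ^ 4 * ci - a ^ 3 * v * cj
  have hv2 : v * v = 1 := by
    have : (a * a ^ 5) * (v * v) = 1 := by linear_combination (a ^ 3 * v + 1) * h3
    rwa [hnorm, one_mul] at this
  have hj0 : j' = 0 := by
    apply om_sq
    apply ph_inj h5 hs (red_mul _ _) ⟨by norm_num, by norm_num⟩
    rw [ph_mul h5 hs, ph_one]
    exact hv2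
  have hv1 : v = 1 := by rw [hv, hj0]; exact ph_one s
  have e1 : D 1 1 = a * u := by rw [e10, hv1]; ring
  have e2 : D 2 2 = a * (u * u) := by rw [e21, hv1, e1]; ring
  intro w hw
  have hRx := hRs 0 i' 0 w hw
  have hval : D *ᵥ w = a • (((gR 0 i' 0 : GL (Fin 3) F) : Matrix (Fin 3) (Fin 3) F) *ᵥ w) := by
    have hR0 : Rm 0 i' 0 = XX i' := rm_0i0 i'
    have hRM : ((gR 0 i' 0 : GL (Fin 3) F) : Matrix (Fin 3) (Fin 3) F) = toM s (XX i') := by
      rw [← hR0]; exact hf.isM _ _ _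
    rw [hRM]
    ext b
    rw [Pi.smul_apply, smul_eq_mul]
    simp only [Matrix.mulVec, dotProduct, Fin.sum_univ_three]
    rw [rx_diag]
    fin_cases b
    · simp [toM, ph_one, ph_zero, ph_mul h5 hs, d01, d02]
      exact Or.inl rfl
    · simp [toM, ph_one, ph_zero, ph_mul h5 hs, d10, d12, e1]
      ring
    · simp [toM, ph_one, ph_zero, ph_mul h5 hs, d20, d21, e2]
      ring
  rw [← hD, hval]
  exact Om_smul hRx ha0

end H19.U35C
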