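import Mathlib
import Cfsg.Agent.Lib.H19.U35CCore

/-!
The normaliser of an extraspecial group of order 27 is not maximal in `SU_3(5)`.
-/

set_option autoImplicit false
set_option linter.unusedSectionVars false
set_option linter.unusedSimpArgs false
set_option linter.style.longLine false

namespace H19.U35C

open Cfsg Cfsg.Geo Matrix H97.AschRad H97.AschEnv H97.AschNonab H97.AschGrp H97.AschLinear H97.AschIdem H97.AschDecomp
open H97.AschForm H97.AschSubfield H97.AschReal H97.AschNCU H97.AschUSymp H97.AschUPair H97.AschUElim H97.AschPauli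
open H97.AschCases H97.AschNC H97.AschHex
open H96.AschSympType1 H96.AschSympType2 H96.AschSympType3 H96.AschSubForm H96.AschSympType5 H96.AschAdj
open H96.AschComm H96.AschField H96.AschSympEx
open H96.AschSp H96.AschSp2 H96.AschSU H96.AschSU2 H96.AschOdd2 H96.AschDescent H96.AschSU3

variable {F : Type*} [Field F] [Fintype F] {q : ℕ} {σ : F ≃+* F} {s : F}

theorem exists_S5 (h : Ctx (F := F) σ 3 q) (hq : q = 5) : ∃ s : F, S5 σ s := by
  have hF : Fintype.card F = 25 := by rw [h.card, hq]; norm_num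
  have h5 : (5 : F) = 0 := by
    have h1 : ((Fintype.card F : ℕ) : F) = 0 := Nat.cast_card_eq_zero F
    rw [hF] at h1
    have h2 : (5 : F) * 5 = 0 := by
      have : ((25 : ℕ) : F) = 5 * 5 := by norm_num
      rw [← this]; exact h1
    exact mul_self_eq_zero.mp h2
  have h2 : (2 : F) ≠ 0 := by
    intro h0
    have : (1 : F) = 0 := by linear_combination h5 - 2 * h0
    exact one_ne_zero this
  have hchar : ringChar F ≠ 2 := by
    intro h0
    apply h2
    have := ringChar.Nat.cast_ringChar (R := F)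
    rw [h0] at this
    exact_mod_cast this
  have hsq : IsSquare (2 : F) := by
    rw [FiniteField.isSquare_iff hchar h2, hF]
    norm_num
    linear_combination 819 * h5
  obtain ⟨s, hs⟩ := hsq
  refine ⟨s, h5, hs.symm, ?_⟩
  rw [h.val, hq]
  linear_combination (-(s ^ 3) - 2 * s) * hs + s * h5

/-- similarities of order three are isometries -/
lemma sim_GU (h : Ctx (F := F) σ 3 q) (hq : q = 5) {g : GL (Fin 3) F} (hg : g ∈ similarityGroup (hermForm 3 F q))
    (hg3 : g ^ 3 = 1) : g ∈ GU 3 F q := by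
  obtain ⟨c, hc⟩ := hg
  have hS := h.form.sesq
  have h00 := h.single (0 : Fin 3) 0
  rw [if_pos rfl] at h00
  have hcσ : σ (c : F) = c := by
    have h1 := hc (Pi.single 0 1) (Pi.single 0 1)
    rw [h00, mul_one] at h1
    have h2 := h.form.herm ((g : Matrix (Fin 3) (Fin 3) F) *ᵥ Pi.single 0 1) ((g : Matrix (Fin 3) (Fin 3) F) *ᵥ Pi.single 0 1)
    rw [one_mul, h1] at h2
    exact h2.symm
  have hc5 : (c : F) ^ 5 = c := by
    have := h.val (c : F)
    rw [hcσ, hq] at this
    exact this.symm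
  have hc3 : (c : F) ^ 3 = 1 := by
    have h2 : ∀ v, (g : Matrix (Fin 3) (Fin 3) F) *ᵥ ((g : Matrix (Fin 3) (Fin 3) F) *ᵥ ((g : Matrix (Fin 3) (Fin 3) F) *ᵥ v)) = v := by
      intro v
      rw [Matrix.mulVec_mulVec, Matrix.mulVec_mulVec, ← Units.val_mul, ← Units.val_mul]
      rw [show g * g * g = g ^ 3 by rw [pow_succ, pow_two], hg3, Units.val_one, Matrix.one_mulVec]
    have h1 := hc ((g : Matrix (Fin 3) (Fin 3) F) *ᵥ ((g : Matrix (Fin 3) (Fin 3) F) *ᵥ Pi.single 0 1))
      ((g : Matrix (Fin 3) (Fin 3) F) *ᵥ ((g : Matrix (Fin 3) (Fin 3) F) *ᵥ Pi.single 0 1))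
    rw [h2, h00, hc, hc, h00] at h1
    linear_combination -h1
  have hc1 : (c : F) = 1 := by
    have h0 : (c : F) ≠ 0 := c.ne_zero
    have h1 : (c : F) * (c : F) = c := by linear_combination hc5 - (c : F) ^ 2 * hc3
    exact mul_left_cancel₀ h0 (by rw [h1, mul_one])
  intro u v
  have h1 := hc u v
  rw [hc1, one_mul] at h1
  exact h1

section om

variable (S : S5 σ s)

/-- ω -/
lemma om_rel (S : S5 σ s) : ph s (om 1) * ph s (om 1) + ph s (om 1) + 1 = 0 := by
  have h1 : kadd (kadd (kmul (om 1) (om 1)) (om 1)) (1, 0) = (0, 0) := by decide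
  have h2 := congrArg (ph s) h1
  rwa [ph_add S.five, ph_add S.five, ph_mul S.five S.sq, ph_one, ph_zero] at h2

lemma om_conj (S : S5 σ s) : ph s (om 1) * σ (ph s (om 1)) = 1 := by
  rw [S.sig, ← ph_mul S.five S.sq]
  have : kmul (om 1) (kconj (om 1)) = (1, 0) := by decide
  rw [this, ph_one]

end om

/-- generators of the extraspecial group -/
theorem exists_pair (S : S5 σ s) {R : Subgroup (GL (Fin 3) F)}
    (h1 : IsSymplecticTypeGroup 3 R) (h2 : ActsAbsolutelyIrreducibly (matrixSet R))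
    (h4 : Nat.card R = 27) (h5 : Nat.card (Subgroup.center R) = 3) :
    ∃ x ∈ R, ∃ y ∈ R, x ^ 3 = 1 ∧ y ^ 3 = 1 ∧
      ((x * y : GL (Fin 3) F) : Matrix (Fin 3) (Fin 3) F) = ph s (om 1) • ((y * x : GL (Fin 3) F) : Matrix (Fin 3) (Fin 3) F) := by
  classical
  have hpow : ∀ g ∈ R, g ^ 3 = 1 := by
    intro g hg
    have h6 := h1.exponent_eq
    have h7 := Monoid.pow_exponent_eq_one (⟨g, hg⟩ : R)
    rw [h6] at h7
    have h8 := congrArg (Subtype.val) h7
    simpa using h8
  -- not commutative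
  obtain ⟨x, y, hxy⟩ : ∃ x y : R, x * y ≠ y * x := by
    by_contra hcon
    push Not at hcon
    have h6 : Subgroup.center R = ⊤ := by
      rw [eq_top_iff]
      intro g _
      rw [Subgroup.mem_center_iff]
      intro g'
      exact hcon g' g
    rw [h6, Subgroup.card_top, h4] at h5
    norm_num at h5
  -- the commutator is central
  have hq9 : Nat.card (R ⧸ Subgroup.center R) = 3 ^ 2 := by
    have h6 := Subgroup.card_eq_card_quotient_mul_card_subgroup (Subgroup.center R)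
    rw [h4, h5] at h6
    omega
  have : Fact (Nat.Prime 3) := ⟨Nat.prime_three⟩
  have hcomm := (IsPGroup.isMulCommutative_of_card_eq_prime_sq hq9).is_comm.comm
  have hz : x * y * x⁻¹ * y⁻¹ ∈ Subgroup.center R := by
    rw [← QuotientGroup.eq_one_iff]
    have h6 := hcomm (x : R ⧸ Subgroup.center R) (y : R ⧸ Subgroup.center R)
    rw [QuotientGroup.mk_mul, QuotientGroup.mk_mul, QuotientGroup.mk_mul, h6]
    simp
  obtain ⟨c, hc⟩ := h2.2 (((x * y * x⁻¹ * y⁻¹ : R) : GL (Fin 3) F) : Matrix (Fin 3) (Fin 3) F) (by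
    rintro _ ⟨r, hr, rfl⟩
    have h6 := Subgroup.mem_center_iff.mp hz ⟨r, hr⟩
    have h7 := congrArg (fun z : R => ((z : GL (Fin 3) F) : Matrix (Fin 3) (Fin 3) F)) h6
    simp only [Subgroup.coe_mul, Units.val_mul] at h7 ⊢
    exact h7.symm)
  have hc3 : c ^ 3 = 1 := by
    have h6 := hpow _ (x * y * x⁻¹ * y⁻¹ : R).2
    have h7 := congrArg (fun z : GL (Fin 3) F => (z : Matrix (Fin 3) (Fin 3) F)) h6
    simp only [Units.val_pow_eq_pow_val, Units.val_one] at h7
    rw [hc, smul_pow, one_pow] at h7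
    have h8 := congrFun (congrFun h7 0) 0
    simpa using h8
  have hc1 : c ≠ 1 := by
    intro h0
    rw [h0, one_smul] at hc
    have h6 : (x * y * x⁻¹ * y⁻¹ : R) = 1 := by
      apply Subtype.ext
      apply Units.ext
      rw [hc]; rfl
    apply hxy
    rw [mul_inv_eq_one, mul_inv_eq_iff_eq_mul] at h6
    exact h6
  have hcm : ((x * y : GL (Fin 3) F) : Matrix (Fin 3) (Fin 3) F) = c • ((y * x : GL (Fin 3) F) : Matrix (Fin 3) (Fin 3) F) := by
    have h6 : ((x : GL (Fin 3) F) * y) = ((x * y * x⁻¹ * y⁻¹ : R) : GL (Fin 3) F) * ((y : GL (Fin 3) F) * x) := by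
      simp only [Subgroup.coe_mul, Subgroup.coe_inv]
      group
    rw [h6, Units.val_mul, hc, Matrix.smul_mul, Matrix.one_mul]
  have hw := om_rel S
  have hcc : c * c + c + 1 = 0 := by
    have h6 : (c - 1) * (c * c + c + 1) = 0 := by linear_combination hc3
    exact (mul_eq_zero.mp h6).resolve_left (sub_ne_zero.mpr hc1)
  have h6 : (c - ph s (om 1)) * (c - ph s (om 1) * ph s (om 1)) = 0 := by
    linear_combination hcc - (c - ph s (om 1) + 1) * hw
  rcases mul_eq_zero.mp h6 with h7 | h7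
  · have h8 : c = ph s (om 1) := sub_eq_zero.mp h7
    exact ⟨x, x.2, y, y.2, hpow _ x.2, hpow _ y.2, by rw [← h8]; exact hcm⟩
  · have h8 : c = ph s (om 1) * ph s (om 1) := sub_eq_zero.mp h7
    refine ⟨y, y.2, x, x.2, hpow _ y.2, hpow _ x.2, ?_⟩
    rw [hcm, smul_smul, h8]
    have : ph s (om 1) * (ph s (om 1) * ph s (om 1)) = 1 := by linear_combination (ph s (om 1) - 1) * hw
    rw [this, one_smul]

/-- the orthonormal frame -/
theorem exists_frame (h : Ctx (F := F) σ 3 q) (S : S5 σ s) {x y : GL (Fin 3) F} (hx : x ∈ GU 3 F q)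
    (hy : y ∈ GU 3 F q) (hx3 : x ^ 3 = 1) (hy3 : y ^ 3 = 1)
    (hxy : ((x * y : GL (Fin 3) F) : Matrix (Fin 3) (Fin 3) F) = ph s (om 1) • ((y * x : GL (Fin 3) F) : Matrix (Fin 3) (Fin 3) F)) :
    ∃ P ∈ GU 3 F q, IsM s (P⁻¹ * x * P) (XX 1) ∧ IsM s (P⁻¹ * y * P) (YY 1) := by
  classical
  have hS := h.form.sesq
  set ω := ph s (om 1) with hω
  have hw := om_rel S
  have hwc := om_conj S
  rw [← hω] at hw hwc
  have hw0 : ω ≠ 0 := by intro h0; rw [h0] at hw; simp at hw
  have hw3 : ω * (ω * ω) = 1 := by linear_combination (ω - 1) * hw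
  have hw1 : ω ≠ 1 := by
    intro h0
    rw [h0] at hw
    have h3 : (3 : F) = 0 := by linear_combination hw
    have : (1 : F) = 0 := by linear_combination 2 * h3 - S.five
    exact one_ne_zero this
  have h3 : (3 : F) ≠ 0 := by
    intro h3
    have : (1 : F) = 0 := by linear_combination 2 * h3 - S.five
    exact one_ne_zero this
  let X : Matrix (Fin 3) (Fin 3) F := x
  let Y : Matrix (Fin 3) (Fin 3) F := y
  have hXY : ∀ v, X *ᵥ (Y *ᵥ v) = ω • (Y *ᵥ (X *ᵥ v)) := by
    intro v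
    rw [Matrix.mulVec_mulVec, Matrix.mulVec_mulVec, ← Matrix.smul_mulVec]
    congr 1
  have hX3 : ∀ v, X *ᵥ (X *ᵥ (X *ᵥ v)) = v := by
    intro v
    change (x : Matrix (Fin 3) (Fin 3) F) *ᵥ ((x : Matrix (Fin 3) (Fin 3) F) *ᵥ ((x : Matrix (Fin 3) (Fin 3) F) *ᵥ v)) = v
    rw [Matrix.mulVec_mulVec, Matrix.mulVec_mulVec, ← Units.val_mul, ← Units.val_mul]
    rw [show x * x * x = x ^ 3 by rw [pow_succ, pow_two], hx3, Units.val_one, Matrix.one_mulVec]
  have hY3 : ∀ v, Y *ᵥ (Y *ᵥ (Y *ᵥ v)) = v := by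
    intro v
    change (y : Matrix (Fin 3) (Fin 3) F) *ᵥ ((y : Matrix (Fin 3) (Fin 3) F) *ᵥ ((y : Matrix (Fin 3) (Fin 3) F) *ᵥ v)) = v
    rw [Matrix.mulVec_mulVec, Matrix.mulVec_mulVec, ← Units.val_mul, ← Units.val_mul]
    rw [show y * y * y = y ^ 3 by rw [pow_succ, pow_two], hy3, Units.val_one, Matrix.one_mulVec]
  have hYne : ∀ v, v ≠ 0 → Y *ᵥ v ≠ 0 := by
    intro v hv h0
    apply hv
    rw [← hY3 v, h0, Matrix.mulVec_zero, Matrix.mulVec_zero]
  have step : ∀ lam : F, (∃ v, v ≠ 0 ∧ X *ᵥ v = lam • v) → ∃ v, v ≠ 0 ∧ X *ᵥ v = (ω * lam) • v := by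
    rintro lam ⟨v, hv, hXv⟩
    refine ⟨Y *ᵥ v, hYne v hv, ?_⟩
    rw [hXY, hXv, Matrix.mulVec_smul, smul_smul]
  have hev : ∃ v, v ≠ 0 ∧ X *ᵥ v = (1 : F) • v := by
    have h0 : (Pi.single 0 1 : Fin 3 → F) ≠ 0 := by
      intro h0
      have := congrFun h0 0
      simp at this
    set u : Fin 3 → F := Pi.single 0 1 with hu
    have e3 : (∃ v, v ≠ 0 ∧ X *ᵥ v = (ω * ω) • v) → ∃ v, v ≠ 0 ∧ X *ᵥ v = (1 : F) • v := by
      intro hh
      have := step _ hh
      rwa [hw3] at this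
    have e2 : (∃ v, v ≠ 0 ∧ X *ᵥ v = ω • v) → ∃ v, v ≠ 0 ∧ X *ᵥ v = (1 : F) • v := fun hh => e3 (step _ hh)
    by_cases c1 : X *ᵥ u - (ω * ω) • u = 0
    · exact e3 ⟨u, h0, sub_eq_zero.mp c1⟩
    by_cases c2 : X *ᵥ (X *ᵥ u - (ω * ω) • u) - ω • (X *ᵥ u - (ω * ω) • u) = 0
    · exact e2 ⟨_, c1, sub_eq_zero.mp c2⟩
    refine ⟨_, c2, ?_⟩
    simp only [Matrix.mulVec_sub, Matrix.mulVec_smul, hX3]
    ext i
    simp only [Pi.sub_apply, Pi.smul_apply, smul_eq_mul]
    linear_combination (-(X *ᵥ (X *ᵥ u)) i + ω * (X *ᵥ u) i + (X *ᵥ u) i * 0 + u i * (1 - ω)) * hw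
  obtain ⟨v, hv, hXv⟩ := hev
  rw [one_smul] at hXv
  have hx1 : X *ᵥ (Y *ᵥ v) = ω • (Y *ᵥ v) := by rw [hXY, hXv]
  have hx2 : X *ᵥ (Y *ᵥ (Y *ᵥ v)) = (ω * ω) • (Y *ᵥ (Y *ᵥ v)) := by
    rw [hXY, hx1, Matrix.mulVec_smul, smul_smul]
  have hfx : ∀ u w, hermForm 3 F q (X *ᵥ u) (X *ᵥ w) = hermForm 3 F q u w := fun u w => hx u w
  have hfy : ∀ u w, hermForm 3 F q (Y *ᵥ u) (Y *ᵥ w) = hermForm 3 F q u w := fun u w => hy u w
  let w : Fin 3 → (Fin 3 → F) := ![v, Y *ᵥ v, Y *ᵥ (Y *ᵥ v)]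
  let lam : Fin 3 → F := ![1, ω, ω * ω]
  have hXw : ∀ i, X *ᵥ w i = lam i • w i := by
    intro i
    fin_cases i
    · change X *ᵥ v = (1 : F) • v
      rw [one_smul]; exact hXv
    · exact hx1
    · exact hx2
  -- independence
  have hli : ∀ a : Fin 3 → F, ∑ j, a j • w j = 0 → a = 0 := by
    intro a ha
    rw [Fin.sum_univ_three] at ha
    have ha1 := congrArg (fun z => X *ᵥ z) ha
    simp only [Matrix.mulVec_add, Matrix.mulVec_smul, hXw, Matrix.mulVec_zero] at ha1
    have ha2 := congrArg (fun z => X *ᵥ z) ha1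
    simp only [Matrix.mulVec_add, Matrix.mulVec_smul, hXw, Matrix.mulVec_zero] at ha2
    have hwne : ∀ j, w j ≠ 0 := by
      intro j
      fin_cases j
      · exact hv
      · exact hYne _ hv
      · exact hYne _ (hYne _ hv)
    have k0 : a 0 • w 0 = 0 := by
      ext i
      have b0 := congrFun ha i
      have b1 := congrFun ha1 i
      have b2 := congrFun ha2 i
      simp only [Pi.add_apply, Pi.smul_apply, smul_eq_mul, Pi.zero_apply, lam, Matrix.cons_val_zero, Matrix.cons_val_one,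
        Matrix.cons_val] at b0 b1 b2 ⊢
      have : (3 : F) * (a 0 * w 0 i) = 0 := by
        linear_combination b0 + b1 + b2 - (a 1 * w 1 i) * hw - (a 2 * w 2 i) * (ω * ω - ω + 1) * hw
      exact (mul_eq_zero.mp this).resolve_left h3
    have k1 : a 1 • w 1 = 0 := by
      ext i
      have b0 := congrFun ha i
      have b1 := congrFun ha1 i
      have b2 := congrFun ha2 i
      simp only [Pi.add_apply, Pi.smul_apply, smul_eq_mul, Pi.zero_apply, lam, Matrix.cons_val_zero, Matrix.cons_val_one,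
        Matrix.cons_val] at b0 b1 b2 ⊢
      have : (3 : F) * (a 1 * w 1 i) = 0 := by
        linear_combination b0 + ω * ω * b1 + ω * b2 - (a 0 * w 0 i) * hw - (a 2 * w 2 i) * (ω ^ 3 - ω ^ 2 + 1) * hw - 2 * (a 1 * w 1 i) * hw3 - (a 2 * w 2 i) * ω * hw3
      exact (mul_eq_zero.mp this).resolve_left h3
    have k2 : a 2 • w 2 = 0 := by
      rw [k0, k1, zero_add, zero_add] at ha
      exact ha
    ext j
    fin_cases j
    · exact (smul_eq_zero.mp k0).resolve_right (hwne 0)
    · exact (smul_eq_zero.mp k1).resolve_right (hwne 1)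
    · exact (smul_eq_zero.mp k2).resolve_right (hwne 2)
  have hsω : σ ω = ω * ω := by
    have : ω * (σ ω - ω * ω) = 0 := by linear_combination hwc - hw3
    exact sub_eq_zero.mp ((mul_eq_zero.mp this).resolve_left hw0)
  have horth : ∀ i j, i ≠ j → hermForm 3 F q (w i) (w j) = 0 := by
    intro i j hij
    have e1 := hfx (w i) (w j)
    rw [hXw, hXw, hS.smul_left, hS.smul_right] at e1
    have e2 : (lam i * σ (lam j) - 1) * hermForm 3 F q (w i) (w j) = 0 := by linear_combination e1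
    refine (mul_eq_zero.mp e2).resolve_left ?_
    have n1 : ω - 1 ≠ 0 := sub_ne_zero.mpr hw1
    have n2 : ω * ω - 1 ≠ 0 := by
      intro h0
      apply hw1
      linear_combination hw3 - ω * h0
    fin_cases i <;> fin_cases j <;> simp only [lam] at hij ⊢ <;> simp [hsω] at hij ⊢
    · exact n2
    · intro h0; apply n1; linear_combination h0 - ω * hw3
    · exact n1
    · intro h0; apply n2; linear_combination h0 - ω * ω * hw3
    · exact n2
    · intro h0; apply n1; linear_combination h0 - ω * hw3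
  have hdiag : ∀ i, hermForm 3 F q (w i) (w i) = hermForm 3 F q v v := by
    intro i
    fin_cases i
    · rfl
    · exact hfy v v
    · exact (hfy _ _).trans (hfy v v)
  obtain ⟨Q, hQ⟩ := exists_cols hli
  have hc0 : hermForm 3 F q v v ≠ 0 := by
    intro h0
    obtain ⟨u, hu⟩ := h.form.nd v hv
    apply hu
    have e1 : u = (Q : Matrix (Fin 3) (Fin 3) F) *ᵥ (((Q⁻¹ : GL (Fin 3) F) : Matrix (Fin 3) (Fin 3) F) *ᵥ u) := by
      rw [Matrix.mulVec_mulVec, ← Units.val_mul, mul_inv_cancel, Units.val_one, Matrix.one_mulVec]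
    rw [e1, hQ, hS.sum_right]
    refine Finset.sum_eq_zero (fun j _ => ?_)
    rw [hS.smul_right]
    change σ _ * hermForm 3 F q (w 0) (w j) = 0
    by_cases hj : (0 : Fin 3) = j
    · rw [← hj, hdiag, h0, mul_zero]
    · rw [horth 0 j hj, mul_zero]
  have hcσ : σ (hermForm 3 F q v v)⁻¹ = (hermForm 3 F q v v)⁻¹ := by
    rw [map_inv₀]
    have := h.form.herm v v
    rw [one_mul] at this
    rw [← this]
  obtain ⟨b, hb0, hb⟩ := h.norm (inv_ne_zero hc0) hcσ
  let w' : Fin 3 → (Fin 3 → F) := fun i => b • w i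
  have hww : ∀ i j, hermForm 3 F q (w' i) (w' j) = if i = j then 1 else 0 := by
    intro i j
    change hermForm 3 F q (b • w i) (b • w j) = _
    rw [hS.smul_left, hS.smul_right]
    by_cases hij : i = j
    · subst hij
      rw [if_pos rfl, hdiag, ← mul_assoc, hb, inv_mul_cancel₀ hc0]
    · rw [if_neg hij, horth i j hij, mul_zero, mul_zero]
  obtain ⟨P, hP⟩ := exists_cols (frame_li h hww)
  have hPe : ∀ j, (P : Matrix (Fin 3) (Fin 3) F) *ᵥ Pi.single j 1 = w' j := by
    intro j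
    rw [hP, Finset.sum_eq_single j]
    · rw [Pi.single_eq_same, one_smul]
    · intro k _ hk
      rw [Pi.single_eq_of_ne hk, zero_smul]
    · intro h; exact absurd (Finset.mem_univ _) h
  refine ⟨P, mem_GU_of h (fun j k => by rw [hPe, hPe]; exact hww j k), ?_, ?_⟩
  · have e1 : X * (P : Matrix (Fin 3) (Fin 3) F) = (P : Matrix (Fin 3) (Fin 3) F) * toM s (XX 1) := by
      ext a j
      have e2 : (X * (P : Matrix (Fin 3) (Fin 3) F)) *ᵥ Pi.single j 1 = ((P : Matrix (Fin 3) (Fin 3) F) * toM s (XX 1)) *ᵥ Pi.single j 1 := by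
        rw [← Matrix.mulVec_mulVec, ← Matrix.mulVec_mulVec, hPe]
        change X *ᵥ (b • w j) = _
        rw [Matrix.mulVec_smul, hXw]
        have e3 : toM s (XX 1) *ᵥ Pi.single j 1 = lam j • (Pi.single j 1 : Fin 3 → F) := by
          ext c
          rw [Matrix.mulVec_single_one, Matrix.col_apply, Pi.smul_apply, smul_eq_mul, rx_diag, toM]
          fin_cases j <;> fin_cases c <;> simp [lam, ph_one, ph_zero, ph_mul S.five S.sq, hω]
        rw [e3, Matrix.mulVec_smul, hPe, smul_comm]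
      have e4 := congrFun e2 a
      simpa only [Matrix.mulVec_single_one, Matrix.col_apply] using e4
    unfold IsM
    rw [Units.val_mul, Units.val_mul, mul_assoc, show (x : Matrix (Fin 3) (Fin 3) F) * (P : Matrix (Fin 3) (Fin 3) F) = _ from e1,
      ← mul_assoc, ← Units.val_mul, inv_mul_cancel, Units.val_one, one_mul]
  · have e1 : Y * (P : Matrix (Fin 3) (Fin 3) F) = (P : Matrix (Fin 3) (Fin 3) F) * toM s (YY 1) := by
      ext a j
      have e2 : (Y * (P : Matrix (Fin 3) (Fin 3) F)) *ᵥ Pi.single j 1 = ((P : Matrix (Fin 3) (Fin 3) F) * toM s (YY 1)) *ᵥ Pi.single j 1 := by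
        rw [← Matrix.mulVec_mulVec, ← Matrix.mulVec_mulVec, hPe]
        change Y *ᵥ (b • w j) = _
        rw [Matrix.mulVec_smul]
        have e3 : toM s (YY 1) *ᵥ Pi.single j 1 = (Pi.single (j + 1) 1 : Fin 3 → F) := by
          ext c
          rw [Matrix.mulVec_single_one, Matrix.col_apply, toM]
          fin_cases j <;> fin_cases c <;> simp [YY, ph_one, ph_zero, Pi.single_apply] <;> decide
        rw [e3, hPe]
        change _ = b • w (j + 1)
        congr 1
        fin_cases j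
        · rfl
        · rfl
        · exact hY3 v
      have e4 := congrFun e2 a
      simpa only [Matrix.mulVec_single_one, Matrix.col_apply] using e4
    unfold IsM
    rw [Units.val_mul, Units.val_mul, mul_assoc, show (y : Matrix (Fin 3) (Fin 3) F) * (P : Matrix (Fin 3) (Fin 3) F) = _ from e1,
      ← mul_assoc, ← Units.val_mul, inv_mul_cancel, Units.val_one, one_mul]

/-- **normalisers of extraspecial groups of order 27 are not maximal for `q = 5`** -/
theorem no_type (h : Ctx (F := F) σ 3 q) (hq : q = 5) {R : Subgroup (GL (Fin 3) F)} (h1 : IsSymplecticTypeGroup 3 R)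
    (h2 : ActsAbsolutelyIrreducibly (matrixSet R)) (h3 : R ≤ similarityGroup (hermForm 3 F q)) (h4 : Nat.card R = 27)
    (h5 : Nat.card (Subgroup.center R) = 3) {H : Subgroup (GL (Fin 3) F)}
    (hH : IsMaximalIn (GU 3 F q ⊓ specialLinear (Fin 3) F) H) (hle : H ≤ subgroupNormalizer R) : False := by
  classical
  obtain ⟨s, S⟩ := exists_S5 h hq
  obtain ⟨x, hxR, y, hyR, hx3, hy3, hxy⟩ := exists_pair S h1 h2 h4 h5
  obtain ⟨P, hPU, hPx, hPy⟩ := exists_frame h S (sim_GU h hq (h3 hxR) hx3) (sim_GU h hq (h3 hyR) hy3) hx3 hy3 hxy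
  choose gR hgM hgL using fun i j k : Fin 3 => exists_gl h S (Rm i j k) (rm_unit i j k)
  have hf : Fam s gR := ⟨hgM⟩
  -- the conjugate group
  let T : Subgroup (GL (Fin 3) F) := R.comap (MulAut.conj P).toMonoidHom
  have memT : ∀ g, g ∈ T ↔ P * g * P⁻¹ ∈ R := fun g => Iff.rfl
  have hXT : gR 0 1 0 ∈ T := by
    have e1 : gR 0 1 0 = P⁻¹ * x * P := isM_eq (hgM _ _ _) (by rw [rm_010]; exact hPx)
    rw [memT, e1]
    convert hxR using 1
    group
  have hYT : gR 0 0 1 ∈ T := by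
    have e1 : gR 0 0 1 = P⁻¹ * y * P := isM_eq (hgM _ _ _) (by rw [rm_001]; exact hPy)
    rw [memT, e1]
    convert hyR using 1
    group
  have hmem : ∀ i j k, gR i j k ∈ T := hf.mem S hXT hYT
  have hcardT : Nat.card T = 27 := by
    rw [← h4]
    refine Nat.card_congr ⟨fun g => ⟨P * g.1 * P⁻¹, g.2⟩, fun r => ⟨P⁻¹ * r.1 * P, ?_⟩, ?_, ?_⟩
    · rw [memT]
      convert r.2 using 1
      group
    · intro g; apply Subtype.ext; simp only; group
    · intro g; apply Subtype.ext; simp only; group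
  have hT : ∀ g, g ∈ T ↔ ∃ i j k, g = gR i j k := by
    let f : Fin 3 × Fin 3 × Fin 3 → T := fun t => ⟨gR t.1 t.2.1 t.2.2, hmem _ _ _⟩
    have hinj : Function.Injective f := by
      rintro ⟨i, j, k⟩ ⟨i', j', k'⟩ hh
      have e1 : gR i j k = gR i' j' k' := congrArg Subtype.val hh
      have e2 : Rm i j k = Rm i' j' k' := by
        apply S.inj (rm_red _ _ _) (rm_red _ _ _)
        rw [← show ((gR i j k : GL (Fin 3) F) : Matrix (Fin 3) (Fin 3) F) = _ from hgM i j k, e1]
        exact hgM _ _ _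
      obtain ⟨a, b, c⟩ := rm_inj _ _ _ _ _ _ e2
      rw [a, b, c]
    have hsurj : Function.Surjective f :=
      (hinj.bijective_of_nat_card_le (by rw [hcardT]; simp)).2
    intro g
    constructor
    · intro hg
      obtain ⟨t, ht⟩ := hsurj ⟨g, hg⟩
      exact ⟨t.1, t.2.1, t.2.2, (congrArg Subtype.val ht).symm⟩
    · rintro ⟨i, j, k, rfl⟩
      exact hmem _ _ _
  -- the conjugate stabiliser
  have hGn : ∀ (Q : GL (Fin 3) F), Q ∈ GU 3 F q → ∀ g ∈ GU 3 F q ⊓ specialLinear (Fin 3) F,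
      Q * g * Q⁻¹ ∈ GU 3 F q ⊓ specialLinear (Fin 3) F := by
    intro Q hQ g hg
    refine ⟨Subgroup.mul_mem _ (Subgroup.mul_mem _ hQ hg.1) (Subgroup.inv_mem _ hQ), ?_⟩
    have hn : (specialLinear (Fin 3) F).Normal := by unfold specialLinear; infer_instance
    exact hn.conj_mem g hg.2 Q
  let M : Subgroup (GL (Fin 3) F) := (stab (F := F) s).comap (MulAut.conj P⁻¹).toMonoidHom
  have memM : ∀ g, g ∈ M ↔ P⁻¹ * g * P ∈ stab (F := F) s := by
    intro g
    change P⁻¹ * g * P⁻¹⁻¹ ∈ stab (F := F) s ↔ _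
    rw [inv_inv]
  have hHM : H ≤ M := by
    intro g hg
    rw [memM]
    have hgL := hH.1.le hg
    refine core h hq S hf hT ?_ ?_
    · have := hGn P⁻¹ (Subgroup.inv_mem _ hPU) g hgL
      rwa [inv_inv] at this
    · intro r hr
      rw [memT] at hr ⊢
      have e1 := (Subgroup.mem_normalizer_iff.mp (hle hg) (P * r * P⁻¹)).mp hr
      convert e1 using 1
      group
  have hnot : ¬ GU 3 F q ⊓ specialLinear (Fin 3) F ≤ M := by
    intro hsub
    obtain ⟨g, hg, hgs⟩ := exists_not h S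
    apply hgs
    have e1 := hsub (hGn P hPU g hg)
    rw [memM] at e1
    convert e1 using 1
    group
  have hHeq := eq_of_max hH hHM hnot
  obtain ⟨t, ht, htL⟩ := exists_gl h S (fam 10) (fam_unit 10)
  have hts := S.mem_stab 10 ht
  have htH : P * t * P⁻¹ ∈ H := by
    rw [hHeq]
    refine ⟨?_, hGn P hPU t htL⟩
    change P * t * P⁻¹ ∈ M
    rw [memM]
    convert hts using 1
    group
  have e1 := (Subgroup.mem_normalizer_iff.mp (hle htH) (P * gR 0 1 0 * P⁻¹)).mp hXT
  have e2 : t * gR 0 1 0 * t⁻¹ ∈ T := by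
    rw [memT]
    convert e1 using 1
    group
  obtain ⟨i, j, k, hijk⟩ := (hT _).mp e2
  have e3 : t * gR 0 1 0 = gR i j k * t := by rw [← hijk]; group
  apply t_not i j k
  apply S.inj (fun _ _ => red_add _ _) (fun _ _ => red_add _ _)
  have hX : IsM s (gR 0 1 0) (XX 1) := by rw [← rm_010]; exact hgM _ _ _
  have e4 := S.isM_mul ht hX
  have e5 := S.isM_mul (hgM i j k) ht
  exact e4.symm.trans ((congrArg Units.val e3).trans e5)

end H19.U35C
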