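import Mathlib
import Cfsg.Agent.Lib.H92.PolPSU
import Cfsg.Agent.Lib.H6.SUGenC

/-!
Elements of `SU 6 K 2` (`|K| = 4`) fixing two coordinate vectors are products of transvections with centres in the
span of the other coordinate vectors.
-/

set_option autoImplicit false
set_option linter.unusedSectionVars false
set_option linter.style.haveILetI false
set_option linter.unusedVariables false
open Cfsg Matrix

namespace H19.UCovA
open H92.Herm H92.UTransv H92.PV

variable {K : Type*} [Field K] [Fintype K]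

/-- index equivalence -/
def e6 : Fin 2 ⊕ Fin 4 ≃ Fin 6 := finSumFinEquiv

/-- embedding of vectors -/
def iv (x : Fin 4 → K) : Fin 6 → K := fun i => Sum.elim (fun _ => 0) x (e6.symm i)

/-- second part -/
def pr (x : Fin 6 → K) : Fin 4 → K := fun k => x (e6 (Sum.inr k))

theorem B_split (x y : Fin 6 → K) : B x y = x 0 * y 0 ^ 2 + x 1 * y 1 ^ 2 + B (pr x) (pr y) := by
  rw [B_def, B_def, ← Equiv.sum_comp e6, Fintype.sum_sum_type, Fin.sum_univ_two]
  rfl

theorem iv_zero (x : Fin 4 → K) : iv x 0 = 0 := rfl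
theorem iv_one (x : Fin 4 → K) : iv x 1 = 0 := rfl
theorem pr_iv (x : Fin 4 → K) : pr (iv x) = x := by
  funext k
  simp [pr, iv]

theorem iv_pr {x : Fin 6 → K} (h0 : x 0 = 0) (h1 : x 1 = 0) : iv (pr x) = x := by
  funext i
  obtain ⟨j, rfl⟩ := e6.surjective i
  rcases j with j | j
  · simp only [iv, Equiv.symm_apply_apply, Sum.elim_inl]
    fin_cases j
    · exact h0.symm
    · exact h1.symm
  · simp [iv, pr]

/-- block matrices -/
def bm (A : Matrix (Fin 4) (Fin 4) K) : Matrix (Fin 6) (Fin 6) K := (Matrix.fromBlocks 1 0 0 A).submatrix e6.symm e6.symm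

theorem bm_mul (A A' : Matrix (Fin 4) (Fin 4) K) : bm (A * A') = bm A * bm A' := by
  unfold bm
  rw [Matrix.submatrix_mul_equiv, Matrix.fromBlocks_multiply]
  simp

theorem bm_one : bm (1 : Matrix (Fin 4) (Fin 4) K) = 1 := by
  unfold bm
  rw [Matrix.fromBlocks_one, Matrix.submatrix_one_equiv]

theorem det_bm (A : Matrix (Fin 4) (Fin 4) K) : (bm A).det = A.det := by
  unfold bm
  rw [Matrix.det_submatrix_equiv_self, Matrix.det_fromBlocks_zero₂₁, Matrix.det_one, one_mul]

theorem bm_mulVec (A : Matrix (Fin 4) (Fin 4) K) (x : Fin 6 → K) :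
    bm A *ᵥ x = fun i => Sum.elim (fun k => x (e6 (Sum.inl k))) (A *ᵥ pr x) (e6.symm i) := by
  funext i
  obtain ⟨j, rfl⟩ := e6.surjective i
  unfold bm
  simp only [Matrix.mulVec, dotProduct]
  rw [← Equiv.sum_comp e6, Fintype.sum_sum_type]
  simp only [Matrix.submatrix_apply, Equiv.symm_apply_apply]
  rcases j with j | j
  · simp [Matrix.fromBlocks, Matrix.one_apply]
  · simp [Matrix.fromBlocks, pr, Matrix.mulVec, dotProduct]

theorem bm_mulVec_zero (A : Matrix (Fin 4) (Fin 4) K) (x : Fin 6 → K) : (bm A *ᵥ x) 0 = x 0 := by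
  rw [bm_mulVec]; rfl
theorem bm_mulVec_one (A : Matrix (Fin 4) (Fin 4) K) (x : Fin 6 → K) : (bm A *ᵥ x) 1 = x 1 := by
  rw [bm_mulVec]; rfl
theorem pr_bm_mulVec (A : Matrix (Fin 4) (Fin 4) K) (x : Fin 6 → K) : pr (bm A *ᵥ x) = A *ᵥ pr x := by
  rw [bm_mulVec]
  funext k
  simp [pr]

/-- the embedding of `SU 4` in `SU 6` -/
def emb : SU 4 K 2 →* SU 6 K 2 where
  toFun A := ⟨⟨bm ((A : Matrix.SpecialLinearGroup (Fin 4) K) : Matrix (Fin 4) (Fin 4) K), by
      rw [det_bm]; exact (A : Matrix.SpecialLinearGroup (Fin 4) K).2⟩, fun x y => by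
      show B (bm _ *ᵥ x) (bm _ *ᵥ y) = B x y
      rw [B_split, bm_mulVec_zero, bm_mulVec_one, bm_mulVec_zero, bm_mulVec_one, pr_bm_mulVec, pr_bm_mulVec, B_split x y]
      congr 1
      exact B_act A (pr x) (pr y)⟩
  map_one' := by
    apply Subtype.ext; apply Subtype.ext
    exact bm_one
  map_mul' A A' := by
    apply Subtype.ext; apply Subtype.ext
    exact bm_mul _ _

theorem act_emb (A : SU 4 K 2) (x : Fin 6 → K) :
    act (emb A) x = fun i => Sum.elim (fun k => x (e6 (Sum.inl k))) (act A (pr x)) (e6.symm i) :=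
  bm_mulVec _ x

theorem emb_T (hK : Fintype.card K = 4) {v : Fin 4 → K} (hv : B v v = 0) : emb (T v) = T (iv v) := by
  have hv' : B (iv v) (iv v) = 0 := by
    rw [B_split, iv_zero, iv_one, pr_iv, hv]; ring
  apply act_ext
  intro x
  rw [act_emb, act_T hK hv', act_T hK hv]
  funext i
  obtain ⟨j, rfl⟩ := e6.surjective i
  have hB : B x (iv v) = B (pr x) v := by
    rw [B_split, iv_zero, iv_one, pr_iv]; ring
  rw [Equiv.symm_apply_apply, hB]
  rcases j with j | j
  · simp [iv]
  · simp [iv, pr]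

theorem B_single (hK : Fintype.card K = 4) (x : Fin 6 → K) (i : Fin 6) : B x (Pi.single i 1) = x i := by
  rw [B_def, Finset.sum_eq_single i]
  · simp
  · intro j _ hj
    simp [hj]
  · intro h; exact absurd (Finset.mem_univ i) h

theorem mem_range_emb (hK : Fintype.card K = 4) (M : SU 6 K 2) (h0 : act M (Pi.single 0 1) = Pi.single 0 1)
    (h1 : act M (Pi.single 1 1) = Pi.single 1 1) : ∃ A, emb A = M := by
  have hM0 : ∀ x, (act M x) 0 = x 0 := by
    intro x
    rw [← B_single hK (act M x) 0, ← B_single hK x 0, ← h0, B_act, h0]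
  have hM1 : ∀ x, (act M x) 1 = x 1 := by
    intro x
    rw [← B_single hK (act M x) 1, ← B_single hK x 1, ← h1, B_act, h1]
  set m : Matrix (Fin 6) (Fin 6) K := ((M : Matrix.SpecialLinearGroup (Fin 6) K) : Matrix (Fin 6) (Fin 6) K) with hm
  have hact : ∀ x, act M x = m *ᵥ x := fun x => rfl
  have hcol : ∀ i j, m i j = (act M (Pi.single j 1)) i := by
    intro i j
    rw [hact, Matrix.mulVec_single_one]; rfl
  set A : Matrix (Fin 4) (Fin 4) K := fun i j => m (e6 (Sum.inr i)) (e6 (Sum.inr j)) with hA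
  have hbm : bm A = m := by
    ext i j
    obtain ⟨i, rfl⟩ := e6.surjective i
    obtain ⟨j, rfl⟩ := e6.surjective j
    unfold bm
    rw [Matrix.submatrix_apply, Equiv.symm_apply_apply, Equiv.symm_apply_apply]
    have c0 : ∀ k : Fin 6, m k 0 = (Pi.single 0 1 : Fin 6 → K) k := by intro k; rw [hcol, h0]
    have c1 : ∀ k : Fin 6, m k 1 = (Pi.single 1 1 : Fin 6 → K) k := by intro k; rw [hcol, h1]
    have r0 : ∀ k : Fin 6, m 0 k = (Pi.single k 1 : Fin 6 → K) 0 := by intro k; rw [hcol, hM0]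
    have r1 : ∀ k : Fin 6, m 1 k = (Pi.single k 1 : Fin 6 → K) 1 := by intro k; rw [hcol, hM1]
    rcases i with i | i <;> rcases j with j | j
    · rw [Matrix.fromBlocks_apply₁₁]
      fin_cases j
      · show _ = m _ 0
        rw [c0]; fin_cases i <;> simp [Matrix.one_apply, e6] <;> rfl
      · show _ = m _ 1
        rw [c1]; fin_cases i <;> simp [Matrix.one_apply, e6] <;> rfl
    · rw [Matrix.fromBlocks_apply₁₂]
      fin_cases i
      · show _ = m 0 _
        rw [r0]; fin_cases j <;> rfl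
      · show _ = m 1 _
        rw [r1]; fin_cases j <;> rfl
    · rw [Matrix.fromBlocks_apply₂₁]
      fin_cases j
      · show _ = m _ 0
        rw [c0]; fin_cases i <;> rfl
      · show _ = m _ 1
        rw [c1]; fin_cases i <;> rfl
    · rw [Matrix.fromBlocks_apply₂₂]
  have hdet : A.det = 1 := by
    rw [← det_bm, hbm]; exact (M : Matrix.SpecialLinearGroup (Fin 6) K).2
  have hpres : ∀ x y : Fin 4 → K, B (A *ᵥ x) (A *ᵥ y) = B x y := by
    intro x y
    have h2 : B (bm A *ᵥ iv x) (bm A *ᵥ iv y) = B (iv x) (iv y) := by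
      rw [hbm]; exact B_act M (iv x) (iv y)
    rw [B_split, bm_mulVec_zero, bm_mulVec_one, bm_mulVec_zero, bm_mulVec_one, pr_bm_mulVec, pr_bm_mulVec, B_split (iv x) (iv y),
      pr_iv, pr_iv] at h2
    exact add_left_cancel h2
  refine ⟨⟨⟨A, hdet⟩, hpres⟩, ?_⟩
  apply Subtype.ext; apply Subtype.ext
  exact hbm

/-- the generators of `SU n K 2` are transvections `T v` or trivial -/
theorem gen_cases {n : ℕ} (hK : Fintype.card K = 4) (x : SU n K 2) (v : Fin n → K) (c : K) (hv : hermForm n K 2 v v = 0)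
    (hx : ((x : Matrix.SpecialLinearGroup (Fin n) K) : Matrix (Fin n) (Fin n) K) = unitaryTransvection n 2 v c) :
    x = 1 ∨ (Iso v ∧ x = T v) := by
  have hv' : B v v = 0 := hv
  have hact : ∀ y, act x y = y + (c * B y v) • v := by
    intro y
    rw [act_def, hx]
    unfold unitaryTransvection
    rw [Matrix.add_mulVec, Matrix.one_mulVec, Matrix.smul_mulVec]
    congr 1
    funext i
    simp only [Matrix.mulVec, dotProduct, Matrix.vecMulVec_apply, Pi.smul_apply, smul_eq_mul, B_def, Finset.mul_sum, Finset.sum_mul]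
    exact Finset.sum_congr rfl fun j _ => by ring
  by_cases hv0 : v = 0
  · left
    apply act_ext; intro y; rw [hact, hv0, smul_zero, add_zero, act_one]
  -- `c` is zero or one
  have hex : ∃ y : Fin n → K, B y v ≠ 0 := by
    by_contra hno
    push Not at hno
    exact hv0 (nondeg hK hno)
  obtain ⟨y, hy⟩ := hex
  have h3 := B_act x y y
  rw [hact, B_add_left, B_add_right hK, B_add_right hK, B_smul_left, B_smul_left, B_smul_right, B_smul_right, hv',
    B_symm hK y v] at h3
  have h4 : (c ^ 2 + c) * (B y v) ^ 3 = 0 := by linear_combination h3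
  rw [pow_three hK hy, mul_one] at h4
  have h5 : c ^ 2 = c := eq_of_add_eq_zero hK h4
  rcases eq_zero_or_one hK h5 with h6 | h6
  · left
    apply act_ext; intro y; rw [hact, h6, zero_mul, zero_smul, add_zero, act_one]
  · right
    refine ⟨⟨hv0, hv'⟩, ?_⟩
    apply act_ext; intro y; rw [hact, h6, one_mul, act_T hK hv']

/-- elements fixing the first two coordinate vectors -/
theorem mem_closure_T (hK : Fintype.card K = 4) (M : SU 6 K 2) (h0 : act M (Pi.single 0 1) = Pi.single 0 1)
    (h1 : act M (Pi.single 1 1) = Pi.single 1 1) :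
    M ∈ Subgroup.closure {g : SU 6 K 2 | ∃ v : Fin 6 → K, Iso v ∧ v 0 = 0 ∧ v 1 = 0 ∧ T v = g} := by
  obtain ⟨A, rfl⟩ := mem_range_emb hK M h0 h1
  clear h0 h1
  have hA : A ∈ (⊤ : Subgroup (SU 4 K 2)) := Subgroup.mem_top A
  rw [← H6.SUGenC.closure_eq_top (q := 2) (by rw [hK]; norm_num) 4 (by norm_num) (by omega)] at hA
  induction hA using Subgroup.closure_induction with
  | mem x hx =>
    obtain ⟨v, c, hv, hx⟩ := hx
    rcases gen_cases hK x v c hv hx with h | ⟨hv', h⟩
    · rw [h, map_one]; exact Subgroup.one_mem _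
    · rw [h, emb_T hK hv'.2]
      apply Subgroup.subset_closure
      refine ⟨iv v, ⟨?_, ?_⟩, iv_zero v, iv_one v, rfl⟩
      · intro h0
        apply hv'.1
        rw [← pr_iv v, h0]; rfl
      · rw [B_split, iv_zero, iv_one, pr_iv, hv'.2]; ring
  | one => rw [map_one]; exact Subgroup.one_mem _
  | mul x y _ _ hx hy => rw [map_mul]; exact Subgroup.mul_mem _ hx hy
  | inv x _ hx => rw [map_inv]; exact Subgroup.inv_mem _ hx

section psu
open H92.ULift H92.PolPSU H92.Tri
variable {K : Type} [Field K] [Fintype K]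

theorem closure_transv (hK : Fintype.card K = 4) : Subgroup.closure (transv K) = ⊤ := by
  rw [eq_top_iff]
  intro g _
  obtain ⟨M, rfl⟩ := QuotientGroup.mk_surjective g
  have hA : M ∈ (⊤ : Subgroup (SU 6 K 2)) := Subgroup.mem_top M
  rw [← H6.SUGenC.closure_eq_top (q := 2) (by rw [hK]; norm_num) 6 (by norm_num) (by omega)] at hA
  induction hA using Subgroup.closure_induction with
  | mem x hx =>
    obtain ⟨v, c, hv, hx⟩ := hx
    rcases gen_cases hK x v c hv hx with h | ⟨hv', h⟩
    · rw [h]; exact Subgroup.one_mem _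
    · rw [h]; exact Subgroup.subset_closure ⟨v, hv', rfl⟩
  | one => exact Subgroup.one_mem _
  | mul x y _ _ hx hy => exact Subgroup.mul_mem _ (hx trivial) (hy trivial)
  | inv x _ hx => exact Subgroup.inv_mem _ (hx trivial)

/-- scalars in `SU 6 K 2` -/
theorem exists_scalar (hK : Fintype.card K = 4) {a : K} (ha : a ≠ 0) :
    ∃ s : SU 6 K 2, ∀ x, act s x = a • x := by
  have h3 := pow_three hK ha
  have hmv : ∀ x : Fin 6 → K, (a • (1 : Matrix (Fin 6) (Fin 6) K)) *ᵥ x = a • x := by
    intro x; rw [Matrix.smul_mulVec, Matrix.one_mulVec]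
  refine ⟨⟨⟨a • 1, ?_⟩, ?_⟩, ?_⟩
  · rw [Matrix.det_smul, Matrix.det_one, mul_one, Fintype.card_fin]
    calc a ^ 6 = (a ^ 3) ^ 2 := by ring
      _ = 1 := by rw [h3, one_pow]
  · intro x y
    show B ((a • (1 : Matrix (Fin 6) (Fin 6) K)) *ᵥ x) ((a • (1 : Matrix (Fin 6) (Fin 6) K)) *ᵥ y) = B x y
    rw [hmv, hmv, B_smul_left, B_smul_right]
    linear_combination B x y * h3
  · intro x
    exact hmv x

/-- the centralizer of a transvection is generated by the transvections commuting with it -/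
theorem cent_gen (hK : Fintype.card K = 4) {x : PSU 6 K 2} (hx : x ∈ transv K) {g : PSU 6 K 2} (hg : Commute g x) :
    g ∈ Subgroup.closure {y : PSU 6 K 2 | y ∈ transv K ∧ Commute y x} := by
  have hT := tri_transv hK
  have P := pol_psu hK (closure_transv hK)
  obtain ⟨w, hw0, hw1, hw⟩ := exists_omega hK
  set v0 : Fin 6 → K := Pi.single 0 1 + Pi.single 1 1 with hv0
  set w0 : Fin 6 → K := Pi.single 0 1 + w • Pi.single 1 1 with hw0'
  have hBs : ∀ (u : Fin 6 → K), B u v0 = u 0 + u 1 := by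
    intro u
    rw [hv0, B_add_right hK, B_single hK, B_single hK]
  have hBw : ∀ (u : Fin 6 → K), B u w0 = u 0 + w ^ 2 * u 1 := by
    intro u
    rw [hw0', B_add_right hK, B_smul_right, B_single hK, B_single hK]
  have hv00 : v0 0 = 1 := by simp [hv0]
  have hv01 : v0 1 = 1 := by simp [hv0]
  have hw00 : w0 0 = 1 := by simp [hw0']
  have hw01 : w0 1 = w := by simp [hw0']
  have hvi : Iso v0 := by
    refine ⟨fun h => ?_, ?_⟩
    · rw [h] at hv00; exact zero_ne_one hv00
    · rw [hBs, hv00, hv01, add_self hK]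
  have hw3 : w ^ 3 = 1 := pow_three hK hw0
  have hwi : Iso w0 := by
    refine ⟨fun h => ?_, ?_⟩
    · rw [h] at hw00; exact zero_ne_one hw00
    · rw [hBw, hw00, hw01]
      have : w ^ 2 * w = 1 := by rw [← hw3]; ring
      rw [this, add_self hK]
  have hvw : B v0 w0 = w := by
    rw [hBw, hv00, hv01, mul_one]
    have := add_self hK (1 + w)
    linear_combination hw - this + add_self hK 1
  -- it suffices to treat `t v0`
  suffices key : ∀ g : PSU 6 K 2, Commute g (t v0) → g ∈ Subgroup.closure {y : PSU 6 K 2 | y ∈ transv K ∧ Commute y (t v0)} by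
    obtain ⟨k, _, hk⟩ := H92.Pol.trans hT P hx ⟨v0, hvi, rfl⟩
    have h1 : Commute (k * g * k⁻¹) (t v0) := by
      rw [← hk]
      show k * g * k⁻¹ * (k * x * k⁻¹) = k * x * k⁻¹ * (k * g * k⁻¹)
      calc k * g * k⁻¹ * (k * x * k⁻¹) = k * (g * x) * k⁻¹ := by group
        _ = k * (x * g) * k⁻¹ := by rw [hg.eq]
        _ = _ := by group
    have h2 := key _ h1
    have h3 : Subgroup.closure {y : PSU 6 K 2 | y ∈ transv K ∧ Commute y (t v0)} ≤
        (Subgroup.closure {y : PSU 6 K 2 | y ∈ transv K ∧ Commute y x}).comap (MulAut.conj k⁻¹).toMonoidHom := by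
      rw [Subgroup.closure_le]
      rintro y ⟨hy, hyc⟩
      apply Subgroup.subset_closure
      show (k⁻¹ * y * k⁻¹⁻¹) ∈ _
      refine ⟨?_, ?_⟩
      · exact conj_closure hT (by rw [closure_transv hK]; trivial) hy
      · rw [← hk] at hyc
        show k⁻¹ * y * k⁻¹⁻¹ * x = x * (k⁻¹ * y * k⁻¹⁻¹)
        calc k⁻¹ * y * k⁻¹⁻¹ * x = k⁻¹ * (y * (k * x * k⁻¹)) * k := by group
          _ = k⁻¹ * ((k * x * k⁻¹) * y) * k := by rw [hyc.eq]
          _ = _ := by group
    have h4 := h3 h2
    have e : (MulAut.conj k⁻¹).toMonoidHom (k * g * k⁻¹) = g := by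
      show k⁻¹ * (k * g * k⁻¹) * k⁻¹⁻¹ = g
      group
    rw [Subgroup.mem_comap, e] at h4
    exact h4
  clear hg g hx x
  intro g hg
  set S : Set (PSU 6 K 2) := {y | y ∈ transv K ∧ Commute y (t v0)} with hS
  have hSc : ∀ h ∈ Subgroup.closure S, Commute h (t v0) := by
    intro h hh
    have : Subgroup.closure S ≤ Subgroup.centralizer ({t v0} : Set (PSU 6 K 2)) := by
      rw [Subgroup.closure_le]
      intro y hy
      rw [SetLike.mem_coe, Subgroup.mem_centralizer_singleton_iff]
      exact hy.2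
    exact Subgroup.mem_centralizer_singleton_iff.1 (this hh)
  have hdv : t v0 ∈ transv K := ⟨v0, hvi, rfl⟩
  have hdw : t w0 ∈ transv K := ⟨w0, hwi, rfl⟩
  have hnc : ¬ Commute (t w0) (t v0) := by
    intro h
    have := (t_comm_iff hK (by norm_num) hvi hwi).1 h.symm
    rw [hvw] at this
    exact hw0 this
  have hgw : g * t w0 * g⁻¹ ∈ transv K := conj_closure hT (by rw [closure_transv hK]; trivial) hdw
  have hnc' : ¬ Commute (g * t w0 * g⁻¹) (t v0) := by
    intro h
    apply hnc
    have e1 : t v0 = g * t v0 * g⁻¹ := by rw [hg.eq, mul_inv_cancel_right]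
    rw [e1] at h
    have h2 : g * t w0 * g⁻¹ * (g * t v0 * g⁻¹) = g * t v0 * g⁻¹ * (g * t w0 * g⁻¹) := h
    show t w0 * t v0 = t v0 * t w0
    calc t w0 * t v0 = g⁻¹ * (g * t w0 * g⁻¹ * (g * t v0 * g⁻¹)) * g := by group
      _ = g⁻¹ * (g * t v0 * g⁻¹ * (g * t w0 * g⁻¹)) * g := by rw [h2]
      _ = _ := by group
  obtain ⟨h, hh, hhe⟩ := H92.Pol.rank3 hT P hdv hgw hdw hnc' hnc
  have hhS : h ∈ Subgroup.closure S := by
    have : Subgroup.closure (C (transv K) (t v0) ∪ {t v0}) ≤ Subgroup.closure S := by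
      rw [Subgroup.closure_le]
      rintro y (hy | hy)
      · exact Subgroup.subset_closure ⟨hy.1, hy.2.2.symm⟩
      · rw [Set.mem_singleton_iff] at hy
        rw [hy]; exact Subgroup.subset_closure ⟨hdv, Commute.refl _⟩
    exact this hh
  have hc1 : Commute (h * g) (t v0) := (hSc h hhS).mul_left hg
  have hc2 : (h * g) * t w0 * (h * g)⁻¹ = t w0 := by
    calc (h * g) * t w0 * (h * g)⁻¹ = h * (g * t w0 * g⁻¹) * h⁻¹ := by group
      _ = t w0 := hhe
  suffices hm : h * g ∈ Subgroup.closure S by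
    have : g = h⁻¹ * (h * g) := by group
    rw [this]
    exact Subgroup.mul_mem _ (Subgroup.inv_mem _ hhS) hm
  obtain ⟨M, hM⟩ := QuotientGroup.mk_surjective (h * g)
  have a1 : t (act M v0) = t v0 := by
    rw [← t_conj hK hvi.2]
    show (QuotientGroup.mk M : PSU 6 K 2) * t v0 * (QuotientGroup.mk M : PSU 6 K 2)⁻¹ = t v0
    rw [hM, hc1.eq, mul_inv_cancel_right]
  have a2 : t (act M w0) = t w0 := by
    rw [← t_conj hK hwi.2]
    show (QuotientGroup.mk M : PSU 6 K 2) * t w0 * (QuotientGroup.mk M : PSU 6 K 2)⁻¹ = t w0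
    rw [hM, hc2]
  obtain ⟨a, ha⟩ := (t_inj hK (by norm_num) (hvi.act M) hvi).1 a1
  obtain ⟨b, hb⟩ := (t_inj hK (by norm_num) (hwi.act M) hwi).1 a2
  have ha0 : a ≠ 0 := by
    rintro rfl; rw [zero_smul] at ha; exact (hvi.act M).1 ha
  have hb0 : b ≠ 0 := by
    rintro rfl; rw [zero_smul] at hb; exact (hwi.act M).1 hb
  have hab : a = b := by
    have h5 := B_act M v0 w0
    rw [ha, hb, B_smul_left, B_smul_right, hvw] at h5
    have h6 : a * b ^ 2 = 1 := by
      have : w * (a * b ^ 2 - 1) = 0 := by linear_combination h5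
      rcases mul_eq_zero.1 this with h7 | h7
      · exact absurd h7 hw0
      · exact sub_eq_zero.1 h7
    have h7 := pow_three hK hb0
    calc a = a * b ^ 3 := by rw [h7, mul_one]
      _ = (a * b ^ 2) * b := by ring
      _ = b := by rw [h6, one_mul]
  obtain ⟨s, hs⟩ := exists_scalar hK (inv_ne_zero ha0)
  have hs1 : (QuotientGroup.mk s : PSU 6 K 2) = 1 := (QuotientGroup.eq_one_iff _).2 (center_of_scalar s hs)
  -- the coordinate vectors as combinations
  have hden : (1 + w) ≠ 0 := by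
    intro h8; exact hw1 (eq_of_add_eq_zero hK (by rw [← h8]; ring))
  have c1 : (Pi.single 1 1 : Fin 6 → K) = (1 + w)⁻¹ • (v0 + w0) := by
    have : v0 + w0 = (1 + w) • (Pi.single 1 1 : Fin 6 → K) := by
      rw [hv0, hw0', add_smul, one_smul]
      have := vec_add_self hK (Pi.single 0 1 : Fin 6 → K)
      calc Pi.single 0 1 + Pi.single 1 1 + (Pi.single 0 1 + w • Pi.single 1 1)
          = (Pi.single 0 1 + Pi.single 0 1) + (Pi.single 1 1 + w • Pi.single 1 1 : Fin 6 → K) := by abel
        _ = _ := by rw [this, zero_add]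
    rw [this, smul_smul, inv_mul_cancel₀ hden, one_smul]
  have c0 : (Pi.single 0 1 : Fin 6 → K) = v0 + Pi.single 1 1 := by
    rw [hv0, add_assoc, vec_add_self hK, add_zero]
  have f1 : act (s * M) v0 = v0 := by
    rw [act_mul, ha, map_smul, hs, smul_smul, mul_inv_cancel₀ ha0, one_smul]
  have f2 : act (s * M) w0 = w0 := by
    rw [act_mul, hb, map_smul, hs, smul_smul, hab, mul_inv_cancel₀ hb0, one_smul]
  have g1 : act (s * M) (Pi.single 1 1) = Pi.single 1 1 := by
    rw [c1, map_smul, map_add, f1, f2]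
  have g0 : act (s * M) (Pi.single 0 1) = Pi.single 0 1 := by
    rw [c0, map_add, f1, g1]
  have hmem := mem_closure_T hK (s * M) g0 g1
  have hfin : (QuotientGroup.mk (s * M) : PSU 6 K 2) ∈ Subgroup.closure S := by
    have h9 : Subgroup.closure {g : SU 6 K 2 | ∃ v : Fin 6 → K, Iso v ∧ v 0 = 0 ∧ v 1 = 0 ∧ T v = g} ≤
        (Subgroup.closure S).comap (QuotientGroup.mk' (Subgroup.center (SU 6 K 2))) := by
      rw [Subgroup.closure_le]
      rintro _ ⟨v, hv, h0, h1, rfl⟩
      apply Subgroup.subset_closure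
      refine ⟨⟨v, hv, rfl⟩, ?_⟩
      apply (t_comm_iff hK (by norm_num) hv hvi).2
      rw [hBs, h0, h1, add_zero]
    exact h9 hmem
  have hlast : (QuotientGroup.mk (s * M) : PSU 6 K 2) = h * g := by
    rw [← hM]
    show (QuotientGroup.mk s : PSU 6 K 2) * QuotientGroup.mk M = QuotientGroup.mk M
    rw [hs1, one_mul]
  rw [hlast] at hfin
  exact hfin

end psu

end H19.UCovA
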