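import Mathlib
import Cfsg.Agent.Lib.H19.UCovA
import Cfsg.Agent.Lib.H92.Width

/-!
Central extensions of `PSU 6 K 2` by a group of order two: the transvections lift to a class of 3-transpositions.
-/

set_option autoImplicit false
set_option linter.unusedSectionVars false
set_option linter.style.haveILetI false
set_option linter.unusedVariables false
open Cfsg Matrix

namespace H19.UCovB
open H92.Herm H92.UTransv H92.PV H92.ULift H92.PolPSU H92.Tri H92.Pol H19.UCovA

/-- central extensions of `PSU 6 K 2` by a group of order two -/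
structure Cov {C : Type*} [Group C] (K : Type) [Field K] [Fintype K] (π : C →* PSU 6 K 2) (z : C) : Prop where
  card : Fintype.card K = 4
  surj : Function.Surjective π
  cent : ∀ c, c * z = z * c
  sq : z * z = 1
  ker : ∀ c, π c = 1 → c = 1 ∨ c = z
  ne : z ≠ 1
  pz : π z = 1

variable {C : Type*} [Group C] {K : Type} [Field K] [Fintype K] {π : C →* PSU 6 K 2} {z : C} (H : Cov K π z)
include H

theorem Cov.comm_of {x y : C} (hx : π x ∈ transv K) (hy : π y ∈ transv K) (h : Commute (π x) (π y)) : Commute x y := by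
  obtain ⟨u, hu, hux⟩ := hx
  obtain ⟨v, hv, hvy⟩ := hy
  by_cases he : π x = π y
  · rcases lift_eq π z H.ker he with h1 | h1
    · rw [h1]
    · rw [h1]
      show y * z * y = y * (y * z)
      rw [mul_assoc, ← H.cent y]
  · have hB : B u v = 0 := (t_comm_iff H.card (by norm_num) hu hv).1 (by rw [hux, hvy]; exact h)
    have hli : LinearIndependent K ![u, v] := by
      apply indep_of_ne (tri_transv H.card) (pol_psu H.card (closure_transv H.card)) hu hv
      rw [hux, hvy]; exact he
    exact lifts_commute π z H.card le_rfl H.surj H.cent H.sq H.ker hli hu.2 hv.2 hB x y hux.symm hvy.symm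

theorem Cov.inv_of {y : C} (hy : π y * π y = 1) : y * y = 1 :=
  lift_involution π z H.card le_rfl H.surj H.cent H.sq H.ker y hy

theorem Cov.comm_cent {x : C} (hx : π x ∈ transv K) {c : C} (hc : Commute (π c) (π x)) : Commute c x := by
  have h1 := cent_gen H.card hx hc
  have key : ∀ g ∈ Subgroup.closure {y : PSU 6 K 2 | y ∈ transv K ∧ Commute y (π x)}, ∀ c, π c = g → Commute c x := by
    intro g hg
    induction hg using Subgroup.closure_induction with
    | mem y hy =>
      intro c hc
      rw [← hc] at hy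
      exact H.comm_of hy.1 hx hy.2
    | one =>
      intro c hc
      rcases H.ker c hc with h2 | h2
      · rw [h2]; exact Commute.one_left x
      · rw [h2]; exact (H.cent x).symm
    | mul a b _ _ ha hb =>
      intro c hc
      obtain ⟨c1, h1⟩ := H.surj a
      obtain ⟨c2, h2⟩ := H.surj b
      have h3 : π c = π (c1 * c2) := by rw [hc, map_mul, h1, h2]
      have h4 : Commute (c1 * c2) x := (ha c1 h1).mul_left (hb c2 h2)
      rcases lift_eq π z H.ker h3 with h5 | h5
      · rw [h5]; exact h4
      · rw [h5]; exact h4.mul_left (H.cent x).symm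
    | inv a _ ha =>
      intro c hc
      have h2 : π c⁻¹ = a := by rw [map_inv, hc, inv_inv]
      have := ha c⁻¹ h2
      have h3 := this.inv_left
      rwa [inv_inv] at h3
  exact key _ h1 c rfl

theorem Cov.not_fuse {x : C} (hx : π x ∈ transv K) (c : C) : c * x * c⁻¹ ≠ x * z := by
  intro h
  have h1 : π c * π x * (π c)⁻¹ = π x := by
    have := congrArg π h
    rw [map_mul, map_mul, map_inv, map_mul, H.pz, mul_one] at this
    exact this
  have h2 : Commute (π c) (π x) := mul_inv_eq_iff_eq_mul.1 h1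
  have h3 := H.comm_cent hx h2
  rw [h3.eq, mul_inv_cancel_right] at h
  have h4 : x * 1 = x * z := by rw [mul_one]; exact h
  exact H.ne (mul_left_cancel h4).symm

omit H in
/-- the class -/
def D (x0 : C) : Set C := {y | ∃ c, c * x0 * c⁻¹ = y}

omit [Fintype K] H in
theorem conj_D {x0 y : C} (hy : y ∈ D x0) (g : C) : g * y * g⁻¹ ∈ D x0 := by
  obtain ⟨c, rfl⟩ := hy
  exact ⟨g * c, by group⟩

section cls
variable {x0 : C} (h0 : π x0 ∈ transv K)
include h0

theorem Cov.mem_transv {y : C} (hy : y ∈ D x0) : π y ∈ transv K := by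
  obtain ⟨c, rfl⟩ := hy
  rw [map_mul, map_mul, map_inv]
  exact conj_closure (tri_transv H.card) (by rw [closure_transv H.card]; trivial) h0

theorem Cov.uniq {x y : C} (hx : x ∈ D x0) (hy : y ∈ D x0) (h : π x = π y) : x = y := by
  rcases lift_eq π z H.ker h with h1 | h1
  · exact h1
  · exfalso
    obtain ⟨c, rfl⟩ := hx
    obtain ⟨c', rfl⟩ := hy
    apply H.not_fuse h0 (c'⁻¹ * c)
    calc c'⁻¹ * c * x0 * (c'⁻¹ * c)⁻¹ = c'⁻¹ * (c * x0 * c⁻¹) * c' := by group
      _ = c'⁻¹ * (c' * x0 * c'⁻¹ * z) * c' := by rw [h1]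
      _ = x0 * c'⁻¹ * (z * c') := by group
      _ = x0 * c'⁻¹ * (c' * z) := by rw [H.cent]
      _ = x0 * z := by group

theorem Cov.exists_lift {a : PSU 6 K 2} (ha : a ∈ transv K) : ∃ x ∈ D x0, π x = a := by
  obtain ⟨k, _, hk⟩ := H92.Pol.trans (tri_transv H.card) (pol_psu H.card (closure_transv H.card)) h0 ha
  obtain ⟨c, rfl⟩ := H.surj k
  refine ⟨c * x0 * c⁻¹, ⟨c, rfl⟩, ?_⟩
  rw [map_mul, map_mul, map_inv]; exact hk

theorem Cov.not_both {x : C} (hx : x ∈ D x0) : x * z ∉ D x0 := by
  intro h
  have h1 := H.uniq h0 hx h (by rw [map_mul, H.pz, mul_one])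
  have h4 : x * 1 = x * z := by rw [mul_one]; exact h1
  exact H.ne (mul_left_cancel h4).symm

theorem Cov.sq_D {x : C} (hx : x ∈ D x0) : x * x = 1 := by
  apply H.inv_of
  exact (tri_transv H.card).sq _ (H.mem_transv h0 hx)

theorem Cov.inv_D {x : C} (hx : x ∈ D x0) : x⁻¹ = x := inv_eq_of_mul_eq_one_left (H.sq_D h0 hx)

theorem Cov.tri : Tri (D x0) := by
  refine ⟨fun x hx => H.sq_D h0 hx, ?_, ?_⟩
  · intro x hx y hy
    rcases (tri_transv H.card).three _ (H.mem_transv h0 hx) _ (H.mem_transv h0 hy) with h1 | h1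
    · exact Or.inl (H.comm_of (H.mem_transv h0 hx) (H.mem_transv h0 hy) h1)
    · right
      apply H.uniq h0
      · have := conj_D hy x
        rwa [H.inv_D h0 hx] at this
      · have := conj_D hx y
        rwa [H.inv_D h0 hy] at this
      · rw [map_mul, map_mul, map_mul, map_mul]; exact h1
  · intro x hx y hy
    have := conj_D hy x
    rwa [H.inv_D h0 hx] at this

omit H h0 in
open Classical in
/-- the lift in the class of the transvection with centre `v` -/
noncomputable def tau (π : C →* PSU 6 K 2) (x0 : C) (v : Fin 6 → K) : C :=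
  if h : ∃ x ∈ D x0, π x = t v then h.choose else 1

theorem Cov.tau_spec {v : Fin 6 → K} (hv : Iso v) : tau π x0 v ∈ D x0 ∧ π (tau π x0 v) = t v := by
  have h := H.exists_lift h0 (a := t v) ⟨v, hv, rfl⟩
  unfold tau
  rw [dif_pos h]
  exact h.choose_spec

theorem Cov.map_closure : (Subgroup.closure (D x0)).map π = ⊤ := by
  rw [eq_top_iff, ← closure_transv H.card, Subgroup.closure_le]
  intro a ha
  obtain ⟨x, hx, rfl⟩ := H.exists_lift h0 ha
  exact Subgroup.mem_map_of_mem π (Subgroup.subset_closure hx)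

theorem Cov.pol : Pol K (D x0) (tau π x0) := by
  have P := pol_psu H.card (closure_transv H.card)
  have hmap : ∀ l : List (Fin 6 → K), (∀ v ∈ l, Iso v) → π ((l.map (tau π x0)).prod) = (l.map t).prod := by
    intro l
    induction l with
    | nil => intro _; simp
    | cons a l ih =>
      intro h
      rw [List.map_cons, List.prod_cons, List.map_cons, List.prod_cons, map_mul, (H.tau_spec h0 (h a (by simp))).2,
        ih (fun v hv => h v (by simp [hv]))]
  refine ⟨H.card, fun v hv => (H.tau_spec h0 hv).1, ?_, ?_, ?_, ?_, ?_, ?_⟩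
  · intro x hx
    obtain ⟨v, hv, hvx⟩ := H.mem_transv h0 hx
    exact ⟨v, hv, H.uniq h0 (H.tau_spec h0 hv).1 hx (by rw [(H.tau_spec h0 hv).2, hvx])⟩
  · intro u v hu hv
    rw [← t_inj H.card (by norm_num) hu hv]
    constructor
    · intro h
      rw [← (H.tau_spec h0 hu).2, ← (H.tau_spec h0 hv).2, h]
    · intro h
      exact H.uniq h0 (H.tau_spec h0 hu).1 (H.tau_spec h0 hv).1 (by rw [(H.tau_spec h0 hu).2, (H.tau_spec h0 hv).2, h])
  · intro u v hu hv
    rw [← t_comm_iff H.card (by norm_num) hu hv]
    constructor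
    · intro h
      rw [← (H.tau_spec h0 hu).2, ← (H.tau_spec h0 hv).2]
      exact h.map π
    · intro h
      rw [← (H.tau_spec h0 hu).2, ← (H.tau_spec h0 hv).2] at h
      exact H.comm_of (H.mem_transv h0 (H.tau_spec h0 hu).1) (H.mem_transv h0 (H.tau_spec h0 hv).1) h
  · intro u v hu hv
    apply H.uniq h0
    · exact conj_D (H.tau_spec h0 hv).1 _
    · exact (H.tau_spec h0 (hv.act _)).1
    · rw [map_mul, map_mul, map_inv, (H.tau_spec h0 hu).2, (H.tau_spec h0 hv).2, (H.tau_spec h0 (hv.act _)).2]
      exact P.conj u v hu hv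
  · intro M
    have h1 : (QuotientGroup.mk M : PSU 6 K 2) ∈ (Subgroup.closure (D x0)).map π := by
      rw [H.map_closure h0]; trivial
    obtain ⟨k, hk, hkM⟩ := h1
    refine ⟨k, hk, fun v hv => ?_⟩
    apply H.uniq h0
    · exact conj_D (H.tau_spec h0 hv).1 _
    · exact (H.tau_spec h0 (hv.act _)).1
    · rw [map_mul, map_mul, map_inv, (H.tau_spec h0 hv).2, (H.tau_spec h0 (hv.act _)).2, hkM]
      exact t_conj H.card hv.2 M
  · intro l hl
    rw [← P.prod l hl]
    constructor
    · intro h a ha
      obtain ⟨x, hx, rfl⟩ := H.exists_lift h0 ha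
      rw [← hmap l hl]
      exact (h x hx).map π
    · intro h x hx
      -- the image is central, hence trivial
      have h1 : (l.map t).prod = 1 := by
        rw [map_t_prod]
        exact (QuotientGroup.eq_one_iff _).2 ((P.prod l hl).1 h)
      rw [← hmap l hl] at h1
      rcases H.ker _ h1 with h2 | h2
      · rw [h2]; exact Commute.one_left x
      · rw [h2]; exact (H.cent x).symm

theorem Cov.lev : H92.Lev.Lev 0 (D x0) :=
  ⟨H.tri h0, K, inferInstance, inferInstance, tau π x0, H.pol h0⟩

/-- a product of members commuting with all members is `1` or `z` -/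
theorem Cov.central {c : C} (h : ∀ x ∈ D x0, Commute c x) : c = 1 ∨ c = z := by
  apply H.ker
  have h1 : ∀ a ∈ transv K, Commute (π c) a := by
    intro a ha
    obtain ⟨x, hx, rfl⟩ := H.exists_lift h0 ha
    exact (h x hx).map π
  obtain ⟨M, hM⟩ := QuotientGroup.mk_surjective (π c)
  rw [← hM]
  apply (QuotientGroup.eq_one_iff _).2
  have heig : ∀ v : Fin 6 → K, B v v = 0 → v ≠ 0 → ∃ a : K, act M v = a • v := by
    intro v hv hv0
    have hI : Iso v := ⟨hv0, hv⟩
    have h2 := h1 (t v) ⟨v, hI, rfl⟩
    have h3 := t_conj H.card hv M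
    rw [hM, h2.eq, mul_inv_cancel_right] at h3
    exact (t_inj H.card (by norm_num) (hI.act _) hI).1 h3.symm
  obtain ⟨a, -, ha⟩ := scalar_of_eig H.card (by norm_num) _ heig
  exact center_of_scalar _ ha

theorem Cov.zcentral {c : C} (h : c = 1 ∨ c = z) (x : C) : Commute c x := by
  rcases h with h | h
  · rw [h]; exact Commute.one_left x
  · rw [h]; exact (H.cent x).symm

/-- involutions are products of at most three commuting members, up to `z` -/
theorem Cov.inv_decomp {y : C} (hy : y * y = 1) : ∃ l : List C, l.Nodup ∧ l.length ≤ 3 ∧ (∀ a ∈ l, a ∈ D x0) ∧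
    (∀ a ∈ l, ∀ b ∈ l, Commute a b) ∧ (y = l.prod ∨ y = l.prod * z) := by
  have hy' : π y * π y = 1 := by rw [← map_mul, hy, map_one]
  obtain ⟨k, v, hv, hvv, hyv⟩ := H92.UInvol.decomp_PSU H.card (by norm_num) (π y) hy'
  have hIso : ∀ i, Iso (v i) := fun i => ⟨hv.ne_zero i, hvv i i⟩
  have hk3 : k ≤ 3 := by
    have h1 := H92.Width.ti_finrank H.card (Submodule.span K (Set.range v)) (by
      intro x hx y hy
      induction hx using Submodule.span_induction with
      | mem x hx =>
        obtain ⟨i, rfl⟩ := hx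
        induction hy using Submodule.span_induction with
        | mem y hy => obtain ⟨j, rfl⟩ := hy; exact hvv i j
        | zero => simp
        | add y y' _ _ h h' => rw [B_add_right H.card, h, h', add_zero]
        | smul a y _ h => rw [B_smul_right, h, mul_zero]
      | zero => simp
      | add x x' _ _ h h' => rw [B_add_left, h, h', add_zero]
      | smul a x _ h => rw [B_smul_left, h, mul_zero])
    rw [finrank_span_eq_card hv, Fintype.card_fin] at h1
    exact h1
  have P := H.pol h0
  have hne : ∀ i j, i ≠ j → tau π x0 (v i) ≠ tau π x0 (v j) := by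
    intro i j hij
    apply ne_of_indep (H.tri h0) P (hIso i) (hIso j)
    have := hv.comp ![i, j] (by intro a b; fin_cases a <;> fin_cases b <;> simp [hij, Ne.symm hij])
    convert this using 1
    funext a; fin_cases a <;> rfl
  refine ⟨List.ofFn (fun i => tau π x0 (v i)), ?_, ?_, ?_, ?_, ?_⟩
  · rw [List.nodup_ofFn]
    intro i j hij
    by_contra hne'
    exact hne i j hne' hij
  · rw [List.length_ofFn]; exact hk3
  · intro a ha
    rw [List.mem_ofFn] at ha
    obtain ⟨i, rfl⟩ := ha
    exact (H.tau_spec h0 (hIso i)).1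
  · intro a ha b hb
    rw [List.mem_ofFn] at ha hb
    obtain ⟨i, rfl⟩ := ha
    obtain ⟨j, rfl⟩ := hb
    exact (P.comm _ _ (hIso i) (hIso j)).2 (hvv i j)
  · apply lift_eq π z H.ker
    rw [hyv, map_list_prod, List.map_ofFn]
    have : (QuotientGroup.mk (List.ofFn fun i => T (v i)).prod : PSU 6 K 2) =
        (QuotientGroup.mk' (Subgroup.center (SU 6 K 2))) (List.ofFn fun i => T (v i)).prod := rfl
    rw [this, map_list_prod, List.map_ofFn]
    congr 2
    funext i
    show t (v i) = π (tau π x0 (v i))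
    rw [(H.tau_spec h0 (hIso i)).2]

end cls

end H19.UCovB
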