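import Mathlib
import Cfsg.Agent.Lib.H19.UCovB
import Cfsg.Agent.Lib.H19.ThAbs
import Cfsg.Agent.Lib.H19.RMod
import Cfsg.Agent.Lib.H92.Hyper2
import Cfsg.Agent.Lib.H92.Uniq
import Cfsg.Agent.Lib.H92.RelList
import Cfsg.Agent.Lib.H92.PolRel

/-!
Triangles, lines and frames in double covers of `PSU 6 K 2`.
-/

set_option autoImplicit false
set_option linter.unusedSectionVars false
set_option linter.style.haveILetI false
set_option linter.unusedVariables false
open Cfsg Matrix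

universe u

namespace H19.UCovC
open H92.Herm H92.UTransv H92.PV H92.ULift H92.PolPSU H92.Tri H92.Pol H92.Geo H92.Frame H92.Lev H92.RelList H92.Inv2 H19.UCovA H19.UCovB H19.ThAbs

/-- three independent commuting members -/
structure Tr {G : Type*} [Group G] (E : Set G) (x : Fin 3 → G) : Prop where
  mem : ∀ i, x i ∈ E
  comm : ∀ i j, Commute (x i) (x j)
  ne : x 0 ≠ x 1
  nc : ∃ z ∈ E, Commute z (x 0) ∧ Commute z (x 1) ∧ ¬ Commute z (x 2)

section pol
variable {G : Type*} [Group G]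
variable {K : Type} [Field K] [Fintype K] {E : Set G} {τ : (Fin 6 → K) → G} (hT : Tri E) (P : Pol K E τ)
include hT P

theorem Tr.vec {x : Fin 3 → G} (h : Tr E x) : ∃ v : Fin 3 → Fin 6 → K, (∀ i, Iso (v i)) ∧ (∀ i, τ (v i) = x i) ∧
    LinearIndependent K v ∧ ∀ i j, B (v i) (v j) = 0 := by
  choose v hvi hvx using fun i => P.surj (x i) (h.mem i)
  have hv0 : ∀ i j, B (v i) (v j) = 0 := by
    intro i j
    rw [← P.comm _ _ (hvi i) (hvi j), hvx, hvx]; exact h.comm i j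
  refine ⟨v, hvi, hvx, ?_, hv0⟩
  apply H92.Hyper.li_three hT P hvi hv0
  · rw [hvx, hvx]; exact h.ne
  · rw [hvx, hvx, hvx]; exact h.nc

theorem triple_trans {x x' : Fin 3 → G} (h : Tr E x) (h' : Tr E x') : ∃ k ∈ Subgroup.closure E, ∀ i, k * x i * k⁻¹ = x' i := by
  obtain ⟨v, hvi, hvx, hli, hv0⟩ := h.vec hT P
  obtain ⟨v', hvi', hvx', hli', hv0'⟩ := h'.vec hT P
  obtain ⟨f, hf⟩ := exists_dual P.card v hli hv0
  obtain ⟨f', hf'⟩ := exists_dual P.card v' hli' hv0'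
  obtain ⟨M, s, hs, h1, h2⟩ := H92.Witt.exists_SU P.card hf hf'
  obtain ⟨k, hk, hkv⟩ := P.lift M
  refine ⟨k, hk, fun i => ?_⟩
  rw [← hvx, hkv _ (hvi i), h1 i, ← hvx']
  split_ifs with hi
  · exact (P.inj _ _ ((hvi' i).smul hs) (hvi' i)).2 ⟨s, rfl⟩
  · rw [one_smul]

end pol

section fr
variable {G : Type*} [Group G] [Finite G] {E : Set G} (h : Lev 0 E)
include h

/-- lines of frames -/
theorem exists_line {Δ : Set G} (hf : Fr 0 E Δ) {x y : G} (hx : x ∈ Δ) (hy : y ∈ Δ) (hne : x ≠ y) :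
    ∃ l : List G, Rel E l ∧ l.length = 5 ∧ x ∈ l ∧ y ∈ l ∧ (∀ a ∈ l, a ∈ Δ) ∧
      ∀ z ∈ E, (z ∈ l ↔ ∀ w ∈ E, Commute w x → Commute w y → Commute w z) := by
  obtain ⟨l, hl, hlen, hA, hz⟩ := block (n := 0) (E := E) h [x, y] (by simpa using hne) rfl
    (by intro a ha; simp only [List.mem_cons, List.not_mem_nil, or_false] at ha; rcases ha with rfl | rfl; exacts [hf.sub hx, hf.sub hy])
    (by
      intro a ha b hb
      simp only [List.mem_cons, List.not_mem_nil, or_false] at ha hb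
      rcases ha with rfl | rfl <;> rcases hb with rfl | rfl
      exacts [Commute.refl _, hf.comm _ hx _ hy, hf.comm _ hy _ hx, Commute.refl _])
  refine ⟨l, hl, hlen, hA x (by simp), hA y (by simp), ?_, ?_⟩
  · intro a ha
    apply hf.max h (hl.mem a ha)
    intro w hw
    refine ((hz a (hl.mem a ha)).1 ha w (hf.sub hw) ?_).symm
    intro b hb
    simp only [List.mem_cons, List.not_mem_nil, or_false] at hb
    rcases hb with rfl | rfl
    exacts [hf.comm _ hw _ hx, hf.comm _ hw _ hy]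
  · intro z hz'
    rw [hz z hz']
    constructor
    · intro h1 w hw h2 h3
      apply h1 w hw
      intro b hb
      simp only [List.mem_cons, List.not_mem_nil, or_false] at hb
      rcases hb with rfl | rfl
      exacts [h2, h3]
    · intro h1 w hw h2
      exact h1 w hw (h2 x (by simp)) (h2 y (by simp))

/-- a frame is determined by a triangle -/
theorem frame_eq {Δ : Set G} (hf : Fr 0 E Δ) {x : Fin 3 → G} (hx : Tr E x) (hxΔ : ∀ i, x i ∈ Δ) {t : G} (ht : t ∈ E)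
    (hc : ∀ i, Commute t (x i)) : t ∈ Δ := by
  by_contra htΔ
  have h5 := cnt_zero h hf ht htΔ
  obtain ⟨l, hl, hlen, hxl, hyl, hlΔ, hz⟩ := exists_line h hf (hxΔ 0) (hxΔ 1) hx.ne
  have h2 : x 2 ∉ l := by
    intro hm
    obtain ⟨w, hw, w0, w1, w2⟩ := hx.nc
    exact w2 ((hz _ (hx.mem 2)).1 hm w hw w0 w1)
  classical
  have hsub : ((insert (x 2) l.toFinset : Finset G) : Set G) ⊆ {y | y ∈ Δ ∧ Commute t y} := by
    intro a ha
    rw [Finset.coe_insert, Set.mem_insert_iff, Finset.mem_coe, List.mem_toFinset] at ha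
    rcases ha with rfl | ha
    · exact ⟨hxΔ 2, hc 2⟩
    · exact ⟨hlΔ a ha, (hz a (hl.mem a ha)).1 ha t ht (hc 0) (hc 1)⟩
  have h6 := Set.ncard_le_ncard hsub (Set.toFinite _)
  rw [Set.ncard_coe_finset, Finset.card_insert_of_notMem (by rwa [List.mem_toFinset]), List.toFinset_card_of_nodup hl.nodup, hlen, h5] at h6
  omega

/-- elements moving a triangle of a frame into the frame stabilize it -/
theorem frame_stab {Δ : Set G} (hf : Fr 0 E Δ) {x : Fin 3 → G} (hx : Tr E x) (hxΔ : ∀ i, x i ∈ Δ) {m : G}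
    (hm : ∀ y ∈ E, m * y * m⁻¹ ∈ E) (hm' : ∀ y ∈ E, m⁻¹ * y * m ∈ E) (hmx : ∀ i, m * x i * m⁻¹ ∈ Δ) :
    (fun y => m * y * m⁻¹) '' Δ = Δ := by
  symm
  apply Set.eq_of_subset_of_ncard_le _ _ (Set.toFinite _)
  · intro t ht
    refine ⟨m⁻¹ * t * m, ?_, by group⟩
    apply frame_eq h hf hx hxΔ (hm' t (hf.sub ht))
    intro i
    have h1 := hf.comm t ht _ (hmx i)
    have h2 : Commute (m⁻¹ * t * m) (m⁻¹ * (m * x i * m⁻¹) * m) := by
      show m⁻¹ * t * m * (m⁻¹ * (m * x i * m⁻¹) * m) = m⁻¹ * (m * x i * m⁻¹) * m * (m⁻¹ * t * m)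
      calc m⁻¹ * t * m * (m⁻¹ * (m * x i * m⁻¹) * m) = m⁻¹ * (t * (m * x i * m⁻¹)) * m := by group
        _ = m⁻¹ * ((m * x i * m⁻¹) * t) * m := by rw [h1.eq]
        _ = m⁻¹ * (m * x i * m⁻¹) * m * (m⁻¹ * t * m) := by group
    have e : m⁻¹ * (m * x i * m⁻¹) * m = x i := by group
    rwa [e] at h2
  · rw [Set.ncard_image_of_injective]
    intro a b hab
    exact mul_left_cancel (mul_right_cancel hab)

/-- two frames sharing a triangle are equal -/
theorem frame_uniq {Δ Δ' : Set G} (hf : Fr 0 E Δ) (hf' : Fr 0 E Δ') {x : Fin 3 → G} (hx : Tr E x) (hxΔ : ∀ i, x i ∈ Δ)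
    (hxΔ' : ∀ i, x i ∈ Δ') : Δ = Δ' := by
  symm
  apply Set.eq_of_subset_of_ncard_le _ _ (Set.toFinite _)
  · intro t ht
    exact frame_eq h hf hx hxΔ (hf'.sub ht) (fun i => hf'.comm t ht _ (hxΔ' i))
  · rw [hf.card, hf'.card]

/-- triangles exist in frames -/
theorem exists_tr {Δ : Set G} (hf : Fr 0 E Δ) {x y : G} (hx : x ∈ Δ) (hy : y ∈ Δ) (hne : x ≠ y) :
    ∃ w ∈ Δ, Tr E ![x, y, w] := by
  obtain ⟨l, hl, hlen, hxl, hyl, hlΔ, hz⟩ := exists_line h hf hx hy hne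
  classical
  have h1 : ∃ w ∈ Δ, w ∉ l := by
    by_contra hno
    push Not at hno
    have hsub : Δ ⊆ (l.toFinset : Set G) := by
      intro w hw
      rw [Finset.mem_coe, List.mem_toFinset]
      exact hno w hw
    have h2 := Set.ncard_le_ncard hsub (Set.toFinite _)
    rw [Set.ncard_coe_finset, List.toFinset_card_of_nodup hl.nodup, hlen, hf.card] at h2
    omega
  obtain ⟨w, hw, hwl⟩ := h1
  refine ⟨w, hw, ?_, ?_, hne, ?_⟩
  · intro i; fin_cases i
    exacts [hf.sub hx, hf.sub hy, hf.sub hw]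
  · intro i j
    have : ∀ i : Fin 3, (![x, y, w] : Fin 3 → G) i ∈ Δ := by
      intro i; fin_cases i
      exacts [hx, hy, hw]
    exact hf.comm _ (this i) _ (this j)
  · have h3 := (hz w (hf.sub hw)).not.1 hwl
    push Not at h3
    exact h3

/-- either a triangle or a line -/
theorem tr_or_line {x y w : G} (hx : x ∈ E) (hy : y ∈ E) (hw : w ∈ E) (hxy : Commute x y) (hxw : Commute x w) (hyw : Commute y w)
    (hne : x ≠ y) : Tr E ![x, y, w] ∨ ∃ l : List G, Rel E l ∧ l.length = 5 ∧ x ∈ l ∧ y ∈ l ∧ w ∈ l := by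
  obtain ⟨l, hl, hlen, hA, hz⟩ := block (n := 0) (E := E) h [x, y] (by simpa using hne) rfl
    (by intro a ha; simp only [List.mem_cons, List.not_mem_nil, or_false] at ha; rcases ha with rfl | rfl; exacts [hx, hy])
    (by
      intro a ha b hb
      simp only [List.mem_cons, List.not_mem_nil, or_false] at ha hb
      rcases ha with rfl | rfl <;> rcases hb with rfl | rfl
      exacts [Commute.refl _, hxy, hxy.symm, Commute.refl _])
  by_cases hwl : w ∈ l
  · exact Or.inr ⟨l, hl, hlen, hA x (by simp), hA y (by simp), hwl⟩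
  · left
    have h3 := (hz w hw).not.1 hwl
    push Not at h3
    obtain ⟨t, ht, h4, h5⟩ := h3
    refine ⟨?_, ?_, hne, t, ht, h4 x (by simp), h4 y (by simp), h5⟩
    · intro i; fin_cases i
      exacts [hx, hy, hw]
    · intro i j
      fin_cases i <;> fin_cases j
      exacts [Commute.refl _, hxy, hxw, hxy.symm, Commute.refl _, hyw, hxw.symm, hyw.symm, Commute.refl _]

/-- the frame of a triangle -/
theorem frame_tr {x : Fin 3 → G} (hx : Tr E x) : ∃ Δ, Fr 0 E Δ ∧ ∀ i, x i ∈ Δ := by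
  obtain ⟨Δ0, hf⟩ := exists_frame h
  have h2 : ∃ a ∈ Δ0, ∃ b ∈ Δ0, a ≠ b := by
    have : 1 < Δ0.ncard := by rw [hf.card]; norm_num
    obtain ⟨a, ha, b, hb, hab⟩ := (Set.one_lt_ncard (Set.toFinite _)).1 this
    exact ⟨a, ha, b, hb, hab⟩
  obtain ⟨a, ha, b, hb, hab⟩ := h2
  obtain ⟨w, hw, htr⟩ := exists_tr h hf ha hb hab
  obtain ⟨hT, K, _, _, τ, P⟩ := id h
  obtain ⟨k, hk, hkx⟩ := triple_trans hT P htr hx
  have hkE : ∀ y ∈ E, k * y * k⁻¹ ∈ E := fun y hy => conj_closure hT hk hy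
  refine ⟨_, hf.conj hkE, fun i => ?_⟩
  rw [← hkx i]
  refine ⟨_, ?_, rfl⟩
  fin_cases i
  exacts [ha, hb, hw]

/-- transitivity of the stabilizer of a frame -/
theorem stab_trans {Δ Δ' : Set G} (hf : Fr 0 E Δ) (hf' : Fr 0 E Δ') {x x' : Fin 3 → G} (hx : Tr E x) (hx' : Tr E x') (hxΔ : ∀ i, x i ∈ Δ)
    (hxΔ' : ∀ i, x' i ∈ Δ') : ∃ k ∈ Subgroup.closure E, (∀ i, k * x i * k⁻¹ = x' i) ∧ (fun y => k * y * k⁻¹) '' Δ = Δ' := by
  obtain ⟨hT, K, _, _, τ, P⟩ := id h
  obtain ⟨k, hk, hkx⟩ := triple_trans hT P hx hx'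
  have hkE : ∀ y ∈ E, k * y * k⁻¹ ∈ E := fun y hy => conj_closure hT hk hy
  refine ⟨k, hk, hkx, ?_⟩
  apply frame_uniq h (hf.conj hkE) hf' hx' _ hxΔ'
  intro i
  exact ⟨x i, hxΔ i, hkx i⟩

end fr

end H19.UCovC
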