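import Mathlib
import Cfsg.Agent.Lib.H19.UCovC

/-!
The plane structure of the group generated by a frame of a double cover of `PSU 6 K 2`.
-/

set_option autoImplicit false
set_option linter.unusedSectionVars false
set_option linter.style.haveILetI false
set_option linter.unusedVariables false
open Cfsg Matrix

universe u

namespace H19.UCovD
open H92.Herm H92.UTransv H92.PV H92.ULift H92.PolPSU H92.Tri H92.Pol H92.Geo H92.Frame H92.Lev H92.RelList H92.Inv2 H19.UCovA H19.UCovB
open H19.ThAbs H19.UCovC H19.RMod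

variable {C : Type u} [Group C] [Finite C] {K : Type} [Field K] [Fintype K] {π : C →* PSU 6 K 2} {z : C} (H : Cov K π z)
include H

theorem rel_prod {x0 : C} (h0 : π x0 ∈ transv K) {l : List C} (hl : Rel (D x0) l) : l.prod = 1 ∨ l.prod = z :=
  H.central h0 hl.cent

omit [Finite C] H in
theorem map_conj_prod (g : C) (l : List C) : (l.map (fun x => g * x * g⁻¹)).prod = g * l.prod * g⁻¹ := by
  induction l with
  | nil => simp
  | cons a l ih => rw [List.map_cons, List.prod_cons, List.prod_cons, ih]; group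

omit [Finite C] [Fintype K] H in
theorem rel_conj {x0 : C} {l : List C} (hl : Rel (D x0) l) (g : C) : Rel (D x0) (l.map (fun x => g * x * g⁻¹)) := by
  refine ⟨hl.nodup.map (fun a b hab => mul_left_cancel (mul_right_cancel hab)), ?_, ?_, ?_⟩
  · intro x hx
    obtain ⟨y, hy, rfl⟩ := List.mem_map.1 hx
    exact conj_D (hl.mem y hy) g
  · intro x' hx' y' hy'
    obtain ⟨x, hx, rfl⟩ := List.mem_map.1 hx'
    obtain ⟨y, hy, rfl⟩ := List.mem_map.1 hy'
    have := hl.comm x hx y hy
    show g * x * g⁻¹ * (g * y * g⁻¹) = g * y * g⁻¹ * (g * x * g⁻¹)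
    calc g * x * g⁻¹ * (g * y * g⁻¹) = g * (x * y) * g⁻¹ := by group
      _ = g * (y * x) * g⁻¹ := by rw [this.eq]
      _ = g * y * g⁻¹ * (g * x * g⁻¹) := by group
  · intro e he
    rw [map_conj_prod]
    have h1 := hl.cent _ (conj_D he g⁻¹)
    rw [inv_inv] at h1
    show g * l.prod * g⁻¹ * e = e * (g * l.prod * g⁻¹)
    calc g * l.prod * g⁻¹ * e = g * (l.prod * (g⁻¹ * e * g)) * g⁻¹ := by group
      _ = g * ((g⁻¹ * e * g) * l.prod) * g⁻¹ := by rw [h1.eq]
      _ = e * (g * l.prod * g⁻¹) := by group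

theorem line_const {x0 : C} (h0 : π x0 ∈ transv K) {l l' : List C} (hl : Rel (D x0) l) (hl' : Rel (D x0) l') (h5 : l.length = 5)
    (h5' : l'.length = 5) : l.prod = l'.prod := by
  have hpick : ∀ l : List C, l.Nodup → l.length = 5 → ∃ x ∈ l, ∃ y ∈ l, x ≠ y := by
    intro l hnd hlen
    match l, hlen with
    | x :: y :: r, _ =>
      refine ⟨x, by simp, y, by simp, ?_⟩
      rintro rfl
      simp at hnd
  obtain ⟨x, hx, y, hy, hxy⟩ := hpick l hl.nodup h5
  obtain ⟨x', hx', y', hy', hxy'⟩ := hpick l' hl'.nodup h5'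
  obtain ⟨g, hg, hgx, hgy⟩ := H92.Uniq.pair_trans (H.tri h0) (H.pol h0) (hl.mem x hx) (hl.mem y hy) (hl'.mem x' hx') (hl'.mem y' hy')
    (hl.comm x hx y hy) (hl'.comm x' hx' y' hy') hxy hxy'
  have hm := rel_conj hl g
  have h1 := block_unique (n := 0) (E := D x0) (H.lev h0) hm hl' (by rw [List.length_map, h5]) h5' [x', y'] (by simpa using hxy') rfl
    (by
      intro a ha
      simp only [List.mem_cons, List.not_mem_nil, or_false] at ha
      rcases ha with rfl | rfl
      · exact List.mem_map.2 ⟨x, hx, hgx⟩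
      · exact List.mem_map.2 ⟨y, hy, hgy⟩)
    (by
      intro a ha
      simp only [List.mem_cons, List.not_mem_nil, or_false] at ha
      rcases ha with rfl | rfl
      exacts [hx', hy'])
  have hp : (l.map (fun x => g * x * g⁻¹)).Perm l' := (List.perm_ext_iff_of_nodup hm.nodup hl'.nodup).2 h1
  have h2 := prod_perm hp hm.comm
  rw [map_conj_prod] at h2
  rw [← h2, ← (H.zcentral h0 (rel_prod H h0 hl) g).eq, mul_inv_cancel_right]

omit [Finite C] in
theorem map_z_prod (l : List C) : (l.map (fun x => x * z)).prod = l.prod * z ^ l.length := by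
  induction l with
  | nil => simp
  | cons a l ih =>
    have h1 : Commute z l.prod := (H.cent _).symm
    rw [List.map_cons, List.prod_cons, List.prod_cons, ih, List.length_cons, pow_succ']
    calc a * z * (l.prod * z ^ l.length) = a * (z * l.prod) * z ^ l.length := by group
      _ = a * (l.prod * z) * z ^ l.length := by rw [h1.eq]
      _ = a * l.prod * (z * z ^ l.length) := by group

omit [Finite C] in
theorem mem_Dz {x0 y : C} : y ∈ D (x0 * z) ↔ y * z ∈ D x0 := by
  constructor
  · rintro ⟨c, rfl⟩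
    refine ⟨c, ?_⟩
    calc c * x0 * c⁻¹ = c * x0 * c⁻¹ * (z * z) := by rw [H.sq, mul_one]
      _ = c * x0 * (c⁻¹ * z) * z := by group
      _ = c * x0 * (z * c⁻¹) * z := by rw [H.cent c⁻¹]
      _ = c * (x0 * z) * c⁻¹ * z := by group
  · rintro ⟨c, hc⟩
    refine ⟨c, ?_⟩
    calc c * (x0 * z) * c⁻¹ = c * x0 * (z * c⁻¹) := by group
      _ = c * x0 * (c⁻¹ * z) := by rw [H.cent]
      _ = c * x0 * c⁻¹ * z := by group
      _ = y * z * z := by rw [hc]
      _ = y := by rw [mul_assoc, H.sq, mul_one]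

omit [Finite C] in
theorem comm_z {x y : C} (h : Commute (x * z) y) : Commute x y := by
  have h1 : Commute (x * z * z) y := h.mul_left (H.cent y).symm
  rwa [mul_assoc, H.sq, mul_one] at h1

omit [Finite C] in
theorem comm_z' {x y : C} (h : Commute x y) : Commute (x * z) y := h.mul_left (H.cent y).symm

theorem rel_z {x0 : C} {l : List C} (hl : Rel (D (x0 * z)) l) : Rel (D x0) (l.map (fun x => x * z)) := by
  refine ⟨hl.nodup.map (fun a b hab => mul_right_cancel hab), ?_, ?_, ?_⟩
  · intro x hx
    obtain ⟨y, hy, rfl⟩ := List.mem_map.1 hx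
    exact (mem_Dz H).1 (hl.mem y hy)
  · intro x' hx' y' hy'
    obtain ⟨x, hx, rfl⟩ := List.mem_map.1 hx'
    obtain ⟨y, hy, rfl⟩ := List.mem_map.1 hy'
    exact (comm_z' H (comm_z' H (hl.comm x hx y hy)).symm).symm
  · intro e he
    rw [map_z_prod H]
    have h1 : e * z ∈ D (x0 * z) := by rw [mem_Dz H, mul_assoc, H.sq, mul_one]; exact he
    have h2 := (comm_z H (hl.cent _ h1).symm).symm
    have h3 : ∀ k, Commute (z ^ k) e := fun k => Commute.pow_left (H.cent e).symm k
    exact h2.mul_left (h3 _)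

omit H in
/-- the class with line products `z` -/
structure Std (K : Type) [Field K] [Fintype K] (π : C →* PSU 6 K 2) (z x0 : C) : Prop where
  h0 : π x0 ∈ transv K
  line : ∀ l : List C, Rel (D x0) l → l.length = 5 → l.prod = z

theorem exists_std : ∃ x0 : C, Std K π z x0 := by
  have P := pol_psu H.card (closure_transv H.card)
  obtain ⟨u, hu⟩ : ∃ u : Fin 6 → K, Iso u := by
    obtain ⟨x, hx0, hxx, hxi⟩ := exists_iso_perp H.card (n := 6) (m := 0) (by norm_num) ![]
    exact ⟨x, hx0, hxx⟩
  obtain ⟨x0, hx0⟩ := H.surj (t u)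
  have h0 : π x0 ∈ transv K := by rw [hx0]; exact ⟨u, hu, rfl⟩
  by_cases hex : ∃ l : List C, Rel (D x0) l ∧ l.length = 5 ∧ l.prod = z
  · obtain ⟨l, hl, hlen, hlp⟩ := hex
    refine ⟨x0, h0, fun l' hl' hlen' => ?_⟩
    rw [← hlp]; exact line_const H h0 hl' hl hlen' hlen
  · refine ⟨x0 * z, by rw [map_mul, H.pz, mul_one]; exact h0, fun l hl hlen => ?_⟩
    have h1 := rel_z H hl
    rcases rel_prod H h0 h1 with h2 | h2
    · rw [map_z_prod H, hlen] at h2
      have h3 : z ^ 5 = z := by
        calc z ^ 5 = (z * z) * (z * z) * z := by simp only [pow_succ, pow_zero, one_mul, mul_assoc]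
          _ = z := by rw [H.sq, one_mul, one_mul]
      rw [h3] at h2
      rw [eq_inv_of_mul_eq_one_left h2]
      exact inv_eq_of_mul_eq_one_left H.sq
    · exact absurd ⟨_, h1, by rw [List.length_map, hlen], h2⟩ hex

theorem sit {x0 : C} (h0 : π x0 ∈ transv K) {Δ : Set C} (hf : Fr 0 (D x0) Δ) : Sit z Δ 5 := by
  have hL := H.lev h0
  have hdec : ∀ b : C, b * b = 1 → ∃ l : List C, l.Nodup ∧ l.length ≤ 3 ∧ (∀ a ∈ l, a ∈ D x0) ∧
      (∀ a ∈ l, ∀ b ∈ l, Commute a b) ∧ (b = l.prod ∨ b = l.prod * z) ∧ ∀ y ∈ D x0, Commute b y → ∀ x ∈ l, Commute y x := by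
    intro b hb
    obtain ⟨l, h1, h2, h3, h4, h5⟩ := H.inv_decomp h0 hb
    refine ⟨l, h1, h2, h3, h4, h5, ?_⟩
    intro y hy hby
    have h6 : Commute y l.prod := by
      rcases h5 with h5 | h5
      · rw [← h5]; exact hby.symm
      · have : l.prod = b * z := by rw [h5, mul_assoc, H.sq, mul_one]
        rw [this]
        exact (comm_z' H hby).symm
    exact comm_short (H.tri h0) l h1 h3 h4 h2 hy h6
  refine ⟨H.cent, H.sq, fun x hx => H.sq_D h0 (hf.sub hx), hf.comm, ?_, ?_, by rw [hf.card]; norm_num, by rw [hf.card]; norm_num, ?_⟩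
  · intro b hb hc
    obtain ⟨l, h1, h2, h3, h4, h5, h6⟩ := hdec b hb
    have h7 : l.prod ∈ Subgroup.closure (insert z Δ) := by
      apply Subgroup.list_prod_mem
      intro a ha
      apply Subgroup.subset_closure
      right
      apply hf.max hL (h3 a ha)
      intro y hy
      exact (h6 y (hf.sub hy) (hc y hy) a ha).symm
    rcases h5 with h5 | h5
    · rw [h5]; exact h7
    · rw [h5]; exact Subgroup.mul_mem _ h7 (Subgroup.subset_closure (Set.mem_insert _ _))
  · intro b hb hbV
    obtain ⟨l, h1, h2, h3, h4, h5, h6⟩ := hdec b hb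
    have h7 : ∃ a ∈ l, a ∉ Δ := by
      by_contra hno
      push Not at hno
      apply hbV
      have h7 : l.prod ∈ Subgroup.closure (insert z Δ) := by
        apply Subgroup.list_prod_mem
        intro a ha
        exact Subgroup.subset_closure (Or.inr (hno a ha))
      rcases h5 with h5 | h5
      · rw [h5]; exact h7
      · rw [h5]; exact Subgroup.mul_mem _ h7 (Subgroup.subset_closure (Set.mem_insert _ _))
    obtain ⟨a, ha, haΔ⟩ := h7
    rw [← cnt_zero hL hf (h3 a ha) haΔ]
    apply Set.ncard_le_ncard _ (Set.toFinite _)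
    rintro y ⟨hy, hby⟩
    exact ⟨hy, (h6 y (hf.sub hy) hby a ha).symm⟩
  · intro x hx y hy u hu w hw hxy huw he
    have h1 := unique_short hL 2 (by norm_num) (by norm_num) [x, y] [u, w] (by simpa using hxy)
      (by intro a ha; simp only [List.mem_cons, List.not_mem_nil, or_false] at ha; rcases ha with rfl | rfl; exacts [hf.sub hx, hf.sub hy])
      (by
        intro a ha b hb
        simp only [List.mem_cons, List.not_mem_nil, or_false] at ha hb
        rcases ha with rfl | rfl <;> rcases hb with rfl | rfl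
        exacts [Commute.refl _, hf.comm _ hx _ hy, hf.comm _ hy _ hx, Commute.refl _]) rfl (by simpa using huw)
      (by intro a ha; simp only [List.mem_cons, List.not_mem_nil, or_false] at ha; rcases ha with rfl | rfl; exacts [hf.sub hu, hf.sub hw])
      (by
        intro a ha b hb
        simp only [List.mem_cons, List.not_mem_nil, or_false] at ha hb
        rcases ha with rfl | rfl <;> rcases hb with rfl | rfl
        exacts [Commute.refl _, hf.comm _ hu _ hw, hf.comm _ hw _ hu, Commute.refl _]) rfl (by simpa using he)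
    have h2 := (h1 u).2 (by simp)
    simpa using h2

end H19.UCovD
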