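import Mathlib
import Cfsg.Agent.Lib.H19.UCovD

/-!
The plane structure of the group generated by a frame of a double cover of `PSU 6 K 2`.
-/

set_option autoImplicit false
set_option linter.unusedSectionVars false
set_option linter.style.haveILetI false
set_option linter.unusedVariables false
open Cfsg Matrix

universe u v

namespace H19.UCovE
open H92.Herm H92.UTransv H92.PV H92.ULift H92.PolPSU H92.Tri H92.Pol H92.Geo H92.Frame H92.Lev H92.RelList H92.Inv2 H19.UCovA H19.UCovB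
open H19.ThAbs H19.UCovC H19.RMod H19.UCovD

section lists
variable {C : Type u} [Group C] {V : Type v} [CommGroup V] [Fintype V] [DecidableEq V] (ι : V →* C) (hι : Function.Injective ι)
include hι

theorem mem_tl {s : Finset V} {a : C} : a ∈ s.toList.map ι ↔ ∃ v ∈ s, ι v = a := by
  simp [List.mem_map]

theorem tl_nodup (s : Finset V) : (s.toList.map ι).Nodup := (Finset.nodup_toList s).map hι

omit [Fintype V] [DecidableEq V] hι in
theorem tl_prod (s : Finset V) : (s.toList.map ι).prod = ι (∏ x ∈ s, x) := by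
  rw [← map_list_prod]
  congr 1
  exact Finset.prod_toList s

theorem of_list (l : List C) (hnd : l.Nodup) (hl : ∀ a ∈ l, ∃ v, ι v = a) : ∃ s : Finset V, (∀ v, v ∈ s ↔ ι v ∈ l) ∧ s.card = l.length ∧
    ((∀ a ∈ l, ∀ b ∈ l, Commute a b) → ι (∏ x ∈ s, x) = l.prod) := by
  classical
  set s : Finset V := Finset.univ.filter (fun v => ι v ∈ l) with hs
  have hmem : ∀ v, v ∈ s ↔ ι v ∈ l := fun v => by simp [hs]
  have hp : (s.toList.map ι).Perm l := by
    rw [List.perm_ext_iff_of_nodup (tl_nodup ι hι s) hnd]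
    intro a
    rw [mem_tl ι hι]
    constructor
    · rintro ⟨v, hv, rfl⟩
      exact (hmem v).1 hv
    · intro ha
      obtain ⟨v, rfl⟩ := hl a ha
      exact ⟨v, (hmem v).2 ha, rfl⟩
  refine ⟨s, hmem, ?_, ?_⟩
  · have := hp.length_eq
    rw [List.length_map, Finset.length_toList] at this
    exact this
  · intro hc
    rw [← tl_prod]
    exact prod_perm hp (fun x hx y hy => hc x (hp.mem_iff.1 hx) y (hp.mem_iff.1 hy))

end lists

section plane
variable {C : Type u} [Group C] [Finite C] {K : Type} [Field K] [Fintype K] {π : C →* PSU 6 K 2} {z : C} (H : Cov K π z)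
  {x0 : C} (S : Std K π z x0) {Δ : Set C} (hf : Fr 0 (D x0) Δ)
  {V : Type v} [CommGroup V] [Fintype V] [DecidableEq V] {ι : V →* C} (hι : Function.Injective ι) (hr : ι.range = Subgroup.closure (insert z Δ))
  {zv : V} (hz : ι zv = z)
include H S hf hι hr hz

omit H S hf hι [Fintype V] [DecidableEq V] hz in
theorem mem_range {a : C} (ha : a ∈ Δ) : ∃ v, ι v = a := by
  have : a ∈ ι.range := by rw [hr]; exact Subgroup.subset_closure (Or.inr ha)
  exact this

omit [Finite C] H S hf hι hr hz in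
open Classical in
/-- the points -/
noncomputable def FF (ι : V →* C) (Δ : Set C) : Finset V := Finset.univ.filter (fun v => ι v ∈ Δ)

omit [Finite C] H S hf hι hr hz [DecidableEq V] in
theorem mem_FF {v : V} : v ∈ FF ι Δ ↔ ι v ∈ Δ := by simp [FF]

omit [Finite C] H S hf hι hr hz [Fintype V] [DecidableEq V] in
/-- the lines -/
def LL (ι : V →* C) (Δ : Set C) (zv : V) : Set (Finset V) := {l | (∀ v ∈ l, ι v ∈ Δ) ∧ l.card = 5 ∧ ∏ x ∈ l, x = zv}

omit hr in
theorem rel_of {s : Finset V} (hs : s ⊆ FF ι Δ) (hp : ∏ x ∈ s, x = 1 ∨ ∏ x ∈ s, x = zv) : Rel (D x0) (s.toList.map ι) := by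
  have hmem : ∀ a ∈ s.toList.map ι, a ∈ Δ := by
    intro a ha
    obtain ⟨v, hv, rfl⟩ := (mem_tl ι hι).1 ha
    exact mem_FF.1 (hs hv)
  refine ⟨tl_nodup ι hι s, fun a ha => hf.sub (hmem a ha), fun a ha b hb => hf.comm a (hmem a ha) b (hmem b hb), ?_⟩
  intro e he
  rw [tl_prod]
  apply H.zcentral S.h0
  rcases hp with hp | hp
  · left; rw [hp, map_one]
  · right; rw [hp, hz]

theorem of_rel {l : List C} (hl : Rel (D x0) l) (hlΔ : ∀ a ∈ l, a ∈ Δ) : ∃ s : Finset V, (∀ v, v ∈ s ↔ ι v ∈ l) ∧ s.card = l.length ∧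
    ι (∏ x ∈ s, x) = l.prod ∧ s ⊆ FF ι Δ ∧ (∏ x ∈ s, x = 1 ∨ ∏ x ∈ s, x = zv) := by
  obtain ⟨s, h1, h2, h3⟩ := of_list ι hι l hl.nodup (fun a ha => mem_range hr (hlΔ a ha))
  have h4 := h3 hl.comm
  refine ⟨s, h1, h2, h4, fun v hv => mem_FF.2 (hlΔ _ ((h1 v).1 hv)), ?_⟩
  rcases rel_prod H S.h0 hl with h5 | h5
  · left; apply hι; rw [h4, h5, map_one]
  · right; apply hι; rw [h4, h5, hz]

theorem nc_of_trg {x y w : V} (hx : x ∈ FF ι Δ) (hy : y ∈ FF ι Δ) (hw : w ∈ FF ι Δ) (ht : Trg (LL ι Δ zv) x y w) :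
    Tr (D x0) ![ι x, ι y, ι w] := by
  rw [mem_FF] at hx hy hw
  have hne : ι x ≠ ι y := fun e => ht.1 (hι e)
  obtain ⟨l, hl, hlen, hxl, hyl, hlΔ, hzl⟩ := exists_line (H.lev S.h0) hf hx hy hne
  have hwl : ι w ∉ l := by
    intro hm
    obtain ⟨s, h1, h2, h3, h4, h5⟩ := of_rel H S hf hι hr hz hl hlΔ
    apply ht.2 s _ ((h1 x).2 hxl) ((h1 y).2 hyl) ((h1 w).2 hm)
    refine ⟨fun v hv => mem_FF.1 (h4 hv), by rw [h2, hlen], ?_⟩
    apply hι
    rw [h3, hz, S.line l hl hlen]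
  refine ⟨?_, ?_, hne, ?_⟩
  · intro i; fin_cases i
    exacts [hf.sub hx, hf.sub hy, hf.sub hw]
  · intro i j
    have : ∀ i : Fin 3, (![ι x, ι y, ι w] : Fin 3 → C) i ∈ Δ := by
      intro i; fin_cases i
      exacts [hx, hy, hw]
    exact hf.comm _ (this i) _ (this j)
  · have h3 := (hzl (ι w) (hf.sub hw)).not.1 hwl
    push Not at h3
    exact h3

theorem trg_of_nc {x y w : V} (hx : x ∈ FF ι Δ) (hy : y ∈ FF ι Δ) (hw : w ∈ FF ι Δ) (ht : Tr (D x0) ![ι x, ι y, ι w]) :
    Trg (LL ι Δ zv) x y w := by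
  refine ⟨fun e => ht.ne (by show ι x = ι y; rw [e]), ?_⟩
  intro l hl hxl hyl hwl
  have hsub : l ⊆ FF ι Δ := fun v hv => mem_FF.2 (hl.1 v hv)
  have hrel := rel_of H S hf hι hz hsub (Or.inr hl.2.2)
  obtain ⟨t, ht1, ht2, ht3, ht4⟩ := ht.nc
  have h5 := (H.lev S.h0).rel_block _ hrel.nodup hrel.mem hrel.comm hrel.cent (by rw [List.length_map, Finset.length_toList, hl.2.1])
    [ι x, ι y] (by
      rw [List.nodup_cons]
      exact ⟨by rw [List.mem_singleton]; exact ht.ne, List.nodup_singleton _⟩) rfl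
    (by
      intro a ha
      simp only [List.mem_cons, List.not_mem_nil, or_false] at ha
      rcases ha with rfl | rfl
      · exact (mem_tl ι hι).2 ⟨x, hxl, rfl⟩
      · exact (mem_tl ι hι).2 ⟨y, hyl, rfl⟩) (ι w) ((mem_tl ι hι).2 ⟨w, hwl, rfl⟩) t ht1
    (by
      intro a ha
      simp only [List.mem_cons, List.not_mem_nil, or_false] at ha
      rcases ha with rfl | rfl
      exacts [ht2, ht3])
  exact ht4 h5

theorem plane : Plane zv (FF ι Δ) (LL ι Δ zv) := by
  have hsit := sit H S.h0 hf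
  have hL := H.lev S.h0
  refine ⟨?_, ?_, ?_, ?_, ?_, ?_, ?_, ?_, ?_, ?_, ?_⟩
  · intro v
    apply hι
    rw [map_mul, map_one]
    apply hsit.closure_sq'
    rw [← hr]; exact ⟨v, rfl⟩
  · intro e
    apply H.ne
    rw [← hz, e, map_one]
  · have h1 : ι '' ((FF ι Δ : Finset V) : Set V) = Δ := by
      ext a
      constructor
      · rintro ⟨v, hv, rfl⟩
        exact mem_FF.1 (Finset.mem_coe.1 hv)
      · intro ha
        obtain ⟨v, rfl⟩ := mem_range hr ha
        exact ⟨v, Finset.mem_coe.2 (mem_FF.2 ha), rfl⟩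
    have h2 := Set.ncard_image_of_injective ((FF ι Δ : Finset V) : Set V) hι
    rw [h1, hf.card, Set.ncard_coe_finset] at h2
    exact h2.symm
  · rw [eq_top_iff]
    intro v _
    have h1 : ι v ∈ (Subgroup.closure (insert zv ((FF ι Δ : Finset V) : Set V))).map ι := by
      have h2 : ι v ∈ ι.range := ⟨v, rfl⟩
      rw [hr] at h2
      rw [MonoidHom.map_closure]
      refine Subgroup.closure_mono ?_ h2
      intro a ha
      rcases Set.mem_insert_iff.1 ha with rfl | ha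
      · exact ⟨zv, Set.mem_insert _ _, hz⟩
      · obtain ⟨v, rfl⟩ := mem_range hr ha
        exact ⟨v, Or.inr (Finset.mem_coe.2 (mem_FF.2 ha)), rfl⟩
    obtain ⟨w, hw, hwv⟩ := h1
    rwa [← hι hwv]
  · intro l hl v hv
    exact mem_FF.2 (hl.1 v hv)
  · intro l hl; exact hl.2.1
  · intro l hl; exact hl.2.2
  · intro x hx y hy hne
    rw [mem_FF] at hx hy
    obtain ⟨l, hl, hlen, hxl, hyl, hlΔ, hzl⟩ := exists_line hL hf hx hy (fun e => hne (hι e))
    obtain ⟨s, h1, h2, h3, h4, h5⟩ := of_rel H S hf hι hr hz hl hlΔ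
    refine ⟨s, ⟨fun v hv => mem_FF.1 (h4 hv), by rw [h2, hlen], ?_⟩, (h1 x).2 hxl, (h1 y).2 hyl⟩
    apply hι
    rw [h3, hz, S.line l hl hlen]
  · intro x hx y hy hne l hl l' hl' hxl hyl hxl' hyl'
    have hrel := rel_of H S hf hι hz (fun v hv => mem_FF.2 (hl.1 v hv)) (Or.inr hl.2.2)
    have hrel' := rel_of H S hf hι hz (fun v hv => mem_FF.2 (hl'.1 v hv)) (Or.inr hl'.2.2)
    have h1 := block_unique (n := 0) (E := D x0) hL hrel hrel' (by rw [List.length_map, Finset.length_toList, hl.2.1])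
      (by rw [List.length_map, Finset.length_toList, hl'.2.1]) [ι x, ι y] (by
        rw [List.nodup_cons]
        exact ⟨by rw [List.mem_singleton]; exact fun e => hne (hι e), List.nodup_singleton _⟩) rfl
      (by
        intro a ha
        simp only [List.mem_cons, List.not_mem_nil, or_false] at ha
        rcases ha with rfl | rfl
        · exact (mem_tl ι hι).2 ⟨x, hxl, rfl⟩
        · exact (mem_tl ι hι).2 ⟨y, hyl, rfl⟩)
      (by
        intro a ha
        simp only [List.mem_cons, List.not_mem_nil, or_false] at ha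
        rcases ha with rfl | rfl
        · exact (mem_tl ι hι).2 ⟨x, hxl', rfl⟩
        · exact (mem_tl ι hι).2 ⟨y, hyl', rfl⟩)
    ext v
    have h2 := h1 (ι v)
    rw [mem_tl ι hι, mem_tl ι hι] at h2
    constructor
    · intro hv
      obtain ⟨w, hw, hwv⟩ := h2.1 ⟨v, hv, rfl⟩
      rwa [← hι hwv]
    · intro hv
      obtain ⟨w, hw, hwv⟩ := h2.2 ⟨v, hv, rfl⟩
      rwa [← hι hwv]
  · intro s hs hc hp
    have hrel := rel_of H S hf hι hz hs hp
    rcases H92.PolRel.rel_five (H.tri S.h0) (H.pol S.h0) _ hrel.nodup hrel.mem hrel.comm hrel.cent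
      (by rw [List.length_map, Finset.length_toList]; exact hc) with h1 | h1
    · left
      rw [List.map_eq_nil_iff, Finset.toList_eq_nil] at h1
      exact h1
    · right
      refine ⟨fun v hv => mem_FF.1 (hs hv), ?_, ?_⟩
      · have := h1.1
        rwa [List.length_map, Finset.length_toList] at this
      · apply hι
        rw [← tl_prod, hz]
        exact S.line _ hrel h1.1
  · intro x hx y hy w hw ht
    have htr := nc_of_trg H S hf hι hr hz hx hy hw ht
    obtain ⟨l, hl1, hl2, hl3⟩ := H92.Hyper2.hyper' (H.tri S.h0) (H.pol S.h0) htr.mem htr.comm htr.ne htr.nc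
    have hxi : ∀ i : Fin 3, (![ι x, ι y, ι w] : Fin 3 → C) i ∈ Δ := by
      intro i; fin_cases i
      exacts [mem_FF.1 hx, mem_FF.1 hy, mem_FF.1 hw]
    have hlΔ : ∀ c, ∀ a ∈ l c, a ∈ Δ := by
      intro c a ha
      apply hf.max hL ((hl1 c).1.mem a ha)
      intro b hb
      exact (hl3 c b (hf.sub hb) (fun i => hf.comm b hb _ (hxi i)) a ha).symm
    choose s hs1 hs2 hs3 hs4 hs5 using fun c => of_rel H S hf hι hr hz (hl1 c).1 (hlΔ c)
    refine ⟨s, ?_, ?_⟩
    · intro c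
      refine ⟨hs4 c, by rw [hs2, (hl1 c).2.1], ?_, ?_, ?_, hs5 c⟩
      · exact (hs1 c x).2 ((hl1 c).2.2 0)
      · exact (hs1 c y).2 ((hl1 c).2.2 1)
      · exact (hs1 c w).2 ((hl1 c).2.2 2)
    · intro c c' hcc u hu hu'
      obtain ⟨i, hi⟩ := hl2 c c' hcc (ι u) ((hs1 c u).1 hu) ((hs1 c' u).1 hu')
      fin_cases i
      · exact Or.inl (hι hi)
      · exact Or.inr (Or.inl (hι hi))
      · exact Or.inr (Or.inr (hι hi))

/-- the class and the group meet in the frame -/
theorem mem_FF_iff {v : V} : v ∈ FF ι Δ ↔ ι v ∈ D x0 := by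
  rw [mem_FF]
  constructor
  · intro h; exact hf.sub h
  · intro h
    apply hf.max (H.lev S.h0) h
    intro y hy
    have hsit := sit H S.h0 hf
    apply hsit.closure_comm
    · rw [← hr]; exact ⟨v, rfl⟩
    · exact Subgroup.subset_closure (Or.inr hy)

/-- the action of the stabilizer of the frame -/
theorem exists_phi {c : C} (hc : (fun y => c * y * c⁻¹) '' Δ = Δ) : ∃ φ : V ≃* V, ∀ v, ι (φ v) = c * ι v * c⁻¹ := by
  have key : ∀ v, c * ι v * c⁻¹ ∈ ι.range := by
    intro v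
    have h1 : ι v ∈ Subgroup.closure (insert z Δ) := by rw [← hr]; exact ⟨v, rfl⟩
    have h2 : (Subgroup.closure (insert z Δ)).map (MulAut.conj c).toMonoidHom ≤ Subgroup.closure (insert z Δ) := by
      rw [MonoidHom.map_closure, Subgroup.closure_le]
      rintro _ ⟨y, hy, rfl⟩
      show c * y * c⁻¹ ∈ Subgroup.closure (insert z Δ)
      rcases Set.mem_insert_iff.1 hy with rfl | hy
      · rw [H.cent, mul_inv_cancel_right]
        exact Subgroup.subset_closure (Set.mem_insert _ _)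
      · apply Subgroup.subset_closure
        right
        rw [← hc]
        exact ⟨y, hy, rfl⟩
    rw [hr]
    exact h2 ⟨ι v, h1, rfl⟩
  choose φ hφ using key
  let φ' : V →* V := ⟨⟨φ, by apply hι; rw [hφ]; simp⟩, by
    intro a b
    apply hι
    show ι (φ (a * b)) = ι (φ a * φ b)
    rw [map_mul, hφ, hφ, hφ, map_mul]
    group⟩
  have hinj : Function.Injective φ' := by
    intro a b hab
    have h1 : ι (φ a) = ι (φ b) := congrArg ι hab
    rw [hφ, hφ] at h1
    exact hι (mul_left_cancel (mul_right_cancel h1))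
  exact ⟨MulEquiv.ofBijective φ' (Finite.injective_iff_bijective.1 hinj), hφ⟩

theorem phi_trans {x y w x' y' w' : V} (hx : x ∈ FF ι Δ) (hy : y ∈ FF ι Δ) (hw : w ∈ FF ι Δ) (ht : Trg (LL ι Δ zv) x y w)
    (hx' : x' ∈ FF ι Δ) (hy' : y' ∈ FF ι Δ) (hw' : w' ∈ FF ι Δ) (ht' : Trg (LL ι Δ zv) x' y' w') :
    ∃ (φ : V ≃* V) (c : C), (∀ v, ι (φ v) = c * ι v * c⁻¹) ∧ φ x = x' ∧ φ y = y' ∧ φ w = w' ∧ φ zv = zv := by
  have h1 := nc_of_trg H S hf hι hr hz hx hy hw ht
  have h2 := nc_of_trg H S hf hι hr hz hx' hy' hw' ht'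
  obtain ⟨k, hk, hki, hkΔ⟩ := stab_trans (H.lev S.h0) hf hf h1 h2 (by
    intro i; fin_cases i
    exacts [mem_FF.1 hx, mem_FF.1 hy, mem_FF.1 hw]) (by
    intro i; fin_cases i
    exacts [mem_FF.1 hx', mem_FF.1 hy', mem_FF.1 hw'])
  obtain ⟨φ, hφ⟩ := exists_phi H S hf hι hr hz hkΔ
  refine ⟨φ, k, hφ, ?_, ?_, ?_, ?_⟩
  · apply hι; rw [hφ]; exact hki 0
  · apply hι; rw [hφ]; exact hki 1
  · apply hι; rw [hφ]; exact hki 2
  · apply hι; rw [hφ, hz, H.cent, mul_inv_cancel_right]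

end plane

end H19.UCovE
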