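import Mathlib
import Cfsg.Agent.Lib.H19.UCovE
import Cfsg.Agent.Lib.H19.RMod3

/-!
Involutions of the stabilizer of a frame with five fixed points.
-/

set_option autoImplicit false
set_option linter.unusedSectionVars false
set_option linter.style.haveILetI false
set_option linter.unusedVariables false
open Cfsg Matrix

universe u v

namespace H19.UCovF
open H92.Herm H92.UTransv H92.PV H92.ULift H92.PolPSU H92.Tri H92.Pol H92.Geo H92.Frame H92.Lev H92.RelList H92.Inv2 H19.UCovA H19.UCovB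
open H19.ThAbs H19.UCovC H19.RMod H19.UCovD H19.UCovE

variable {C : Type u} [Group C] [Finite C] {K : Type} [Field K] [Fintype K] {π : C →* PSU 6 K 2} {z : C} (H : Cov K π z)
  {x0 : C} (S : Std K π z x0) {Δ : Set C} (hf : Fr 0 (D x0) Δ)
  {V : Type v} [CommGroup V] [Fintype V] [DecidableEq V] {ι : V →* C} (hι : Function.Injective ι) (hr : ι.range = Subgroup.closure (insert z Δ))
  {zv : V} (hz : ι zv = z)
include H S hf

theorem exists_c : ∃ c t0 : C, t0 ∈ D x0 ∧ t0 ∉ Δ ∧ c * c = 1 ∧ (fun y => c * y * c⁻¹) '' Δ = Δ ∧ (∀ y ∈ Δ, (Commute c y ↔ Commute t0 y)) := by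
  have hL := H.lev S.h0
  have hT := H.tri S.h0
  have P := H.pol S.h0
  obtain ⟨a, ha, b, hb, hab⟩ : ∃ a ∈ Δ, ∃ b ∈ Δ, a ≠ b := by
    have : 1 < Δ.ncard := by rw [hf.card]; norm_num
    obtain ⟨a, ha, b, hb, hab⟩ := (Set.one_lt_ncard (Set.toFinite _)).1 this
    exact ⟨a, ha, b, hb, hab⟩
  obtain ⟨w, hw, htr⟩ := exists_tr hL hf ha hb hab
  obtain ⟨t0, ht0, h1, h2, h3⟩ := htr.nc
  have ht0Δ : t0 ∉ Δ := fun hm => h3 (hf.comm _ hm _ hw)
  obtain ⟨p, hp, hpt⟩ := P.surj t0 ht0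
  obtain ⟨u, hu, hua⟩ := P.surj a (hf.sub ha)
  have hup : B u p = 0 := by
    rw [← P.comm _ _ hu hp, hua, hpt]; exact Commute.symm h1
  have hpu : B p u = 0 := B_symm_zero H.card hup
  have hq0 : u + p ≠ 0 := by
    intro h0
    have h4 : u = (-1 : K) • p := by rw [neg_smul, one_smul]; exact eq_neg_of_add_eq_zero_left h0
    have h5 := (P.inj u p hu hp).2 ⟨-1, h4⟩
    rw [hua, hpt] at h5
    exact ht0Δ (h5 ▸ ha)
  have hq : Iso (u + p) := ⟨hq0, by rw [B_add_left, B_add_right H.card, B_add_right H.card, hu.2, hup, hpu, hp.2]; ring⟩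
  set τ := tau π x0 with hτ
  have hpq : B p (u + p) = 0 := by rw [B_add_right H.card, hpu, hp.2, add_zero]
  have hcpq : Commute (τ p) (τ (u + p)) := (P.comm _ _ hp hq).2 hpq
  have hconj : ∀ v, Iso v → B v u = 0 → τ p * τ (u + p) * τ v * (τ p * τ (u + p))⁻¹ = τ (v + B v p • u) ∧ Iso (v + B v p • u) := by
    intro v hv hvu
    have h4 := P.conj (u + p) v hq hv
    have h5 := P.conj p _ hp (hv.act (T (u + p)))
    have e : act (T p) (act (T (u + p)) v) = v + B v p • u := by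
      rw [act_T H.card hp.2, act_T H.card hq.2, B_add_right H.card, hvu, zero_add, B_add_left, B_smul_left,
        B_add_left, hup, hp.2, add_zero, mul_zero, add_zero, smul_add]
      have := vec_add_self H.card (B v p • p)
      rw [add_assoc, add_assoc, this, add_zero]
    rw [e] at h5
    refine ⟨?_, ?_⟩
    · rw [← h5, ← h4]; group
    · rw [← e]; exact (hv.act _).act _
  have hvu : ∀ v, Iso v → τ v ∈ Δ → B v u = 0 := by
    intro v hv hm
    rw [← P.comm _ _ hv hu, hua]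
    exact hf.comm _ hm _ ha
  refine ⟨τ p * τ (u + p), t0, ht0, ht0Δ, ?_, ?_, ?_⟩
  · rw [mul_assoc, ← mul_assoc (τ (u + p)), ← hcpq.eq, mul_assoc, hT.sq _ (P.mem _ hq), mul_one, hT.sq _ (P.mem _ hp)]
  · apply Set.eq_of_subset_of_ncard_le _ _ (Set.toFinite _)
    · rintro _ ⟨y, hy, rfl⟩
      obtain ⟨v, hv, rfl⟩ := P.surj y (hf.sub hy)
      obtain ⟨h4, h5⟩ := hconj v hv (hvu v hv hy)
      show τ p * τ (u + p) * τ v * (τ p * τ (u + p))⁻¹ ∈ Δ
      rw [h4]
      apply hf.max hL (P.mem _ h5)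
      intro y' hy'
      obtain ⟨v', hv', rfl⟩ := P.surj y' (hf.sub hy')
      rw [P.comm _ _ h5 hv', B_add_left, B_smul_left, B_symm_zero H.card (hvu v' hv' hy'), mul_zero, add_zero, ← P.comm _ _ hv hv']
      exact hf.comm _ hy _ hy'
    · rw [Set.ncard_image_of_injective]
      intro a b hab
      exact mul_left_cancel (mul_right_cancel hab)
  · intro y hy
    obtain ⟨v, hv, rfl⟩ := P.surj y (hf.sub hy)
    have h6 := hvu v hv hy
    constructor
    · intro hc
      have h7 : τ p ≠ τ (u + p) := by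
        intro he
        obtain ⟨k, hk⟩ := (P.inj _ _ hq hp).1 he.symm
        have h8 : u = (k - 1) • p := by rw [sub_smul, one_smul, ← hk, add_sub_cancel_right]
        have h9 := (P.inj u p hu hp).2 ⟨_, h8⟩
        rw [hua, hpt] at h9
        exact ht0Δ (h9 ▸ ha)
      have := comm_two hT (P.mem _ hp) (P.mem _ hq) (P.mem _ hv) hcpq h7 hc.symm
      rw [← hpt]
      exact this.1.symm
    · intro hc
      rw [← hpt, P.comm _ _ hp hv] at hc
      have h7 : B (u + p) v = 0 := by rw [B_add_left, hc, B_symm_zero H.card h6, add_zero]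
      exact ((P.comm _ _ hp hv).2 hc).mul_left ((P.comm _ _ hq hv).2 h7)

include hι hr hz in
theorem exists_t : ∃ (φ : V ≃* V) (c : C), (∀ v, ι (φ v) = c * ι v * c⁻¹) ∧ RMod3.Inv zv (FF ι Δ) φ ∧ (RMod3.Fx (FF ι Δ) φ).card = 5 := by
  obtain ⟨c, t0, ht0, ht0Δ, hcc, hcΔ, hcc'⟩ := exists_c H S hf
  obtain ⟨φ, hφ⟩ := exists_phi H S hf hι hr hz hcΔ
  refine ⟨φ, c, hφ, ⟨?_, ?_, ?_⟩, ?_⟩
  · intro v
    apply hι
    rw [hφ, hφ]
    calc c * (c * ι v * c⁻¹) * c⁻¹ = (c * c) * ι v * (c * c)⁻¹ := by group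
      _ = ι v := by rw [hcc]; group
  · apply hι; rw [hφ, hz, H.cent, mul_inv_cancel_right]
  · intro x hx
    rw [mem_FF] at hx ⊢
    rw [hφ, ← hcΔ]
    exact ⟨ι x, hx, rfl⟩
  · rw [← cnt_zero (H.lev S.h0) hf ht0 ht0Δ, ← Set.ncard_coe_finset, ← Set.ncard_image_of_injective _ hι]
    congr 1
    ext y
    constructor
    · rintro ⟨v, hv, rfl⟩
      rw [Finset.mem_coe, RMod3.Fx, Finset.mem_filter, mem_FF] at hv
      refine ⟨hv.1, (hcc' _ hv.1).1 ?_⟩
      have h1 := hφ v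
      rw [hv.2] at h1
      exact (mul_inv_eq_iff_eq_mul.1 h1.symm)
    · rintro ⟨hy, hty⟩
      obtain ⟨v, rfl⟩ := mem_range hr hy
      refine ⟨v, ?_, rfl⟩
      rw [Finset.mem_coe, RMod3.Fx, Finset.mem_filter, mem_FF]
      refine ⟨hy, ?_⟩
      apply hι
      rw [hφ]
      exact mul_inv_eq_iff_eq_mul.2 ((hcc' _ hy).2 hty)

end H19.UCovF
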