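import Mathlib
import Cfsg.Agent.Lib.H19.UCovD

/-!
The split case: canonical lifts of products of two transvections.
-/

set_option autoImplicit false
set_option linter.unusedSectionVars false
set_option linter.style.haveILetI false
set_option linter.unusedVariables false
open Cfsg Matrix

universe u v

namespace H19.UCovG
open H92.Herm H92.UTransv H92.PV H92.ULift H92.PolPSU H92.Tri H92.Pol H92.Geo H92.Frame H92.Lev H92.RelList H92.Inv2 H19.UCovA H19.UCovB
open H19.ThAbs H19.UCovC H19.UCovD

/-- classes with trivial short relations -/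
structure Spl {C : Type u} [Group C] (K : Type) [Field K] [Fintype K] (E : Set C) (τ : (Fin 6 → K) → C) : Prop where
  T : Tri E
  P : Pol K E τ
  r5 : ∀ l : List C, Rel E l → l.length = 5 → l.prod = 1
  r6 : ∀ l : List C, Rel E l → l.length = 6 → l.prod = 1

/-- the data of a mutually orthogonal pair -/
structure Orth {K : Type} [Field K] [Fintype K] (u : Fin 6 → K) (M : Submodule K (Fin 6 → K)) : Prop where
  uu : B u u = 0
  um : ∀ x ∈ M, B u x = 0
  mm : ∀ x ∈ M, ∀ y ∈ M, B x y = 0
  nu : u ∉ M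

variable {C : Type u} [Group C] {K : Type} [Field K] [Fintype K] {E : Set C} {τ : (Fin 6 → K) → C} (S : Spl K E τ)
  {w : K} (hw0 : w ≠ 0) (hw1 : w ≠ 1) (hw : w ^ 2 + w + 1 = 0)

/-- canonical lifts -/
def gt (τ : (Fin 6 → K) → C) (w : K) (u q : Fin 6 → K) : C := τ (u + w • q) * τ (u + w ^ 2 • q)

section
variable {u : Fin 6 → K} {M : Submodule K (Fin 6 → K)} (O : Orth u M)
include O S

theorem Orth.iso {x : Fin 6 → K} (hx : x ∈ M) : Iso (u + x) := by
  refine ⟨?_, ?_⟩
  · intro h
    apply O.nu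
    rw [eq_neg_of_add_eq_zero_left h]
    exact M.neg_mem hx
  · rw [B_add_left, B_add_right S.P.card, B_add_right S.P.card, O.uu, O.um x hx, B_symm_zero S.P.card (O.um x hx), O.mm x hx x hx]
    ring

theorem Orth.orth {x y : Fin 6 → K} (hx : x ∈ M) (hy : y ∈ M) : B (u + x) (u + y) = 0 := by
  rw [B_add_left, B_add_right S.P.card, B_add_right S.P.card, O.uu, O.um y hy, B_symm_zero S.P.card (O.um x hx), O.mm x hx y hy]
  ring

theorem Orth.inj {x y : Fin 6 → K} (hx : x ∈ M) (hy : y ∈ M) (h : τ (u + x) = τ (u + y)) : x = y := by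
  obtain ⟨a, ha⟩ := (S.P.inj _ _ (O.iso S hx) (O.iso S hy)).1 h
  have h1 : (1 - a) • u = a • y - x := by
    rw [sub_smul, one_smul, sub_eq_sub_iff_add_eq_add, ha, smul_add, add_comm]
  have h2 : (1 - a) = 0 := by
    by_contra hne
    apply O.nu
    have : u = (1 - a)⁻¹ • (a • y - x) := by rw [← h1, smul_smul, inv_mul_cancel₀ hne, one_smul]
    rw [this]
    exact M.smul_mem _ (M.sub_mem (M.smul_mem _ hy) hx)
  have h3 : a = 1 := (sub_eq_zero.1 h2).symm
  rw [h3, one_smul] at ha
  exact add_left_cancel ha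

theorem comm_rho {x y : Fin 6 → K} (hx : x ∈ M) (hy : y ∈ M) : Commute (τ (u + x)) (τ (u + y)) :=
  (S.P.comm _ _ (O.iso S hx) (O.iso S hy)).2 (O.orth S hx hy)

/-- relations among the points `u + x` -/
theorem rel_rho (l : List (Fin 6 → K)) (hl : ∀ x ∈ l, x ∈ M) (hnd : l.Nodup)
    (h : ∀ z : Fin 6 → K, (l.map (fun x => B z (u + x) • (u + x))).sum = 0) : Rel E (l.map (fun x => τ (u + x))) := by
  refine ⟨?_, ?_, ?_, ?_⟩
  · apply List.Nodup.map_on _ hnd
    intro x hx y hy hxy
    exact O.inj S (hl x hx) (hl y hy) hxy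
  · intro a ha
    obtain ⟨x, hx, rfl⟩ := List.mem_map.1 ha
    exact S.P.mem _ (O.iso S (hl x hx))
  · intro a ha b hb
    obtain ⟨x, hx, rfl⟩ := List.mem_map.1 ha
    obtain ⟨y, hy, rfl⟩ := List.mem_map.1 hb
    exact comm_rho S O (hl x hx) (hl y hy)
  · have h1 : (l.map (fun x => u + x)).map τ = l.map (fun x => τ (u + x)) := by rw [List.map_map]; rfl
    rw [← h1]
    apply (S.P.prod _ _).2
    · have h2 : ((l.map (fun x => u + x)).map T).prod = 1 := by
        apply act_ext
        intro z
        rw [act_prod_T S.P.card, act_one, List.map_map]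
        · have := h z
          rw [show (fun p => B z p • p) ∘ (fun x => u + x) = fun x => B z (u + x) • (u + x) from rfl, this, add_zero]
        · intro p hp q hq
          obtain ⟨x, hx, rfl⟩ := List.mem_map.1 hp
          obtain ⟨y, hy, rfl⟩ := List.mem_map.1 hq
          exact O.orth S (hl x hx) (hl y hy)
      rw [h2]
      exact Subgroup.one_mem _
    · intro v hv
      obtain ⟨x, hx, rfl⟩ := List.mem_map.1 hv
      exact O.iso S (hl x hx)

theorem sq_rho {x : Fin 6 → K} (hx : x ∈ M) : τ (u + x) * τ (u + x) = 1 := S.T.sq _ (S.P.mem _ (O.iso S hx))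

omit O S in
theorem gt_zero (S : Spl K E τ) (O : Orth u M) : gt τ w u 0 = 1 := by
  unfold gt
  rw [smul_zero, smul_zero]
  exact sq_rho S O M.zero_mem

theorem gt_sq {q : Fin 6 → K} (hq : q ∈ M) : gt τ w u q * gt τ w u q = 1 := by
  unfold gt
  have h1 := comm_rho S O (M.smul_mem w hq) (M.smul_mem (w ^ 2) hq)
  calc τ (u + w • q) * τ (u + w ^ 2 • q) * (τ (u + w • q) * τ (u + w ^ 2 • q))
      = τ (u + w • q) * (τ (u + w ^ 2 • q) * τ (u + w • q)) * τ (u + w ^ 2 • q) := by group
    _ = τ (u + w • q) * (τ (u + w • q) * τ (u + w ^ 2 • q)) * τ (u + w ^ 2 • q) := by rw [h1.eq]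
    _ = (τ (u + w • q) * τ (u + w • q)) * (τ (u + w ^ 2 • q) * τ (u + w ^ 2 • q)) := by group
    _ = 1 := by rw [sq_rho S O (M.smul_mem w hq), sq_rho S O (M.smul_mem _ hq), one_mul]

include hw0 hw1 hw

theorem gt_mul {q q' : Fin 6 → K} (hq : q ∈ M) (hq' : q' ∈ M) : gt τ w u q * gt τ w u q' = gt τ w u (q + q') := by
  have hK := S.P.card
  have hw3 : w ^ 3 = 1 := by linear_combination (w - 1) * hw
  have hw4 : w ^ 4 = w := by linear_combination (w ^ 2 - w) * hw
  haveI := charP_two hK
  have h2 : (2 : K) = 0 := CharTwo.two_eq_zero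
  have h1w : (1 : K) + w = w ^ 2 := by linear_combination hw - w ^ 2 * h2
  have h1w2 : (1 : K) + w ^ 2 = w := by linear_combination hw - w * h2
  by_cases hq0 : q = 0
  · rw [hq0, gt_zero S O, one_mul, zero_add]
  have hall : ∀ a : K, a = 0 ∨ a = 1 ∨ a = w ∨ a = w ^ 2 := by
    intro a
    have h3 := H92.Herm.pow_four hK a
    have h4 : a * (a - 1) * (a - w) * (a - w ^ 2) = 0 := by
      linear_combination h3 - (a ^ 2 - a) * a * hw + (a ^ 2 - a) * hw3
    rcases mul_eq_zero.1 h4 with h5 | h5
    · rcases mul_eq_zero.1 h5 with h6 | h6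
      · rcases mul_eq_zero.1 h6 with h7 | h7
        · exact Or.inl h7
        · exact Or.inr (Or.inl (sub_eq_zero.1 h7))
      · exact Or.inr (Or.inr (Or.inl (sub_eq_zero.1 h6)))
    · exact Or.inr (Or.inr (Or.inr (sub_eq_zero.1 h5)))
  by_cases hdep : ∃ a : K, a • q = q'
  · obtain ⟨a, rfl⟩ := hdep
    have hR : ∀ k : K, k • q ∈ M := fun k => M.smul_mem k hq
    have hc : ∀ k k' : K, Commute (τ (u + k • q)) (τ (u + k' • q)) := fun k k' => comm_rho S O (hR k) (hR k')
    have hs : ∀ k : K, τ (u + k • q) * τ (u + k • q) = 1 := fun k => sq_rho S O (hR k)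
    rcases hall a with ha | ha | ha | ha
    · rw [ha, zero_smul, gt_zero S O, mul_one, add_zero]
    · rw [ha, one_smul, gt_sq S O hq, H92.Herm.vec_add_self hK, gt_zero S O]
    · have e : q + w • q = w ^ 2 • q := by rw [← h1w, add_smul, one_smul]
      rw [ha, e]
      unfold gt
      have e1 : w • (w • q) = w ^ 2 • q := by rw [smul_smul]; ring_nf
      have e2 : w ^ 2 • (w • q) = (1 : K) • q := by rw [smul_smul]; congr 1; linear_combination hw3
      have e3 : w • (w ^ 2 • q) = (1 : K) • q := by rw [smul_smul]; congr 1; linear_combination hw3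
      have e4 : w ^ 2 • (w ^ 2 • q) = w • q := by rw [smul_smul]; congr 1; linear_combination hw4
      rw [e1, e2, e3, e4]
      calc τ (u + w • q) * τ (u + w ^ 2 • q) * (τ (u + w ^ 2 • q) * τ (u + (1 : K) • q))
          = τ (u + w • q) * (τ (u + w ^ 2 • q) * τ (u + w ^ 2 • q)) * τ (u + (1 : K) • q) := by group
        _ = τ (u + w • q) * τ (u + (1 : K) • q) := by rw [hs, mul_one]
        _ = _ := (hc _ _).eq
    · have e : q + w ^ 2 • q = w • q := by
        conv_rhs => rw [← h1w2]
        rw [add_smul, one_smul]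
      rw [ha, e]
      unfold gt
      have e1 : w • (w • q) = w ^ 2 • q := by rw [smul_smul]; ring_nf
      have e2 : w ^ 2 • (w • q) = (1 : K) • q := by rw [smul_smul]; congr 1; linear_combination hw3
      have e3 : w • (w ^ 2 • q) = (1 : K) • q := by rw [smul_smul]; congr 1; linear_combination hw3
      have e4 : w ^ 2 • (w ^ 2 • q) = w • q := by rw [smul_smul]; congr 1; linear_combination hw4
      rw [e1, e2, e3, e4]
      calc τ (u + w • q) * τ (u + w ^ 2 • q) * (τ (u + (1 : K) • q) * τ (u + w • q))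
          = τ (u + w • q) * τ (u + w ^ 2 • q) * (τ (u + w • q) * τ (u + (1 : K) • q)) := by rw [(hc 1 w).eq]
        _ = τ (u + w • q) * (τ (u + w ^ 2 • q) * τ (u + w • q)) * τ (u + (1 : K) • q) := by group
        _ = τ (u + w • q) * (τ (u + w • q) * τ (u + w ^ 2 • q)) * τ (u + (1 : K) • q) := by rw [(hc (w ^ 2) w).eq]
        _ = (τ (u + w • q) * τ (u + w • q)) * (τ (u + w ^ 2 • q) * τ (u + (1 : K) • q)) := by group
        _ = _ := by rw [hs, one_mul]
  · have hli : LinearIndependent K ![q, q'] := by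
      rw [LinearIndependent.pair_iff' hq0]
      intro a ha
      exact hdep ⟨a, ha⟩
    have hne : ∀ a b a' b' : K, a • q + b • q' = a' • q + b' • q' → a = a' ∧ b = b' := by
      intro a b a' b' h
      rw [LinearIndependent.pair_iff] at hli
      have h3 := hli (a - a') (b - b') (by
        rw [sub_smul, sub_smul]
        have : a • q + b • q' - (a' • q + b' • q') = 0 := sub_eq_zero.2 h
        rw [← this]; abel)
      exact ⟨sub_eq_zero.1 h3.1, sub_eq_zero.1 h3.2⟩
    have hw2 : w ≠ w ^ 2 := by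
      intro e
      apply hw1
      have : w * (w - 1) = 0 := by linear_combination -e
      rcases mul_eq_zero.1 this with h | h
      · exact absurd h hw0
      · exact sub_eq_zero.1 h
    have hw20 : w ^ 2 ≠ 0 := pow_ne_zero _ hw0
    set L : List (K × K) := [(w, 0), (w ^ 2, 0), (0, w), (0, w ^ 2), (w, w), (w ^ 2, w ^ 2)] with hL
    have hLnd : L.Nodup := by
      rw [hL]
      simp [hw0, hw20, hw2, hw0.symm, hw20.symm, hw2.symm]
    have hrel := rel_rho S O (L.map (fun p => p.1 • q + p.2 • q')) (by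
        intro x hx
        obtain ⟨p, hp, rfl⟩ := List.mem_map.1 hx
        exact M.add_mem (M.smul_mem _ hq) (M.smul_mem _ hq'))
      (hLnd.map (fun p p' h => Prod.ext (hne _ _ _ _ h).1 (hne _ _ _ _ h).2)) (by
        intro z
        rw [hL]
        simp only [List.map_cons, List.map_nil, List.sum_cons, List.sum_nil, zero_smul, zero_add, add_zero]
        simp only [B_add_right hK, B_smul_right]
        funext i
        simp only [Pi.add_apply, Pi.smul_apply, smul_eq_mul, Pi.zero_apply]
        linear_combination (B z u * w * q i + B z u * w * q' i + B z u * w ^ 2 * q i + B z u * w ^ 2 * q' i + 3 * B z u * u i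
          + w ^ 2 * B z q * u i + w ^ 2 * u i * B z q' + w ^ 3 * B z q * q i + w ^ 3 * B z q' * q' i + w ^ 4 * B z q * u i
          + w ^ 4 * u i * B z q' + w ^ 6 * B z q * q i + w ^ 6 * B z q' * q' i + w ^ 3 * (B z q * q' i + q i * B z q')) * h2
          + w ^ 3 * (B z q * q' i + q i * B z q') * hw3)
    have h6 := S.r6 _ hrel (by simp [hL])
    rw [hL] at h6
    simp only [List.map_cons, List.map_nil, List.prod_cons, List.prod_nil, zero_smul, zero_add, add_zero, mul_one] at h6
    have e1 : gt τ w u q * gt τ w u q' * gt τ w u (q + q') = 1 := by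
      unfold gt
      rw [smul_add, smul_add, ← h6]
      group
    have h7 := gt_sq S O (w := w) (M.add_mem hq hq')
    calc gt τ w u q * gt τ w u q' = gt τ w u q * gt τ w u q' * (gt τ w u (q + q') * gt τ w u (q + q')) := by rw [h7, mul_one]
      _ = (gt τ w u q * gt τ w u q' * gt τ w u (q + q')) * gt τ w u (q + q') := by group
      _ = _ := by rw [e1, one_mul]

end

end H19.UCovG
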