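import Mathlib
import Cfsg.Agent.Lib.H19.UCovG

/-!
The split case: a complement in a Sylow 2-subgroup.
-/

set_option autoImplicit false
set_option linter.unusedSectionVars false
set_option linter.style.haveILetI false
set_option linter.unusedVariables false
open Cfsg Matrix

universe u v

namespace H19.UCovH
open H92.Herm H92.UTransv H92.PV H92.ULift H92.PolPSU H92.Tri H92.Pol H92.Geo H92.Frame H92.Lev H92.RelList H92.Inv2 H19.UCovA H19.UCovB
open H19.ThAbs H19.UCovC H19.UCovD H19.UCovG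
open scoped Pointwise

variable {C : Type u} [Group C] {K : Type} [Field K] [Fintype K] {E : Set C} {τ : (Fin 6 → K) → C} (S : Spl K E τ)
  {w : K} (hw0 : w ≠ 0) (hw1 : w ≠ 1) (hw : w ^ 2 + w + 1 = 0)
include S hw0 hw1 hw

theorem act_gt {u : Fin 6 → K} {M : Submodule K (Fin 6 → K)} (O : Orth u M) {q : Fin 6 → K} (hq : q ∈ M) {v : Fin 6 → K} (hv : Iso v) :
    gt τ w u q * τ v * (gt τ w u q)⁻¹ = τ (v + B v q • u + B v u • q) ∧ Iso (v + B v q • u + B v u • q) := by
  have hK := S.P.card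
  have hw3 : w ^ 3 = 1 := by linear_combination (w - 1) * hw
  haveI := charP_two hK
  have h2 : (2 : K) = 0 := CharTwo.two_eq_zero
  have i1 := O.iso S (M.smul_mem w hq)
  have i2 := O.iso S (M.smul_mem (w ^ 2) hq)
  have h4 := S.P.conj _ _ i2 hv
  have h5 := S.P.conj _ _ i1 (hv.act (T (u + w ^ 2 • q)))
  have e : act (T (u + w • q)) (act (T (u + w ^ 2 • q)) v) = v + B v q • u + B v u • q := by
    rw [act_T hK i1.2, act_T hK i2.2, B_add_left, B_smul_left, O.orth S (M.smul_mem (w ^ 2) hq) (M.smul_mem w hq), mul_zero, add_zero]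
    simp only [B_add_right hK, B_smul_right]
    funext i
    simp only [Pi.add_apply, Pi.smul_apply, smul_eq_mul]
    linear_combination (B v u * u i + w ^ 3 * B v q * q i * w ^ 0) * h2 + (B v u * q i) * hw + (B v q * u i) * hw - (B v u * q i) * h2
      - B v q * u i * h2 + B v q * u i * w * hw3 + w ^ 3 * B v q * q i * hw3
  refine ⟨?_, ?_⟩
  · rw [← e, ← h5, ← h4]
    unfold gt
    group
  · rw [← e]; exact (hv.act _).act _

/-- the group of canonical lifts -/
def GU {u : Fin 6 → K} {M : Submodule K (Fin 6 → K)} (O : Orth u M) : Subgroup C where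
  carrier := {g | ∃ q ∈ M, g = gt τ w u q}
  one_mem' := ⟨0, M.zero_mem, (gt_zero S O).symm⟩
  mul_mem' := by
    rintro _ _ ⟨q, hq, rfl⟩ ⟨q', hq', rfl⟩
    exact ⟨q + q', M.add_mem hq hq', gt_mul S hw0 hw1 hw O hq hq'⟩
  inv_mem' := by
    rintro _ ⟨q, hq, rfl⟩
    exact ⟨q, hq, inv_eq_of_mul_eq_one_left (gt_sq S O hq)⟩

theorem mem_GU {u : Fin 6 → K} {M : Submodule K (Fin 6 → K)} (O : Orth u M) {g : C} :
    g ∈ GU S hw0 hw1 hw O ↔ ∃ q ∈ M, g = gt τ w u q := Iff.rfl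

theorem GU_pgroup {u : Fin 6 → K} {M : Submodule K (Fin 6 → K)} (O : Orth u M) : IsPGroup 2 (GU S hw0 hw1 hw O) := by
  rintro ⟨g, q, hq, rfl⟩
  refine ⟨1, Subtype.ext ?_⟩
  show (gt τ w u q) ^ 2 ^ 1 = 1
  rw [pow_one, pow_two]
  exact gt_sq S O hq

section hyp
variable {e f : Fin 3 → Fin 6 → K} (h : Hyp e f)
include h

omit hw0 hw1 hw in
theorem orth1 : Orth (e 0) (Submodule.span K {f 1, f 2}) := by
  have hK := S.P.card
  have hm : ∀ x ∈ Submodule.span K {f 1, f 2}, ∃ a b : K, a • f 1 + b • f 2 = x := fun x hx => Submodule.mem_span_pair.1 hx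
  refine ⟨h.ee 0 0, ?_, ?_, ?_⟩
  · intro x hx
    obtain ⟨a, b, rfl⟩ := hm x hx
    rw [B_add_right hK, B_smul_right, B_smul_right, h.ef, h.ef]
    simp
  · intro x hx y hy
    obtain ⟨a, b, rfl⟩ := hm x hx
    obtain ⟨a', b', rfl⟩ := hm y hy
    simp only [B_add_left, B_add_right hK, B_smul_left, B_smul_right, h.ff]
    ring
  · intro hx
    obtain ⟨a, b, hab⟩ := hm _ hx
    have h1 : B (e 0) (f 0) = 1 := by rw [h.ef]; simp
    rw [← hab, B_add_left, B_smul_left, B_smul_left, h.ff, h.ff] at h1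
    simp at h1

omit hw0 hw1 hw in
theorem orth2 : Orth (f 2) (Submodule.span K {e 0, e 1}) := by
  have hK := S.P.card
  have hm : ∀ x ∈ Submodule.span K {e 0, e 1}, ∃ a b : K, a • e 0 + b • e 1 = x := fun x hx => Submodule.mem_span_pair.1 hx
  refine ⟨h.ff 2 2, ?_, ?_, ?_⟩
  · intro x hx
    obtain ⟨a, b, rfl⟩ := hm x hx
    rw [B_add_right hK, B_smul_right, B_smul_right, h.fe hK, h.fe hK]
    simp
  · intro x hx y hy
    obtain ⟨a, b, rfl⟩ := hm x hx
    obtain ⟨a', b', rfl⟩ := hm y hy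
    simp only [B_add_left, B_add_right hK, B_smul_left, B_smul_right, h.ee]
    ring
  · intro hx
    obtain ⟨a, b, hab⟩ := hm _ hx
    have h1 : B (f 2) (e 2) = 1 := by rw [h.fe hK]; simp
    rw [← hab, B_add_left, B_smul_left, B_smul_left, h.ee, h.ee] at h1
    simp at h1

theorem conj_gt {q p : Fin 6 → K} (hq : q ∈ Submodule.span K {f 1, f 2}) (hp : p ∈ Submodule.span K {e 0, e 1}) :
    gt τ w (f 2) p * gt τ w (e 0) q * (gt τ w (f 2) p)⁻¹ = gt τ w (e 0) (q + B q p • f 2) := by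
  have hK := S.P.card
  have O1 := orth1 S h
  have O2 := orth2 S h
  have hf2 : f 2 ∈ Submodule.span K {f 1, f 2} := Submodule.subset_span (by simp)
  have h0p : B (e 0) p = 0 := O2.mm _ (Submodule.subset_span (by simp)) _ hp
  have hq2 : B q (f 2) = 0 := O1.mm _ hq _ hf2
  have h02 : B (e 0) (f 2) = 0 := O1.um _ hf2
  have key : ∀ k : K, gt τ w (f 2) p * τ (e 0 + k • q) * (gt τ w (f 2) p)⁻¹ = τ (e 0 + k • (q + B q p • f 2)) := by
    intro k
    rw [(act_gt S hw0 hw1 hw O2 hp (O1.iso S (Submodule.smul_mem _ k hq))).1]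
    congr 1
    rw [B_add_left, B_smul_left, B_add_left, B_smul_left, h0p, hq2, h02, mul_zero, add_zero, zero_add, zero_smul, add_zero, smul_add,
      smul_smul, add_assoc]
  unfold gt at key ⊢
  rw [← key w, ← key (w ^ 2)]
  group

/-- matching of the two kinds of lifts -/
theorem gt_match (b : K) : gt τ w (e 0) (b • f 2) = gt τ w (f 2) (b ^ 2 • e 0) := by
  have hK := S.P.card
  have O1 := orth1 S h
  have O2 := orth2 S h
  have hf2 : f 2 ∈ Submodule.span K {f 1, f 2} := Submodule.subset_span (by simp)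
  have he0 : e 0 ∈ Submodule.span K {e 0, e 1} := Submodule.subset_span (by simp)
  by_cases hb : b = 0
  · rw [hb, zero_smul, gt_zero S O1]
    rw [show (0 : K) ^ 2 • e 0 = 0 by simp, gt_zero S O2]
  · have hw3 : w ^ 3 = 1 := by linear_combination (w - 1) * hw
    have hb3 := H92.Herm.pow_three hK hb
    have hpt : ∀ k k' : K, k * k' = 1 → τ (f 2 + k • (b ^ 2 • e 0)) = τ (e 0 + k' • (b • f 2)) := by
      intro k k' hk
      apply (S.P.inj _ _ (O2.iso S (Submodule.smul_mem _ _ (Submodule.smul_mem _ _ he0)))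
        (O1.iso S (Submodule.smul_mem _ _ (Submodule.smul_mem _ _ hf2)))).2
      refine ⟨k * b ^ 2, ?_⟩
      rw [smul_add, smul_smul, smul_smul, smul_smul, add_comm]
      congr 1
      have : k * b ^ 2 * k' * b = 1 := by linear_combination b ^ 3 * hk + hb3
      rw [this, one_smul]
    unfold gt
    rw [hpt w (w ^ 2) (by linear_combination hw3), hpt (w ^ 2) w (by linear_combination hw3)]
    exact (comm_rho S O1 (Submodule.smul_mem _ _ (Submodule.smul_mem _ _ hf2)) (Submodule.smul_mem _ _ (Submodule.smul_mem _ _ hf2))).eq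

end hyp

end H19.UCovH

namespace H19.UCovH
open H92.Herm H92.UTransv H92.PV H92.ULift H92.PolPSU H92.Tri H92.Pol H92.Geo H92.Frame H92.Lev H92.RelList H92.Inv2 H19.UCovA H19.UCovB
open H19.ThAbs H19.UCovC H19.UCovD H19.UCovG
open scoped Pointwise

variable {C : Type u} [Group C] [Finite C] {K : Type} [Field K] [Fintype K] {E : Set C} {τ : (Fin 6 → K) → C} (S : Spl K E τ)

theorem norm_closure {Δ : Set C} {m : C} (hm : (fun y => m * y * m⁻¹) '' Δ = Δ) : m ∈ Subgroup.normalizer (Subgroup.closure Δ : Set C) := by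
  have h1 : (Subgroup.closure Δ).map (MulAut.conj m).toMonoidHom = Subgroup.closure Δ := by
    rw [MonoidHom.map_closure]
    have : (MulAut.conj m).toMonoidHom '' Δ = Δ := hm
    rw [this]
  rw [Subgroup.mem_normalizer_iff]
  intro g
  constructor
  · intro hg
    have h2 : (MulAut.conj m).toMonoidHom g ∈ (Subgroup.closure Δ).map (MulAut.conj m).toMonoidHom := Subgroup.mem_map_of_mem _ hg
    rwa [h1] at h2
  · intro hg
    have h2 : m * g * m⁻¹ ∈ (Subgroup.closure Δ).map (MulAut.conj m).toMonoidHom := by rw [h1]; exact hg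
    obtain ⟨g', hg', he⟩ := h2
    have h3 : g' = g := mul_left_cancel (mul_right_cancel he)
    rwa [← h3]

omit [Finite C] in
theorem perp_span {e : Fin 3 → Fin 6 → K} {v' : Fin 6 → K} (h1 : ∀ i, B (e i) v' = 0) {x : Fin 6 → K}
    (hx : x ∈ Submodule.span K (Set.range e)) : B x v' = 0 := by
  induction hx using Submodule.span_induction with
  | mem x hx => obtain ⟨i, rfl⟩ := hx; exact h1 i
  | zero => simp
  | add x y _ _ hx hy => rw [B_add_left, hx, hy, add_zero]
  | smul a x _ hx => rw [B_smul_left, hx, mul_zero]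

section
variable {w : K} (hw0 : w ≠ 0) (hw1 : w ≠ 1) (hw : w ^ 2 + w + 1 = 0) {e f : Fin 3 → Fin 6 → K} (h : Hyp e f) (he : ∀ i, Iso (e i))
include S hw0 hw1 hw h he

omit [Finite C] in
theorem iso_comb1 (x : K) : Iso (e 1 + x • e 0) := by
  refine ⟨?_, ?_⟩
  · intro h0
    have h1 : B (e 1 + x • e 0) (f 1) = 1 := by rw [B_add_left, B_smul_left, h.ef, h.ef]; simp
    rw [h0, B_zero_left] at h1
    exact zero_ne_one h1
  · simp only [B_add_left, B_add_right S.P.card, B_smul_left, B_smul_right, h.ee]; ring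

omit [Finite C] in
theorem iso_comb2 (x y : K) : Iso (e 2 + x • e 0 + y • e 1) := by
  refine ⟨?_, ?_⟩
  · intro h0
    have h1 : B (e 2 + x • e 0 + y • e 1) (f 2) = 1 := by rw [B_add_left, B_add_left, B_smul_left, B_smul_left, h.ef, h.ef, h.ef]; simp
    rw [h0, B_zero_left] at h1
    exact zero_ne_one h1
  · simp only [B_add_left, B_add_right S.P.card, B_smul_left, B_smul_right, h.ee]; ring

omit [Finite C] in
theorem move1 (al be p0 p1 : K) : (gt τ w (e 0) (al • f 1 + be • f 2) * gt τ w (f 2) (p0 • e 0 + p1 • e 1)) * τ (e 1) *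
    (gt τ w (e 0) (al • f 1 + be • f 2) * gt τ w (f 2) (p0 • e 0 + p1 • e 1))⁻¹ = τ (e 1 + al ^ 2 • e 0) := by
  have hK := S.P.card
  have O1 := orth1 S h
  have O2 := orth2 S h
  have hq : al • f 1 + be • f 2 ∈ Submodule.span K {f 1, f 2} := Submodule.mem_span_pair.2 ⟨al, be, rfl⟩
  have hp : p0 • e 0 + p1 • e 1 ∈ Submodule.span K {e 0, e 1} := Submodule.mem_span_pair.2 ⟨p0, p1, rfl⟩
  have h1 := (act_gt S hw0 hw1 hw O2 hp (he 1)).1
  have h2 := (act_gt S hw0 hw1 hw O1 hq (he 1)).1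
  have e1 : e 1 + B (e 1) (p0 • e 0 + p1 • e 1) • f 2 + B (e 1) (f 2) • (p0 • e 0 + p1 • e 1) = e 1 := by
    rw [B_add_right hK, B_smul_right, B_smul_right, h.ee, h.ee, h.ef]; simp
  have e2 : e 1 + B (e 1) (al • f 1 + be • f 2) • e 0 + B (e 1) (e 0) • (al • f 1 + be • f 2) = e 1 + al ^ 2 • e 0 := by
    rw [B_add_right hK, B_smul_right, B_smul_right, h.ee, h.ef, h.ef]; simp
  rw [e1] at h1
  rw [e2] at h2
  rw [← h2]
  calc _ = gt τ w (e 0) (al • f 1 + be • f 2) * (gt τ w (f 2) (p0 • e 0 + p1 • e 1) * τ (e 1) * (gt τ w (f 2) (p0 • e 0 + p1 • e 1))⁻¹) *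
        (gt τ w (e 0) (al • f 1 + be • f 2))⁻¹ := by group
    _ = _ := by rw [h1]

omit [Finite C] in
theorem move2 (al be p0 p1 : K) : (gt τ w (e 0) (al • f 1 + be • f 2) * gt τ w (f 2) (p0 • e 0 + p1 • e 1)) * τ (e 2) *
    (gt τ w (e 0) (al • f 1 + be • f 2) * gt τ w (f 2) (p0 • e 0 + p1 • e 1))⁻¹ =
    τ (e 2 + (p0 + (p1 * al ^ 2 + be ^ 2)) • e 0 + p1 • e 1) := by
  have hK := S.P.card
  have O1 := orth1 S h
  have O2 := orth2 S h
  have hq : al • f 1 + be • f 2 ∈ Submodule.span K {f 1, f 2} := Submodule.mem_span_pair.2 ⟨al, be, rfl⟩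
  have hp : p0 • e 0 + p1 • e 1 ∈ Submodule.span K {e 0, e 1} := Submodule.mem_span_pair.2 ⟨p0, p1, rfl⟩
  have h1 := (act_gt S hw0 hw1 hw O2 hp (he 2)).1
  have e1 : e 2 + B (e 2) (p0 • e 0 + p1 • e 1) • f 2 + B (e 2) (f 2) • (p0 • e 0 + p1 • e 1) = e 2 + p0 • e 0 + p1 • e 1 := by
    rw [B_add_right hK, B_smul_right, B_smul_right, h.ee, h.ee, h.ef]; simp [add_assoc]
  rw [e1] at h1
  have h2 := (act_gt S hw0 hw1 hw O1 hq (iso_comb2 S hw0 hw1 hw h he p0 p1)).1
  have e2 : e 2 + p0 • e 0 + p1 • e 1 + B (e 2 + p0 • e 0 + p1 • e 1) (al • f 1 + be • f 2) • e 0 +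
      B (e 2 + p0 • e 0 + p1 • e 1) (e 0) • (al • f 1 + be • f 2) = e 2 + (p0 + (p1 * al ^ 2 + be ^ 2)) • e 0 + p1 • e 1 := by
    have e3 : B (e 2 + p0 • e 0 + p1 • e 1) (al • f 1 + be • f 2) = p1 * al ^ 2 + be ^ 2 := by
      simp only [B_add_left, B_add_right hK, B_smul_left, B_smul_right, h.ef]
      simp
      ring
    have e4 : B (e 2 + p0 • e 0 + p1 • e 1) (e 0) = 0 := by
      simp only [B_add_left, B_smul_left, h.ee]
      ring
    rw [e3, e4, zero_smul, add_zero, add_smul p0]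
    abel
  rw [e2] at h2
  rw [← h2]
  calc _ = gt τ w (e 0) (al • f 1 + be • f 2) * (gt τ w (f 2) (p0 • e 0 + p1 • e 1) * τ (e 2) * (gt τ w (f 2) (p0 • e 0 + p1 • e 1))⁻¹) *
        (gt τ w (e 0) (al • f 1 + be • f 2))⁻¹ := by group
    _ = _ := by rw [h1]

omit [Finite C] in
theorem inj1 {x x' : K} (hx : τ (e 1 + x • e 0) = τ (e 1 + x' • e 0)) : x = x' := by
  obtain ⟨k, hk⟩ := (S.P.inj _ _ (iso_comb1 S hw0 hw1 hw h he x) (iso_comb1 S hw0 hw1 hw h he x')).1 hx
  have h1 := congrArg (fun v => B v (f 1)) hk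
  have h0 := congrArg (fun v => B v (f 0)) hk
  simp only [B_add_left, B_smul_left, h.ef] at h0 h1
  simp at h0 h1
  rw [← h1, one_mul] at h0
  exact h0

omit [Finite C] in
theorem inj2 {x y x' y' : K} (hx : τ (e 2 + x • e 0 + y • e 1) = τ (e 2 + x' • e 0 + y' • e 1)) : x = x' ∧ y = y' := by
  obtain ⟨k, hk⟩ := (S.P.inj _ _ (iso_comb2 S hw0 hw1 hw h he x y) (iso_comb2 S hw0 hw1 hw h he x' y')).1 hx
  have h2 := congrArg (fun v => B v (f 2)) hk
  have h1 := congrArg (fun v => B v (f 1)) hk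
  have h0 := congrArg (fun v => B v (f 0)) hk
  simp only [B_add_left, B_smul_left, h.ef] at h0 h1 h2
  simp at h0 h1 h2
  rw [← h2, one_mul] at h0 h1
  exact ⟨h0, h1⟩

end

end H19.UCovH
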