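import Mathlib
import Cfsg.Agent.Lib.H19.UCovH

/-!
The split case: a complement in a Sylow 2-subgroup.
-/

set_option autoImplicit false
set_option linter.unusedSectionVars false
set_option linter.style.haveILetI false
set_option linter.unusedVariables false
open Cfsg Matrix

universe u v

namespace H19.UCovI
open H92.Herm H92.UTransv H92.PV H92.ULift H92.PolPSU H92.Tri H92.Pol H92.Geo H92.Frame H92.Lev H92.RelList H92.Inv2 H19.UCovA H19.UCovB
open H19.ThAbs H19.UCovC H19.UCovD H19.UCovG H19.UCovH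
open scoped Pointwise

variable {C : Type u} [Group C] [Finite C] {K : Type} [Field K] [Fintype K] {E : Set C} {τ : (Fin 6 → K) → C} (S : Spl K E τ)

include S in
theorem exists_S1 (hE : ∀ y ∈ E, ∀ c : C, c * y * c⁻¹ ∈ E) {Δ : Set C} (hf : Fr 0 E Δ) {z : C} (hz : ∀ c, c * z = z * c)
    (hzΔ : z ∉ Subgroup.closure Δ) (hcard : 512 ≤ Nat.card (Subgroup.closure Δ)) :
    ∃ S1 : Subgroup C, IsPGroup 2 S1 ∧ z ∉ S1 ∧ 2 ^ 15 ≤ Nat.card S1 := by
  have hK := S.P.card
  have hL : Lev 0 E := ⟨S.T, K, inferInstance, inferInstance, τ, S.P⟩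
  obtain ⟨w, hw0, hw1, hw⟩ := exists_omega hK
  -- a hyperbolic basis
  obtain ⟨a, ha, b, hb, hab⟩ : ∃ a ∈ Δ, ∃ b ∈ Δ, a ≠ b := by
    have : 1 < Δ.ncard := by rw [hf.card]; norm_num
    obtain ⟨a, ha, b, hb, hab⟩ := (Set.one_lt_ncard (Set.toFinite _)).1 this
    exact ⟨a, ha, b, hb, hab⟩
  obtain ⟨c, hc, htr⟩ := exists_tr hL hf ha hb hab
  obtain ⟨e, he, hex, hli, he0⟩ := htr.vec S.T S.P
  obtain ⟨f, h⟩ := exists_dual hK e hli he0
  have heΔ : ∀ i, τ (e i) ∈ Δ := by
    intro i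
    rw [hex]
    fin_cases i
    exacts [ha, hb, hc]
  have htr' : Tr E (fun i => τ (e i)) := by
    have : (fun i => τ (e i)) = ![a, b, c] := funext hex
    rw [this]; exact htr
  have hspan : ∀ v : Fin 6 → K, Iso v → v ∈ Submodule.span K (Set.range e) → τ v ∈ Δ := by
    intro v hv hvs
    apply hf.max hL (S.P.mem v hv)
    intro y hy
    obtain ⟨v', hv', rfl⟩ := S.P.surj y (hf.sub hy)
    rw [S.P.comm _ _ hv hv']
    exact perp_span (fun i => by
      rw [← S.P.comm _ _ (he i) hv']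
      exact hf.comm _ (heΔ i) _ hy) hvs
  have hes : ∀ i, e i ∈ Submodule.span K (Set.range e) := fun i => Submodule.subset_span ⟨i, rfl⟩
  have O1 := orth1 S h
  have O2 := orth2 S h
  have hPs : Submodule.span K {e 0, e 1} ≤ Submodule.span K (Set.range e) := by
    rw [Submodule.span_le]
    rintro x (rfl | rfl)
    · exact hes 0
    · exact hes 1
  have hf2 : f 2 ∈ Submodule.span K {f 1, f 2} := Submodule.subset_span (by simp)
  set G1 := GU S hw0 hw1 hw O1 with hG1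
  set G2 := GU S hw0 hw1 hw O2 with hG2
  set A := Subgroup.closure Δ with hA
  have hstab : ∀ m : C, (∀ i, m * τ (e i) * m⁻¹ ∈ Δ) → m ∈ Subgroup.normalizer (A : Set C) := by
    intro m hm
    apply norm_closure
    apply frame_stab hL hf htr' heΔ (fun y hy => hE y hy m) _ hm
    intro y hy
    have := hE y hy m⁻¹
    rwa [inv_inv] at this
  have hN1 : G1 ≤ Subgroup.normalizer (A : Set C) := by
    rintro _ ⟨q, hq, rfl⟩
    apply hstab
    intro i
    have h1 := act_gt S hw0 hw1 hw O1 hq (he i)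
    rw [he0 i 0, zero_smul, add_zero] at h1
    rw [h1.1]
    exact hspan _ h1.2 (Submodule.add_mem _ (hes i) (Submodule.smul_mem _ _ (hes 0)))
  have hN2 : G2 ≤ Subgroup.normalizer (A : Set C) := by
    rintro _ ⟨p, hp, rfl⟩
    apply hstab
    intro i
    have h1 := act_gt S hw0 hw1 hw O2 hp (he i)
    have h2 : B (e i) p = 0 := B_symm_zero hK (perp_span (fun j => he0 j i) (hPs hp))
    rw [h2, zero_smul, add_zero] at h1
    rw [h1.1]
    exact hspan _ h1.2 (Submodule.add_mem _ (hes i) (Submodule.smul_mem _ _ (hPs hp)))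
  have hinv2 : ∀ p ∈ Submodule.span K {e 0, e 1}, (gt τ w (f 2) p)⁻¹ = gt τ w (f 2) p := fun p hp =>
    inv_eq_of_mul_eq_one_left (gt_sq S O2 hp)
  have hN12 : G2 ≤ Subgroup.normalizer (G1 : Set C) := by
    rintro _ ⟨p, hp, rfl⟩
    have key : ∀ x ∈ G1, gt τ w (f 2) p * x * (gt τ w (f 2) p)⁻¹ ∈ G1 := by
      rintro _ ⟨q, hq, rfl⟩
      exact ⟨_, Submodule.add_mem _ hq (Submodule.smul_mem _ _ hf2), conj_gt S hw0 hw1 hw h hq hp⟩
    rw [Subgroup.mem_normalizer_iff]
    intro x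
    constructor
    · exact key x
    · intro hx
      have h1 := key _ hx
      have e1 : gt τ w (f 2) p * (gt τ w (f 2) p * x * (gt τ w (f 2) p)⁻¹) * (gt τ w (f 2) p)⁻¹ = x := by
        have h2 := gt_sq S O2 (w := w) hp
        calc _ = (gt τ w (f 2) p * gt τ w (f 2) p) * x * (gt τ w (f 2) p * gt τ w (f 2) p)⁻¹ := by group
          _ = x := by rw [h2]; group
      rwa [e1] at h1
  have hN : G1 ⊔ G2 ≤ Subgroup.normalizer (A : Set C) := sup_le hN1 hN2
  have hAsq : ∀ x ∈ A, x * x = 1 := fun x hx => closure_sq (fun y hy => S.T.sq _ (hf.sub hy)) hf.comm hx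
  have hAcomm : ∀ x ∈ A, ∀ y ∈ Δ, Commute x y := by
    intro x hx y hy
    have : A ≤ Subgroup.centralizer ({y} : Set C) := by
      rw [hA, Subgroup.closure_le]
      intro x hx
      rw [SetLike.mem_coe, Subgroup.mem_centralizer_singleton_iff]
      exact hf.comm x hx y hy
    exact Subgroup.mem_centralizer_singleton_iff.1 (this hx)
  have hAp : IsPGroup 2 A := by
    intro x
    exact ⟨1, Subtype.ext (by show (x : C) ^ 2 ^ 1 = 1; rw [pow_one, pow_two]; exact hAsq x x.2)⟩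
  have hU : IsPGroup 2 (G1 ⊔ G2 : Subgroup C) := by
    rw [sup_comm]
    exact IsPGroup.to_sup_of_normal_right' (GU_pgroup S hw0 hw1 hw O2) (GU_pgroup S hw0 hw1 hw O1) hN12
  have hS : IsPGroup 2 (A ⊔ (G1 ⊔ G2) : Subgroup C) := by
    rw [sup_comm]
    exact IsPGroup.to_sup_of_normal_right' hU hAp hN
  refine ⟨A ⊔ (G1 ⊔ G2), hS, ?_, ?_⟩
  · intro hm
    rw [← SetLike.mem_coe, Subgroup.coe_mul_of_right_le_normalizer_left A (G1 ⊔ G2) hN,
      Subgroup.coe_mul_of_right_le_normalizer_left G1 G2 hN12] at hm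
    obtain ⟨x, hx, y, hy, hxy⟩ := Set.mem_mul.1 hm
    obtain ⟨g1, hg1, g2, hg2, rfl⟩ := Set.mem_mul.1 hy
    obtain ⟨q, hq, rfl⟩ := hg1
    obtain ⟨p, hp, rfl⟩ := hg2
    obtain ⟨al, be, rfl⟩ := Submodule.mem_span_pair.1 hq
    obtain ⟨p0, p1, rfl⟩ := Submodule.mem_span_pair.1 hp
    have hme : gt τ w (e 0) (al • f 1 + be • f 2) * gt τ w (f 2) (p0 • e 0 + p1 • e 1) = x⁻¹ * z := by rw [← hxy]; group
    have htriv : ∀ i, (gt τ w (e 0) (al • f 1 + be • f 2) * gt τ w (f 2) (p0 • e 0 + p1 • e 1)) * τ (e i) *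
        (gt τ w (e 0) (al • f 1 + be • f 2) * gt τ w (f 2) (p0 • e 0 + p1 • e 1))⁻¹ = τ (e i) := by
      intro i
      rw [hme]
      have h1 : Commute (x⁻¹ * z) (τ (e i)) := by
        have h2 : Commute z (τ (e i)) := (hz _).symm
        exact (hAcomm x hx _ (heΔ i)).inv_left.mul_left h2
      rw [h1.eq, mul_inv_cancel_right]
    have h1 := htriv 1
    rw [move1 S hw0 hw1 hw h he] at h1
    have h2 := htriv 2
    rw [move2 S hw0 hw1 hw h he] at h2
    have h3 : al ^ 2 = 0 := by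
      apply inj1 S hw0 hw1 hw h he
      rw [h1, zero_smul, add_zero]
    have hal : al = 0 := by simpa using h3
    have h4 : p0 + (p1 * al ^ 2 + be ^ 2) = 0 ∧ p1 = 0 := by
      apply inj2 S hw0 hw1 hw h he
      rw [h2, zero_smul, zero_smul, add_zero, add_zero]
    have hp1 := h4.2
    have hp0 : p0 = be ^ 2 := by
      have h5 := h4.1
      rw [hal, hp1] at h5
      have h6 := add_self hK (be ^ 2)
      linear_combination h5 - h6
    rw [hal, hp1, hp0, zero_smul, zero_smul, zero_add, add_zero, gt_match S hw0 hw1 hw h,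
      gt_sq S O2 (Submodule.smul_mem _ _ (Submodule.subset_span (by simp)))] at hxy
    rw [mul_one] at hxy
    exact hzΔ (hxy ▸ hx)
  · -- counting
    let Φ : A × K × K × K → (A ⊔ (G1 ⊔ G2) : Subgroup C) := fun r =>
      ⟨r.1 * (gt τ w (e 0) (r.2.1 • f 1 + (0 : K) • f 2) * gt τ w (f 2) (r.2.2.1 • e 0 + r.2.2.2 • e 1)), by
        apply Subgroup.mul_mem_sup r.1.2
        apply Subgroup.mul_mem_sup
        · exact ⟨_, Submodule.mem_span_pair.2 ⟨_, _, rfl⟩, rfl⟩
        · exact ⟨_, Submodule.mem_span_pair.2 ⟨_, _, rfl⟩, rfl⟩⟩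
    have hinj : Function.Injective Φ := by
      rintro ⟨x, al, p0, p1⟩ ⟨x', al', p0', p1'⟩ hΦ
      have hΦ' : (x : C) * (gt τ w (e 0) (al • f 1 + (0 : K) • f 2) * gt τ w (f 2) (p0 • e 0 + p1 • e 1)) =
          x' * (gt τ w (e 0) (al' • f 1 + (0 : K) • f 2) * gt τ w (f 2) (p0' • e 0 + p1' • e 1)) := congrArg Subtype.val hΦ
      set m := gt τ w (e 0) (al • f 1 + (0 : K) • f 2) * gt τ w (f 2) (p0 • e 0 + p1 • e 1) with hm
      set m' := gt τ w (e 0) (al' • f 1 + (0 : K) • f 2) * gt τ w (f 2) (p0' • e 0 + p1' • e 1) with hm'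
      have hfix : ∀ (x : A) (y : C), y ∈ Δ → (x : C) * y * (x : C)⁻¹ = y := by
        intro x y hy
        rw [(hAcomm x x.2 y hy).eq, mul_inv_cancel_right]
      have m1 := move1 S hw0 hw1 hw h he al 0 p0 p1
      have m1' := move1 S hw0 hw1 hw h he al' 0 p0' p1'
      have m2 := move2 S hw0 hw1 hw h he al 0 p0 p1
      have m2' := move2 S hw0 hw1 hw h he al' 0 p0' p1'
      rw [← hm] at m1 m2
      rw [← hm'] at m1' m2'
      have hcomb1 : ∀ k : K, τ (e 1 + k • e 0) ∈ Δ := fun k => hspan _ (iso_comb1 S hw0 hw1 hw h he k)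
        (Submodule.add_mem _ (hes 1) (Submodule.smul_mem _ _ (hes 0)))
      have hcomb2 : ∀ k l : K, τ (e 2 + k • e 0 + l • e 1) ∈ Δ := fun k l => hspan _ (iso_comb2 S hw0 hw1 hw h he k l)
        (Submodule.add_mem _ (Submodule.add_mem _ (hes 2) (Submodule.smul_mem _ _ (hes 0))) (Submodule.smul_mem _ _ (hes 1)))
      have c1 : τ (e 1 + al ^ 2 • e 0) = τ (e 1 + al' ^ 2 • e 0) := by
        rw [← hfix x _ (hcomb1 (al ^ 2)), ← hfix x' _ (hcomb1 (al' ^ 2)), ← m1, ← m1']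
        calc (x : C) * (m * τ (e 1) * m⁻¹) * (x : C)⁻¹ = (x * m) * τ (e 1) * (x * m)⁻¹ := by group
          _ = (x' * m') * τ (e 1) * (x' * m')⁻¹ := by rw [hΦ']
          _ = _ := by group
      have c2 : τ (e 2 + (p0 + (p1 * al ^ 2 + 0 ^ 2)) • e 0 + p1 • e 1) = τ (e 2 + (p0' + (p1' * al' ^ 2 + 0 ^ 2)) • e 0 + p1' • e 1) := by
        rw [← hfix x _ (hcomb2 (p0 + (p1 * al ^ 2 + 0 ^ 2)) p1), ← hfix x' _ (hcomb2 (p0' + (p1' * al' ^ 2 + 0 ^ 2)) p1'), ← m2, ← m2']
        calc (x : C) * (m * τ (e 2) * m⁻¹) * (x : C)⁻¹ = (x * m) * τ (e 2) * (x * m)⁻¹ := by group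
          _ = (x' * m') * τ (e 2) * (x' * m')⁻¹ := by rw [hΦ']
          _ = _ := by group
      have d1 := inj1 S hw0 hw1 hw h he c1
      have d2 := inj2 S hw0 hw1 hw h he c2
      have hal : al = al' := by
        have h4 := H92.Herm.pow_four hK al
        have h4' := H92.Herm.pow_four hK al'
        linear_combination -h4 + h4' + (al ^ 2 + al' ^ 2) * d1
      have hp1 := d2.2
      have hp0 : p0 = p0' := by
        have h5 := d2.1
        rw [hp1, hal] at h5
        exact add_right_cancel h5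
      have hx : x = x' := by
        apply Subtype.ext
        rw [hm, hm', hal, hp1, hp0] at hΦ'
        exact mul_right_cancel hΦ'
      rw [hx, hal, hp1, hp0]
    have h1 := Nat.card_le_card_of_injective Φ hinj
    rw [Nat.card_prod, Nat.card_prod, Nat.card_prod, Nat.card_eq_fintype_card (α := K), hK] at h1
    refine le_trans ?_ h1
    calc 2 ^ 15 = 512 * (4 * (4 * 4)) := by norm_num
      _ ≤ _ := Nat.mul_le_mul_right _ hcard

end H19.UCovI
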