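import Mathlib
import Cfsg.Agent.Lib.H19.UCovI
import Cfsg.Agent.Lib.H19.UCovE
import Cfsg.Agent.Lib.H19.RMod4
import Cfsg.Agent.Lib.H3.ThompsonTransfer

/-!
In a perfect double cover of `PSU 6 K 2` some hyperoval product is the central involution.
-/

set_option autoImplicit false
set_option linter.unusedSectionVars false
set_option linter.style.haveILetI false
set_option linter.unusedVariables false
open Cfsg Matrix

universe u v

namespace H19.UCovJ
open H92.Herm H92.UTransv H92.PV H92.ULift H92.PolPSU H92.Tri H92.Pol H92.Geo H92.Frame H92.Lev H92.RelList H92.Inv2 H19.UCovA H19.UCovB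
open H19.ThAbs H19.UCovC H19.UCovD H19.UCovE H19.UCovG H19.UCovH H19.UCovI H19.RMod

/-- commutative group structure on the group of a situation -/
@[reducible] def cgrp {C : Type u} [Group C] (W : Subgroup C) (h : ∀ a ∈ W, ∀ b ∈ W, Commute a b) : CommGroup W :=
  { (inferInstance : Group W) with mul_comm := fun a b => Subtype.ext (h a a.2 b b.2).eq }

section
variable {C : Type u} [Group C] [Finite C] {K : Type} [Field K] [Fintype K] {π : C →* PSU 6 K 2} {z : C} (H : Cov K π z)
  {x0 : C} (S : Std K π z x0) {Δ : Set C} (hf : Fr 0 (D x0) Δ)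
  {V : Type v} [CommGroup V] [Fintype V] [DecidableEq V] {ι : V →* C} (hι : Function.Injective ι) (hr : ι.range = Subgroup.closure (insert z Δ))
  {zv : V} (hz : ι zv = z)
include H S hf hι hr hz

theorem complement (hN : ∀ l : List C, Rel (D x0) l → l.length = 6 → l.prod = 1) :
    z ∉ Subgroup.closure ((fun y => y * z) '' Δ) ∧ 512 ≤ Nat.card (Subgroup.closure ((fun y => y * z) '' Δ)) := by
  have P := plane H S hf hι hr hz
  have hN' : ∀ r, Rl zv (FF ι Δ) r → r.card = 6 → RMod4.ez zv r = 1 := by
    intro r hr' hrc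
    unfold RMod4.ez
    have h1 := rel_of H S hf hι hz hr'.1 hr'.2
    have h2 := hN _ h1 (by rw [List.length_map, Finset.length_toList, hrc])
    rw [tl_prod] at h2
    have h3 : ∏ x ∈ r, x = 1 := hι (by rw [h2, map_one])
    have h4 : zv ^ 6 = 1 := by
      have : zv ^ 6 = (zv * zv) ^ 3 := by rw [← pow_two, ← pow_mul]
      rw [this, P.sq, one_pow]
    rw [h3, hrc, h4, one_mul]
  have hz1 := RMod4.z_notMem P hN'
  set A' := Subgroup.closure ((fun x => x * zv) '' ((FF ι Δ : Finset V) : Set V)) with hA'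
  have hmap : A'.map ι = Subgroup.closure ((fun y => y * z) '' Δ) := by
    rw [hA', MonoidHom.map_closure]
    congr 1
    ext y
    constructor
    · rintro ⟨_, ⟨x, hx, rfl⟩, rfl⟩
      refine ⟨ι x, mem_FF.1 (Finset.mem_coe.1 hx), ?_⟩
      show ι x * z = ι (x * zv)
      rw [map_mul, hz]
    · rintro ⟨y, hy, rfl⟩
      obtain ⟨x, rfl⟩ := mem_range hr hy
      refine ⟨x * zv, ⟨x, Finset.mem_coe.2 (mem_FF.2 hy), rfl⟩, ?_⟩
      rw [map_mul, hz]
  rw [← hmap]
  constructor
  · rintro ⟨v, hv, hvz⟩
    rw [← hz] at hvz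
    rw [hι hvz] at hv
    exact hz1 hv
  · rw [Subgroup.card_map_of_injective hι]
    have h1 : Nat.card (⊤ : Subgroup V) ≤ 2 * Nat.card A' := by
      apply H92.Thomp22.card_le_two (b := zv) le_top
      intro v _
      have hzz := P.sq zv
      have hsw : ∀ v, (v ∈ A' ∨ zv * v ∈ A') → (zv * v ∈ A' ∨ zv * (zv * v) ∈ A') := by
        rintro v (h | h)
        · right; rw [← mul_assoc, hzz, one_mul]; exact h
        · left; exact h
      have hgen : ∀ x ∈ FF ι Δ, ∀ v, (v ∈ A' ∨ zv * v ∈ A') → (x * v ∈ A' ∨ zv * (x * v) ∈ A') := by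
        rintro x hx v h
        have hxz : x * zv ∈ A' := Subgroup.subset_closure ⟨x, Finset.mem_coe.2 hx, rfl⟩
        rcases h with h | h
        · right
          have : zv * (x * v) = (x * zv) * v := by rw [← mul_assoc, mul_comm zv x]
          rw [this]; exact Subgroup.mul_mem _ hxz h
        · left
          have : x * v = (x * zv) * (zv * v) := by
            rw [mul_assoc, ← mul_assoc zv zv, hzz, one_mul]
          rw [this]; exact Subgroup.mul_mem _ hxz h
      have hv : v ∈ Subgroup.closure (insert zv ((FF ι Δ : Finset V) : Set V)) := by rw [P.gen]; trivial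
      have hinv : ∀ x : V, x⁻¹ = x := fun x => inv_eq_of_mul_eq_one_left (P.sq x)
      induction hv using Subgroup.closure_induction_left with
      | one => left; exact Subgroup.one_mem _
      | mul_left x hx y hy ih =>
        rcases Set.mem_insert_iff.1 hx with rfl | hx
        · exact hsw y (ih trivial)
        · exact hgen x (Finset.mem_coe.1 hx) y (ih trivial)
      | inv_mul_cancel x hx y hy ih =>
        rw [hinv]
        rcases Set.mem_insert_iff.1 hx with rfl | hx
        · exact hsw y (ih trivial)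
        · exact hgen x (Finset.mem_coe.1 hx) y (ih trivial)
    rw [Subgroup.card_top, Nat.card_eq_fintype_card, P.card_V] at h1
    omega

end

variable {C : Type u} [Group C] [Finite C] {K : Type} [Field K] [Fintype K] {π : C →* PSU 6 K 2} {z : C} (H : Cov K π z)
  {x0 : C} (S : Std K π z x0)
include H S

theorem not_split (hno : ∀ M : Subgroup C, M.Normal → M.index ≠ 2) (hcard : Nat.card C = 2 ^ 16 * 280665) :
    ∃ l : List C, Rel (D x0) l ∧ l.length = 6 ∧ l.prod = z := by
  classical
  by_contra hcon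
  push Not at hcon
  have hN : ∀ l : List C, Rel (D x0) l → l.length = 6 → l.prod = 1 := by
    intro l hl h6
    rcases rel_prod H S.h0 hl with h1 | h1
    · exact h1
    · exact absurd h1 (hcon l hl h6)
  have h1 : π (x0 * z) ∈ transv K := by rw [map_mul, H.pz, mul_one]; exact S.h0
  have hz5 : z ^ 5 = z := by
    calc z ^ 5 = (z * z) * (z * z) * z := by simp only [pow_succ, pow_zero, one_mul, mul_assoc]
      _ = z := by rw [H.sq, one_mul, one_mul]
  have hz6 : z ^ 6 = 1 := by rw [pow_succ, hz5, H.sq]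
  have Sp : Spl K (D (x0 * z)) (tau π (x0 * z)) := by
    refine ⟨H.tri h1, H.pol h1, ?_, ?_⟩
    · intro l hl h5
      have h2 := S.line _ (rel_z H hl) (by rw [List.length_map, h5])
      rw [map_z_prod H, h5, hz5] at h2
      have : l.prod * z = 1 * z := by rw [h2, one_mul]
      exact mul_right_cancel this
    · intro l hl h6
      have h2 := hN _ (rel_z H hl) (by rw [List.length_map, h6])
      rw [map_z_prod H, h6, hz6, mul_one] at h2
      exact h2
  obtain ⟨Δ0, hf0⟩ := exists_frame (H.lev S.h0)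
  have hΔ1 : Fr 0 (D (x0 * z)) ((fun y => y * z) '' Δ0) := by
    refine ⟨?_, ?_, ?_⟩
    · rintro _ ⟨y, hy, rfl⟩
      rw [mem_Dz H, mul_assoc, H.sq, mul_one]
      exact hf0.sub hy
    · rintro _ ⟨a, ha, rfl⟩ _ ⟨b, hb, rfl⟩
      exact (comm_z' H (comm_z' H (hf0.comm a ha b hb)).symm).symm
    · rw [Set.ncard_image_of_injective _ (fun a b hab => mul_right_cancel hab), hf0.card]
  have hsit := sit H S.h0 hf0
  letI : CommGroup ↥(Subgroup.closure (insert z Δ0)) := cgrp _ hsit.closure_comm
  letI : Fintype ↥(Subgroup.closure (insert z Δ0)) := Fintype.ofFinite _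
  obtain ⟨hz1, hz2⟩ := complement H S hf0 (V := ↥(Subgroup.closure (insert z Δ0))) (ι := (Subgroup.closure (insert z Δ0)).subtype)
    (Subgroup.subtype_injective _) (Subgroup.range_subtype _) (zv := ⟨z, Subgroup.subset_closure (Set.mem_insert _ _)⟩) rfl hN
  obtain ⟨S1, hS1, hzS1, hS1c⟩ := exists_S1 Sp (fun y hy c => conj_D hy c) hΔ1 H.cent hz1 hz2
  -- a Sylow subgroup
  haveI : Fact (Nat.Prime 2) := ⟨Nat.prime_two⟩
  have hzp : IsPGroup 2 (Subgroup.zpowers z) := by
    apply IsPGroup.of_card (n := 1)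
    rw [Nat.card_zpowers, pow_one]
    exact orderOf_eq_prime (by rw [pow_two]; exact H.sq) H.ne
  have hzn : Subgroup.zpowers z ≤ Subgroup.normalizer (S1 : Set C) := by
    rw [Subgroup.zpowers_le, Subgroup.mem_normalizer_iff]
    intro g
    rw [← H.cent g, mul_inv_cancel_right]
  have hp2 : IsPGroup 2 (Subgroup.zpowers z ⊔ S1 : Subgroup C) := IsPGroup.to_sup_of_normal_right' hzp hS1 hzn
  obtain ⟨T, hT⟩ := hp2.exists_le_sylow
  have hzT : z ∈ (T : Subgroup C) := hT ((le_sup_left : Subgroup.zpowers z ≤ _) (Subgroup.mem_zpowers z))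
  have hST : S1 ≤ (T : Subgroup C) := le_trans le_sup_right hT
  have hrel := H13.Replace.card_eq_mul_relIndex hST
  have hTc : Nat.card (T : Subgroup C) ≤ 2 ^ 16 := by
    obtain ⟨k, hk⟩ := (IsPGroup.iff_card (p := 2)).1 T.2
    have h2 : Nat.card (T : Subgroup C) ∣ 2 ^ 16 * 280665 := by
      rw [← hcard]; exact Subgroup.card_subgroup_dvd_card _
    rw [hk] at h2 ⊢
    have h3 : 2 ^ k ∣ 2 ^ 16 := by
      apply Nat.Coprime.dvd_of_dvd_mul_right _ h2
      apply Nat.Coprime.pow_left
      decide
    exact Nat.le_of_dvd (by norm_num) h3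
  have hri1 : S1.relIndex (T : Subgroup C) ≠ 1 := by
    intro h0
    exact hzS1 (Subgroup.relIndex_eq_one.1 h0 hzT)
  have hri0 : S1.relIndex (T : Subgroup C) ≠ 0 := by
    intro h0
    rw [h0, mul_zero] at hrel
    have : 0 < Nat.card (T : Subgroup C) := Nat.card_pos
    omega
  have hri : S1.relIndex (T : Subgroup C) = 2 := by
    by_contra hne
    have h3 : 3 ≤ S1.relIndex (T : Subgroup C) := by omega
    have h4 : 2 ^ 15 * 3 ≤ Nat.card (T : Subgroup C) := by
      rw [hrel]; exact Nat.mul_le_mul hS1c h3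
    have h5 := h4.trans hTc
    norm_num at h5
  obtain ⟨M, hM, hM2, -⟩ := H3.ThompsonTransfer.exists_index_two (T : Subgroup C) S1 hST (H3.ThompsonTransfer.odd_index_sylow T) hri z
    (by rw [pow_two]; exact H.sq) (by
      intro g hg
      rw [H.cent, mul_inv_cancel_right] at hg
      exact hzS1 hg)
  exact hno M hM hM2

end H19.UCovJ
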