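import Mathlib
import Cfsg.Agent.Lib.H19.UCovJ
import Cfsg.Agent.Lib.H19.UCovF

/-!
Conjugating into a frame; the two triangles of a hyperoval with product `z`.
-/

set_option autoImplicit false
set_option linter.unusedSectionVars false
set_option linter.style.haveILetI false
set_option linter.unusedVariables false
open Cfsg Matrix

universe u v

namespace H19.UCovK
open H92.Herm H92.UTransv H92.PV H92.ULift H92.PolPSU H92.Tri H92.Pol H92.Geo H92.Frame H92.Lev H92.RelList H92.Inv2 H19.UCovA H19.UCovB
open H19.ThAbs H19.UCovC H19.UCovD H19.UCovE H19.UCovG H19.UCovH H19.UCovI H19.UCovJ H19.RMod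

variable {C : Type u} [Group C] [Finite C] {K : Type} [Field K] [Fintype K] {π : C →* PSU 6 K 2} {z : C} (H : Cov K π z)
  {x0 : C} (S : Std K π z x0) {Δ : Set C} (hf : Fr 0 (D x0) Δ)
include H S hf

theorem into_frame (l : List C) (hnd : l.Nodup) (h3 : l.length ≤ 3) (hD : ∀ a ∈ l, a ∈ D x0) (hc : ∀ a ∈ l, ∀ b ∈ l, Commute a b) :
    ∃ c : C, ∀ a ∈ l, c * a * c⁻¹ ∈ Δ := by
  have hL := H.lev S.h0
  have hT := H.tri S.h0
  have P := H.pol S.h0
  obtain ⟨a, ha, b, hb, hab⟩ : ∃ a ∈ Δ, ∃ b ∈ Δ, a ≠ b := by
    have : 1 < Δ.ncard := by rw [hf.card]; norm_num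
    obtain ⟨a, ha, b, hb, hab⟩ := (Set.one_lt_ncard (Set.toFinite _)).1 this
    exact ⟨a, ha, b, hb, hab⟩
  obtain ⟨w, hw, htr⟩ := exists_tr hL hf ha hb hab
  match l, h3, hnd, hD, hc with
  | [], _, _, _, _ => exact ⟨1, fun a ha => by simp at ha⟩
  | [x], _, _, hD, _ =>
    obtain ⟨k, _, hk⟩ := H92.Pol.trans hT P (hD x (by simp)) (hf.sub ha)
    refine ⟨k, fun y hy => ?_⟩
    rw [List.mem_singleton] at hy
    rw [hy, hk]; exact ha
  | [x, y], _, hnd, hD, hc =>
    obtain ⟨k, _, hk1, hk2⟩ := H92.Uniq.pair_trans hT P (hD x (by simp)) (hD y (by simp)) (hf.sub ha) (hf.sub hb) (hc x (by simp) y (by simp))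
      (hf.comm a ha b hb) (by simpa using hnd) hab
    refine ⟨k, fun t ht => ?_⟩
    simp only [List.mem_cons, List.not_mem_nil, or_false] at ht
    rcases ht with rfl | rfl
    · rw [hk1]; exact ha
    · rw [hk2]; exact hb
  | [x, y, t], _, hnd, hD, hc =>
    have hxy : x ≠ y := by
      rintro rfl
      simp at hnd
    rcases tr_or_line hL (hD x (by simp)) (hD y (by simp)) (hD t (by simp)) (hc x (by simp) y (by simp)) (hc x (by simp) t (by simp))
      (hc y (by simp) t (by simp)) hxy with h1 | ⟨m, hm, hm5, hxm, hym, htm⟩
    · obtain ⟨k, _, hk⟩ := triple_trans hT P h1 htr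
      refine ⟨k, fun s hs => ?_⟩
      simp only [List.mem_cons, List.not_mem_nil, or_false] at hs
      rcases hs with rfl | rfl | rfl
      · have := hk 0
        simp only [Matrix.cons_val_zero] at this
        rw [this]; exact ha
      · have := hk 1
        simp only [Matrix.cons_val_one, Matrix.cons_val_zero] at this
        rw [this]; exact hb
      · have := hk 2
        simp only [Matrix.cons_val] at this
        rw [this]; exact hw
    · obtain ⟨k, _, hk1, hk2⟩ := H92.Uniq.pair_trans hT P (hD x (by simp)) (hD y (by simp)) (hf.sub ha) (hf.sub hb)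
        (hc x (by simp) y (by simp)) (hf.comm a ha b hb) hxy hab
      have hm' := rel_conj hm k
      have h2 : k * t * k⁻¹ ∈ Δ := by
        apply hf.max hL (conj_D (hD t (by simp)) k)
        intro s hs
        have := hL.rel_block _ hm'.nodup hm'.mem hm'.comm hm'.cent (by rw [List.length_map, hm5]) [a, b] (by simpa using hab) rfl
          (by
            intro r hr
            simp only [List.mem_cons, List.not_mem_nil, or_false] at hr
            rcases hr with rfl | rfl
            · exact List.mem_map.2 ⟨x, hxm, hk1⟩
            · exact List.mem_map.2 ⟨y, hym, hk2⟩) (k * t * k⁻¹) (List.mem_map.2 ⟨t, htm, rfl⟩) s (hf.sub hs)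
          (by
            intro r hr
            simp only [List.mem_cons, List.not_mem_nil, or_false] at hr
            rcases hr with rfl | rfl
            · exact hf.comm s hs _ ha
            · exact hf.comm s hs _ hb)
        exact this.symm
      refine ⟨k, fun s hs => ?_⟩
      simp only [List.mem_cons, List.not_mem_nil, or_false] at hs
      rcases hs with rfl | rfl | rfl
      · rw [hk1]; exact ha
      · rw [hk2]; exact hb
      · exact h2

/-- involutions are conjugate into the group of the frame -/
theorem inv_into {y : C} (hy : y * y = 1) : ∃ c : C, c * y * c⁻¹ ∈ Subgroup.closure (insert z Δ) := by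
  obtain ⟨l, h1, h2, h3, h4, h5⟩ := H.inv_decomp S.h0 hy
  obtain ⟨c, hc⟩ := into_frame H S hf l h1 h2 h3 h4
  refine ⟨c, ?_⟩
  have h6 : c * l.prod * c⁻¹ ∈ Subgroup.closure (insert z Δ) := by
    rw [← map_conj_prod]
    apply Subgroup.list_prod_mem
    intro x hx
    obtain ⟨a, ha, rfl⟩ := List.mem_map.1 hx
    exact Subgroup.subset_closure (Or.inr (hc a ha))
  rcases h5 with h5 | h5
  · rw [h5]; exact h6
  · rw [h5]
    have : c * (l.prod * z) * c⁻¹ = c * l.prod * c⁻¹ * z := by
      calc c * (l.prod * z) * c⁻¹ = c * l.prod * (z * c⁻¹) := by group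
        _ = c * l.prod * (c⁻¹ * z) := by rw [H.cent]
        _ = _ := by group
    rw [this]
    exact Subgroup.mul_mem _ h6 (Subgroup.subset_closure (Set.mem_insert _ _))

omit hf in
/-- three members of a relation of length six with product `z` are independent -/
theorem tri_of_six {a b c p q r : C} (hl : Rel (D x0) [a, b, c, p, q, r]) (hp : [a, b, c, p, q, r].prod = z) : Tr (D x0) ![a, b, c] := by
  classical
  have hL := H.lev S.h0
  have hnd := hl.nodup
  have hab : a ≠ b := by
    rintro rfl
    simp at hnd
  rcases tr_or_line hL (hl.mem a (by simp)) (hl.mem b (by simp)) (hl.mem c (by simp)) (hl.comm a (by simp) b (by simp))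
    (hl.comm a (by simp) c (by simp)) (hl.comm b (by simp) c (by simp)) hab with h1 | ⟨m, hm, hm5, hxm, hym, htm⟩
  · exact h1
  exfalso
  have hpm := S.line m hm hm5
  -- all members commute
  have hcm : ∀ t ∈ [a, b, c, p, q, r], ∀ s ∈ m, Commute t s := by
    intro t ht s hs
    exact hL.rel_block _ hm.nodup hm.mem hm.comm hm.cent hm5 [a, b] (by simpa using hab) rfl
      (by
        intro r hr
        simp only [List.mem_cons, List.not_mem_nil, or_false] at hr
        rcases hr with rfl | rfl
        exacts [hxm, hym]) s hs t (hl.mem t ht)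
      (by
        intro r' hr
        simp only [List.mem_cons, List.not_mem_nil, or_false] at hr
        rcases hr with rfl | rfl
        · exact hl.comm t ht _ (by simp)
        · exact hl.comm t ht _ (by simp))
  obtain ⟨s, hs1, hs2, hs3, hs4⟩ := symm_rel [a, b, c, p, q, r] m hl.nodup hm.nodup
    (by
      intro x hx
      rw [List.mem_append] at hx
      rcases hx with hx | hx
      · exact H.sq_D S.h0 (hl.mem x hx)
      · exact H.sq_D S.h0 (hm.mem x hx))
    (by
      intro x hx y hy
      rw [List.mem_append] at hx hy
      rcases hx with hx | hx <;> rcases hy with hy | hy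
      · exact hl.comm x hx y hy
      · exact hcm x hx y hy
      · exact (hcm y hy x hx).symm
      · exact hm.comm x hx y hy) (by rw [hp, hpm])
  have hsl : s.length ≤ 5 := by
    have h7 : s.toFinset ⊆ ([p, q, r] : List C).toFinset ∪ (m.toFinset \ {a, b, c}) := by
      intro x hx
      rw [List.mem_toFinset] at hx
      rw [Finset.mem_union, List.mem_toFinset, Finset.mem_sdiff, List.mem_toFinset]
      rcases (hs2 x).1 hx with ⟨h8, h9⟩ | ⟨h8, h9⟩
      · left
        simp only [List.mem_cons, List.not_mem_nil, or_false] at h8 ⊢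
        rcases h8 with rfl | rfl | rfl | h8
        · exact absurd hxm h9
        · exact absurd hym h9
        · exact absurd htm h9
        · exact h8
      · right
        refine ⟨h8, ?_⟩
        intro h10
        simp only [Finset.mem_insert, Finset.mem_singleton] at h10
        apply h9
        rcases h10 with rfl | rfl | rfl <;> simp
    have h8 := Finset.card_le_card h7
    have h9 := Finset.card_union_le ([p, q, r] : List C).toFinset (m.toFinset \ {a, b, c})
    have h10 : ([p, q, r] : List C).toFinset.card ≤ 3 := List.toFinset_card_le _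
    have h11 : (m.toFinset \ {a, b, c}).card = 2 := by
      rw [Finset.card_sdiff_of_subset, List.toFinset_card_of_nodup hm.nodup, hm5]
      · have hac : a ≠ c := by rintro rfl; simp at hnd
        have hbc : b ≠ c := by rintro rfl; simp at hnd
        rw [Finset.card_eq_three.2 ⟨a, b, c, hab, hac, hbc, rfl⟩]
      · intro x hx
        simp only [Finset.mem_insert, Finset.mem_singleton] at hx
        rw [List.mem_toFinset]
        rcases hx with rfl | rfl | rfl <;> assumption
    rw [List.toFinset_card_of_nodup hs1] at h8
    omega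
  have hsmem : ∀ x ∈ s, x ∈ [a, b, c, p, q, r] ∨ x ∈ m := by
    intro x hx
    rcases (hs2 x).1 hx with h | h
    · exact Or.inl h.1
    · exact Or.inr h.1
  have hsrel : Rel (D x0) s := by
    refine ⟨hs1, ?_, ?_, ?_⟩
    · intro x hx
      rcases hsmem x hx with h | h
      · exact hl.mem x h
      · exact hm.mem x h
    · intro x hx y hy
      rcases hsmem x hx with hx | hx <;> rcases hsmem y hy with hy | hy
      · exact hl.comm x hx y hy
      · exact hcm x hx y hy
      · exact (hcm y hy x hx).symm
      · exact hm.comm x hx y hy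
    · intro e he
      rw [hs3]; exact Commute.one_left e
  rcases H92.PolRel.rel_five (H.tri S.h0) (H.pol S.h0) s hsrel.nodup hsrel.mem hsrel.comm hsrel.cent hsl with h12 | h12
  · -- empty: the lists have the same members
    have h13 : ∀ x, x ∈ [a, b, c, p, q, r] ↔ x ∈ m := by
      intro x
      have h14 := hs2 x
      rw [h12] at h14
      simp only [List.not_mem_nil, false_iff] at h14
      tauto
    have h15 := (List.perm_ext_iff_of_nodup hl.nodup hm.nodup).2 h13
    have h16 := h15.length_eq
    rw [hm5] at h16
    simp at h16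
  · have := S.line s hsrel h12.1
    rw [hs3] at this
    exact H.ne this.symm

end H19.UCovK
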