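import Mathlib
import Cfsg.Agent.Lib.H19.UCovK

/-!
Fusion in the Thompson subgroup.
-/

set_option autoImplicit false
set_option linter.unusedSectionVars false
set_option linter.style.haveILetI false
set_option linter.unusedVariables false
open Cfsg Matrix

universe u v

namespace H19.UCovL
open H92.Herm H92.UTransv H92.PV H92.ULift H92.PolPSU H92.Tri H92.Pol H92.Geo H92.Frame H92.Lev H92.RelList H92.Inv2 H19.UCovA H19.UCovB
open H19.ThAbs H19.UCovC H19.UCovD H19.UCovE H19.UCovJ H19.UCovK H19.RMod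

section ns
variable {C : Type u} [Group C] [Finite C] {K : Type} [Field K] [Fintype K] {π : C →* PSU 6 K 2} {z : C} (H : Cov K π z)
  {x0 : C} (S : Std K π z x0) {Δ : Set C} (hf : Fr 0 (D x0) Δ)
  {V : Type v} [CommGroup V] [Fintype V] [DecidableEq V] {ι : V →* C} (hι : Function.Injective ι) (hr : ι.range = Subgroup.closure (insert z Δ))
  {zv : V} (hz : ι zv = z)
include H S hf hι hr hz

theorem ns (hl : ∃ l : List C, Rel (D x0) l ∧ l.length = 6 ∧ l.prod = z) :
    ∃ x ∈ FF ι Δ, ∃ y ∈ FF ι Δ, ∃ w ∈ FF ι Δ, Trg (LL ι Δ zv) x y w ∧ ∃ x' ∈ FF ι Δ, ∃ y' ∈ FF ι Δ, ∃ w' ∈ FF ι Δ,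
      Trg (LL ι Δ zv) x' y' w' ∧ x * y * w = x' * y' * w' * zv := by
  have hL := H.lev S.h0
  have hT := H.tri S.h0
  have P := H.pol S.h0
  obtain ⟨l, hl, h6, hp⟩ := hl
  match l, h6, hl, hp with
  | [a, b, c, p, q, r], _, hl, hp =>
    obtain ⟨a0, ha0, b0, hb0, hab0⟩ : ∃ a ∈ Δ, ∃ b ∈ Δ, a ≠ b := by
      have : 1 < Δ.ncard := by rw [hf.card]; norm_num
      obtain ⟨a, ha, b, hb, hab⟩ := (Set.one_lt_ncard (Set.toFinite _)).1 this
      exact ⟨a, ha, b, hb, hab⟩
    obtain ⟨w0, hw0, htr0⟩ := exists_tr hL hf ha0 hb0 hab0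
    have ht := tri_of_six H S hl hp
    obtain ⟨k, _, hk⟩ := triple_trans hT P ht htr0
    have hl' := rel_conj hl k
    have hp' : ([a, b, c, p, q, r].map (fun x => k * x * k⁻¹)).prod = z := by
      rw [map_conj_prod, hp, H.cent, mul_inv_cancel_right]
    simp only [List.map_cons, List.map_nil] at hl' hp'
    have hk0 : k * a * k⁻¹ = a0 := hk 0
    have hk1 : k * b * k⁻¹ = b0 := hk 1
    have hk2 : k * c * k⁻¹ = w0 := hk 2
    have hin : ∀ t ∈ [k * a * k⁻¹, k * b * k⁻¹, k * c * k⁻¹, k * p * k⁻¹, k * q * k⁻¹, k * r * k⁻¹], t ∈ Δ := by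
      intro t ht'
      apply frame_eq hL hf htr0 (by
        intro i; fin_cases i
        exacts [ha0, hb0, hw0]) (hl'.mem t ht')
      intro i
      have h7 : (![a0, b0, w0] : Fin 3 → C) i ∈ [k * a * k⁻¹, k * b * k⁻¹, k * c * k⁻¹, k * p * k⁻¹, k * q * k⁻¹, k * r * k⁻¹] := by
        rw [← hk0, ← hk1, ← hk2]
        fin_cases i <;> simp
      exact hl'.comm t ht' _ h7
    have hperm : [k * p * k⁻¹, k * q * k⁻¹, k * r * k⁻¹, k * a * k⁻¹, k * b * k⁻¹, k * c * k⁻¹].Perm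
        [k * a * k⁻¹, k * b * k⁻¹, k * c * k⁻¹, k * p * k⁻¹, k * q * k⁻¹, k * r * k⁻¹] :=
      (List.perm_append_comm (l₁ := [k * p * k⁻¹, k * q * k⁻¹, k * r * k⁻¹]) (l₂ := [k * a * k⁻¹, k * b * k⁻¹, k * c * k⁻¹]))
    have hcomm2 : ∀ x ∈ [k * p * k⁻¹, k * q * k⁻¹, k * r * k⁻¹, k * a * k⁻¹, k * b * k⁻¹, k * c * k⁻¹],
        ∀ y ∈ [k * p * k⁻¹, k * q * k⁻¹, k * r * k⁻¹, k * a * k⁻¹, k * b * k⁻¹, k * c * k⁻¹], Commute x y :=
      fun x hx y hy => hl'.comm x (hperm.mem_iff.1 hx) y (hperm.mem_iff.1 hy)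
    have hprod2 := prod_perm hperm hcomm2
    have hl2 : Rel (D x0) [k * p * k⁻¹, k * q * k⁻¹, k * r * k⁻¹, k * a * k⁻¹, k * b * k⁻¹, k * c * k⁻¹] :=
      ⟨hperm.nodup_iff.2 hl'.nodup, fun x hx => hl'.mem x (hperm.mem_iff.1 hx), hcomm2, fun e he => by rw [hprod2]; exact hl'.cent e he⟩
    have ht1 := tri_of_six H S hl' hp'
    have ht2 := tri_of_six H S hl2 (by rw [hprod2, hp'])
    obtain ⟨x, hx⟩ := mem_range hr (hin _ (by simp) : k * a * k⁻¹ ∈ Δ)
    obtain ⟨y, hy⟩ := mem_range hr (hin _ (by simp) : k * b * k⁻¹ ∈ Δ)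
    obtain ⟨w, hw⟩ := mem_range hr (hin _ (by simp) : k * c * k⁻¹ ∈ Δ)
    obtain ⟨x', hx'⟩ := mem_range hr (hin _ (by simp) : k * p * k⁻¹ ∈ Δ)
    obtain ⟨y', hy'⟩ := mem_range hr (hin _ (by simp) : k * q * k⁻¹ ∈ Δ)
    obtain ⟨w', hw'⟩ := mem_range hr (hin _ (by simp) : k * r * k⁻¹ ∈ Δ)
    have fx : x ∈ FF ι Δ := mem_FF.2 (by rw [hx]; exact hin _ (by simp))
    have fy : y ∈ FF ι Δ := mem_FF.2 (by rw [hy]; exact hin _ (by simp))
    have fw : w ∈ FF ι Δ := mem_FF.2 (by rw [hw]; exact hin _ (by simp))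
    have fx' : x' ∈ FF ι Δ := mem_FF.2 (by rw [hx']; exact hin _ (by simp))
    have fy' : y' ∈ FF ι Δ := mem_FF.2 (by rw [hy']; exact hin _ (by simp))
    have fw' : w' ∈ FF ι Δ := mem_FF.2 (by rw [hw']; exact hin _ (by simp))
    refine ⟨x, fx, y, fy, w, fw, trg_of_nc H S hf hι hr hz fx fy fw (by rw [hx, hy, hw]; exact ht1),
      x', fx', y', fy', w', fw', trg_of_nc H S hf hι hr hz fx' fy' fw' (by rw [hx', hy', hw']; exact ht2), ?_⟩
    have PL := plane H S hf hι hr hz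
    have h8 : x * y * w * (x' * y' * w') = zv := by
      apply hι
      rw [map_mul, map_mul, map_mul, map_mul, map_mul, hx, hy, hw, hx', hy', hw', hz, ← hp']
      simp only [List.prod_cons, List.prod_nil, mul_one]
      group
    rw [← h8]
    have h9 := PL.sq (x' * y' * w')
    calc x * y * w = x * y * w * ((x' * y' * w') * (x' * y' * w')) := by rw [h9, mul_one]
      _ = x' * y' * w' * (x * y * w * (x' * y' * w')) := by ac_rfl

end ns

section fus
variable {G : Type u} [Group G] [Finite G] {d : G} {C : Subgroup G} (hC : C = Subgroup.centralizer ({d} : Set G)) {z : C} (hzd : (z : G) = d)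
  {Δ : Set C} {m : ℕ} (hs : Sit z Δ m)
include hC hzd hs

theorem fusion (T : Sylow 2 C) (hT : ∀ q ∈ (T : Subgroup C), ∀ y ∈ Δ, q * y * q⁻¹ ∈ Δ) {g : G}
    (hg : g * d * g⁻¹ ∈ (Subgroup.closure (insert z Δ)).map C.subtype) :
    ∃ n ∈ Subgroup.normalizer (((Subgroup.closure (insert z Δ)).map C.subtype : Subgroup G) : Set G), n * d * n⁻¹ = g * d * g⁻¹ := by
  haveI : Fact (Nat.Prime 2) := ⟨Nat.prime_two⟩
  set W := Subgroup.closure (insert z Δ) with hW
  set A := W.map C.subtype with hA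
  obtain ⟨h1, h2, h3⟩ := hs.thompson T hT
  have hAc : ∀ a ∈ A, ∀ b ∈ A, a * b = b * a := by
    rintro _ ⟨a, ha, rfl⟩ _ ⟨b, hb, rfl⟩
    exact congrArg Subtype.val (hs.closure_comm a ha b hb).eq
  have hAs : ∀ a ∈ A, a * a = 1 := by
    rintro _ ⟨a, ha, rfl⟩
    exact congrArg Subtype.val (hs.closure_sq' a ha)
  let B : Subgroup C := A.comap ((MulAut.conj g).toMonoidHom.comp C.subtype)
  have hB : ∀ b : C, b ∈ B ↔ g * (b : G) * g⁻¹ ∈ A := fun b => Iff.rfl
  have hBc : ∀ a ∈ B, ∀ b ∈ B, Commute a b := by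
    intro a ha b hb
    apply Subtype.ext
    show (a : G) * b = b * a
    have h4 := hAc _ ((hB a).1 ha) _ ((hB b).1 hb)
    have h5 : g * ((a : G) * b) * g⁻¹ = g * ((b : G) * a) * g⁻¹ := by
      calc g * ((a : G) * b) * g⁻¹ = (g * a * g⁻¹) * (g * b * g⁻¹) := by group
        _ = (g * b * g⁻¹) * (g * a * g⁻¹) := h4
        _ = _ := by group
    exact mul_left_cancel (mul_right_cancel h5)
  have hBs : ∀ a ∈ B, a * a = 1 := by
    intro a ha
    apply Subtype.ext
    show (a : G) * a = 1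
    have h4 := hAs _ ((hB a).1 ha)
    have h5 : g * ((a : G) * a) * g⁻¹ = 1 := by rw [← h4]; group
    have h6 : (a : G) * a = g⁻¹ * (g * ((a : G) * a) * g⁻¹) * g := by group
    rw [h6, h5]; group
  -- conjugates of A centralize d
  have hcent : ∀ a ∈ A, g⁻¹ * a * g ∈ C := by
    intro a ha
    rw [hC, Subgroup.mem_centralizer_singleton_iff]
    have h4 := hAc a ha _ hg
    calc g⁻¹ * a * g * d = g⁻¹ * (a * (g * d * g⁻¹)) * g := by group
      _ = g⁻¹ * ((g * d * g⁻¹) * a) * g := by rw [h4]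
      _ = d * (g⁻¹ * a * g) := by group
  have hcardB : Nat.card W ≤ Nat.card B := by
    have h4 : Nat.card W = Nat.card A := (Subgroup.card_map_of_injective C.subtype_injective).symm
    rw [h4]
    apply Nat.card_le_card_of_injective (fun a : A => (⟨⟨g⁻¹ * a * g, hcent a a.2⟩, by
      rw [hB]
      have : g * (g⁻¹ * (a : G) * g) * g⁻¹ = a := by group
      rw [this]; exact a.2⟩ : B))
    intro a b hab
    have h5 : g⁻¹ * (a : G) * g = g⁻¹ * (b : G) * g := congrArg (fun x : B => ((x : C) : G)) hab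
    exact Subtype.ext (mul_left_cancel (mul_right_cancel h5))
  have hBp : IsPGroup 2 B := by
    intro b
    exact ⟨1, Subtype.ext (by show (b : C) ^ 2 ^ 1 = 1; rw [pow_one, pow_two]; exact hBs b b.2)⟩
  obtain ⟨T', hT'⟩ := hBp.exists_le_sylow
  obtain ⟨c, hc⟩ := MulAction.exists_smul_eq C T' T
  have hcB : B.map (MulAut.conj c).toMonoidHom ≤ (T : Subgroup C) := by
    rintro _ ⟨b, hb, rfl⟩
    rw [← hc]
    have : (MulAut.conj c).toMonoidHom b = c * b * c⁻¹ := rfl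
    rw [this, Sylow.coe_subgroup_smul]
    exact Subgroup.mem_map.2 ⟨b, hT' hb, rfl⟩
  have hBW := h3 (B.map (MulAut.conj c).toMonoidHom) hcB
    (by
      rintro _ ⟨a, ha, rfl⟩ _ ⟨b, hb, rfl⟩
      exact (hBc a ha b hb).map _)
    (by
      rintro _ ⟨a, ha, rfl⟩
      rw [← map_mul, hBs a ha, map_one])
    (by
      rw [Subgroup.card_map_of_injective (MulAut.conj c).injective]
      exact hcardB)
  -- the normalizing element
  have hle : ∀ a ∈ A, (g * (c : G)⁻¹)⁻¹ * a * (g * (c : G)⁻¹) ∈ A := by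
    intro a ha
    have h4 : (⟨g⁻¹ * a * g, hcent a ha⟩ : C) ∈ B := by
      rw [hB]
      have : g * (g⁻¹ * (a : G) * g) * g⁻¹ = a := by group
      show g * (g⁻¹ * (a : G) * g) * g⁻¹ ∈ A
      rw [this]; exact ha
    have h5 : (MulAut.conj c).toMonoidHom ⟨g⁻¹ * a * g, hcent a ha⟩ ∈ W := by
      rw [hW, ← hBW]; exact Subgroup.mem_map_of_mem _ h4
    refine ⟨_, h5, ?_⟩
    show (c : G) * (g⁻¹ * a * g) * (c : G)⁻¹ = _
    group
  refine ⟨g * (c : G)⁻¹, ?_, ?_⟩
  · have h6 : (g * (c : G)⁻¹)⁻¹ ∈ Subgroup.normalizer (A : Set G) := by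
      set n := (g * (c : G)⁻¹)⁻¹ with hn
      have h7 : A.map (MulAut.conj n).toMonoidHom = A := by
        apply Subgroup.eq_of_le_of_card_ge
        · rintro _ ⟨a, ha, rfl⟩
          have := hle a ha
          have e : (g * (c : G)⁻¹) = n⁻¹ := by rw [hn, inv_inv]
          rw [e] at this
          exact this
        · exact (Subgroup.card_map_of_injective (f := (MulAut.conj n).toMonoidHom) (MulAut.conj n).injective).ge
      rw [Subgroup.mem_normalizer_iff]
      intro a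
      constructor
      · intro ha
        have h8 : (MulAut.conj n).toMonoidHom a ∈ A.map (MulAut.conj n).toMonoidHom := Subgroup.mem_map_of_mem _ ha
        rwa [h7] at h8
      · intro ha
        have h8 : n * a * n⁻¹ ∈ A.map (MulAut.conj n).toMonoidHom := by rw [h7]; exact ha
        obtain ⟨a', ha', he⟩ := h8
        have h9 : a' = a := mul_left_cancel (mul_right_cancel he)
        rwa [← h9]
    have := Subgroup.inv_mem _ h6
    rwa [inv_inv] at this
  · have h4 : (c : G) * d = d * c := by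
      have : (c : G) ∈ Subgroup.centralizer ({d} : Set G) := by rw [← hC]; exact c.2
      exact Subgroup.mem_centralizer_singleton_iff.1 this
    have h5 : (c : G)⁻¹ * d * (c : G) = d := by rw [mul_assoc, ← h4]; group
    calc g * (c : G)⁻¹ * d * (g * (c : G)⁻¹)⁻¹ = g * ((c : G)⁻¹ * d * (c : G)) * g⁻¹ := by group
      _ = g * d * g⁻¹ := by rw [h5]

end fus

end H19.UCovL
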