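import Mathlib

/-!
Primes dividing the number of conjugates in an elementary abelian subgroup with controlled fusion.
-/

set_option autoImplicit false
set_option linter.unusedSectionVars false
set_option linter.unusedVariables false

universe u

namespace H19.UCovM

theorem prime_arg {G : Type u} [Group G] [Finite G] {d : G} (hd : orderOf d = 2) {A : Subgroup G} {r : ℕ} (hA : Nat.card A = 2 ^ r)
    (hdA : d ∈ A) (fus : ∀ g : G, g * d * g⁻¹ ∈ A → ∃ n ∈ Subgroup.normalizer (A : Set G), n * d * n⁻¹ = g * d * g⁻¹)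
    {p : ℕ} (hp : p.Prime) (hdiv : p ∣ {x : G | x ∈ A ∧ IsConj d x}.ncard) :
    p ∣ Nat.card (Subgroup.centralizer ({d} : Set G)) ∨ ∃ j, 1 ≤ j ∧ j ≤ r ∧ p ∣ 2 ^ j - 1 := by
  haveI : Fact p.Prime := ⟨hp⟩
  set N := Subgroup.normalizer (A : Set G) with hN
  letI : MulAction N G := MulAction.compHom G (MulAut.conj.comp N.subtype : N →* MulAut G)
  have hsm : ∀ (n : N) (x : G), n • x = n * x * (n : G)⁻¹ := fun n x => rfl
  have horb : MulAction.orbit N d = {x : G | x ∈ A ∧ IsConj d x} := by
    ext x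
    constructor
    · rintro ⟨n, rfl⟩
      refine ⟨?_, ?_⟩
      · show n * d * (n : G)⁻¹ ∈ A
        exact (Subgroup.mem_normalizer_iff.1 n.2 d).1 hdA
      · exact isConj_iff.2 ⟨n, rfl⟩
    · rintro ⟨hx, hc⟩
      obtain ⟨g, rfl⟩ := isConj_iff.1 hc
      obtain ⟨n, hn, he⟩ := fus g hx
      exact ⟨⟨n, hn⟩, he⟩
  have h1 : p ∣ Nat.card N := by
    rw [← horb, ← MulAction.index_stabilizer] at hdiv
    exact hdiv.trans (Subgroup.index_dvd_card _)
  obtain ⟨x, hx⟩ := exists_prime_orderOf_dvd_card' p h1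
  have hxG : orderOf (x : G) = p := by rw [← hx]; exact Subgroup.orderOf_coe x
  by_cases hc : ∀ a ∈ A, (x : G) * a * (x : G)⁻¹ = a
  · left
    have h2 : (x : G) ∈ Subgroup.centralizer ({d} : Set G) := by
      rw [Subgroup.mem_centralizer_singleton_iff]
      exact mul_inv_eq_iff_eq_mul.1 (hc d hdA)
    rw [← hxG]
    exact Subgroup.orderOf_dvd_natCard _ h2
  · letI : MulAction N A := MulAction.compHom A (Subgroup.normalizerMonoidHom A)
    have hsm2 : ∀ (n : N) (a : A), ((n • a : A) : G) = n * a * (n : G)⁻¹ := fun n a => rfl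
    have hP : IsPGroup p (Subgroup.zpowers x) := by
      apply IsPGroup.of_card (n := 1)
      rw [Nat.card_zpowers, hx, pow_one]
    have h2 := hP.card_modEq_card_fixedPoints A
    have h3 : MulAction.fixedPoints (Subgroup.zpowers x) A = (((Subgroup.centralizer ({(x : G)} : Set G)).subgroupOf A : Subgroup A) : Set A) := by
      ext a
      rw [MulAction.mem_fixedPoints, SetLike.mem_coe, Subgroup.mem_subgroupOf, Subgroup.mem_centralizer_singleton_iff]
      constructor
      · intro h
        have h4 := congrArg Subtype.val (h ⟨x, Subgroup.mem_zpowers x⟩)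
        have h5 : (x : G) * a * (x : G)⁻¹ = a := h4
        exact (mul_inv_eq_iff_eq_mul.1 h5).symm
      · intro h
        rintro ⟨y, hy⟩
        apply Subtype.ext
        show (y : G) * a * (y : G)⁻¹ = a
        obtain ⟨k, rfl⟩ := Subgroup.mem_zpowers_iff.1 hy
        have h4 : Commute (x : G) (a : G) := h.symm
        have h5 : Commute ((x : G) ^ k) (a : G) := h4.zpow_left k
        have h6 : ((x ^ k : N) : G) = (x : G) ^ k := by simp
        rw [h6, h5.eq, mul_inv_cancel_right]
    set F0 := (Subgroup.centralizer ({(x : G)} : Set G)).subgroupOf A with hF0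
    have h4 : Nat.card (MulAction.fixedPoints (Subgroup.zpowers x) A) = Nat.card F0 := by
      rw [h3]; rfl
    rw [h4] at h2
    have h5 : Nat.card F0 ∣ 2 ^ r := by rw [← hA]; exact Subgroup.card_subgroup_dvd_card F0
    obtain ⟨k, hk, hk2⟩ := (Nat.dvd_prime_pow Nat.prime_two).1 h5
    have hkr : k ≠ r := by
      rintro rfl
      apply hc
      intro a ha
      have h6 : F0 = ⊤ := Subgroup.eq_top_of_card_eq _ (by rw [hk2, hA])
      have h7 : (⟨a, ha⟩ : A) ∈ F0 := by rw [h6]; trivial
      rw [hF0, Subgroup.mem_subgroupOf, Subgroup.mem_centralizer_singleton_iff] at h7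
      rw [mul_inv_eq_iff_eq_mul]
      exact h7.symm
    rw [hk2, hA] at h2
    have h6 : p ∣ 2 ^ r - 2 ^ k := (Nat.modEq_iff_dvd' (Nat.pow_le_pow_right (by norm_num) hk)).1 h2.symm
    have h7 : 2 ^ r - 2 ^ k = 2 ^ k * (2 ^ (r - k) - 1) := by
      rw [Nat.mul_sub, ← pow_add, Nat.add_sub_cancel' hk, mul_one]
    rw [h7] at h6
    rcases (Nat.Prime.dvd_mul hp).1 h6 with h8 | h8
    · left
      have h9 : p = 2 := (Nat.prime_dvd_prime_iff_eq hp Nat.prime_two).1 (hp.dvd_of_dvd_pow h8)
      rw [h9, ← hd]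
      exact Subgroup.orderOf_dvd_natCard _ (by rw [Subgroup.mem_centralizer_singleton_iff])
    · right
      exact ⟨r - k, by omega, by omega, h8⟩

end H19.UCovM
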