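import Mathlib
import Cfsg.Agent.Lib.H19.UCovL
import Cfsg.Agent.Lib.H19.UCovM

/-!
The number of conjugates in the Thompson subgroup.
-/

set_option autoImplicit false
set_option linter.unusedSectionVars false
set_option linter.style.haveILetI false
set_option linter.unusedVariables false
open Cfsg Matrix

universe u v

namespace H19.UCovN
open H92.Herm H92.UTransv H92.PV H92.ULift H92.PolPSU H92.Tri H92.Pol H92.Geo H92.Frame H92.Lev H92.RelList H92.Inv2 H19.UCovA H19.UCovB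
open H19.ThAbs H19.UCovC H19.UCovD H19.UCovE H19.UCovJ H19.UCovK H19.UCovL H19.UCovM H19.RMod

/-- the primes allowed -/
def BB : ℕ := 2 ^ 16 * 280665 * (1 * 3 * 7 * 15 * 31 * 63 * 127 * 255 * 511 * 1023)

theorem dvd_BB {p : ℕ} (hp : p.Prime) (h : p ∣ 2 ^ 16 * 280665 ∨ ∃ j, 1 ≤ j ∧ j ≤ 10 ∧ p ∣ 2 ^ j - 1) : p ∣ BB := by
  rcases h with h | ⟨j, h1, h2, h⟩
  · exact h.mul_right _
  · apply Dvd.dvd.mul_left
    refine h.trans ?_
    interval_cases j <;> norm_num

variable {G : Type u} [Group G] [Finite G] {d : G} (hd : orderOf d = 2) {C : Subgroup G} (hC : C = Subgroup.centralizer ({d} : Set G))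
  {K : Type} [Field K] [Fintype K] {π : C →* PSU 6 K 2} {z : C} (hzd : (z : G) = d) (H : Cov K π z)
  {x0 : C} (S : Std K π z x0) {Δ : Set C} (hf : Fr 0 (D x0) Δ)
  {V : Type v} [CommGroup V] [Fintype V] [DecidableEq V] {ι : V →* C} (hι : Function.Injective ι) (hr : ι.range = Subgroup.closure (insert z Δ))
  {zv : V} (hz : ι zv = z)

include hι hr in
omit [Finite G] [DecidableEq V] in
theorem exists_psi {n : G} (hn : n ∈ Subgroup.normalizer (((Subgroup.closure (insert z Δ)).map C.subtype : Subgroup G) : Set G)) :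
    ∃ ψ : V ≃* V, ∀ v, ((ι (ψ v) : C) : G) = n * ((ι v : C) : G) * n⁻¹ := by
  have key : ∀ v, ∃ w, ((ι w : C) : G) = n * ((ι v : C) : G) * n⁻¹ := by
    intro v
    have h1 : ((ι v : C) : G) ∈ (Subgroup.closure (insert z Δ)).map C.subtype := by
      rw [← hr]; exact ⟨ι v, ⟨v, rfl⟩, rfl⟩
    have h2 := (Subgroup.mem_normalizer_iff.1 hn _).1 h1
    rw [← hr] at h2
    obtain ⟨c, ⟨w, rfl⟩, hw⟩ := h2
    exact ⟨w, hw⟩
  have hinj : ∀ a b : V, ((ι a : C) : G) = ((ι b : C) : G) → a = b := fun a b h => hι (Subtype.ext h)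
  choose ψ hψ using key
  let ψ' : V →* V := ⟨⟨ψ, by apply hinj; rw [hψ]; simp⟩, by
    intro a b
    apply hinj
    show ((ι (ψ (a * b)) : C) : G) = ((ι (ψ a * ψ b) : C) : G)
    rw [map_mul ι (ψ a), Subgroup.coe_mul, hψ, hψ, hψ, map_mul ι a, Subgroup.coe_mul]
    group⟩
  have hinj' : Function.Injective ψ' := by
    intro a b hab
    apply hinj
    have h1 : ((ι (ψ a) : C) : G) = ((ι (ψ b) : C) : G) := congrArg (fun v => ((ι v : C) : G)) hab
    rw [hψ, hψ] at h1
    exact mul_left_cancel (mul_right_cancel h1)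
  exact ⟨MulEquiv.ofBijective ψ' (Finite.injective_iff_bijective.1 hinj'), hψ⟩

include hd hC hzd H S hf hι hr hz in
open Classical in
theorem count (fus : ∀ g : G, g * d * g⁻¹ ∈ (Subgroup.closure (insert z Δ)).map C.subtype →
      ∃ n ∈ Subgroup.normalizer (((Subgroup.closure (insert z Δ)).map C.subtype : Subgroup G) : Set G), n * d * n⁻¹ = g * d * g⁻¹)
    (hl : ∃ l : List C, Rel (D x0) l ∧ l.length = 6 ∧ l.prod = z) (hcard : Nat.card C = 2 ^ 16 * 280665)
    (hnwc : ∃ g : G, g * d * g⁻¹ ∈ C ∧ g * d * g⁻¹ ≠ d) :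
    {x : G | x ∈ (Subgroup.closure (insert z Δ)).map C.subtype ∧ IsConj d x}.ncard = 22 := by
  set A : Subgroup G := (Subgroup.closure (insert z Δ)).map C.subtype with hA
  have hinj : ∀ a b : V, ((ι a : C) : G) = ((ι b : C) : G) → a = b := fun a b h => hι (Subtype.ext h)
  have PL := plane H S hf hι hr hz
  let X : Finset V := Finset.univ.filter (fun v => IsConj d ((ι v : C) : G))
  have hX : ∀ v, v ∈ X ↔ IsConj d ((ι v : C) : G) := fun v => by simp [X]
  have hmemA : ∀ v, ((ι v : C) : G) ∈ A := fun v => by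
    rw [hA, ← hr]; exact ⟨ι v, ⟨v, rfl⟩, rfl⟩
  have hncard : {x : G | x ∈ A ∧ IsConj d x}.ncard = X.card := by
    rw [← Set.ncard_coe_finset, ← Set.ncard_image_of_injective (X : Set V) (f := fun v => ((ι v : C) : G)) (fun a b h => hinj a b h)]
    congr 1
    ext x
    constructor
    · rintro ⟨hx, hc⟩
      rw [hA, ← hr] at hx
      obtain ⟨c, ⟨v, rfl⟩, rfl⟩ := hx
      exact ⟨v, Finset.mem_coe.2 ((hX v).2 hc), rfl⟩
    · rintro ⟨v, hv, rfl⟩
      exact ⟨hmemA v, (hX v).1 (Finset.mem_coe.1 hv)⟩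
  have hdz : ((ι zv : C) : G) = d := by rw [hz, hzd]
  have hd1 : d ≠ 1 := by
    intro h
    rw [h, orderOf_one] at hd
    exact absurd hd (by norm_num)
  have hconjX : ∀ (ψ : V ≃* V) (n : G), (∀ v, ((ι (ψ v) : C) : G) = n * ((ι v : C) : G) * n⁻¹) → ∀ v, (v ∈ X ↔ ψ v ∈ X) := by
    intro ψ n h v
    rw [hX, hX, h]
    constructor
    · intro h1
      exact h1.trans (isConj_iff.2 ⟨n, rfl⟩)
    · intro h1
      exact h1.trans (isConj_iff.2 ⟨n, rfl⟩ : IsConj ((ι v : C) : G) (n * ((ι v : C) : G) * n⁻¹)).symm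
  have gt : ∀ v ∈ X, ∃ (ψ : V ≃* V) (n : G), (∀ v, ((ι (ψ v) : C) : G) = n * ((ι v : C) : G) * n⁻¹) ∧ ψ zv = v := by
    intro v hv
    obtain ⟨g, hg⟩ := isConj_iff.1 ((hX v).1 hv)
    obtain ⟨n, hn, hn2⟩ := fus g (by rw [hg]; exact hmemA v)
    obtain ⟨ψ, hψ⟩ := exists_psi hι hr hn
    refine ⟨ψ, n, hψ, ?_⟩
    apply hinj
    rw [hψ, hdz, hn2, hg]
  have act : RMod2.Act zv (FF ι Δ) (LL ι Δ zv) X := by
    refine ⟨PL, ?_, ?_, ?_, ?_, ?_⟩
    · intro x hx y hy w hw ht x' hx' y' hy' w' hw' ht'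
      obtain ⟨φ, c, h1, h2, h3, h4, h5⟩ := phi_trans H S hf hι hr hz hx hy hw ht hx' hy' hw' ht'
      refine ⟨φ, h2, h3, h4, h5, hconjX φ c ?_⟩
      intro v
      rw [h1]; rfl
    · rw [hX, hdz]
    · rw [hX, map_one]
      intro h
      obtain ⟨g, hg⟩ := isConj_iff.1 h
      apply hd1
      have : d = g⁻¹ * (g * d * g⁻¹) * g := by group
      rw [this, hg]; simp
    · intro v hv
      obtain ⟨ψ, n, h1, h2⟩ := gt v hv
      exact ⟨ψ, h2, hconjX ψ n h1⟩
    · exact ns H S hf hι hr hz hl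
  have hAcard : Nat.card A = 2 ^ 10 := by
    rw [hA, Subgroup.card_map_of_injective C.subtype_injective, ← hr, ← Nat.card_congr (MonoidHom.ofInjective hι).toEquiv,
      Nat.card_eq_fintype_card, PL.card_V]
    norm_num
  have hdA : d ∈ A := by rw [← hdz]; exact hmemA zv
  have hbad : ∀ p : ℕ, p.Prime → ¬ p ∣ BB → ¬ p ∣ X.card := by
    intro p hp h1 h2
    apply h1
    apply dvd_BB hp
    rw [← hncard] at h2
    have h3 := prime_arg hd hAcard hdA fus hp h2
    rw [← hC, hcard] at h3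
    exact h3
  rw [hncard]
  -- the trivial case
  have hne1 : X.card ≠ 1 := by
    intro h1
    obtain ⟨g, hg, hgd⟩ := hnwc
    have hdd : d * d = 1 := by
      have : d ^ 2 = 1 := by rw [← hd]; exact pow_orderOf_eq_one d
      rw [← pow_two]; exact this
    have hyy : (⟨g * d * g⁻¹, hg⟩ : C) * ⟨g * d * g⁻¹, hg⟩ = 1 := by
      apply Subtype.ext
      show g * d * g⁻¹ * (g * d * g⁻¹) = 1
      calc g * d * g⁻¹ * (g * d * g⁻¹) = g * (d * d) * g⁻¹ := by group
        _ = 1 := by rw [hdd]; group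
    obtain ⟨c, hc⟩ := inv_into H S hf hyy
    rw [← hr] at hc
    obtain ⟨v, hv⟩ := hc
    have hvX : v ∈ X := by
      rw [hX, hv]
      refine isConj_iff.2 ⟨c * g, ?_⟩
      show (c : G) * g * d * ((c : G) * g)⁻¹ = (c : G) * (g * d * g⁻¹) * (c : G)⁻¹
      group
    have hzX : zv ∈ X := act.hz
    obtain ⟨a, ha⟩ := Finset.card_eq_one.1 h1
    rw [ha, Finset.mem_singleton] at hvX hzX
    have h2 : ι v = z := by rw [hvX, ← hzX, hz]
    rw [h2] at hv
    apply hgd
    have h3 : (⟨g * d * g⁻¹, hg⟩ : C) = z := by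
      have h4 : c⁻¹ * z * c = z := by rw [H.cent]; group
      calc (⟨g * d * g⁻¹, hg⟩ : C) = c⁻¹ * (c * ⟨g * d * g⁻¹, hg⟩ * c⁻¹) * c := by group
        _ = z := by rw [← hv, h4]
    have h5 := congrArg Subtype.val h3
    rw [hzd] at h5
    exact h5
  have hsz := RMod2.sizes act (by
    intro n hn h
    simp only [List.mem_cons, List.not_mem_nil, or_false] at hn
    have key : ∀ p : ℕ, p.Prime → ¬ p ∣ BB → p ∣ n → False := fun p hp h1 h2 => hbad p hp h1 (by rw [h]; exact h2)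
    rcases hn with rfl | rfl | rfl | rfl | rfl | rfl | rfl | rfl | rfl | rfl | rfl | rfl | rfl
    · exact key 43 (by norm_num) (by norm_num [BB]) (by norm_num)
    · exact key 211 (by norm_num) (by norm_num [BB]) (by norm_num)
    · exact key 29 (by norm_num) (by norm_num [BB]) (by norm_num)
    · exact key 23 (by norm_num) (by norm_num [BB]) (by norm_num)
    · exact key 421 (by norm_num) (by norm_num [BB]) (by norm_num)
    · exact key 13 (by norm_num) (by norm_num [BB]) (by norm_num)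
    · exact key 463 (by norm_num) (by norm_num [BB]) (by norm_num)
    · exact key 97 (by norm_num) (by norm_num [BB]) (by norm_num)
    · exact key 67 (by norm_num) (by norm_num [BB]) (by norm_num)
    · exact key 257 (by norm_num) (by norm_num [BB]) (by norm_num)
    · exact key 271 (by norm_num) (by norm_num [BB]) (by norm_num)
    · exact key 109 (by norm_num) (by norm_num [BB]) (by norm_num)
    · exact key 167 (by norm_num) (by norm_num [BB]) (by norm_num)) hne1
  rcases hsz with h22 | h1023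
  · exact h22
  exfalso
  -- everything is conjugate
  have hall : ∀ v : V, v ≠ 1 → v ∈ X := by
    intro v hv
    by_contra hn
    have h1 : X ⊆ (Finset.univ.erase v).erase 1 := by
      intro u hu
      rw [Finset.mem_erase, Finset.mem_erase]
      refine ⟨?_, ?_, Finset.mem_univ _⟩
      · rintro rfl; exact act.h1 hu
      · rintro rfl; exact hn hu
    have h2 := Finset.card_le_card h1
    rw [Finset.card_erase_of_mem (by rw [Finset.mem_erase]; exact ⟨hv.symm, Finset.mem_univ _⟩), Finset.card_erase_of_mem (Finset.mem_univ _),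
      Finset.card_univ, PL.card_V, h1023] at h2
    norm_num at h2
  obtain ⟨φ, c, hφ, I, h5⟩ := UCovF.exists_t H S hf hι hr hz
  apply RMod3.no_all PL I h5
  intro x hx1
  obtain ⟨ψ, n, h1, h2⟩ := gt x (hall x hx1)
  refine ⟨ψ.symm, by rw [← h2, MulEquiv.symm_apply_apply], ?_⟩
  intro hfix y hy
  rw [MulEquiv.symm_symm] at hfix ⊢
  have hψs : ∀ v, ((ι (ψ.symm v) : C) : G) = n⁻¹ * ((ι v : C) : G) * n := by
    intro v
    have h3 := h1 (ψ.symm v)
    rw [MulEquiv.apply_symm_apply] at h3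
    rw [h3]; group
  have hm : ∀ v, ((ι (ψ.symm (φ (ψ v))) : C) : G) = (n⁻¹ * (c : G) * n) * ((ι v : C) : G) * (n⁻¹ * (c : G) * n)⁻¹ := by
    intro v
    rw [hψs, hφ]
    show n⁻¹ * ((c : G) * ((ι (ψ v) : C) : G) * (c : G)⁻¹) * n = _
    rw [h1]
    group
  have hCmem : ∀ g : G, g ∈ C ↔ g * d = d * g := fun g => by rw [hC, Subgroup.mem_centralizer_singleton_iff]
  have hmC : n⁻¹ * (c : G) * n ∈ C := by
    rw [hCmem]
    have h3 := hm zv
    rw [hfix, hdz] at h3
    exact (mul_inv_eq_iff_eq_mul.1 h3.symm)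
  rw [mem_FF_iff H S hf hι hr hz] at hy ⊢
  have h3 : ι (ψ.symm (φ (ψ y))) = (⟨n⁻¹ * (c : G) * n, hmC⟩ : C) * ι y * (⟨n⁻¹ * (c : G) * n, hmC⟩ : C)⁻¹ := by
    apply Subtype.ext
    rw [hm]; rfl
  rw [h3]
  exact conj_D hy _

end H19.UCovN
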