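import Mathlib
import Cfsg.Agent.S0280
import Cfsg.Agent.Lib.H19.UCovN

/-!
The conjugates of the central involution of a double cover centralizer of type `U6(2)` are the lifts of the transvections.
-/

set_option autoImplicit false
set_option linter.unusedSectionVars false
set_option linter.style.haveILetI false
set_option linter.unusedVariables false
open Cfsg Matrix

universe u v

namespace H19.UCovO
open H92.Herm H92.UTransv H92.PV H92.ULift H92.PolPSU H92.Tri H92.Pol H92.Geo H92.Frame H92.Lev H92.RelList H92.Inv2 H19.UCovA H19.UCovB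
open H19.ThAbs H19.UCovC H19.UCovD H19.UCovE H19.UCovJ H19.UCovK H19.UCovL H19.UCovM H19.UCovN H19.RMod

variable {G : Type u} [Group G] [Finite G] {d : G} (hd : orderOf d = 2) {C : Subgroup G} (hC : C = Subgroup.centralizer ({d} : Set G))
  {K : Type} [Field K] [Fintype K] {π : C →* PSU 6 K 2} {z : C} (hzd : (z : G) = d) (H : Cov K π z)
  {x0 : C} (S : Std K π z x0) {Δ : Set C} (hf : Fr 0 (D x0) Δ)
  {V : Type v} [CommGroup V] [Fintype V] [DecidableEq V] {ι : V →* C} (hι : Function.Injective ι) (hr : ι.range = Subgroup.closure (insert z Δ))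
  {zv : V} (hz : ι zv = z)

include hd hC hzd H S hf hι hr hz in
open Classical in
theorem classX (fus : ∀ g : G, g * d * g⁻¹ ∈ (Subgroup.closure (insert z Δ)).map C.subtype →
      ∃ n ∈ Subgroup.normalizer (((Subgroup.closure (insert z Δ)).map C.subtype : Subgroup G) : Set G), n * d * n⁻¹ = g * d * g⁻¹)
    (hl : ∃ l : List C, Rel (D x0) l ∧ l.length = 6 ∧ l.prod = z)
    (h22 : {x : G | x ∈ (Subgroup.closure (insert z Δ)).map C.subtype ∧ IsConj d x}.ncard = 22) :
    (∀ v : V, IsConj d ((ι v : C) : G) ↔ v = zv ∨ v ∈ FF ι Δ) ∨ (∀ v : V, IsConj d ((ι v : C) : G) ↔ v = zv ∨ ∃ x ∈ FF ι Δ, v = x * zv) := by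
  set A : Subgroup G := (Subgroup.closure (insert z Δ)).map C.subtype with hA
  have hinj : ∀ a b : V, ((ι a : C) : G) = ((ι b : C) : G) → a = b := fun a b h => hι (Subtype.ext h)
  have PL := plane H S hf hι hr hz
  let X : Finset V := Finset.univ.filter (fun v => IsConj d ((ι v : C) : G))
  have hX : ∀ v, v ∈ X ↔ IsConj d ((ι v : C) : G) := fun v => by simp [X]
  have hmemA : ∀ v, ((ι v : C) : G) ∈ A := fun v => by
    rw [hA, ← hr]; exact ⟨ι v, ⟨v, rfl⟩, rfl⟩
  have hncard : {x : G | x ∈ A ∧ IsConj d x}.ncard = X.card := by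
    rw [← Set.ncard_coe_finset, ← Set.ncard_image_of_injective (X : Set V) (f := fun v => ((ι v : C) : G)) (fun a b h => hinj a b h)]
    congr 1
    ext x
    constructor
    · rintro ⟨hx, hc⟩
      rw [hA, ← hr] at hx
      obtain ⟨c, ⟨v, rfl⟩, rfl⟩ := hx
      exact ⟨v, Finset.mem_coe.2 ((hX v).2 hc), rfl⟩
    · rintro ⟨v, hv, rfl⟩
      exact ⟨hmemA v, (hX v).1 (Finset.mem_coe.1 hv)⟩
  have hdz : ((ι zv : C) : G) = d := by rw [hz, hzd]
  have hd1 : d ≠ 1 := by
    intro h
    rw [h, orderOf_one] at hd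
    exact absurd hd (by norm_num)
  have hconjX : ∀ (ψ : V ≃* V) (n : G), (∀ v, ((ι (ψ v) : C) : G) = n * ((ι v : C) : G) * n⁻¹) → ∀ v, (v ∈ X ↔ ψ v ∈ X) := by
    intro ψ n h v
    rw [hX, hX, h]
    constructor
    · intro h1
      exact h1.trans (isConj_iff.2 ⟨n, rfl⟩)
    · intro h1
      exact h1.trans (isConj_iff.2 ⟨n, rfl⟩ : IsConj ((ι v : C) : G) (n * ((ι v : C) : G) * n⁻¹)).symm
  have gt : ∀ v ∈ X, ∃ (ψ : V ≃* V) (n : G), (∀ v, ((ι (ψ v) : C) : G) = n * ((ι v : C) : G) * n⁻¹) ∧ ψ zv = v := by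
    intro v hv
    obtain ⟨g, hg⟩ := isConj_iff.1 ((hX v).1 hv)
    obtain ⟨n, hn, hn2⟩ := fus g (by rw [hg]; exact hmemA v)
    obtain ⟨ψ, hψ⟩ := exists_psi hι hr hn
    refine ⟨ψ, n, hψ, ?_⟩
    apply hinj
    rw [hψ, hdz, hn2, hg]
  have act : RMod2.Act zv (FF ι Δ) (LL ι Δ zv) X := by
    refine ⟨PL, ?_, ?_, ?_, ?_, ?_⟩
    · intro x hx y hy w hw ht x' hx' y' hy' w' hw' ht'
      obtain ⟨φ, c, h1, h2, h3, h4, h5⟩ := phi_trans H S hf hι hr hz hx hy hw ht hx' hy' hw' ht'
      refine ⟨φ, h2, h3, h4, h5, hconjX φ c ?_⟩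
      intro v
      rw [h1]; rfl
    · rw [hX, hdz]
    · rw [hX, map_one]
      intro h
      obtain ⟨g, hg⟩ := isConj_iff.1 h
      apply hd1
      have : d = g⁻¹ * (g * d * g⁻¹) * g := by group
      rw [this, hg]; simp
    · intro v hv
      obtain ⟨ψ, n, h1, h2⟩ := gt v hv
      exact ⟨ψ, h2, hconjX ψ n h1⟩
    · exact ns H S hf hι hr hz hl
  rw [hncard] at h22
  obtain ⟨c10, c11, c20, c21, c3, b10, b11, b20, b21, b3, hXc, e10, e11, e20, e21, e3⟩ := RMod2.shape act
  rw [h22] at hXc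
  have hc : c10 + c11 = 1 ∧ c20 = 0 ∧ c21 = 0 ∧ c3 = 0 := by
    rcases (show c3 = 0 ∨ c3 = 1 by omega) with h3 | h3 <;>
    rcases (show c10 + c11 = 0 ∨ c10 + c11 = 1 ∨ c10 + c11 = 2 by omega) with h4 | h4 | h4 <;>
    rcases (show c20 + c21 = 0 ∨ c20 + c21 = 1 ∨ c20 + c21 = 2 by omega) with h5 | h5 | h5 <;>
    rw [h3, h4, h5] at hXc <;> omega
  obtain ⟨h1, rfl, rfl, rfl⟩ := hc
  have hzX := act.hz
  rcases (show c10 = 1 ∧ c11 = 0 ∨ c10 = 0 ∧ c11 = 1 by omega) with ⟨rfl, rfl⟩ | ⟨rfl, rfl⟩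
  · left
    intro v
    rw [← hX]
    constructor
    · intro hv
      rcases RMod2.cases_univ PL v with h | h | h | ⟨x, hx, h⟩ | ⟨x, hx, y, hy, hxy, h⟩ | ⟨x, hx, y, hy, hxy, h⟩ | h
      · exact absurd (h ▸ hv) act.h1
      · exact Or.inl h
      · exact Or.inr h
      · have := e11 x hx; rw [← h, if_pos hv] at this; omega
      · have := e20 x hx y hy hxy; rw [← h, if_pos hv] at this; omega
      · have := e21 x hx y hy hxy; rw [← h, if_pos hv] at this; omega
      · have := e3 v h; rw [if_pos hv] at this; omega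
    · rintro (h | h)
      · rw [h]; exact hzX
      · by_contra hn
        have := e10 v h; rw [if_neg hn] at this; omega
  · right
    intro v
    rw [← hX]
    constructor
    · intro hv
      rcases RMod2.cases_univ PL v with h | h | h | ⟨x, hx, h⟩ | ⟨x, hx, y, hy, hxy, h⟩ | ⟨x, hx, y, hy, hxy, h⟩ | h
      · exact absurd (h ▸ hv) act.h1
      · exact Or.inl h
      · have := e10 v h; rw [if_pos hv] at this; omega
      · exact Or.inr ⟨x, hx, h⟩
      · have := e20 x hx y hy hxy; rw [← h, if_pos hv] at this; omega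
      · have := e21 x hx y hy hxy; rw [← h, if_pos hv] at this; omega
      · have := e3 v h; rw [if_pos hv] at this; omega
    · rintro (h | ⟨x, hx, h⟩)
      · rw [h]; exact hzX
      · by_contra hn
        have := e11 x hx; rw [← h, if_neg hn] at this; omega

include hd hC hzd H in
/-- the conjugates of `d` in its centralizer: `d` and one class of lifts of transvections -/
theorem conj_iff (hno : ∀ M : Subgroup C, M.Normal → M.index ≠ 2) (hcard : Nat.card C = 2 ^ 16 * 280665)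
    (hnwc : ∃ g : G, g * d * g⁻¹ ∈ C ∧ g * d * g⁻¹ ≠ d) :
    ∃ x1 : C, π x1 ∈ transv K ∧ ∀ y : C, (IsConj d (y : G) ↔ (y : G) = d ∨ y ∈ D x1) := by
  classical
  obtain ⟨x0, S⟩ := exists_std H
  haveI : Fact (Nat.Prime 2) := ⟨Nat.prime_two⟩
  obtain ⟨T⟩ : Nonempty (Sylow 2 C) := inferInstance
  obtain ⟨Δ, hf, hΔ⟩ := H92.Frame.frame_of_pgroup (H.lev S.h0) (T : Subgroup C) T.2 (by
    intro q _
    refine ⟨fun y hy => H19.UCovB.conj_D hy q, fun y hy => ?_⟩
    have := H19.UCovB.conj_D hy q⁻¹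
    rwa [inv_inv] at this)
  have hs := H19.UCovD.sit H S.h0 hf
  letI : CommGroup ↥(Subgroup.closure (insert z Δ)) := H19.UCovJ.cgrp _ hs.closure_comm
  letI : Fintype ↥(Subgroup.closure (insert z Δ)) := Fintype.ofFinite _
  have hfus : ∀ g : G, g * d * g⁻¹ ∈ (Subgroup.closure (insert z Δ)).map C.subtype →
      ∃ n ∈ Subgroup.normalizer (((Subgroup.closure (insert z Δ)).map C.subtype : Subgroup G) : Set G), n * d * n⁻¹ = g * d * g⁻¹ :=
    fun g hg => H19.UCovL.fusion hC hzd hs T hΔ hg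
  have hl := H19.UCovJ.not_split H S hno hcard
  have hcount := count hd hC hzd H S hf (V := ↥(Subgroup.closure (insert z Δ))) (ι := (Subgroup.closure (insert z Δ)).subtype)
    (Subgroup.subtype_injective _) (Subgroup.range_subtype _) (zv := ⟨z, Subgroup.subset_closure (Set.mem_insert _ _)⟩) rfl hfus hl hcard hnwc
  have hcl := classX hd hC hzd H S hf (V := ↥(Subgroup.closure (insert z Δ))) (ι := (Subgroup.closure (insert z Δ)).subtype)
    (Subgroup.subtype_injective _) (Subgroup.range_subtype _) (zv := ⟨z, Subgroup.subset_closure (Set.mem_insert _ _)⟩) rfl hfus hl hcount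
  have hdd : d * d = 1 := by
    have : d ^ 2 = 1 := by rw [← hd]; exact pow_orderOf_eq_one d
    rw [← pow_two]; exact this
  have hsq : ∀ y : C, IsConj d (y : G) → y * y = 1 := by
    intro y hy
    obtain ⟨g, hg⟩ := isConj_iff.1 hy
    apply Subtype.ext
    show (y : G) * y = 1
    rw [← hg]
    calc g * d * g⁻¹ * (g * d * g⁻¹) = g * (d * d) * g⁻¹ := by group
      _ = 1 := by rw [hdd]; group
  -- one member of the class conjugate to d gives all
  have hall : ∀ x1 : C, (∃ y ∈ D x1, IsConj d (y : G)) → ∀ y ∈ D x1, IsConj d (y : G) := by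
    rintro x1 ⟨_, ⟨c, rfl⟩, hy⟩ _ ⟨c', rfl⟩
    refine hy.trans (isConj_iff.2 ⟨(c' * c⁻¹ : C), ?_⟩)
    show ((c' * c⁻¹ * (c * x1 * c⁻¹) * (c' * c⁻¹)⁻¹ : C) : G) = ((c' * x1 * c'⁻¹ : C) : G)
    congr 1
    group
  obtain ⟨p0, hp0⟩ := hf.nonempty
  have hp0W : p0 ∈ Subgroup.closure (insert z Δ) := Subgroup.subset_closure (Or.inr hp0)
  have hzW : z ∈ Subgroup.closure (insert z Δ) := Subgroup.subset_closure (Set.mem_insert _ _)
  -- conclusion from the description in the frame group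
  have fin : ∀ x1 : C, π x1 ∈ transv K → (∃ y ∈ D x1, IsConj d (y : G)) →
      (∀ w ∈ Subgroup.closure (insert z Δ), IsConj d ((w : C) : G) → w = z ∨ w ∈ D x1) →
      ∀ y : C, (IsConj d (y : G) ↔ (y : G) = d ∨ y ∈ D x1) := by
    intro x1 _ hex hw y
    constructor
    · intro hy
      obtain ⟨c, hc⟩ := inv_into H S hf (hsq y hy)
      have h1 : IsConj d ((c * y * c⁻¹ : C) : G) := hy.trans (isConj_iff.2 ⟨(c : G), rfl⟩)
      rcases hw _ hc h1 with h2 | h2
      · left
        have h3 : y = z := by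
          calc y = c⁻¹ * (c * y * c⁻¹) * c := by group
            _ = c⁻¹ * (z * c) := by rw [h2, mul_assoc]
            _ = c⁻¹ * (c * z) := by rw [H.cent]
            _ = z := by group
        rw [h3, hzd]
      · right
        have h3 : y = c⁻¹ * (c * y * c⁻¹) * c⁻¹⁻¹ := by group
        rw [h3]
        exact conj_D h2 _
    · rintro (h | h)
      · rw [h]
      · exact hall x1 hex y h
  rcases hcl with hcl | hcl
  · refine ⟨x0, S.h0, fin x0 S.h0 ⟨p0, hf.sub hp0, ?_⟩ ?_⟩
    · exact (hcl ⟨p0, hp0W⟩).2 (Or.inr (mem_FF.2 hp0))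
    · intro w hw hconj
      rcases (hcl ⟨w, hw⟩).1 hconj with h | h
      · left; exact congrArg Subtype.val h
      · right; exact hf.sub (mem_FF.1 h)
  · have h1 : π (x0 * z) ∈ transv K := by rw [map_mul, H.pz, mul_one]; exact S.h0
    refine ⟨x0 * z, h1, fin (x0 * z) h1 ⟨p0 * z, ?_, ?_⟩ ?_⟩
    · rw [mem_Dz H, mul_assoc, H.sq, mul_one]; exact hf.sub hp0
    · exact (hcl (⟨p0, hp0W⟩ * ⟨z, hzW⟩)).2 (Or.inr ⟨⟨p0, hp0W⟩, mem_FF.2 hp0, rfl⟩)
    · intro w hw hconj
      rcases (hcl ⟨w, hw⟩).1 hconj with h | ⟨x, hx, h⟩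
      · left; exact congrArg Subtype.val h
      · right
        have h2 : w = (x : C) * z := congrArg Subtype.val h
        rw [h2, mem_Dz H, mul_assoc, H.sq, mul_one]
        exact hf.sub (mem_FF.1 hx)

/-- the conjugates of `d` in `C(d)`, other than `d`, are the lifts (one for each) of the transvections -/
theorem main {G : Type u} [Group G] [Finite G] (d : G) (hd : orderOf d = 2) (C : Subgroup G) (hC : C = Subgroup.centralizer ({d} : Set G)) (hq : Cfsg.IsQuasisimple ↥C) [hzn : ((Subgroup.zpowers d).subgroupOf C).Normal] (K : Type) [Field K] [Fintype K] (hK : Fintype.card K = 4) (e : ↥C ⧸ (Subgroup.zpowers d).subgroupOf C ≃* Cfsg.PSU 6 K 2) (hnwc : ∃ g : G, g * d * g⁻¹ ∈ C ∧ g * d * g⁻¹ ≠ d) :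
    (∀ x : C, IsConj d (x : G) → (x : G) ≠ d → e (QuotientGroup.mk x) ∈ transv K) ∧
    (∀ t ∈ transv K, ∃! x : C, IsConj d (x : G) ∧ e (QuotientGroup.mk x) = t) ∧
    ∃ (z : C) (π : C →* PSU 6 K 2), (z : G) = d ∧ (∀ x, π x = e (QuotientGroup.mk x)) ∧ Cov K π z ∧
      ∃ x1 : C, π x1 ∈ transv K ∧ ∀ y : C, (IsConj d (y : G) ↔ (y : G) = d ∨ y ∈ D x1) := by
  classical
  have hdd : d * d = 1 := by
    have : d ^ 2 = 1 := by rw [← hd]; exact pow_orderOf_eq_one d
    rw [← pow_two]; exact this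
  have hd1 : d ≠ 1 := by
    intro h; rw [h, orderOf_one] at hd; exact absurd hd (by norm_num)
  have hdC : d ∈ C := by rw [hC, Subgroup.mem_centralizer_singleton_iff]
  let d' : C := ⟨d, hdC⟩
  let π : C →* PSU 6 K 2 := e.toMonoidHom.comp (QuotientGroup.mk' ((Subgroup.zpowers d).subgroupOf C))
  have hk0 : ∀ c : C, π c = 1 → c ∈ (Subgroup.zpowers d).subgroupOf C := by
    intro c hc
    have h1 : (QuotientGroup.mk' ((Subgroup.zpowers d).subgroupOf C)) c = 1 := e.injective (by rw [map_one]; exact hc)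
    exact (QuotientGroup.eq_one_iff c).1 h1
  have hk : ∀ c : C, π c = 1 → c = 1 ∨ c = d' := by
    intro c hc
    have h2 := hk0 c hc
    rw [Subgroup.mem_subgroupOf] at h2
    obtain ⟨m, hm⟩ := Subgroup.mem_zpowers_iff.1 h2
    rcases Int.even_or_odd' m with ⟨j, hj | hj⟩
    · left
      apply Subtype.ext
      show (c : G) = 1
      rw [← hm, hj, _root_.zpow_mul]
      have : d ^ (2 : ℤ) = 1 := by
        rw [show (2 : ℤ) = ((2 : ℕ) : ℤ) by norm_num, zpow_natCast, pow_two]; exact hdd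
      rw [this, _root_.one_zpow]
    · right
      apply Subtype.ext
      show (c : G) = d
      rw [← hm, hj, _root_.zpow_add, _root_.zpow_mul]
      have : d ^ (2 : ℤ) = 1 := by
        rw [show (2 : ℤ) = ((2 : ℕ) : ℤ) by norm_num, zpow_natCast, pow_two]; exact hdd
      rw [this, _root_.one_zpow, one_mul, _root_.zpow_one]
  have H : H19.UCovB.Cov K π d' := by
    refine ⟨hK, ?_, ?_, Subtype.ext hdd, hk, ?_, ?_⟩
    · exact e.surjective.comp (QuotientGroup.mk'_surjective _)
    · intro c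
      apply Subtype.ext
      have h5 : (c : G) ∈ Subgroup.centralizer ({d} : Set G) := by rw [← hC]; exact c.2
      exact Subgroup.mem_centralizer_singleton_iff.1 h5
    · intro h
      exact hd1 (congrArg Subtype.val h)
    · show e (QuotientGroup.mk d') = 1
      rw [(QuotientGroup.eq_one_iff d').2 (by rw [Subgroup.mem_subgroupOf]; exact Subgroup.mem_zpowers d), map_one]
  -- the order
  have hpsu : Nat.card (PSU 6 K 2) = 2 ^ 15 * 280665 := by
    have h1 := Cfsg.Agent.S0280.result (F := K) (q := 2) (by rw [hK]; norm_num) 6 (by norm_num)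
    norm_num [Finset.prod_range_succ] at h1
    rw [Nat.card_eq_fintype_card]
    omega
  have hcard : Nat.card C = 2 ^ 16 * 280665 := by
    have h1 := Subgroup.card_eq_card_quotient_mul_card_subgroup ((Subgroup.zpowers d).subgroupOf C)
    rw [Nat.card_congr e.toEquiv, hpsu] at h1
    have h2 : Nat.card ((Subgroup.zpowers d).subgroupOf C) = 2 := by
      rw [Nat.card_congr (Subgroup.subgroupOfEquivOfLe (by rw [Subgroup.zpowers_le]; exact hdC)).toEquiv, Nat.card_zpowers, hd]
    rw [h2] at h1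
    rw [h1]; norm_num
  have hno : ∀ M : Subgroup C, M.Normal → M.index ≠ 2 := by
    intro M hM h2
    have hperf : commutator C = ⊤ := Group.isPerfect_def.1 hq.1
    have h3 : commutator C ≤ M := by
      haveI := hM
      haveI : IsCyclic (C ⧸ M) := isCyclic_of_prime_card (p := 2) h2
      letI : CommGroup (C ⧸ M) := IsCyclic.commGroup
      have h4 := Abelianization.commutator_subset_ker (QuotientGroup.mk' M)
      rwa [QuotientGroup.ker_mk'] at h4
    rw [hperf, top_le_iff] at h3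
    rw [h3, Subgroup.index_top] at h2
    norm_num at h2
  obtain ⟨x1, hx1, hconj⟩ := conj_iff hd hC (z := d') rfl H hno hcard hnwc
  refine ⟨?_, ?_, d', π, rfl, fun _ => rfl, H, x1, hx1, hconj⟩
  · intro x hx hxd
    exact H.mem_transv hx1 (((hconj x).1 hx).resolve_left hxd)
  · intro t ht
    obtain ⟨x, hx, hxt⟩ := H.exists_lift hx1 ht
    refine ⟨x, ⟨(hconj x).2 (Or.inr hx), hxt⟩, ?_⟩
    rintro y ⟨hy, hyt⟩
    rcases (hconj y).1 hy with h | h
    · exfalso
      have h1 : y = d' := Subtype.ext h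
      have h2 : π y = 1 := by rw [h1]; exact H.pz
      have h3 : π y = t := hyt
      rw [h2] at h3
      exact H92.Pol.ne_one (tri_transv H.card) (pol_psu H.card (closure_transv H.card)) (h3 ▸ ht) rfl
    · exact H.uniq hx1 h hx (by rw [hxt]; exact hyt)

end H19.UCovO
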