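import Mathlib
import Cfsg.Agent.Lib.H19.DCovA
import Cfsg.Agent.Lib.H19.UCovE
import Cfsg.Agent.Lib.H92.LGAll
import Cfsg.Agent.Lib.H92.Frame

/-!
Central extensions by a group of order two of groups of type M(22): the class of 3-transpositions.
-/

set_option autoImplicit false
set_option linter.unusedSectionVars false
set_option linter.style.haveILetI false
set_option linter.unusedVariables false
open Cfsg

universe u v

namespace H19.VCovA
open H92.Tri H92.Lev H92.RelList H92.Geo H92.ULift H92.Frame H19.DCovA H19.ThAbs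
open H19.UCovB (D)

/-- central extensions of groups of type M(22) by a group of order two -/
structure Cov2 {C : Type u} {Q : Type v} [Group C] [Group Q] (π : C →* Q) (z : C) (E : Set Q) : Prop where
  lg : LG 1 E
  card : E.ncard = 3510
  gen : Subgroup.closure E = ⊤
  cen : Subgroup.center Q = ⊥
  surj : Function.Surjective π
  cent : ∀ c, c * z = z * c
  sq : z * z = 1
  ker : ∀ c, π c = 1 → c = 1 ∨ c = z
  ne : z ≠ 1
  pz : π z = 1

theorem conj_D {C : Type u} [Group C] {x0 y : C} (hy : y ∈ D x0) (g : C) : g * y * g⁻¹ ∈ D x0 := by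
  obtain ⟨c, rfl⟩ := hy
  exact ⟨g * c, by group⟩

variable {C : Type u} {Q : Type v} [Group C] [Group Q] [Finite Q] {π : C →* Q} {z : C} {E : Set Q} (H : Cov2 π z E)
include H

omit [Finite Q] in
theorem Cov2.comm_of {x y : C} (hx : π x ∈ E) (hy : π y ∈ E) (h : Commute (π x) (π y)) : Commute x y :=
  comm_lifts π z H.lg H.gen H.cen H.surj H.cent H.sq H.ker x y hx hy h

theorem Cov2.inv_of {y : C} (hy : π y * π y = 1) : y * y = 1 :=
  lift_inv π z H.lg H.card H.gen H.cen H.surj H.cent H.sq H.ker hy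

theorem Cov2.comm_cent {x : C} (hx : π x ∈ E) {c : C} (hc : Commute (π c) (π x)) : Commute c x := by
  have h1 : π c ∈ Subgroup.closure (H92.Tri.C E (π x)) := by
    rw [H92.M22.centralizer_one H.lg H.card H.gen H.cen hx, Subgroup.mem_centralizer_singleton_iff]; exact hc
  have key : ∀ g ∈ Subgroup.closure (H92.Tri.C E (π x)), ∀ c, π c = g → Commute c x := by
    intro g hg
    induction hg using Subgroup.closure_induction with
    | mem y hy =>
      intro c hc
      rw [← hc] at hy
      exact H.comm_of hy.1 hx hy.2.2.symm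
    | one =>
      intro c hc
      rcases H.ker c hc with h2 | h2
      · rw [h2]; exact Commute.one_left x
      · rw [h2]; exact (H.cent x).symm
    | mul a b _ _ ha hb =>
      intro c hc
      obtain ⟨c1, h1⟩ := H.surj a
      obtain ⟨c2, h2⟩ := H.surj b
      have h3 : π c = π (c1 * c2) := by rw [hc, map_mul, h1, h2]
      have h4 : Commute (c1 * c2) x := (ha c1 h1).mul_left (hb c2 h2)
      rcases lift_eq π z H.ker h3 with h5 | h5
      · rw [h5]; exact h4
      · rw [h5]; exact h4.mul_left (H.cent x).symm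
    | inv a _ ha =>
      intro c hc
      have h2 : π c⁻¹ = a := by rw [map_inv, hc, inv_inv]
      have := ha c⁻¹ h2
      have h3 := this.inv_left
      rwa [inv_inv] at h3
  exact key _ h1 c rfl

theorem Cov2.not_fuse {x : C} (hx : π x ∈ E) (c : C) : c * x * c⁻¹ ≠ x * z := by
  intro h
  have h1 : π c * π x * (π c)⁻¹ = π x := by
    have := congrArg π h
    rw [map_mul, map_mul, map_inv, map_mul, H.pz, mul_one] at this
    exact this
  have h2 : Commute (π c) (π x) := mul_inv_eq_iff_eq_mul.1 h1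
  have h3 := H.comm_cent hx h2
  rw [h3.eq, mul_inv_cancel_right] at h
  have h4 : x * 1 = x * z := by rw [mul_one]; exact h
  exact H.ne (mul_left_cancel h4).symm

section cls
variable {x0 : C} (h0 : π x0 ∈ E)
include h0

omit [Finite Q] in
theorem Cov2.mem_E {y : C} (hy : y ∈ D x0) : π y ∈ E := by
  obtain ⟨c, rfl⟩ := hy
  rw [map_mul, map_mul, map_inv]
  exact conj_closure H.lg.lev.tri (by rw [H.gen]; trivial) h0

theorem Cov2.uniq {x y : C} (hx : x ∈ D x0) (hy : y ∈ D x0) (h : π x = π y) : x = y := by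
  rcases lift_eq π z H.ker h with h1 | h1
  · exact h1
  · exfalso
    obtain ⟨c, rfl⟩ := hx
    obtain ⟨c', rfl⟩ := hy
    apply H.not_fuse h0 (c'⁻¹ * c)
    calc c'⁻¹ * c * x0 * (c'⁻¹ * c)⁻¹ = c'⁻¹ * (c * x0 * c⁻¹) * c' := by group
      _ = c'⁻¹ * (c' * x0 * c'⁻¹ * z) * c' := by rw [h1]
      _ = x0 * c'⁻¹ * (z * c') := by group
      _ = x0 * c'⁻¹ * (c' * z) := by rw [H.cent]
      _ = x0 * z := by group

omit [Finite Q] in
theorem Cov2.exists_lift {a : Q} (ha : a ∈ E) : ∃ x ∈ D x0, π x = a := by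
  obtain ⟨k, _, hk⟩ := H.lg.lev.trans h0 ha
  obtain ⟨c, rfl⟩ := H.surj k
  refine ⟨c * x0 * c⁻¹, ⟨c, rfl⟩, ?_⟩
  rw [map_mul, map_mul, map_inv]; exact hk

omit [Finite Q] in
theorem Cov2.sq_D {x : C} (hx : x ∈ D x0) : x * x = 1 :=
  sq_lifts π z H.lg H.gen H.cen H.surj H.cent H.sq H.ker x (H.mem_E h0 hx)

omit [Finite Q] in
theorem Cov2.inv_D {x : C} (hx : x ∈ D x0) : x⁻¹ = x := inv_eq_of_mul_eq_one_left (H.sq_D h0 hx)

theorem Cov2.tri : Tri (D x0) := by
  refine ⟨fun x hx => H.sq_D h0 hx, ?_, ?_⟩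
  · intro x hx y hy
    rcases H.lg.lev.tri.three _ (H.mem_E h0 hx) _ (H.mem_E h0 hy) with h1 | h1
    · exact Or.inl (H.comm_of (H.mem_E h0 hx) (H.mem_E h0 hy) h1)
    · right
      apply H.uniq h0
      · have := conj_D hy x
        rwa [H.inv_D h0 hx] at this
      · have := conj_D hx y
        rwa [H.inv_D h0 hy] at this
      · rw [map_mul, map_mul, map_mul, map_mul]; exact h1
  · intro x hx y hy
    have := conj_D hy x
    rwa [H.inv_D h0 hx] at this

theorem Cov2.injOn : Set.InjOn π (D x0) := fun x hx y hy h => H.uniq h0 hx hy h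

theorem Cov2.image : π '' (D x0) = E := by
  ext a
  constructor
  · rintro ⟨x, hx, rfl⟩; exact H.mem_E h0 hx
  · intro ha
    obtain ⟨x, hx, he⟩ := H.exists_lift h0 ha
    exact ⟨x, hx, he⟩

theorem Cov2.lg' : LG 1 (D x0) := by
  apply H92.LGAll.lg_one
  apply lev_preimage π (H.tri h0) (H.injOn h0)
  rw [H.image h0]; exact H.lg.lev

theorem Cov2.image_C {x : C} (hx : x ∈ D x0) : π '' (H92.Tri.C (D x0) x) = H92.Tri.C E (π x) := by
  rw [← H.image h0, C_image π (H.tri h0) (H.injOn h0) hx]

/-- a product of members commuting with all members is `1` or `z` -/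
theorem Cov2.central {c : C} (h : ∀ x ∈ D x0, Commute c x) : c = 1 ∨ c = z := by
  apply H.ker
  apply H92.QS.central_one H.gen H.cen
  intro a ha
  obtain ⟨x, hx, rfl⟩ := H.exists_lift h0 ha
  exact (h x hx).map π

omit [Finite Q] h0 in
theorem Cov2.zcentral {c : C} (h : c = 1 ∨ c = z) (x : C) : Commute c x := by
  rcases h with h | h
  · rw [h]; exact Commute.one_left x
  · rw [h]; exact (H.cent x).symm

/-- elements commuting with a member and its neighbours -/
theorem Cov2.cent_C {x c : C} (hx : x ∈ D x0) (h : ∀ y ∈ H92.Tri.C (D x0) x, Commute c y) (hcx : Commute c x) :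
    c = 1 ∨ c = z ∨ c = x ∨ c = x * z := by
  have h1 : π c = 1 ∨ π c = π x := by
    apply (H92.Simple.center_H H.lg H.gen H.cen (H.mem_E h0 hx)).2.1
    · intro a ha
      rw [← H.image_C h0 hx] at ha
      obtain ⟨y, hy, rfl⟩ := ha
      exact (h y hy).map π
    · exact hcx.map π
  rcases h1 with h1 | h1
  · rcases H.ker c h1 with h2 | h2
    · exact Or.inl h2
    · exact Or.inr (Or.inl h2)
  · rcases lift_eq π z H.ker h1 with h2 | h2
    · exact Or.inr (Or.inr (Or.inl h2))
    · exact Or.inr (Or.inr (Or.inr h2))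

/-- involutions are products of at most three commuting members, up to `z` -/
theorem Cov2.inv_decomp {y : C} (hy : y * y = 1) : ∃ l : List C, l.Nodup ∧ l.length ≤ 3 ∧ (∀ a ∈ l, a ∈ D x0) ∧
    (∀ a ∈ l, ∀ b ∈ l, Commute a b) ∧ (y = l.prod ∨ y = l.prod * z) := by
  have hy' : π y * π y = 1 := by rw [← map_mul, hy, map_one]
  obtain ⟨l, l1, l2, l3, l4, l5⟩ := H92.M22.inv_one H.lg H.card H.gen H.cen hy'
  have hl : ∀ l : List Q, (∀ a ∈ l, a ∈ E) → ∃ L : List C, L.map π = l ∧ ∀ x ∈ L, x ∈ D x0 := by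
    intro l
    induction l with
    | nil => intro _; exact ⟨[], rfl, by simp⟩
    | cons a l ih =>
      intro h
      obtain ⟨L, h1, h2⟩ := ih (fun b hb => h b (by simp [hb]))
      obtain ⟨x, hx, he⟩ := H.exists_lift h0 (h a (by simp))
      refine ⟨x :: L, by simp [h1, he], ?_⟩
      intro y hy
      rcases List.mem_cons.1 hy with rfl | hy
      · exact hx
      · exact h2 y hy
  obtain ⟨L, hL, hLD⟩ := hl l l3
  have hmem : ∀ u ∈ L, π u ∈ l := by
    intro u hu
    rw [← hL]; exact List.mem_map_of_mem hu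
  refine ⟨L, ?_, ?_, hLD, ?_, ?_⟩
  · rw [← hL] at l1
    exact List.Nodup.of_map _ l1
  · rw [← hL, List.length_map] at l2; exact l2
  · intro a ha b hb
    exact H.comm_of (H.mem_E h0 (hLD a ha)) (H.mem_E h0 (hLD b hb)) (l4 _ (hmem a ha) _ (hmem b hb))
  · apply lift_eq π z H.ker
    rw [map_list_prod, hL, l5]

theorem Cov2.rel_prod {l : List C} (hl : Rel (D x0) l) : l.prod = 1 ∨ l.prod = z := H.central h0 hl.cent

/-- hexads have the same product -/
theorem Cov2.hex_const {l l' : List C} (hl : Rel (D x0) l) (hl' : Rel (D x0) l') (h6 : l.length = 6) (h6' : l'.length = 6) :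
    l.prod = l'.prod := by
  have hpick : ∀ l : List C, Rel (D x0) l → l.length = 6 → ∃ A : List C, A.Nodup ∧ A.length = 3 ∧ (∀ a ∈ A, a ∈ l) := by
    intro l hl hlen
    match l, hlen, hl with
    | a :: b :: c :: r, _, hl =>
      refine ⟨[a, b, c], ?_, rfl, by simp⟩
      have := hl.nodup
      exact this.sublist (by simp)
  obtain ⟨A, a1, a2, a3⟩ := hpick l hl h6
  obtain ⟨B, b1, b2, b3⟩ := hpick l' hl' h6'
  obtain ⟨g, hg, he⟩ := H92.Uniq.trans_list2 (H.lg' h0).lev A B (by rw [a2, b2]) (by rw [a2]) a1 b1 (fun x hx => hl.mem x (a3 x hx))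
    (fun x hx => hl'.mem x (b3 x hx)) (fun x hx y hy => hl.comm x (a3 x hx) y (a3 y hy)) (fun x hx y hy => hl'.comm x (b3 x hx) y (b3 y hy))
  have hm := H19.UCovD.rel_conj hl g
  have h1 := block_unique (n := 1) (E := D x0) (H.lg' h0) hm hl' (by rw [List.length_map, h6]) h6' B b1 b2
    (by
      intro a ha
      rw [← he] at ha
      obtain ⟨x, hx, rfl⟩ := List.mem_map.1 ha
      exact List.mem_map.2 ⟨x, a3 x hx, rfl⟩) b3
  have hp : (l.map (fun x => g * x * g⁻¹)).Perm l' := (List.perm_ext_iff_of_nodup hm.nodup hl'.nodup).2 h1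
  have h2 := prod_perm hp hm.comm
  rw [H19.UCovD.map_conj_prod] at h2
  rw [← h2, ← (H.zcentral (H.rel_prod h0 hl) g).eq, mul_inv_cancel_right]

omit [Finite Q] h0 in
theorem Cov2.comm_z' {x y : C} (h : Commute x y) : Commute (x * z) y := h.mul_left (H.cent y).symm

theorem Cov2.sit [Finite C] {Δ : Set C} (hf : Fr 1 (D x0) Δ) : Sit z Δ 6 := by
  have hLG := H.lg' h0
  have hL := hLG.lev
  have hdec : ∀ b : C, b * b = 1 → ∃ l : List C, l.Nodup ∧ l.length ≤ 3 ∧ (∀ a ∈ l, a ∈ D x0) ∧
      (∀ a ∈ l, ∀ b ∈ l, Commute a b) ∧ (b = l.prod ∨ b = l.prod * z) ∧ ∀ y ∈ D x0, Commute b y → ∀ x ∈ l, Commute y x := by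
    intro b hb
    obtain ⟨l, h1, h2, h3, h4, h5⟩ := H.inv_decomp h0 hb
    refine ⟨l, h1, h2, h3, h4, h5, ?_⟩
    intro y hy hby
    have h6 : Commute y l.prod := by
      rcases h5 with h5 | h5
      · rw [← h5]; exact hby.symm
      · have : l.prod = b * z := by rw [h5, mul_assoc, H.sq, mul_one]
        rw [this]
        exact (H.comm_z' hby).symm
    exact comm_short (H.tri h0) l h1 h3 h4 h2 hy h6
  refine ⟨H.cent, H.sq, fun x hx => H.sq_D h0 (hf.sub hx), hf.comm, ?_, ?_, by rw [hf.card]; norm_num, by rw [hf.card]; norm_num, ?_⟩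
  · intro b hb hc
    obtain ⟨l, h1, h2, h3, h4, h5, h6⟩ := hdec b hb
    have h7 : l.prod ∈ Subgroup.closure (insert z Δ) := by
      apply Subgroup.list_prod_mem
      intro a ha
      apply Subgroup.subset_closure
      right
      apply hf.max hL (h3 a ha)
      intro y hy
      exact (h6 y (hf.sub hy) (hc y hy) a ha).symm
    rcases h5 with h5 | h5
    · rw [h5]; exact h7
    · rw [h5]; exact Subgroup.mul_mem _ h7 (Subgroup.subset_closure (Set.mem_insert _ _))
  · intro b hb hbV
    obtain ⟨l, h1, h2, h3, h4, h5, h6⟩ := hdec b hb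
    have h7 : ∃ a ∈ l, a ∉ Δ := by
      by_contra hno
      push Not at hno
      apply hbV
      have h7 : l.prod ∈ Subgroup.closure (insert z Δ) := by
        apply Subgroup.list_prod_mem
        intro a ha
        exact Subgroup.subset_closure (Or.inr (hno a ha))
      rcases h5 with h5 | h5
      · rw [h5]; exact h7
      · rw [h5]; exact Subgroup.mul_mem _ h7 (Subgroup.subset_closure (Set.mem_insert _ _))
    obtain ⟨a, ha, haΔ⟩ := h7
    have h8 : {y | y ∈ Δ ∧ Commute a y}.ncard ≤ 6 := by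
      rcases cnt_one hL hf (h3 a ha) haΔ with h9 | h9 <;> omega
    refine le_trans ?_ h8
    apply Set.ncard_le_ncard _ (Set.toFinite _)
    rintro y ⟨hy, hby⟩
    exact ⟨hy, (h6 y (hf.sub hy) hby a ha).symm⟩
  · intro x hx y hy u hu w hw hxy huw he
    have h1 := unique_short hL 2 (by norm_num) (by norm_num) [x, y] [u, w] (by simpa using hxy)
      (by intro a ha; simp only [List.mem_cons, List.not_mem_nil, or_false] at ha; rcases ha with rfl | rfl; exacts [hf.sub hx, hf.sub hy])
      (by
        intro a ha b hb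
        simp only [List.mem_cons, List.not_mem_nil, or_false] at ha hb
        rcases ha with rfl | rfl <;> rcases hb with rfl | rfl
        exacts [Commute.refl _, hf.comm _ hx _ hy, hf.comm _ hy _ hx, Commute.refl _]) rfl (by simpa using huw)
      (by intro a ha; simp only [List.mem_cons, List.not_mem_nil, or_false] at ha; rcases ha with rfl | rfl; exacts [hf.sub hu, hf.sub hw])
      (by
        intro a ha b hb
        simp only [List.mem_cons, List.not_mem_nil, or_false] at ha hb
        rcases ha with rfl | rfl <;> rcases hb with rfl | rfl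
        exacts [Commute.refl _, hf.comm _ hu _ hw, hf.comm _ hw _ hu, Commute.refl _]) rfl (by simpa using he)
    have h2 := (h1 u).2 (by simp)
    simpa using h2

end cls

end H19.VCovA
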