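import Mathlib
import Cfsg.Agent.Lib.H19.VCovA
import Cfsg.Agent.Lib.H19.RWit2

/-!
Frames of double covers of groups of type M(22): transitivity and the Witt design.
-/

set_option autoImplicit false
set_option linter.unusedSectionVars false
set_option linter.style.haveILetI false
set_option linter.unusedVariables false
open Cfsg

universe u v w

namespace H19.VCovB
open H92.Tri H92.Lev H92.RelList H92.Geo H92.ULift H92.Frame H19.DCovA H19.ThAbs H19.VCovA H19.UCovC H19.UCovE H19.RMod H19.RWit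
open H19.UCovB (D)

/-- the stabilizer of a frame is transitive on triples of points -/
theorem stab3 {G : Type*} [Group G] [Finite G] {E : Set G} (h : Lev 1 E) {Δ : Set G} (hf : Fr 1 E Δ) {x y w x' y' w' : G} (hx : x ∈ Δ)
    (hy : y ∈ Δ) (hw : w ∈ Δ) (hxy : x ≠ y) (hxw : x ≠ w) (hyw : y ≠ w) (hx' : x' ∈ Δ)
    (hy' : y' ∈ Δ) (hw' : w' ∈ Δ) (hxy' : x' ≠ y') (hxw' : x' ≠ w') (hyw' : y' ≠ w') :
    ∃ k ∈ Subgroup.closure E, k * x * k⁻¹ = x' ∧ k * y * k⁻¹ = y' ∧ k * w * k⁻¹ = w' ∧ (fun y => k * y * k⁻¹) '' Δ = Δ := by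
  obtain ⟨g, hg, hgx⟩ := h.trans (hf.sub hx) (hf.sub hx')
  have hgE : ∀ y ∈ E, g * y * g⁻¹ ∈ E := fun y hy => conj_closure h.tri hg hy
  have hf1 := hf.conj hgE
  have hmem : ∀ t ∈ Δ, g * t * g⁻¹ ∈ (fun y => g * y * g⁻¹) '' Δ := fun t ht => ⟨t, ht, rfl⟩
  have hx1 : x' ∈ (fun y => g * y * g⁻¹) '' Δ := ⟨x, hx, hgx⟩
  have hne : ∀ a b : G, a ≠ b → g * a * g⁻¹ ≠ g * b * g⁻¹ := fun a b hab he => hab (mul_left_cancel (mul_right_cancel he))
  have f1 := hf1.C hx1
  have f2 := hf.C hx'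
  have hL := h.C (hf.sub hx')
  have hyx1 : g * y * g⁻¹ ∈ (fun y => g * y * g⁻¹) '' Δ \ {x'} := ⟨hmem y hy, by rw [← hgx]; exact hne y x hxy.symm⟩
  have hwx1 : g * w * g⁻¹ ∈ (fun y => g * y * g⁻¹) '' Δ \ {x'} := ⟨hmem w hw, by rw [← hgx]; exact hne w x hxw.symm⟩
  have hyx2 : y' ∈ Δ \ {x'} := ⟨hy', hxy'.symm⟩
  have hwx2 : w' ∈ Δ \ {x'} := ⟨hw', hxw'.symm⟩
  obtain ⟨t, ht, T1⟩ := exists_tr hL f1 hyx1 hwx1 (hne y w hyw)
  obtain ⟨t', ht', T2⟩ := exists_tr hL f2 hyx2 hwx2 hyw'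
  obtain ⟨k, hk, hki, hkΔ⟩ := stab_trans hL f1 f2 T1 T2 (by
    intro i; fin_cases i
    exacts [hyx1, hwx1, ht]) (by
    intro i; fin_cases i
    exacts [hyx2, hwx2, ht'])
  have hkx : k * x' * k⁻¹ = x' := by
    have : Commute k x' := centralizes_of_closure (S := H92.Tri.C E x') (x := x') (fun z hz => hz.2.2.symm) hk
    rw [this.eq, mul_inv_cancel_right]
  have hcomp : ∀ a : G, k * g * a * (k * g)⁻¹ = k * (g * a * g⁻¹) * k⁻¹ := fun a => by group
  refine ⟨k * g, Subgroup.mul_mem _ (Subgroup.closure_mono (C_subset _ _) hk) hg, ?_, ?_, ?_, ?_⟩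
  · rw [hcomp, hgx, hkx]
  · rw [hcomp]; exact hki 0
  · rw [hcomp]; exact hki 1
  · have e1 : (fun y => k * y * k⁻¹) '' ((fun y => g * y * g⁻¹) '' Δ) = Δ := by
      have e2 : (fun y => g * y * g⁻¹) '' Δ = insert x' ((fun y => g * y * g⁻¹) '' Δ \ {x'}) := by
        rw [Set.insert_sdiff_singleton, Set.insert_eq_of_mem hx1]
      rw [e2, Set.image_insert_eq, hkΔ, hkx, Set.insert_sdiff_singleton, Set.insert_eq_of_mem hx']
    rw [← Set.image_comp] at e1
    conv_rhs => rw [← e1]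
    apply Set.image_congr
    intro a _
    exact hcomp a

variable {C : Type u} {Q : Type v} [Group C] [Group Q] [Finite C] [Finite Q] {π : C →* Q} {z : C} {E : Set Q} (H : Cov2 π z E)
  {x0 : C} (h0 : π x0 ∈ E) {Δ : Set C} (hf : Fr 1 (D x0) Δ)
  {V : Type w} [CommGroup V] [Fintype V] [DecidableEq V] {ι : V →* C} (hι : Function.Injective ι) (hr : ι.range = Subgroup.closure (insert z Δ))
  {zv : V} (hz : ι zv = z)
include H h0 hf hι hr hz

omit hr in
theorem rel_of {s : Finset V} (hs : Rl zv (FF ι Δ) s) : Rel (D x0) (s.toList.map ι) := by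
  have hmem : ∀ a ∈ s.toList.map ι, a ∈ Δ := by
    intro a ha
    obtain ⟨v, hv, rfl⟩ := (mem_tl ι hι).1 ha
    exact mem_FF.1 (hs.1 hv)
  refine ⟨tl_nodup ι hι s, fun a ha => hf.sub (hmem a ha), fun a ha b hb => hf.comm a (hmem a ha) b (hmem b hb), ?_⟩
  intro e he
  rw [tl_prod]
  apply H.zcentral
  rcases hs.2 with hp | hp
  · left; rw [hp, map_one]
  · right; rw [hp, hz]

omit H h0 hf hι [Fintype V] [DecidableEq V] hz [Finite C] [Finite Q] in
theorem mem_range {a : C} (ha : a ∈ Δ) : ∃ v, ι v = a := by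
  have : a ∈ ι.range := by rw [hr]; exact Subgroup.subset_closure (Or.inr ha)
  exact this

theorem of_rel {l : List C} (hl : Rel (D x0) l) (hlΔ : ∀ a ∈ l, a ∈ Δ) : ∃ s : Finset V, (∀ v, v ∈ s ↔ ι v ∈ l) ∧ s.card = l.length ∧
    ι (∏ x ∈ s, x) = l.prod ∧ Rl zv (FF ι Δ) s := by
  obtain ⟨s, h1, h2, h3⟩ := of_list ι hι l hl.nodup (fun a ha => mem_range hr (hlΔ a ha))
  have h4 := h3 hl.comm
  refine ⟨s, h1, h2, h4, fun v hv => mem_FF.2 (hlΔ _ ((h1 v).1 hv)), ?_⟩
  rcases H.rel_prod h0 hl with h5 | h5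
  · left; apply hι; rw [h4, h5, map_one]
  · right; apply hι; rw [h4, h5, hz]

omit hι hr hz [Fintype V] [DecidableEq V] [CommGroup V] in
/-- blocks -/
theorem exists_block {x y w : C} (hx : x ∈ Δ) (hy : y ∈ Δ) (hw : w ∈ Δ) (hxy : x ≠ y) (hxw : x ≠ w) (hyw : y ≠ w) :
    ∃ l : List C, Rel (D x0) l ∧ l.length = 6 ∧ x ∈ l ∧ y ∈ l ∧ w ∈ l ∧ ∀ a ∈ l, a ∈ Δ := by
  have hLG := H.lg' h0
  have hA : ∀ a ∈ [x, y, w], a ∈ Δ := by
    intro a ha
    simp only [List.mem_cons, List.not_mem_nil, or_false] at ha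
    rcases ha with rfl | rfl | rfl <;> assumption
  obtain ⟨l, hl, hlen, hA', hzl⟩ := block (n := 1) (E := D x0) hLG [x, y, w] (by simp [hxy, hxw, hyw]) rfl (fun a ha => hf.sub (hA a ha))
    (fun a ha b hb => hf.comm a (hA a ha) b (hA b hb))
  refine ⟨l, hl, hlen, hA' x (by simp), hA' y (by simp), hA' w (by simp), ?_⟩
  intro a ha
  apply hf.max hLG.lev (hl.mem a ha)
  intro b hb
  exact ((hzl a (hl.mem a ha)).1 ha b (hf.sub hb) (fun c hc => hf.comm b hb c (hA c hc))).symm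

omit hι hr hz [Fintype V] [DecidableEq V] [CommGroup V] in
theorem exists_block4 {a b c d : C} (ha : a ∈ Δ) (hb : b ∈ Δ) (hc : c ∈ Δ) (hd : d ∈ Δ) (hnd : [a, b, c, d].Nodup) :
    ∃ l : List C, Rel (D x0) l ∧ (l.length = 6 ∨ l.length = 7) ∧ a ∈ l ∧ b ∈ l ∧ c ∈ l ∧ d ∈ l ∧ ∀ a ∈ l, a ∈ Δ := by
  have hLG := H.lg' h0
  have hL := hLG.lev
  have haE := hf.sub ha
  have hC := hL.C haE
  have hne : a ≠ b ∧ a ≠ c ∧ a ≠ d ∧ b ≠ c ∧ b ≠ d ∧ c ≠ d := by
    simp only [List.nodup_cons, List.mem_cons, List.not_mem_nil, or_false, not_or] at hnd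
    tauto
  obtain ⟨hab, hac, had, hbc, hbd, hcd⟩ := hne
  have hbC : b ∈ H92.Tri.C (D x0) a := ⟨hf.sub hb, hab.symm, hf.comm a ha b hb⟩
  have hcC : c ∈ H92.Tri.C (D x0) a := ⟨hf.sub hc, hac.symm, hf.comm a ha c hc⟩
  have hdC : d ∈ H92.Tri.C (D x0) a := ⟨hf.sub hd, had.symm, hf.comm a ha d hd⟩
  have hlift : ∀ {l : List C}, (∀ x ∈ l, x ∈ Δ) → ∀ x ∈ a :: l, x ∈ Δ := by
    intro l hl x hx
    rcases List.mem_cons.1 hx with rfl | hx
    · exact ha
    · exact hl x hx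
  rcases tr_or_line hC hbC hcC hdC (hf.comm b hb c hc) (hf.comm b hb d hd) (hf.comm c hc d hd) hbc with h1 | ⟨l, hl, hlen, hbl, hcl, hdl⟩
  · obtain ⟨hT, K, _, _, τ, P⟩ := id hC
    obtain ⟨l, hl1, hl2, hl3⟩ := H92.Hyper2.hyper' hT P h1.mem h1.comm h1.ne h1.nc
    have hlΔ : ∀ i, ∀ x ∈ l i, x ∈ Δ := by
      intro i x hx
      apply hf.max hL ((hl1 i).1.mem x hx).1
      intro y hy
      by_cases hya : y = a
      · rw [hya]; exact ((hl1 i).1.mem x hx).2.2.symm
      · exact (hl3 i y ⟨hf.sub hy, hya, hf.comm a ha y hy⟩ (by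
          intro j; fin_cases j
          exacts [hf.comm y hy b hb, hf.comm y hy c hc, hf.comm y hy d hd]) x hx).symm
    have key : ∀ i, Rel (D x0) (a :: l i) → ∃ l : List C, Rel (D x0) l ∧ (l.length = 6 ∨ l.length = 7) ∧ a ∈ l ∧ b ∈ l ∧ c ∈ l ∧ d ∈ l ∧
        ∀ a ∈ l, a ∈ Δ := by
      intro i hi
      refine ⟨_, hi, Or.inr (by rw [List.length_cons, (hl1 i).2.1]), by simp, List.mem_cons_of_mem _ ((hl1 i).2.2 0),
        List.mem_cons_of_mem _ ((hl1 i).2.2 1), List.mem_cons_of_mem _ ((hl1 i).2.2 2), hlift (hlΔ i)⟩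
    rcases rel_lift hLG haE (hl1 0).1 with g0 | g0
    swap
    · exact key 0 g0
    rcases rel_lift hLG haE (hl1 1).1 with g1 | g1
    swap
    · exact key 1 g1
    exfalso
    have hu := block_unique hLG g0 g1 (hl1 0).2.1 (hl1 1).2.1 [b, c, d] (by simp [hbc, hbd, hcd]) rfl
      (by
        intro x hx
        simp only [List.mem_cons, List.not_mem_nil, or_false] at hx
        rcases hx with rfl | rfl | rfl
        exacts [(hl1 0).2.2 0, (hl1 0).2.2 1, (hl1 0).2.2 2])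
      (by
        intro x hx
        simp only [List.mem_cons, List.not_mem_nil, or_false] at hx
        rcases hx with rfl | rfl | rfl
        exacts [(hl1 1).2.2 0, (hl1 1).2.2 1, (hl1 1).2.2 2])
    exact H92.Simple.hyper_ne g0.nodup (hl1 0).2.1 (hl2 0 1 (by decide)) (fun z hz => (hu z).1 hz)
  · have hlΔ : ∀ x ∈ l, x ∈ Δ := by
      intro x hx
      apply hf.max hL (hl.mem x hx).1
      intro y hy
      by_cases hya : y = a
      · rw [hya]; exact (hl.mem x hx).2.2.symm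
      · refine (hC.rel_block l hl.nodup hl.mem hl.comm hl.cent hlen [b, c] (by simpa using hbc) rfl ?_ x hx y
          ⟨hf.sub hy, hya, hf.comm a ha y hy⟩ ?_).symm
        · intro t ht
          simp only [List.mem_cons, List.not_mem_nil, or_false] at ht
          rcases ht with rfl | rfl <;> assumption
        · intro t ht
          simp only [List.mem_cons, List.not_mem_nil, or_false] at ht
          rcases ht with rfl | rfl
          exacts [hf.comm y hy _ hb, hf.comm y hy _ hc]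
    rcases rel_lift hLG haE hl with g0 | g0
    · exfalso
      rcases hL.rel_min l g0.nodup g0.mem g0.comm g0.cent with h2 | h2
      · rw [h2] at hlen; simp at hlen
      · omega
    · exact ⟨_, g0, Or.inl (by rw [List.length_cons, hlen]), by simp, List.mem_cons_of_mem _ hbl, List.mem_cons_of_mem _ hcl,
        List.mem_cons_of_mem _ hdl, hlift hlΔ⟩

theorem wt : Wt zv (FF ι Δ) := by
  have hsit := H.sit h0 hf
  have hLG := H.lg' h0
  have hL := hLG.lev
  refine ⟨?_, ?_, ?_, ?_, ?_, ?_, ?_, ?_⟩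
  · intro v
    apply hι
    rw [map_mul, map_one]
    apply hsit.closure_sq'
    rw [← hr]; exact ⟨v, rfl⟩
  · intro e
    apply H.ne
    rw [← hz, e, map_one]
  · have h1 : ι '' ((FF ι Δ : Finset V) : Set V) = Δ := by
      ext a
      constructor
      · rintro ⟨v, hv, rfl⟩
        exact mem_FF.1 (Finset.mem_coe.1 hv)
      · intro ha
        obtain ⟨v, rfl⟩ := mem_range hr ha
        exact ⟨v, Finset.mem_coe.2 (mem_FF.2 ha), rfl⟩
    have h2 := Set.ncard_image_of_injective ((FF ι Δ : Finset V) : Set V) hι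
    rw [h1, hf.card, Set.ncard_coe_finset] at h2
    exact h2.symm
  · rw [eq_top_iff]
    intro v _
    have h1 : ι v ∈ (Subgroup.closure (insert zv ((FF ι Δ : Finset V) : Set V))).map ι := by
      have h2 : ι v ∈ ι.range := ⟨v, rfl⟩
      rw [hr] at h2
      rw [MonoidHom.map_closure]
      refine Subgroup.closure_mono ?_ h2
      intro a ha
      rcases Set.mem_insert_iff.1 ha with rfl | ha
      · exact ⟨zv, Set.mem_insert _ _, hz⟩
      · obtain ⟨v, rfl⟩ := mem_range hr ha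
        exact ⟨v, Or.inr (Finset.mem_coe.2 (mem_FF.2 ha)), rfl⟩
    obtain ⟨w, hw, hwv⟩ := h1
    rwa [← hι hwv]
  · intro s hs hc
    have hrel := rel_of H h0 hf hι hz hs
    rcases hL.rel_min _ hrel.nodup hrel.mem hrel.comm hrel.cent with h1 | h1
    · rw [List.map_eq_nil_iff, Finset.toList_eq_nil] at h1
      exact h1
    · rw [List.length_map, Finset.length_toList] at h1
      omega
  · intro s hs hs3
    obtain ⟨x, y, w, hxy, hxw, hyw, rfl⟩ := Finset.card_eq_three.1 hs3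
    have hx := mem_FF.1 (hs (show x ∈ ({x, y, w} : Finset V) by simp))
    have hy := mem_FF.1 (hs (show y ∈ ({x, y, w} : Finset V) by simp))
    have hw := mem_FF.1 (hs (show w ∈ ({x, y, w} : Finset V) by simp))
    obtain ⟨l, hl, hlen, hxl, hyl, hwl, hlΔ⟩ := exists_block H h0 hf hx hy hw (fun e => hxy (hι e)) (fun e => hxw (hι e)) (fun e => hyw (hι e))
    obtain ⟨h, h1, h2, h3, h4⟩ := of_rel H h0 hf hι hr hz hl hlΔ
    refine ⟨h, h4, by rw [h2, hlen], ?_⟩
    intro u hu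
    simp only [Finset.mem_insert, Finset.mem_singleton] at hu
    rw [h1]
    rcases hu with rfl | rfl | rfl <;> assumption
  · intro s hs hs4
    obtain ⟨a, b, c, d, hab, hac, had, hbc, hbd, hcd, rfl⟩ := Finset.card_eq_four.1 hs4
    have ha := mem_FF.1 (hs (show a ∈ ({a, b, c, d} : Finset V) by simp))
    have hb := mem_FF.1 (hs (show b ∈ ({a, b, c, d} : Finset V) by simp))
    have hc := mem_FF.1 (hs (show c ∈ ({a, b, c, d} : Finset V) by simp))
    have hd := mem_FF.1 (hs (show d ∈ ({a, b, c, d} : Finset V) by simp))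
    obtain ⟨l, hl, hlen, hal, hbl, hcl, hdl, hlΔ⟩ := exists_block4 H h0 hf ha hb hc hd (by
      have e : ∀ x y : V, x ≠ y → ι x ≠ ι y := fun x y hxy e => hxy (hι e)
      simp [e _ _ hab, e _ _ hac, e _ _ had, e _ _ hbc, e _ _ hbd, e _ _ hcd])
    obtain ⟨h, h1, h2, h3, h4⟩ := of_rel H h0 hf hι hr hz hl hlΔ
    refine ⟨h, h4, by rw [h2]; exact hlen, ?_⟩
    intro u hu
    simp only [Finset.mem_insert, Finset.mem_singleton] at hu
    rw [h1]
    rcases hu with rfl | rfl | rfl | rfl <;> assumption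
  · intro h h' hh hh' hc hc' h3
    have hrel := rel_of H h0 hf hι hz hh
    have hrel' := rel_of H h0 hf hι hz hh'
    obtain ⟨t, ht, ht3⟩ := Finset.exists_subset_card_eq h3
    have h1 := block_unique (n := 1) (E := D x0) hLG hrel hrel' (by rw [List.length_map, Finset.length_toList, hc])
      (by rw [List.length_map, Finset.length_toList, hc']) (t.toList.map ι) (tl_nodup ι hι t)
      (by rw [List.length_map, Finset.length_toList, ht3])
      (by
        intro a ha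
        obtain ⟨v, hv, rfl⟩ := (mem_tl ι hι).1 ha
        exact (mem_tl ι hι).2 ⟨v, (Finset.mem_inter.1 (ht hv)).1, rfl⟩)
      (by
        intro a ha
        obtain ⟨v, hv, rfl⟩ := (mem_tl ι hι).1 ha
        exact (mem_tl ι hι).2 ⟨v, (Finset.mem_inter.1 (ht hv)).2, rfl⟩)
    ext v
    have h2 := h1 (ι v)
    rw [mem_tl ι hι, mem_tl ι hι] at h2
    constructor
    · intro hv
      obtain ⟨w, hw, hwv⟩ := h2.1 ⟨v, hv, rfl⟩
      rwa [← hι hwv]
    · intro hv
      obtain ⟨w, hw, hwv⟩ := h2.2 ⟨v, hv, rfl⟩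
      rwa [← hι hwv]

/-- the class and the group meet in the frame -/
theorem mem_FF_iff {v : V} : v ∈ FF ι Δ ↔ ι v ∈ D x0 := by
  rw [mem_FF]
  constructor
  · intro h; exact hf.sub h
  · intro h
    apply hf.max (H.lg' h0).lev h
    intro y hy
    have hsit := H.sit h0 hf
    apply hsit.closure_comm
    · rw [← hr]; exact ⟨v, rfl⟩
    · exact Subgroup.subset_closure (Or.inr hy)

end H19.VCovB
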