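import Mathlib
import Cfsg.Agent.Lib.H19.VCovB

/-!
Centralizers of commuting pairs of members.
-/

set_option autoImplicit false
set_option linter.unusedSectionVars false
set_option linter.style.haveILetI false
set_option linter.unusedVariables false
open Cfsg Matrix

universe u v w

namespace H19.VCovC
open H92.Herm H92.UTransv H92.PV H92.ULift H92.PolPSU H92.Tri H92.Pol H92.Geo H92.Frame H92.Lev H92.RelList H92.Inv2 H19.UCovA
open H19.ThAbs H19.VCovA H19.VCovB
open H19.UCovB (D)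

section pol
variable {G : Type*} [Group G] {K : Type} [Field K] [Fintype K] {E : Set G} {τ : (Fin 6 → K) → G} (hT : Tri E) (P : Pol K E τ)
include hT P

theorem exists_M {g : G} (hg : g ∈ Subgroup.closure E) : ∃ M : SU 6 K 2, ∀ v, Iso v → g * τ v * g⁻¹ = τ (act M v) := by
  induction hg using Subgroup.closure_induction with
  | mem x hx =>
    obtain ⟨u, hu, rfl⟩ := P.surj x hx
    exact ⟨T u, fun v hv => P.conj u v hu hv⟩
  | one => exact ⟨1, fun v hv => by rw [act_one]; group⟩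
  | mul a b _ _ ha hb =>
    obtain ⟨M, hM⟩ := ha
    obtain ⟨N, hN⟩ := hb
    refine ⟨M * N, fun v hv => ?_⟩
    rw [act_mul, ← hM _ (hv.act N), ← hN v hv]
    group
  | inv a _ ha =>
    obtain ⟨M, hM⟩ := ha
    refine ⟨M⁻¹, fun v hv => ?_⟩
    have h1 := hM _ (hv.act M⁻¹)
    rw [← act_mul, mul_inv_cancel, act_one] at h1
    rw [← h1]; group

theorem cent_pol {y : G} (hy : y ∈ E) {g : G} (hg : g ∈ Subgroup.closure E) (hgy : Commute g y) :
    ∃ g' ∈ Subgroup.closure {w | w ∈ E ∧ Commute w y}, ∀ e ∈ E, Commute (g⁻¹ * g') e := by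
  have hK := P.card
  obtain ⟨M, hM⟩ := exists_M hT P hg
  obtain ⟨u, hu, rfl⟩ := P.surj y hy
  have h1 : Commute (QuotientGroup.mk M : PSU 6 K 2) (t u) := by
    have h2 := t_conj hK hu.2 M
    have h3 : t (act M u) = t u := by
      rw [t_inj hK (by norm_num) (hu.act M) hu, ← P.inj _ _ (hu.act M) hu, ← hM u hu, hgy.eq, mul_inv_cancel_right]
    rw [h3] at h2
    exact mul_inv_eq_iff_eq_mul.1 h2
  have h2 := cent_gen hK (x := t u) ⟨u, hu, rfl⟩ h1
  have hex : ∀ (p : PSU 6 K 2) (v : Fin 6 → K), Iso v → ∃ v', Iso v' ∧ p * t v * p⁻¹ = t v' := by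
    intro p v hv
    obtain ⟨N, rfl⟩ := QuotientGroup.mk_surjective p
    exact ⟨act N v, hv.act N, t_conj hK hv.2 N⟩
  have key : ∀ p ∈ Subgroup.closure {y : PSU 6 K 2 | y ∈ transv K ∧ Commute y (t u)},
      ∃ g' ∈ Subgroup.closure {w | w ∈ E ∧ Commute w (τ u)}, ∀ v v', Iso v → Iso v' → p * t v * p⁻¹ = t v' → g' * τ v * g'⁻¹ = τ v' := by
    intro p hp
    induction hp using Subgroup.closure_induction with
    | mem p hp =>
      obtain ⟨⟨a, ha, rfl⟩, hc⟩ := hp
      refine ⟨τ a, Subgroup.subset_closure ⟨P.mem a ha, (P.comm a u ha hu).2 ((t_comm_iff hK (by norm_num) ha hu).1 hc)⟩, ?_⟩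
      intro v v' hv hv' h
      rw [P.conj a v ha hv, P.inj _ _ (hv.act _) hv', ← t_inj hK (by norm_num) (hv.act _) hv', ← h]
      exact (t_conj hK hv.2 (T a)).symm
    | one =>
      refine ⟨1, Subgroup.one_mem _, ?_⟩
      intro v v' hv hv' h
      rw [one_mul, inv_one, mul_one] at h ⊢
      rw [P.inj _ _ hv hv', ← t_inj hK (by norm_num) hv hv']
      exact h
    | mul a b _ _ ha hb =>
      obtain ⟨ga, hga, ha⟩ := ha
      obtain ⟨gb, hgb, hb⟩ := hb
      refine ⟨ga * gb, Subgroup.mul_mem _ hga hgb, ?_⟩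
      intro v v' hv hv' h
      obtain ⟨v1, hv1, h3⟩ := hex b v hv
      have h4 : a * t v1 * a⁻¹ = t v' := by rw [← h, ← h3]; group
      rw [← ha v1 v' hv1 hv' h4, ← hb v v1 hv hv1 h3]
      group
    | inv a _ ha =>
      obtain ⟨ga, hga, ha⟩ := ha
      refine ⟨ga⁻¹, Subgroup.inv_mem _ hga, ?_⟩
      intro v v' hv hv' h
      have h3 : a * t v' * a⁻¹ = t v := by rw [← h]; group
      rw [← ha v' v hv' hv h3]
      group
  obtain ⟨g', hg', h3⟩ := key _ h2
  refine ⟨g', hg', ?_⟩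
  intro e he
  obtain ⟨v, hv, rfl⟩ := P.surj e he
  have h4 := h3 v _ hv (hv.act M) (t_conj hK hv.2 M)
  rw [← hM v hv] at h4
  show g⁻¹ * g' * τ v = τ v * (g⁻¹ * g')
  calc g⁻¹ * g' * τ v = g⁻¹ * (g' * τ v * g'⁻¹) * g' := by group
    _ = g⁻¹ * (g * τ v * g⁻¹) * g' := by rw [h4]
    _ = _ := by group

end pol

variable {C : Type u} {Q : Type v} [Group C] [Group Q] [Finite C] [Finite Q] {π : C →* Q} {z : C} {E : Set Q} (H : Cov2 π z E)
  {x0 : C} (h0 : π x0 ∈ E)
include H h0

/-- the group generated by the members commuting with `x` -/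
def NN (x0 x : C) : Subgroup C := Subgroup.closure {w | w ∈ D x0 ∧ Commute w x}

/-- the group generated by the members commuting with `x` and `y` -/
def RR (x0 x y : C) : Subgroup C := Subgroup.closure {w | w ∈ D x0 ∧ Commute w x ∧ Commute w y}

omit [Finite C] [Finite Q] H h0 in
theorem RR_le (x y : C) : RR x0 x y ≤ NN x0 x := Subgroup.closure_mono (fun w hw => ⟨hw.1, hw.2.1⟩)

theorem cent_one {x c : C} (hx : x ∈ D x0) (hc : Commute c x) :
    c ∈ Subgroup.closure (H92.Tri.C (D x0) x) ∨ c * z ∈ Subgroup.closure (H92.Tri.C (D x0) x) := by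
  have h1 : π c ∈ Subgroup.closure (H92.Tri.C E (π x)) := by
    rw [H92.M22.centralizer_one H.lg H.card H.gen H.cen (H.mem_E h0 hx), Subgroup.mem_centralizer_singleton_iff]
    exact hc.map π
  rw [← H.image_C h0 hx, ← MonoidHom.map_closure] at h1
  obtain ⟨c', hc', h2⟩ := h1
  rcases H92.ULift.lift_eq π z H.ker h2.symm with h3 | h3
  · left; rw [h3]; exact hc'
  · right; rw [h3, mul_assoc, H.sq, mul_one]; exact hc'

omit [Finite C] [Finite Q] H h0 in
theorem C_le_NN (x : C) : Subgroup.closure (H92.Tri.C (D x0) x) ≤ NN x0 x :=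
  Subgroup.closure_mono (fun w hw => ⟨hw.1, hw.2.2.symm⟩)

theorem cent_NN {x c : C} (hx : x ∈ D x0) (hc : Commute c x) : c ∈ NN x0 x ∨ c * z ∈ NN x0 x := by
  rcases cent_one H h0 hx hc with h | h
  · exact Or.inl (C_le_NN x h)
  · exact Or.inr (C_le_NN x h)

theorem cent_RR {x y c : C} (hx : x ∈ D x0) (hy : y ∈ D x0) (hxy : Commute x y) (hne : x ≠ y) (hcx : Commute c x) (hcy : Commute c y) :
    c ∈ RR x0 x y ∨ c * z ∈ RR x0 x y := by
  have hL := (H.lg' h0).lev
  have hxR : x ∈ RR x0 x y := Subgroup.subset_closure ⟨hx, Commute.refl x, hxy⟩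
  have key : ∀ g ∈ Subgroup.closure (H92.Tri.C (D x0) x), Commute g y → g ∈ RR x0 x y ∨ g * z ∈ RR x0 x y := by
    intro g hg hgy
    have hgx : Commute g x := centralizes_of_closure (S := H92.Tri.C (D x0) x) (x := x) (fun z hz => hz.2.2.symm) hg
    obtain ⟨hT, K, _, _, τ, P⟩ := hL.C hx
    obtain ⟨g', hg', h1⟩ := cent_pol hT P (y := y) ⟨hy, hne.symm, hxy⟩ hg hgy
    have hg'R : g' ∈ RR x0 x y := by
      refine Subgroup.closure_mono ?_ hg'
      rintro w ⟨hw, hwy⟩
      exact ⟨hw.1, hw.2.2.symm, hwy⟩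
    have hg'x : Commute g' x := centralizes_of_closure (S := {w | w ∈ H92.Tri.C (D x0) x ∧ Commute w y}) (x := x)
      (fun z hz => hz.1.2.2.symm) hg'
    have h2 := H.cent_C h0 hx h1 (hgx.inv_left.mul_left hg'x)
    have hzz := H.sq
    have hxx := H.sq_D h0 hx
    have hg'e : g' = g * (g⁻¹ * g') := by group
    rcases h2 with h2 | h2 | h2 | h2
    · left; rw [h2, mul_one] at hg'e; rw [← hg'e]; exact hg'R
    · right; rw [h2] at hg'e; rw [← hg'e]; exact hg'R
    · left
      rw [h2] at hg'e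
      have : g = g' * x := by rw [hg'e, mul_assoc, hxx, mul_one]
      rw [this]; exact Subgroup.mul_mem _ hg'R hxR
    · right
      rw [h2] at hg'e
      have : g * z = g' * x := by
        rw [hg'e]
        calc g * z = g * z * (x * x) := by rw [hxx, mul_one]
          _ = g * (z * x) * x := by group
          _ = g * (x * z) * x := by rw [← H.cent x]
      rw [this]; exact Subgroup.mul_mem _ hg'R hxR
  rcases cent_one H h0 hx hcx with h | h
  · exact key c h hcy
  · rcases key _ h (H.comm_z' hcy) with h3 | h3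
    · exact Or.inr h3
    · left
      have : c * z * z = c := by rw [mul_assoc, H.sq, mul_one]
      rwa [this] at h3

end H19.VCovC
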