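import Mathlib
import Cfsg.Agent.Lib.H19.VCovC
import Cfsg.Agent.Lib.H3.TransferCenter

/-!
The split case: a contradiction from the local splittings.
-/

set_option autoImplicit false
set_option linter.unusedSectionVars false
set_option linter.style.haveILetI false
set_option linter.unusedVariables false
open Cfsg
open scoped commutatorElement

universe u v w

namespace H19.VCovD
open H92.Tri H92.Geo H92.Frame H92.Lev H92.RelList
open H19.ThAbs H19.VCovA H19.VCovB H19.VCovC
open H19.UCovB (D)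

/-- a 2-group acting on 22 points has a short orbit -/
theorem short_orbit {G : Type u} [Group G] [Finite G] {P : Subgroup G} (hP : IsPGroup 2 P) {Δ : Set G} (h22 : Δ.ncard = 22)
    (hΔ : ∀ q ∈ P, ∀ y ∈ Δ, q * y * q⁻¹ ∈ Δ) :
    ∃ x ∈ Δ, (∀ p ∈ P, p * x * p⁻¹ = x) ∨ ∃ y ∈ Δ, x ≠ y ∧ ∀ p ∈ P, (p * x * p⁻¹ = x ∧ p * y * p⁻¹ = y) ∨ (p * x * p⁻¹ = y ∧ p * y * p⁻¹ = x) := by
  classical
  haveI : Fact (Nat.Prime 2) := ⟨Nat.prime_two⟩
  letI : MulAction P Δ :=
    { smul := fun p y => ⟨(p : G) * y * (p : G)⁻¹, hΔ p p.2 y y.2⟩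
      one_smul := fun y => Subtype.ext (by show (1 : G) * y * (1 : G)⁻¹ = y; group)
      mul_smul := fun p q y => Subtype.ext (by
        show ((p * q : P) : G) * y * ((p * q : P) : G)⁻¹ = (p : G) * ((q : G) * y * (q : G)⁻¹) * (p : G)⁻¹
        rw [Subgroup.coe_mul]; group) }
  have hsm : ∀ (p : P) (y : Δ), ((p • y : Δ) : G) = (p : G) * y * (p : G)⁻¹ := fun p y => rfl
  letI : Fintype (MulAction.orbitRel.Quotient P Δ) := Fintype.ofFinite _
  have h1 : Nat.card Δ = ∑ ω : MulAction.orbitRel.Quotient P Δ, Nat.card (MulAction.orbit P ω.out) := by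
    rw [Nat.card_congr (MulAction.selfEquivSigmaOrbits P Δ), Nat.card_sigma]
  have hc : Nat.card Δ = 22 := h22
  have h2 : ∃ x : Δ, Nat.card (MulAction.orbit P x) = 1 ∨ Nat.card (MulAction.orbit P x) = 2 := by
    by_contra hno
    push Not at hno
    have h3 : 4 ∣ Nat.card Δ := by
      rw [h1]
      apply Finset.dvd_sum
      intro ω _
      obtain ⟨n, hn⟩ := hP.card_orbit ω.out
      have h4 := hno ω.out
      rw [hn] at h4 ⊢
      have hn2 : 2 ≤ n := by
        by_contra hlt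
        push Not at hlt
        interval_cases n
        · exact h4.1 (by norm_num)
        · exact h4.2 (by norm_num)
      exact pow_dvd_pow 2 hn2
    rw [hc] at h3
    revert h3; decide
  obtain ⟨x, hx⟩ := h2
  have hself : x ∈ MulAction.orbit P x := MulAction.mem_orbit_self x
  rcases hx with hx | hx
  · refine ⟨x, x.2, Or.inl ?_⟩
    intro p hp
    have h3 : (MulAction.orbit P x).ncard = 1 := hx
    obtain ⟨a, ha⟩ := Set.ncard_eq_one.1 h3
    have h4 : (⟨p, hp⟩ : P) • x ∈ MulAction.orbit P x := MulAction.mem_orbit _ _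
    rw [ha, Set.mem_singleton_iff] at h4 hself
    rw [← hself] at h4
    exact congrArg Subtype.val h4
  · have h3 : (MulAction.orbit P x).ncard = 2 := hx
    obtain ⟨a, b, hab, he⟩ := Set.ncard_eq_two.1 h3
    obtain ⟨y, hxy, he⟩ : ∃ y, x ≠ y ∧ MulAction.orbit P x = {x, y} := by
      rw [he] at hself
      rcases hself with h | h
      · exact ⟨b, by rw [h]; exact hab, by rw [he, h]⟩
      · rw [Set.mem_singleton_iff] at h
        exact ⟨a, by rw [h]; exact hab.symm, by rw [he, h, Set.pair_comm]⟩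
    refine ⟨x, x.2, Or.inr ⟨y, y.2, fun e => hxy (Subtype.ext e), ?_⟩⟩
    intro p hp
    have hy : y ∈ MulAction.orbit P x := by rw [he]; simp
    have h4 : (⟨p, hp⟩ : P) • x ∈ MulAction.orbit P x := MulAction.mem_orbit _ _
    have h5 : (⟨p, hp⟩ : P) • y ∈ MulAction.orbit P x := by
      obtain ⟨q, hq⟩ := hy
      rw [← hq]
      show (⟨p, hp⟩ : P) • (q • x) ∈ _
      rw [← mul_smul]
      exact MulAction.mem_orbit _ _
    rw [he] at h4 h5
    have hinj : (⟨p, hp⟩ : P) • x ≠ (⟨p, hp⟩ : P) • y := fun e => hxy (MulAction.injective _ e)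
    rcases h4 with h4 | h4 <;> rcases h5 with h5 | h5
    · exact absurd (h4.trans h5.symm) hinj
    · exact Or.inl ⟨congrArg Subtype.val h4, congrArg Subtype.val h5⟩
    · exact Or.inr ⟨congrArg Subtype.val h4, congrArg Subtype.val h5⟩
    · exact absurd (h4.trans h5.symm) hinj

theorem comm_in {C : Type u} [Group C] {z : C} (hz : ∀ c, c * z = z * c) {R : Subgroup C} {a b : C} (ha : a ∈ R ∨ a * z ∈ R)
    (hb : ∀ r ∈ R, b * r * b⁻¹ ∈ R) : ⁅a, b⁆ ∈ R := by
  have key : ∀ a ∈ R, ⁅a, b⁆ ∈ R := by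
    intro a ha
    have : ⁅a, b⁆ = a * (b * a⁻¹ * b⁻¹) := by rw [commutatorElement_def]; group
    rw [this]
    exact R.mul_mem ha (hb _ (R.inv_mem ha))
  rcases ha with ha | ha
  · exact key a ha
  · have : ⁅a, b⁆ = ⁅a * z, b⁆ := by
      rw [commutatorElement_def, commutatorElement_def]
      have h1 : a * z * b = a * b * z := by rw [mul_assoc, ← hz b, mul_assoc]
      rw [h1]
      group
    rw [this]
    exact key _ ha

variable {C : Type u} {Q : Type v} [Group C] [Group Q] [Finite C] [Finite Q] {π : C →* Q} {z : C} {E : Set Q} (H : Cov2 π z E)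
  {x0 : C} (h0 : π x0 ∈ E)
include H h0

omit [Finite C] [Finite Q] H h0 in
theorem conj_NN {x b : C} (hb : b * x * b⁻¹ = x) : ∀ r ∈ NN x0 x, b * r * b⁻¹ ∈ NN x0 x := by
  intro r hr
  have h1 : NN x0 x ≤ (NN x0 x).comap (MulAut.conj b).toMonoidHom := by
    rw [NN, Subgroup.closure_le]
    rintro w ⟨hw, hwx⟩
    show b * w * b⁻¹ ∈ NN x0 x
    apply Subgroup.subset_closure
    refine ⟨conj_D hw b, ?_⟩
    have h2 : Commute (b * w * b⁻¹) (b * x * b⁻¹) := (Commute.conj_iff b).2 hwx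
    rwa [hb] at h2
  exact h1 hr

omit [Finite C] [Finite Q] H h0 in
theorem conj_RR {x y b : C} (hb : (b * x * b⁻¹ = x ∧ b * y * b⁻¹ = y) ∨ (b * x * b⁻¹ = y ∧ b * y * b⁻¹ = x)) :
    ∀ r ∈ RR x0 x y, b * r * b⁻¹ ∈ RR x0 x y := by
  intro r hr
  have h1 : RR x0 x y ≤ (RR x0 x y).comap (MulAut.conj b).toMonoidHom := by
    rw [RR, Subgroup.closure_le]
    rintro w ⟨hw, hwx, hwy⟩
    show b * w * b⁻¹ ∈ RR x0 x y
    apply Subgroup.subset_closure
    have h2 : Commute (b * w * b⁻¹) (b * x * b⁻¹) := (Commute.conj_iff b).2 hwx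
    have h3 : Commute (b * w * b⁻¹) (b * y * b⁻¹) := (Commute.conj_iff b).2 hwy
    rcases hb with ⟨e1, e2⟩ | ⟨e1, e2⟩
    · rw [e1] at h2; rw [e2] at h3
      exact ⟨conj_D hw b, h2, h3⟩
    · rw [e1] at h2; rw [e2] at h3
      exact ⟨conj_D hw b, h3, h2⟩
  exact h1 hr

theorem contra (hN : ∀ x ∈ D x0, z ∉ NN x0 x) (hperf : commutator C = ⊤) : False := by
  haveI : Fact (Nat.Prime 2) := ⟨Nat.prime_two⟩
  have hL := (H.lg' h0).lev
  obtain ⟨P⟩ : Nonempty (Sylow 2 C) := inferInstance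
  obtain ⟨Δ, hf, hΔ⟩ := frame_of_pgroup hL (P : Subgroup C) P.2 (by
    intro q _
    refine ⟨fun y hy => conj_D hy q, fun y hy => ?_⟩
    have := conj_D hy q⁻¹
    rwa [inv_inv] at this)
  have hzc : z ∈ Subgroup.center C := by
    rw [Subgroup.mem_center_iff]; exact fun c => H.cent c
  have hzP : z ∈ (P : Subgroup C) := by
    have hzp : IsPGroup 2 (Subgroup.zpowers z) := by
      apply IsPGroup.of_card (n := 1)
      rw [Nat.card_zpowers, pow_one]
      exact orderOf_eq_prime (by rw [pow_two]; exact H.sq) H.ne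
    have hzn : (Subgroup.zpowers z) ≤ Subgroup.normalizer ((P : Subgroup C) : Set C) := by
      rw [Subgroup.zpowers_le, Subgroup.mem_normalizer_iff]
      intro g
      rw [← H.cent g, mul_inv_cancel_right]
    have h1 : IsPGroup 2 ((P : Subgroup C) ⊔ Subgroup.zpowers z : Subgroup C) := by
      rw [sup_comm]
      exact IsPGroup.to_sup_of_normal_right' hzp P.2 hzn
    have h2 := P.3 h1 le_sup_left
    rw [← h2]
    exact (le_sup_right : Subgroup.zpowers z ≤ _) (Subgroup.mem_zpowers z)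
  have hzcomm := H3.TransferCenter.mem_commutator P hzc (by rw [hperf]; trivial) hzP
  have fin : ∀ R : Subgroup C, (∀ a ∈ (P : Subgroup C), ∀ b ∈ (P : Subgroup C), ⁅a, b⁆ ∈ R) → z ∈ R := by
    intro R hR
    have h1 : commutator P ≤ R.subgroupOf P := by
      rw [commutator_def, Subgroup.commutator_le]
      intro a _ b _
      rw [Subgroup.mem_subgroupOf]
      exact hR a a.2 b b.2
    exact Subgroup.mem_subgroupOf.1 (h1 hzcomm)
  obtain ⟨x, hx, h1 | ⟨y, hy, hxy, h1⟩⟩ := short_orbit P.2 hf.card hΔ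
  · apply hN x (hf.sub hx)
    apply fin
    intro a ha b hb
    apply comm_in H.cent
    · exact cent_NN H h0 (hf.sub hx) (mul_inv_eq_iff_eq_mul.1 (h1 a ha))
    · exact conj_NN (h1 b hb)
  · apply hN x (hf.sub hx)
    apply RR_le x y
    apply fin
    have hfix : ∀ t : C, t * x * t⁻¹ = x → t * y * t⁻¹ = y → t ∈ RR x0 x y ∨ t * z ∈ RR x0 x y := by
      intro t h2 h3
      exact cent_RR H h0 (hf.sub hx) (hf.sub hy) (hf.comm x hx y hy) hxy (mul_inv_eq_iff_eq_mul.1 h2) (mul_inv_eq_iff_eq_mul.1 h3)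
    intro a ha b hb
    have nb := conj_RR (x0 := x0) (h1 b hb)
    have na := conj_RR (x0 := x0) (h1 a ha)
    rcases h1 a ha with ⟨a1, a2⟩ | ⟨a1, a2⟩
    · exact comm_in H.cent (hfix a a1 a2) nb
    · rcases h1 b hb with ⟨b1, b2⟩ | ⟨b1, b2⟩
      · have h2 := comm_in H.cent (hfix b b1 b2) na
        rw [← inv_mem_iff, commutatorElement_inv]
        exact h2
      · have e1 : b⁻¹ * y * b = x := by rw [← b1]; group
        have e2 : b⁻¹ * x * b = y := by rw [← b2]; group
        have h2 := comm_in H.cent (hfix (a * b⁻¹) (by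
          calc a * b⁻¹ * x * (a * b⁻¹)⁻¹ = a * (b⁻¹ * x * b) * a⁻¹ := by group
            _ = x := by rw [e2, a2]) (by
          calc a * b⁻¹ * y * (a * b⁻¹)⁻¹ = a * (b⁻¹ * y * b) * a⁻¹ := by group
            _ = y := by rw [e1, a1])) nb
        have e3 : ⁅a * b⁻¹, b⁆ = ⁅a, b⁆ := by
          rw [commutatorElement_def, commutatorElement_def]; group
        rw [e3] at h2
        exact h2

end H19.VCovD
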