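import Mathlib
import Cfsg.Agent.Lib.H19.VCovC
import Cfsg.Agent.Lib.H19.UCovI
import Cfsg.Agent.Lib.H3.ThompsonTransfer
import Cfsg.Agent.Lib.H13.Replace

/-!
The split case: local splittings.
-/

set_option autoImplicit false
set_option linter.unusedSectionVars false
set_option linter.style.haveILetI false
set_option linter.unusedVariables false
open Cfsg

universe u v w

namespace H19.VCovE
open H92.Tri H92.Geo H92.Frame H92.Lev H92.RelList H92.Pol
open H19.ThAbs H19.VCovA H19.VCovB H19.VCovC H19.UCovC H19.UCovG H19.UCovI H19.UCovE H19.RMod H19.RWit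
open H19.UCovB (D)

theorem mem_zp {A : Type*} [Group A] {x a : A} (h : x * x = 1) (ha : a ∈ Subgroup.zpowers x) : a = 1 ∨ a = x := by
  obtain ⟨m, rfl⟩ := Subgroup.mem_zpowers_iff.1 ha
  have h2 : x ^ (2 : ℤ) = 1 := by
    rw [show (2 : ℤ) = ((2 : ℕ) : ℤ) by norm_num, zpow_natCast, pow_two]; exact h
  rcases Int.even_or_odd' m with ⟨j, hj | hj⟩
  · left; rw [hj, zpow_mul, h2, one_zpow]
  · right; rw [hj, zpow_add, zpow_mul, h2, one_zpow, one_mul, zpow_one]

theorem tri_sub {C : Type*} [Group C] {E : Set C} (hT : Tri E) (N : Subgroup C) : Tri {a : N | (a : C) ∈ E} := by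
  refine ⟨fun a ha => Subtype.ext (hT.sq a ha), fun a ha b hb => ?_, fun a ha b hb => hT.conj a ha b hb⟩
  rcases hT.three a ha b hb with h | h
  · exact Or.inl (Subtype.ext h)
  · exact Or.inr (Subtype.ext h)

theorem lev_sub {C : Type*} [Group C] {E : Set C} {n : ℕ} (hL : Lev n E) (N : Subgroup C) (hE : E ⊆ N) : Lev n {a : N | (a : C) ∈ E} := by
  apply lev_preimage N.subtype (tri_sub hL.tri N) (fun a _ b _ h => Subtype.ext h)
  have : N.subtype '' {a : N | (a : C) ∈ E} = E := by
    ext y
    constructor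
    · rintro ⟨a, ha, rfl⟩; exact ha
    · intro hy; exact ⟨⟨y, hE hy⟩, hy, rfl⟩
  rw [this]; exact hL

/-- relations in an image lift -/
theorem rel_pull {A B : Type*} [Group A] [Group B] (π : A →* B) {E : Set A} (hT : Tri E) (hinj : Set.InjOn π E) {l : List B}
    (hl : Rel (π '' E) l) : ∃ L : List A, Rel E L ∧ L.map π = l := by
  have hex : ∀ l : List B, (∀ b ∈ l, b ∈ π '' E) → ∃ L : List A, L.map π = l ∧ ∀ a ∈ L, a ∈ E := by
    intro l
    induction l with
    | nil => intro _; exact ⟨[], rfl, by simp⟩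
    | cons b l ih =>
      intro h
      obtain ⟨L, h1, h2⟩ := ih (fun c hc => h c (by simp [hc]))
      obtain ⟨a, ha, he⟩ := h b (by simp)
      refine ⟨a :: L, by simp [h1, he], ?_⟩
      intro c hc
      rcases List.mem_cons.1 hc with rfl | hc
      · exact ha
      · exact h2 c hc
  obtain ⟨L, h1, h2⟩ := hex l hl.mem
  have hmem : ∀ a ∈ L, π a ∈ l := fun a ha => by rw [← h1]; exact List.mem_map_of_mem ha
  refine ⟨L, ⟨?_, h2, ?_, ?_⟩, h1⟩
  · have := hl.nodup
    rw [← h1] at this
    exact List.Nodup.of_map _ this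
  · intro a ha b hb
    exact (comm_iff_of_injOn π hT hinj (h2 a ha) (h2 b hb)).1 (hl.comm _ (hmem a ha) _ (hmem b hb))
  · intro e he
    have h3 := hl.cent (π e) ⟨e, he, rfl⟩
    rw [← h1, ← map_list_prod] at h3
    have hcl : L.prod ∈ Subgroup.closure E := Subgroup.list_prod_mem _ (fun a ha => Subgroup.subset_closure (h2 a ha))
    have h4 : L.prod * e * L.prod⁻¹ = e := by
      apply hinj (conj_closure hT hcl he) he
      rw [map_mul, map_mul, h3.eq, map_inv, mul_inv_cancel_right]
    exact mul_inv_eq_iff_eq_mul.1 h4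

variable {C : Type u} {Q : Type v} [Group C] [Group Q] [Finite C] [Finite Q] {π : C →* Q} {z : C} {E : Set Q} (H : Cov2 π z E)
  {x0 : C} (h0 : π x0 ∈ E)
include H h0

/-- frames through a member -/
theorem exists_frame_mem {x : C} (hx : x ∈ D x0) : ∃ Δ, Fr 1 (D x0) Δ ∧ x ∈ Δ := by
  have hL := (H.lg' h0).lev
  obtain ⟨Δ0, hf0⟩ := exists_frame hL
  obtain ⟨y, hy⟩ := hf0.nonempty
  obtain ⟨g, hg, he⟩ := hL.trans (hf0.sub hy) hx
  exact ⟨_, hf0.conj (fun t ht => conj_D ht g), ⟨y, hy, he⟩⟩

theorem card_NN {x : C} (hx : x ∈ D x0) (hzN : z ∈ NN x0 x) : Nat.card (NN x0 x) = 2 * (2 * 9196830720) := by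
  let f : ↥(NN x0 x) →* Q := π.comp (NN x0 x).subtype
  have h1 : Nat.card (NN x0 x) = Nat.card f.ker * Nat.card f.range := by
    rw [← Subgroup.index_ker, Subgroup.card_mul_index]
  have hE1 : (1 : Q) ∉ E := fun h => H.lg.lev.ne_one h rfl
  have h2 : f.range = Subgroup.closure (H92.Tri.C E (π x)) := by
    apply le_antisymm
    · rintro _ ⟨a, rfl⟩
      rw [H92.M22.centralizer_one H.lg H.card H.gen H.cen (H.mem_E h0 hx), Subgroup.mem_centralizer_singleton_iff]
      have : Commute (a : C) x := centralizes_of_closure (S := {w | w ∈ D x0 ∧ Commute w x}) (x := x) (fun z hz => hz.2) a.2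
      exact this.map π
    · rw [← H.image_C h0 hx, ← MonoidHom.map_closure]
      rintro _ ⟨a, ha, rfl⟩
      exact ⟨⟨a, C_le_NN x ha⟩, rfl⟩
  have h3 : Nat.card f.ker = 2 := by
    have h4 : (f.ker : Set (NN x0 x)) = {1, ⟨z, hzN⟩} := by
      ext a
      rw [SetLike.mem_coe, MonoidHom.mem_ker]
      constructor
      · intro h
        rcases H.ker a h with h5 | h5
        · left; exact Subtype.ext h5
        · right; exact Subtype.ext h5
      · rintro (rfl | h)
        · exact map_one f
        · rw [Set.mem_singleton_iff.1 h]; exact H.pz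
    have h5 : Nat.card f.ker = (f.ker : Set (NN x0 x)).ncard := rfl
    rw [h5, h4, Set.ncard_pair]
    intro e
    exact H.ne (congrArg Subtype.val e).symm
  rw [h1, h2, h3, H92.M22.card_H1 H.lg H.card H.gen H.cen hE1 (H.mem_E h0 hx)]

set_option maxHeartbeats 2000000 in
theorem no_z (hN : ∀ l : List C, Rel (D x0) l → l.length = 6 ∨ l.length = 7 → l.prod = 1) {x : C} (hx : x ∈ D x0) : z ∉ NN x0 x := by
  classical
  intro hzN
  have hLG := H.lg' h0
  have hL := hLG.lev
  have hxx := H.sq_D h0 hx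
  have hx1 : x ≠ 1 := hL.ne_one hx
  have hxN : x ∈ NN x0 x := Subgroup.subset_closure ⟨hx, Commute.refl x⟩
  have hcx : ∀ a : NN x0 x, Commute (a : C) x := fun a =>
    centralizes_of_closure (S := {w | w ∈ D x0 ∧ Commute w x}) (x := x) (fun z hz => hz.2) a.2
  let x' : NN x0 x := ⟨x, hxN⟩
  have hx'x' : x' * x' = 1 := Subtype.ext hxx
  have hx'c : ∀ a : NN x0 x, a * x' = x' * a := fun a => Subtype.ext (hcx a).eq
  haveI hZn : (Subgroup.zpowers x').Normal := ⟨fun n hn g => by
    rcases mem_zp hx'x' hn with rfl | rfl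
    · simp
    · rw [hx'c, mul_inv_cancel_right]; exact Subgroup.mem_zpowers _⟩
  let mk : NN x0 x →* NN x0 x ⧸ Subgroup.zpowers x' := QuotientGroup.mk' _
  have hmks : Function.Surjective mk := QuotientGroup.mk'_surjective _
  have hmk : ∀ a b, mk a = mk b → b = a ∨ b = a * x' := by
    intro a b h
    have h1 : a⁻¹ * b ∈ Subgroup.zpowers x' := QuotientGroup.eq.1 h
    rcases mem_zp hx'x' h1 with h2 | h2
    · left; exact (inv_mul_eq_one.1 h2).symm
    · right; rw [← h2]; group
  have hmkx : mk x' = 1 := (QuotientGroup.eq_one_iff x').2 (Subgroup.mem_zpowers _)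
  set E1 : Set (NN x0 x) := {a | (a : C) ∈ H92.Tri.C (D x0) x} with hE1
  have hCN : H92.Tri.C (D x0) x ⊆ NN x0 x := fun w hw => Subgroup.subset_closure ⟨hw.1, hw.2.2.symm⟩
  have hL1 : Lev 0 E1 := lev_sub (hL.C hx) _ hCN
  have hinj : Set.InjOn mk E1 := by
    intro a ha b hb h
    rcases hmk a b h with h1 | h1
    · exact h1.symm
    · exfalso
      have ha' : (a : C) ∈ H92.Tri.C (D x0) x := ha
      have hb' : (b : C) ∈ H92.Tri.C (D x0) x := hb
      have h2 : (b : C) = a * x := congrArg Subtype.val h1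
      have hab : (a : C) ≠ b := by
        intro e
        rw [← e] at h2
        apply hx1
        have : (a : C) * 1 = a * x := by rw [mul_one]; exact h2
        exact (mul_left_cancel this).symm
      have hcab : Commute (a : C) b := by rw [h2]; exact (Commute.refl _).mul_right (hcx a)
      have h3 := hL.rel_min [(a : C), b, x] (by
        simp only [List.nodup_cons, List.mem_cons, List.not_mem_nil, or_false, not_false_eq_true, List.nodup_nil, and_true, not_or]
        exact ⟨⟨hab, ha'.2.1⟩, hb'.2.1⟩)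
        (by
          intro y hy
          simp only [List.mem_cons, List.not_mem_nil, or_false] at hy
          rcases hy with rfl | rfl | rfl
          exacts [ha'.1, hb'.1, hx])
        (by
          intro y hy w hw
          simp only [List.mem_cons, List.not_mem_nil, or_false] at hy hw
          rcases hy with rfl | rfl | rfl <;> rcases hw with rfl | rfl | rfl
          exacts [Commute.refl _, hcab, hcx a, hcab.symm, Commute.refl _, hcx b, (hcx a).symm, (hcx b).symm, Commute.refl _])
        (by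
          intro e _
          have : [(a : C), b, x].prod = 1 := by
            simp only [List.prod_cons, List.prod_nil, mul_one]
            rw [h2, mul_assoc (a : C) x x, hxx, mul_one]
            exact (hL.tri).sq _ ha'.1
          rw [this]; exact Commute.one_left e)
      rcases h3 with h3 | h3
      · simp at h3
      · simp at h3
  have hL2 : Lev 0 (mk '' E1) := lev_image mk hL1.tri hinj hL1
  have hT2 := hL2.tri
  -- lifting relations
  have hrel : ∀ l : List (NN x0 x ⧸ Subgroup.zpowers x'), Rel (mk '' E1) l → l.length = 5 ∨ l.length = 6 → l.prod = 1 := by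
    intro l hl hlen
    obtain ⟨L, hLr, hLm⟩ := rel_pull mk hL1.tri hinj hl
    have himg : (NN x0 x).subtype '' E1 = H92.Tri.C (D x0) x := by
      ext y
      constructor
      · rintro ⟨a, ha, rfl⟩; exact ha
      · intro hy; exact ⟨⟨y, hCN hy⟩, hy, rfl⟩
    have hLlen : L.length = l.length := by rw [← hLm, List.length_map]
    have hR : Rel (H92.Tri.C (D x0) x) (L.map (NN x0 x).subtype) := by
      refine ⟨hLr.nodup.map Subtype.val_injective, ?_, ?_, ?_⟩
      · intro y hy
        obtain ⟨a, ha, rfl⟩ := List.mem_map.1 hy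
        exact hLr.mem a ha
      · intro y hy w hw
        obtain ⟨a, ha, rfl⟩ := List.mem_map.1 hy
        obtain ⟨b, hb, rfl⟩ := List.mem_map.1 hw
        exact (hLr.comm a ha b hb).map (NN x0 x).subtype
      · intro e he
        rw [← map_list_prod]
        have := hLr.cent ⟨e, hCN he⟩ he
        exact this.map (NN x0 x).subtype
    have hfin : (L.map (NN x0 x).subtype).prod = 1 ∨ (L.map (NN x0 x).subtype).prod = x → l.prod = 1 := by
      intro h
      rw [← hLm, ← map_list_prod]
      rw [← map_list_prod] at h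
      rcases h with h | h
      · have : L.prod = 1 := Subtype.ext h
        rw [this, map_one]
      · have : L.prod = x' := Subtype.ext h
        rw [this, hmkx]
    have hx2 : x * (L.map (NN x0 x).subtype).prod = 1 → (L.map (NN x0 x).subtype).prod = x := by
      intro h
      rw [eq_inv_of_mul_eq_one_right h]
      exact inv_eq_of_mul_eq_one_left hxx
    apply hfin
    rcases rel_lift hLG hx hR with h1 | h1
    · left
      rcases hlen with h5 | h6
      · exfalso
        rcases hL.rel_min _ h1.nodup h1.mem h1.comm h1.cent with h3 | h3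
        · rw [List.map_eq_nil_iff] at h3
          rw [h3] at hLlen
          simp at hLlen
          omega
        · rw [List.length_map, hLlen] at h3
          omega
      · exact hN _ h1 (Or.inl (by rw [List.length_map, hLlen, h6]))
    · right
      apply hx2
      have := hN _ h1 (by
        rw [List.length_cons, List.length_map, hLlen]
        omega)
      rwa [List.prod_cons] at this
  obtain ⟨_, K, iK, iF, τ, P⟩ := id hL2
  have Sp : Spl K (mk '' E1) τ := ⟨hT2, P, fun l hl h5 => hrel l hl (Or.inl h5), fun l hl h6 => hrel l hl (Or.inr h6)⟩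
  -- the frame
  obtain ⟨Δ, hf, hxΔ⟩ := exists_frame_mem H h0 hx
  have hf1 := hf.C hxΔ
  set Δ1 : Set (NN x0 x) := {a | (a : C) ∈ Δ \ {x}} with hΔ1
  have hΔ1E : Δ1 ⊆ E1 := fun a ha => hf1.sub ha
  have hf2 : Fr 0 (mk '' E1) (mk '' Δ1) := by
    refine ⟨Set.image_mono hΔ1E, ?_, ?_⟩
    · rintro _ ⟨a, ha, rfl⟩ _ ⟨b, hb, rfl⟩
      apply Commute.map (f := mk)
      exact Subtype.ext (hf1.comm _ ha _ hb)
    · rw [Set.InjOn.ncard_image (hinj.mono hΔ1E), ← hf1.card, ← Set.ncard_image_of_injective Δ1 (f := (NN x0 x).subtype) Subtype.val_injective]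
      congr 1
      ext y
      constructor
      · rintro ⟨a, ha, rfl⟩; exact ha
      · intro hy; exact ⟨⟨y, hCN (hf1.sub hy)⟩, hy, rfl⟩
  -- the group of the frame
  have hsit := H.sit h0 hf
  letI : CommGroup ↥(Subgroup.closure (insert z Δ)) :=
    { (inferInstance : Group ↥(Subgroup.closure (insert z Δ))) with
      mul_comm := fun a b => Subtype.ext (hsit.closure_comm a a.2 b b.2).eq }
  letI : Fintype ↥(Subgroup.closure (insert z Δ)) := Fintype.ofFinite _
  have W := wt H h0 hf (V := ↥(Subgroup.closure (insert z Δ))) (ι := (Subgroup.closure (insert z Δ)).subtype)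
    (Subgroup.subtype_injective _) (Subgroup.range_subtype _) (zv := ⟨z, Subgroup.subset_closure (Set.mem_insert _ _)⟩) rfl
  have hWN : ∀ h, Rl (⟨z, Subgroup.subset_closure (Set.mem_insert _ _)⟩ : ↥(Subgroup.closure (insert z Δ)))
      (FF (Subgroup.closure (insert z Δ)).subtype Δ) h → h.card = 6 ∨ h.card = 7 → ∏ x ∈ h, x = 1 := by
    intro h hh hc
    have h1 := rel_of H h0 hf (V := ↥(Subgroup.closure (insert z Δ))) (ι := (Subgroup.closure (insert z Δ)).subtype)
      (Subgroup.subtype_injective _) (zv := ⟨z, Subgroup.subset_closure (Set.mem_insert _ _)⟩) rfl hh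
    have h2 := hN _ h1 (by rw [List.length_map, Finset.length_toList]; exact hc)
    rw [tl_prod] at h2
    exact Subtype.ext h2
  have hzΔ := W.z_notMem hWN
  have hcardΔ := W.card_closure hWN
  have hFF : (Subgroup.closure (insert z Δ)).subtype '' ((FF (Subgroup.closure (insert z Δ)).subtype Δ : Finset _) : Set _) = Δ := by
    ext y
    constructor
    · rintro ⟨a, ha, rfl⟩
      exact mem_FF.1 (Finset.mem_coe.1 ha)
    · intro hy
      exact ⟨⟨y, Subgroup.subset_closure (Or.inr hy)⟩, Finset.mem_coe.2 (mem_FF.2 hy), rfl⟩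
  have hmapΔ : (Subgroup.closure ((FF (Subgroup.closure (insert z Δ)).subtype Δ : Finset _) : Set _)).map (Subgroup.closure (insert z Δ)).subtype
      = Subgroup.closure Δ := by
    rw [MonoidHom.map_closure, hFF]
  have hzΔ' : z ∉ Subgroup.closure Δ := by
    rw [← hmapΔ]
    rintro ⟨a, ha, hae⟩
    apply hzΔ
    have : a = ⟨z, Subgroup.subset_closure (Set.mem_insert _ _)⟩ := Subtype.ext hae
    rw [← this]; exact ha
  have hcardΔ' : 1024 ≤ Nat.card (Subgroup.closure Δ) := by
    rw [← hmapΔ, Subgroup.card_map_of_injective (Subgroup.subtype_injective _)]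
    exact hcardΔ
  have hΔN : Subgroup.closure Δ ≤ NN x0 x := by
    rw [Subgroup.closure_le]
    intro w hw
    exact Subgroup.subset_closure ⟨hf.sub hw, hf.comm w hw x hxΔ⟩
  have hcl1 : (Subgroup.closure Δ1).map (NN x0 x).subtype ≤ Subgroup.closure Δ := by
    rw [MonoidHom.map_closure, Subgroup.closure_le]
    rintro _ ⟨a, ha, rfl⟩
    exact Subgroup.subset_closure ha.1
  have hzΔ2 : mk ⟨z, hzN⟩ ∉ Subgroup.closure (mk '' Δ1) := by
    rw [← MonoidHom.map_closure]
    rintro ⟨a, ha, hae⟩
    have ha' : (a : C) ∈ Subgroup.closure Δ := hcl1 ⟨a, ha, rfl⟩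
    rcases hmk _ _ hae with h1 | h1
    · apply hzΔ'
      have : z = (a : C) := congrArg Subtype.val h1
      rw [this]; exact ha'
    · apply hzΔ'
      have : z = (a : C) * x := congrArg Subtype.val h1
      rw [this]; exact Subgroup.mul_mem _ ha' (Subgroup.subset_closure hxΔ)
  have hcard2 : 512 ≤ Nat.card (Subgroup.closure (mk '' Δ1)) := by
    have h1 : ((Subgroup.closure Δ).subgroupOf (NN x0 x)).map mk ≤ Subgroup.closure (mk '' Δ1) := by
      have h2 : (Subgroup.closure Δ).subgroupOf (NN x0 x) ≤ Subgroup.closure (insert x' Δ1) := by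
        intro a ha
        rw [Subgroup.mem_subgroupOf] at ha
        have h3 : Subgroup.closure Δ ≤ (Subgroup.closure (insert x' Δ1)).map (NN x0 x).subtype := by
          rw [Subgroup.closure_le]
          intro w hw
          by_cases hwx : w = x
          · exact ⟨x', Subgroup.subset_closure (Set.mem_insert _ _), hwx.symm⟩
          · exact ⟨⟨w, hΔN (Subgroup.subset_closure hw)⟩, Subgroup.subset_closure (Or.inr ⟨hw, hwx⟩), rfl⟩
        obtain ⟨b, hb, hba⟩ := h3 ha
        have : b = a := Subtype.ext hba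
        rw [← this]; exact hb
      rw [Subgroup.map_le_iff_le_comap]
      refine h2.trans ?_
      rw [Subgroup.closure_le]
      intro a ha
      show mk a ∈ Subgroup.closure (mk '' Δ1)
      rcases Set.mem_insert_iff.1 ha with rfl | ha
      · rw [hmkx]; exact Subgroup.one_mem _
      · exact Subgroup.subset_closure ⟨a, ha, rfl⟩
    have h2 : Nat.card ((Subgroup.closure Δ).subgroupOf (NN x0 x)) = Nat.card (Subgroup.closure Δ) :=
      Nat.card_congr (Subgroup.subgroupOfEquivOfLe hΔN).toEquiv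
    set B := (Subgroup.closure Δ).subgroupOf (NN x0 x) with hB
    have h3 : Nat.card B ≤ 2 * Nat.card (B.map mk) := by
      let f : B →* NN x0 x ⧸ Subgroup.zpowers x' := mk.comp B.subtype
      have h4 : Nat.card B = Nat.card f.ker * Nat.card f.range := by
        rw [← Subgroup.index_ker, Subgroup.card_mul_index]
      have h5 : f.range = B.map mk := by
        ext y
        constructor
        · rintro ⟨a, rfl⟩; exact ⟨a, a.2, rfl⟩
        · rintro ⟨a, ha, rfl⟩; exact ⟨⟨a, ha⟩, rfl⟩
      have h6 : Nat.card f.ker ≤ 2 := by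
        have h7 : (Subtype.val '' (f.ker : Set B)) ⊆ ({1, x'} : Set (NN x0 x)) := by
          rintro _ ⟨a, ha, rfl⟩
          have h8 : mk (a : NN x0 x) = mk 1 := by rw [map_one]; exact ha
          rcases hmk _ _ h8.symm with h9 | h9
          · left; exact h9
          · right; rw [h9, one_mul]; rfl
        have h8 := Set.ncard_le_ncard h7 (Set.toFinite _)
        rw [Set.ncard_image_of_injective _ Subtype.val_injective] at h8
        have h9 : ({1, x'} : Set (NN x0 x)).ncard ≤ 2 := Set.ncard_insert_le _ _ |>.trans (by rw [Set.ncard_singleton])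
        exact h8.trans h9
      rw [h4, h5]
      exact Nat.mul_le_mul_right _ h6
    have h4 : Nat.card (B.map mk) ≤ Nat.card (Subgroup.closure (mk '' Δ1)) := Subgroup.card_le_of_le h1
    omega
  have hEc : ∀ y ∈ mk '' E1, ∀ c, c * y * c⁻¹ ∈ mk '' E1 := by
    rintro _ ⟨b, hb, rfl⟩ c
    obtain ⟨a, rfl⟩ := hmks c
    refine ⟨a * b * a⁻¹, ?_, by rw [map_mul, map_mul, map_inv]⟩
    have hb' : (b : C) ∈ H92.Tri.C (D x0) x := hb
    show (a : C) * b * (a : C)⁻¹ ∈ H92.Tri.C (D x0) x
    have hax : (a : C) * x * (a : C)⁻¹ = x := by rw [(hcx a).eq, mul_inv_cancel_right]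
    refine ⟨conj_D hb'.1 _, ?_, ?_⟩
    · intro e
      apply hb'.2.1
      have : (a : C) * b * (a : C)⁻¹ = a * x * (a : C)⁻¹ := by rw [e, hax]
      exact mul_left_cancel (mul_right_cancel this)
    · have h2 : Commute ((a : C) * x * (a : C)⁻¹) ((a : C) * b * (a : C)⁻¹) := (Commute.conj_iff (a : C)).2 hb'.2.2
      rwa [hax] at h2
  have hzc : ∀ c, c * mk ⟨z, hzN⟩ = mk ⟨z, hzN⟩ * c := by
    intro c
    obtain ⟨a, rfl⟩ := hmks c
    rw [← map_mul, ← map_mul]
    congr 1
    exact Subtype.ext (H.cent a)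
  obtain ⟨S1, hS1, hzS1, hS1c⟩ := exists_S1 Sp hEc hf2 hzc hzΔ2 hcard2
  -- the order
  have hcardH : Nat.card (NN x0 x ⧸ Subgroup.zpowers x') = 2 ^ 16 * 280665 := by
    have h1 := Subgroup.card_eq_card_quotient_mul_card_subgroup (Subgroup.zpowers x')
    rw [card_NN H h0 hx hzN] at h1
    have h2 : Nat.card (Subgroup.zpowers x') = 2 := by
      rw [Nat.card_zpowers]
      apply orderOf_eq_prime (by rw [pow_two]; exact hx'x')
      intro e; exact hx1 (congrArg Subtype.val e)
    rw [h2] at h1
    omega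
  set zz : NN x0 x ⧸ Subgroup.zpowers x' := mk ⟨z, hzN⟩ with hzz
  have hzz2 : zz * zz = 1 := by
    rw [hzz, ← map_mul]
    have : (⟨z, hzN⟩ : NN x0 x) * ⟨z, hzN⟩ = 1 := Subtype.ext H.sq
    rw [this, map_one]
  have hzz1 : zz ≠ 1 := by
    intro e
    apply hzΔ2
    rw [e]; exact Subgroup.one_mem _
  haveI : Fact (Nat.Prime 2) := ⟨Nat.prime_two⟩
  have hzp : IsPGroup 2 (Subgroup.zpowers zz) := by
    apply IsPGroup.of_card (n := 1)
    rw [Nat.card_zpowers, pow_one]
    exact orderOf_eq_prime (by rw [pow_two]; exact hzz2) hzz1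
  have hzn : Subgroup.zpowers zz ≤ Subgroup.normalizer (S1 : Set _) := by
    rw [Subgroup.zpowers_le, Subgroup.mem_normalizer_iff]
    intro g
    rw [← hzc g, mul_inv_cancel_right]
  have hp2 : IsPGroup 2 (Subgroup.zpowers zz ⊔ S1 : Subgroup (NN x0 x ⧸ Subgroup.zpowers x')) := IsPGroup.to_sup_of_normal_right' hzp hS1 hzn
  obtain ⟨T, hT⟩ := hp2.exists_le_sylow
  have hzT : zz ∈ (T : Subgroup (NN x0 x ⧸ Subgroup.zpowers x')) := hT ((le_sup_left : Subgroup.zpowers zz ≤ _) (Subgroup.mem_zpowers zz))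
  have hST : S1 ≤ (T : Subgroup (NN x0 x ⧸ Subgroup.zpowers x')) := le_trans le_sup_right hT
  have hrel2 := H13.Replace.card_eq_mul_relIndex hST
  have hTc : Nat.card (T : Subgroup (NN x0 x ⧸ Subgroup.zpowers x')) ≤ 2 ^ 16 := by
    obtain ⟨k, hk⟩ := (IsPGroup.iff_card (p := 2)).1 T.2
    have h2 : Nat.card (T : Subgroup (NN x0 x ⧸ Subgroup.zpowers x')) ∣ 2 ^ 16 * 280665 := by
      rw [← hcardH]; exact Subgroup.card_subgroup_dvd_card _
    rw [hk] at h2 ⊢
    have h3 : 2 ^ k ∣ 2 ^ 16 := by
      apply Nat.Coprime.dvd_of_dvd_mul_right _ h2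
      apply Nat.Coprime.pow_left
      decide
    exact Nat.le_of_dvd (by norm_num) h3
  have hri1 : S1.relIndex (T : Subgroup (NN x0 x ⧸ Subgroup.zpowers x')) ≠ 1 := by
    intro h0
    exact hzS1 (Subgroup.relIndex_eq_one.1 h0 hzT)
  have hri0 : S1.relIndex (T : Subgroup (NN x0 x ⧸ Subgroup.zpowers x')) ≠ 0 := by
    intro h0
    rw [h0, mul_zero] at hrel2
    have : 0 < Nat.card (T : Subgroup (NN x0 x ⧸ Subgroup.zpowers x')) := Nat.card_pos
    omega
  have hri : S1.relIndex (T : Subgroup (NN x0 x ⧸ Subgroup.zpowers x')) = 2 := by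
    by_contra hne
    have h3 : 3 ≤ S1.relIndex (T : Subgroup (NN x0 x ⧸ Subgroup.zpowers x')) := by omega
    have h4 : 2 ^ 15 * 3 ≤ Nat.card (T : Subgroup (NN x0 x ⧸ Subgroup.zpowers x')) := by
      rw [hrel2]; exact Nat.mul_le_mul hS1c h3
    have h5 := h4.trans hTc
    norm_num at h5
  obtain ⟨M, hM, hM2, -⟩ := H3.ThompsonTransfer.exists_index_two (T : Subgroup (NN x0 x ⧸ Subgroup.zpowers x')) S1 hST (H3.ThompsonTransfer.odd_index_sylow T) hri zz
    (by rw [pow_two]; exact hzz2) (by
      intro g hg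
      rw [hzc, mul_inv_cancel_right] at hg
      exact hzS1 hg)
  -- the group has no subgroup of index two
  obtain ⟨a, ha, b, hb, hab⟩ : ∃ a ∈ mk '' Δ1, ∃ b ∈ mk '' Δ1, a ≠ b := by
    have : 1 < (mk '' Δ1).ncard := by rw [hf2.card]; norm_num
    obtain ⟨a, ha, b, hb, hab⟩ := (Set.one_lt_ncard (Set.toFinite _)).1 this
    exact ⟨a, ha, b, hb, hab⟩
  obtain ⟨l, hl, hlen, -, -, -, -⟩ := exists_line hL2 hf2 ha hb hab
  have hlp := hrel l hl (Or.inl hlen)
  have hsame : ∀ e ∈ mk '' E1, ∀ e' ∈ mk '' E1, e ∈ M ↔ e' ∈ M := by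
    intro e he e' he'
    obtain ⟨g, _, rfl⟩ := hL2.trans he he'
    constructor
    · intro h; exact hM.conj_mem e h g
    · intro h
      have := hM.conj_mem _ h g⁻¹
      rwa [show g⁻¹ * (g * e * g⁻¹) * g⁻¹⁻¹ = e by group] at this
  have hEM : ∀ e ∈ mk '' E1, e ∈ M := by
    match l, hlen, hl, hlp with
    | [e1, e2, e3, e4, e5], _, hl, hlp =>
      have m := fun e he => hsame e (hl.mem e he) e1 (hl.mem e1 (by simp))
      have m2 := m e2 (by simp)
      have m3 := m e3 (by simp)
      have m4 := m e4 (by simp)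
      have m5 := m e5 (by simp)
      have h1 : e1 * (e2 * (e3 * (e4 * e5))) ∈ M := by
        have : e1 * (e2 * (e3 * (e4 * e5))) = 1 := by
          rw [← hlp]; simp
        rw [this]; exact M.one_mem
      rw [Subgroup.mul_mem_iff_of_index_two hM2, Subgroup.mul_mem_iff_of_index_two hM2, Subgroup.mul_mem_iff_of_index_two hM2,
        Subgroup.mul_mem_iff_of_index_two hM2] at h1
      intro e he
      rw [hsame e he e1 (hl.mem e1 (by simp))]
      rw [m2, m3, m4, m5] at h1
      by_contra hno
      simp [hno] at h1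
  have htop : M = ⊤ := by
    rw [eq_top_iff]
    intro y _
    obtain ⟨a, rfl⟩ := hmks y
    have h1 : NN x0 x ≤ (M.comap mk).map (NN x0 x).subtype := by
      conv_lhs => rw [NN]
      rw [Subgroup.closure_le]
      rintro w ⟨hw, hwx⟩
      by_cases hwx' : w = x
      · exact ⟨x', by show mk x' ∈ M; rw [hmkx]; exact M.one_mem, hwx'.symm⟩
      · have hwC : w ∈ H92.Tri.C (D x0) x := ⟨hw, hwx', hwx.symm⟩
        exact ⟨⟨w, hCN hwC⟩, hEM _ ⟨_, hwC, rfl⟩, rfl⟩
    obtain ⟨b, hb, hba⟩ := h1 a.2
    have : b = a := Subtype.ext hba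
    rw [← this]; exact hb
  rw [htop, Subgroup.index_top] at hM2
  norm_num at hM2

end H19.VCovE
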