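import Mathlib
import Cfsg.Agent.Lib.H19.VCovD
import Cfsg.Agent.Lib.H19.VCovE

/-!
Hexads in perfect double covers of groups of type M(22) have product the central involution.
-/

set_option autoImplicit false
set_option linter.unusedSectionVars false
set_option linter.style.haveILetI false
set_option linter.unusedVariables false
open Cfsg

universe u v w

namespace H19.VCovF
open H92.Tri H92.Geo H92.Frame H92.Lev H92.RelList H92.Pol
open H19.ThAbs H19.VCovA H19.VCovB H19.VCovC H19.VCovD H19.VCovE H19.UCovC H19.UCovE H19.RMod H19.RWit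
open H19.UCovB (D)

section lev
variable {G : Type u} [Group G] [Finite G] {E : Set G}

/-- commuting members lie in a frame -/
theorem frame_list {n : ℕ} (h : Lev n E) {l : List G} (hl : ∀ a ∈ l, a ∈ E) (hc : ∀ a ∈ l, ∀ b ∈ l, Commute a b) :
    ∃ Δ, Fr n E Δ ∧ ∀ a ∈ l, a ∈ Δ := by
  have ht := h.tri
  have hQ : IsPGroup 2 (Subgroup.closure {a | a ∈ l}) := by
    intro x
    refine ⟨1, Subtype.ext ?_⟩
    show (x : G) ^ 2 ^ 1 = 1
    rw [pow_one, pow_two]
    exact closure_sq (fun y hy => ht.sq y (hl y hy)) hc x.2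
  obtain ⟨Δ, hf, hΔ⟩ := frame_of_pgroup h (Subgroup.closure {a | a ∈ l}) hQ (by
    rw [Subgroup.closure_le]
    intro a ha
    exact H92.Inv3.mem_Nm ht (hl a ha))
  refine ⟨Δ, hf, ?_⟩
  intro x hx
  apply hf.max h (hl x hx)
  intro y hy
  by_contra hno
  have h1 := hΔ x (Subgroup.subset_closure hx) y hy
  have hbr := braid ht (hl x hx) (hf.sub hy) hno
  have hxi : x⁻¹ = x := inv_eq_of_mul_eq_one_left (ht.sq x (hl x hx))
  rw [hxi, hbr] at h1
  have h2 := hf.comm y hy _ h1
  apply hno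
  have hyy := ht.sq y (hf.sub hy)
  have h3 : y * (y * x * y) = y * x * y * y := h2
  show x * y = y * x
  calc x * y = (y * y) * x * y := by rw [hyy, one_mul]
    _ = y * (y * x * y) := by group
    _ = y * x * y * y := h3
    _ = y * x * (y * y) := by group
    _ = y * x := by rw [hyy, mul_one]

theorem stab4 (h : Lev 1 E) {Δ Δ' : Set G} (hf : Fr 1 E Δ) (hf' : Fr 1 E Δ') {x x' : G} (hx : x ∈ Δ) (hx' : x' ∈ Δ')
    {t t' : Fin 3 → G} (ht : Tr (H92.Tri.C E x) t) (ht' : Tr (H92.Tri.C E x') t') (htΔ : ∀ i, t i ∈ Δ) (htΔ' : ∀ i, t' i ∈ Δ') :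
    ∃ k ∈ Subgroup.closure E, k * x * k⁻¹ = x' ∧ (∀ i, k * t i * k⁻¹ = t' i) ∧ (fun y => k * y * k⁻¹) '' Δ = Δ' := by
  obtain ⟨g, hg, hgx⟩ := h.trans (hf.sub hx) (hf'.sub hx')
  have hgE : ∀ y ∈ E, g * y * g⁻¹ ∈ E := fun y hy => conj_closure h.tri hg hy
  have hf1 := hf.conj hgE
  have hx1 : x' ∈ (fun y => g * y * g⁻¹) '' Δ := ⟨x, hx, hgx⟩
  have f1 := hf1.C hx1
  have f2 := hf'.C hx'
  have hL := h.C (hf'.sub hx')
  have T1 : Tr (H92.Tri.C E x') (fun i => g * t i * g⁻¹) := by
    have hCg : ∀ y ∈ H92.Tri.C E x, g * y * g⁻¹ ∈ H92.Tri.C E x' := by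
      intro y hy
      rw [← hgx]; exact conj_mem_C hgE hy
    refine ⟨fun i => hCg _ (ht.mem i), fun i j => (Commute.conj_iff g).2 (ht.comm i j), ?_, ?_⟩
    · intro e; exact ht.ne (mul_left_cancel (mul_right_cancel e))
    · obtain ⟨w, hw, h1, h2, h3⟩ := ht.nc
      exact ⟨g * w * g⁻¹, hCg w hw, (Commute.conj_iff g).2 h1, (Commute.conj_iff g).2 h2, fun e => h3 ((Commute.conj_iff g).1 e)⟩
  obtain ⟨k, hk, hki, hkΔ⟩ := stab_trans hL f1 f2 T1 ht' (fun i => ⟨⟨t i, htΔ i, rfl⟩, (T1.mem i).2.1⟩)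
    (fun i => ⟨htΔ' i, (ht'.mem i).2.1⟩)
  have hkx : k * x' * k⁻¹ = x' := by
    have : Commute k x' := centralizes_of_closure (S := H92.Tri.C E x') (x := x') (fun z hz => hz.2.2.symm) hk
    rw [this.eq, mul_inv_cancel_right]
  have hcomp : ∀ a : G, k * g * a * (k * g)⁻¹ = k * (g * a * g⁻¹) * k⁻¹ := fun a => by group
  refine ⟨k * g, Subgroup.mul_mem _ (Subgroup.closure_mono (C_subset _ _) hk) hg, ?_, ?_, ?_⟩
  · rw [hcomp, hgx, hkx]
  · intro i; rw [hcomp]; exact hki i
  · have e1 : (fun y => k * y * k⁻¹) '' ((fun y => g * y * g⁻¹) '' Δ) = Δ' := by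
      have e2 : (fun y => g * y * g⁻¹) '' Δ = insert x' ((fun y => g * y * g⁻¹) '' Δ \ {x'}) := by
        rw [Set.insert_sdiff_singleton, Set.insert_eq_of_mem hx1]
      rw [e2, Set.image_insert_eq, hkΔ, hkx, Set.insert_sdiff_singleton, Set.insert_eq_of_mem hx']
    rw [← Set.image_comp] at e1
    conv_rhs => rw [← e1]
    apply Set.image_congr
    intro a _
    exact hcomp a

end lev

variable {C : Type u} {Q : Type v} [Group C] [Group Q] [Finite C] [Finite Q] {π : C →* Q} {z : C} {E : Set Q} (H : Cov2 π z E)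
  {x0 : C} (h0 : π x0 ∈ E)
include H h0

/-- two relations in a frame with few differences -/
theorem rel_near {Δ : Set C} (hf : Fr 1 (D x0) Δ) (h6 : ∀ l : List C, Rel (D x0) l → l.length = 6 → l.prod = 1) {l l' : List C}
    (hl : Rel (D x0) l) (hl' : Rel (D x0) l') (hlΔ : ∀ a ∈ l, a ∈ Δ) (hlΔ' : ∀ a ∈ l', a ∈ Δ) {A : List C} (hA : A.Nodup)
    (hAl : ∀ a ∈ A, a ∈ l) (hAl' : ∀ a ∈ A, a ∈ l') (hlen : l.length + l'.length ≤ 6 + 2 * A.length) :
    l.prod = l'.prod ∧ (l.length + l'.length ≤ 5 + 2 * A.length → l.length = l'.length) := by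
  classical
  have hsit := H.sit h0 hf
  letI : CommGroup ↥(Subgroup.closure (insert z Δ)) :=
    { (inferInstance : Group ↥(Subgroup.closure (insert z Δ))) with
      mul_comm := fun a b => Subtype.ext (hsit.closure_comm a a.2 b b.2).eq }
  letI : Fintype ↥(Subgroup.closure (insert z Δ)) := Fintype.ofFinite _
  set ι : ↥(Subgroup.closure (insert z Δ)) →* C := (Subgroup.closure (insert z Δ)).subtype with hι0
  have hι : Function.Injective ι := Subgroup.subtype_injective _
  have hr : ι.range = Subgroup.closure (insert z Δ) := Subgroup.range_subtype _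
  set zv : ↥(Subgroup.closure (insert z Δ)) := ⟨z, Subgroup.subset_closure (Set.mem_insert _ _)⟩ with hzv
  have hz : ι zv = z := rfl
  have W := wt H h0 hf hι hr hz
  obtain ⟨s, s1, s2, s3, s4⟩ := of_rel H h0 hf hι hr hz hl hlΔ
  obtain ⟨s', s1', s2', s3', s4'⟩ := of_rel H h0 hf hι hr hz hl' hlΔ'
  have hAs : A.length ≤ (s ∩ s').card := by
    rw [← List.toFinset_card_of_nodup hA, ← Finset.card_image_of_injective (s ∩ s') hι]
    apply Finset.card_le_card
    intro a ha
    rw [List.mem_toFinset] at ha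
    obtain ⟨v, rfl⟩ := H19.VCovB.mem_range hr (hlΔ a (hAl a ha))
    rw [Finset.mem_image]
    exact ⟨v, Finset.mem_inter.2 ⟨(s1 v).2 (hAl _ ha), (s1' v).2 (hAl' _ ha)⟩, rfl⟩
  have h1 := W.rl_symm s4 s4'
  have h2 := card_symmDiff s s'
  rw [s2, s2'] at h2
  by_cases h5 : (symmDiff s s').card ≤ 5
  · have h3 := symmDiff_eq_bot.1 (W.small _ h1 h5)
    refine ⟨by rw [← s3, ← s3', h3], fun _ => by rw [← s2, ← s2', h3]⟩
  · have h6' : (symmDiff s s').card = 6 := by omega
    refine ⟨?_, fun h => by omega⟩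
    have h3 := rel_of H h0 hf hι hz h1
    have h4 := h6 _ h3 (by rw [List.length_map, Finset.length_toList, h6'])
    rw [tl_prod, ← prod_symmDiff W.sq] at h4
    have h7 : (∏ x ∈ s, x) * ∏ x ∈ s', x = 1 := hι (by rw [h4, map_one])
    rw [← s3, ← s3']
    congr 1
    have h8 := W.sq (∏ x ∈ s', x)
    exact mul_right_cancel (h7.trans h8.symm)

/-- four members of a heptad -/
theorem hept_tr (h6 : ∀ l : List C, Rel (D x0) l → l.length = 6 → l.prod = 1) {Δ : Set C} (hf : Fr 1 (D x0) Δ) {a b c d : C} {r : List C}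
    (hl : Rel (D x0) (a :: b :: c :: d :: r)) (hr : r.length = 3) (hΔ : ∀ x ∈ a :: b :: c :: d :: r, x ∈ Δ) :
    Tr (H92.Tri.C (D x0) a) ![b, c, d] := by
  have hLG := H.lg' h0
  have hL := hLG.lev
  have ha := hΔ a (by simp)
  have hb := hΔ b (by simp)
  have hc := hΔ c (by simp)
  have hd := hΔ d (by simp)
  have hnd := hl.nodup
  have hne : (a ≠ b ∧ a ≠ c ∧ a ≠ d) ∧ (b ≠ c ∧ b ≠ d) ∧ c ≠ d := by
    simp only [List.nodup_cons, List.mem_cons, not_or] at hnd
    tauto
  obtain ⟨⟨hab, hac, had⟩, ⟨hbc, hbd⟩, hcd⟩ := hne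
  have hbC : b ∈ H92.Tri.C (D x0) a := ⟨hf.sub hb, hab.symm, hf.comm a ha b hb⟩
  have hcC : c ∈ H92.Tri.C (D x0) a := ⟨hf.sub hc, hac.symm, hf.comm a ha c hc⟩
  have hdC : d ∈ H92.Tri.C (D x0) a := ⟨hf.sub hd, had.symm, hf.comm a ha d hd⟩
  rcases tr_or_line (hL.C (hf.sub ha)) hbC hcC hdC (hf.comm b hb c hc) (hf.comm b hb d hd) (hf.comm c hc d hd) hbc with h1 | ⟨m, hm, hmlen, hbm, hcm, hdm⟩
  · exact h1
  exfalso
  have hmΔ : ∀ x ∈ m, x ∈ Δ := by
    intro x hx
    apply hf.max hL (hm.mem x hx).1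
    intro y hy
    by_cases hya : y = a
    · rw [hya]; exact (hm.mem x hx).2.2.symm
    · refine ((hL.C (hf.sub ha)).rel_block m hm.nodup hm.mem hm.comm hm.cent hmlen [b, c] (by simpa using hbc) rfl ?_ x hx y
        ⟨hf.sub hy, hya, hf.comm a ha y hy⟩ ?_).symm
      · intro t ht
        simp only [List.mem_cons, List.not_mem_nil, or_false] at ht
        rcases ht with rfl | rfl <;> assumption
      · intro t ht
        simp only [List.mem_cons, List.not_mem_nil, or_false] at ht
        rcases ht with rfl | rfl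
        exacts [hf.comm y hy _ hb, hf.comm y hy _ hc]
  rcases rel_lift hLG (hf.sub ha) hm with g0 | g0
  · rcases hL.rel_min m g0.nodup g0.mem g0.comm g0.cent with h2 | h2
    · rw [h2] at hmlen; simp at hmlen
    · omega
  · have h7 := rel_near H h0 hf h6 hl g0 hΔ (by
      intro x hx
      rcases List.mem_cons.1 hx with rfl | hx
      · exact ha
      · exact hmΔ x hx) (A := [a, b, c, d]) (by simp [hab, hac, had, hbc, hbd, hcd])
      (by
        intro x hx
        simp only [List.mem_cons, List.not_mem_nil, or_false] at hx ⊢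
        tauto)
      (by
        intro x hx
        simp only [List.mem_cons, List.not_mem_nil, or_false] at hx
        rcases hx with rfl | rfl | rfl | rfl
        · simp
        · exact List.mem_cons_of_mem _ hbm
        · exact List.mem_cons_of_mem _ hcm
        · exact List.mem_cons_of_mem _ hdm)
      (by simp [hr, hmlen])
    have h8 := h7.2 (by simp [hr, hmlen])
    simp [hr, hmlen] at h8

/-- heptads have the same product -/
theorem hept_const (h6 : ∀ l : List C, Rel (D x0) l → l.length = 6 → l.prod = 1) {l l' : List C} (hl : Rel (D x0) l) (hl' : Rel (D x0) l')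
    (h7 : l.length = 7) (h7' : l'.length = 7) : l.prod = l'.prod := by
  have hLG := H.lg' h0
  have hL := hLG.lev
  obtain ⟨Δ, hf, hΔ⟩ := frame_list hL hl.mem hl.comm
  obtain ⟨Δ', hf', hΔ'⟩ := frame_list hL hl'.mem hl'.comm
  match l, l', h7, h7' with
  | a :: b :: c :: d :: r, a' :: b' :: c' :: d' :: r', h7, h7' =>
    have T1 := hept_tr H h0 h6 hf hl (by simpa using h7) hΔ
    have T2 := hept_tr H h0 h6 hf' hl' (by simpa using h7') hΔ'
    obtain ⟨k, hk, hkx, hki, hkΔ⟩ := stab4 hL hf hf' (hΔ a (by simp)) (hΔ' a' (by simp)) T1 T2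
      (by intro i; fin_cases i; exacts [hΔ b (by simp), hΔ c (by simp), hΔ d (by simp)])
      (by intro i; fin_cases i; exacts [hΔ' b' (by simp), hΔ' c' (by simp), hΔ' d' (by simp)])
    have k0 : k * b * k⁻¹ = b' := hki 0
    have k1 : k * c * k⁻¹ = c' := hki 1
    have k2 : k * d * k⁻¹ = d' := hki 2
    have hm := H19.UCovD.rel_conj hl k
    have hmΔ : ∀ x ∈ (a :: b :: c :: d :: r).map (fun x => k * x * k⁻¹), x ∈ Δ' := by
      intro x hx
      obtain ⟨y, hy, rfl⟩ := List.mem_map.1 hx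
      rw [← hkΔ]
      exact ⟨y, hΔ y hy, rfl⟩
    have hnd := hl'.nodup
    have hsub : [a', b', c', d'].Sublist (a' :: b' :: c' :: d' :: r') := by simp
    have h8 := rel_near H h0 hf' h6 hm hl' hmΔ hΔ' (A := [a', b', c', d']) (hnd.sublist hsub)
      (by
        intro x hx
        simp only [List.mem_cons, List.not_mem_nil, or_false] at hx
        rw [List.mem_map]
        rcases hx with rfl | rfl | rfl | rfl
        · exact ⟨a, by simp, hkx⟩
        · exact ⟨b, by simp, k0⟩
        · exact ⟨c, by simp, k1⟩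
        · exact ⟨d, by simp, k2⟩)
      (fun x hx => hsub.subset hx)
      (by
        rw [List.length_map, h7, h7']
        simp)
    rw [← h8.1, H19.UCovD.map_conj_prod, ← (H.zcentral (H.rel_prod h0 hl) k).eq, mul_inv_cancel_right]

omit h0 [Finite C] [Finite Q] in
theorem map_z_prod (l : List C) : (l.map (fun x => x * z)).prod = l.prod * z ^ l.length := by
  induction l with
  | nil => simp
  | cons a l ih =>
    have h1 : Commute z l.prod := (H.cent _).symm
    rw [List.map_cons, List.prod_cons, List.prod_cons, ih, List.length_cons, pow_succ']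
    calc a * z * (l.prod * z ^ l.length) = a * (z * l.prod) * z ^ l.length := by group
      _ = a * (l.prod * z) * z ^ l.length := by rw [h1.eq]
      _ = a * l.prod * (z * z ^ l.length) := by group

omit h0 [Finite C] [Finite Q] in
theorem mem_Dz {x0 y : C} : y ∈ D (x0 * z) ↔ y * z ∈ D x0 := by
  constructor
  · rintro ⟨c, rfl⟩
    refine ⟨c, ?_⟩
    calc c * x0 * c⁻¹ = c * x0 * c⁻¹ * (z * z) := by rw [H.sq, mul_one]
      _ = c * x0 * (c⁻¹ * z) * z := by group
      _ = c * x0 * (z * c⁻¹) * z := by rw [H.cent c⁻¹]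
      _ = c * (x0 * z) * c⁻¹ * z := by group
  · rintro ⟨c, hc⟩
    refine ⟨c, ?_⟩
    calc c * (x0 * z) * c⁻¹ = c * x0 * (z * c⁻¹) := by group
      _ = c * x0 * (c⁻¹ * z) := by rw [H.cent]
      _ = c * x0 * c⁻¹ * z := by group
      _ = y * z * z := by rw [hc]
      _ = y := by rw [mul_assoc, H.sq, mul_one]

omit h0 [Finite C] [Finite Q] in
theorem comm_z {x y : C} (h : Commute (x * z) y) : Commute x y := by
  have h1 : Commute (x * z * z) y := h.mul_left (H.cent y).symm
  rwa [mul_assoc, H.sq, mul_one] at h1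

omit h0 [Finite C] [Finite Q] in
theorem rel_z {x0 : C} {l : List C} (hl : Rel (D (x0 * z)) l) : Rel (D x0) (l.map (fun x => x * z)) := by
  refine ⟨hl.nodup.map (fun a b hab => mul_right_cancel hab), ?_, ?_, ?_⟩
  · intro x hx
    obtain ⟨y, hy, rfl⟩ := List.mem_map.1 hx
    exact (mem_Dz H).1 (hl.mem y hy)
  · intro x' hx' y' hy'
    obtain ⟨x, hx, rfl⟩ := List.mem_map.1 hx'
    obtain ⟨y, hy, rfl⟩ := List.mem_map.1 hy'
    exact (H.comm_z' (H.comm_z' (hl.comm x hx y hy)).symm).symm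
  · intro e he
    rw [map_z_prod H]
    have h1 : e * z ∈ D (x0 * z) := by rw [mem_Dz H, mul_assoc, H.sq, mul_one]; exact he
    have h2 := (comm_z H (hl.cent _ h1).symm).symm
    have h3 : ∀ k, Commute (z ^ k) e := fun k => Commute.pow_left (H.cent e).symm k
    exact h2.mul_left (h3 _)

/-- hexads have product `z` -/
theorem nonsplit (hperf : commutator C = ⊤) : ∀ l : List C, Rel (D x0) l → l.length = 6 → l.prod = z := by
  intro l hl hlen
  rcases H.rel_prod h0 hl with h1 | h1
  swap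
  · exact h1
  exfalso
  have h6 : ∀ l : List C, Rel (D x0) l → l.length = 6 → l.prod = 1 := by
    intro l' hl' hlen'
    rw [← h1]; exact H.hex_const h0 hl' hl hlen' hlen
  by_cases h7 : ∃ m : List C, Rel (D x0) m ∧ m.length = 7 ∧ m.prod = z
  · obtain ⟨m, hm, hm7, hmp⟩ := h7
    have h0' : π (x0 * z) ∈ E := by rw [map_mul, H.pz, mul_one]; exact h0
    apply contra H h0' _ hperf
    intro x hx
    apply no_z H h0' _ hx
    intro r hr hrlen
    have h2 := rel_z H hr
    have h3 := map_z_prod H r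
    rcases hrlen with h8 | h8
    · rw [h6 _ h2 (by rw [List.length_map, h8]), h8] at h3
      have h4 : z ^ 6 = 1 := by
        calc z ^ 6 = (z * z) * (z * z) * (z * z) := by simp only [pow_succ, pow_zero, one_mul, mul_assoc]
          _ = 1 := by rw [H.sq, one_mul, one_mul]
      rw [h4, mul_one] at h3
      exact h3.symm
    · rw [hept_const H h0 h6 h2 hm (by rw [List.length_map, h8]) hm7, hmp, h8] at h3
      have h4 : z ^ 7 = z := by
        calc z ^ 7 = (z * z) * (z * z) * (z * z) * z := by simp only [pow_succ, pow_zero, one_mul, mul_assoc]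
          _ = z := by rw [H.sq, one_mul, one_mul, one_mul]
      rw [h4] at h3
      have h5 : 1 * z = r.prod * z := by rw [one_mul]; exact h3
      exact (mul_right_cancel h5).symm
  · apply contra H h0 _ hperf
    intro x hx
    apply no_z H h0 _ hx
    intro r hr hrlen
    rcases hrlen with h8 | h8
    · exact h6 r hr h8
    · rcases H.rel_prod h0 hr with h9 | h9
      · exact h9
      · exact absurd ⟨r, hr, h8, h9⟩ h7

end H19.VCovF
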