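import Mathlib
import Cfsg.Agent.Lib.H19.VCovF
import Cfsg.Agent.Lib.H19.RWit4
import Cfsg.Agent.Lib.H19.UCovN

/-!
The number of conjugates in the Thompson subgroup: centralizers that are double covers of groups of type M(22).
-/

set_option autoImplicit false
set_option linter.unusedSectionVars false
set_option linter.style.haveILetI false
set_option linter.unusedVariables false
open Cfsg

universe u v w

namespace H19.VCovG
open H92.Tri H92.Geo H92.Frame H92.Lev H92.RelList H92.Pol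
open H19.ThAbs H19.VCovA H19.VCovB H19.VCovC H19.VCovD H19.VCovE H19.VCovF H19.UCovC H19.UCovE H19.RMod H19.RWit H19.RWit2 H19.UCovM
open H19.UCovB (D)

/-- the primes allowed -/
def BB : ℕ := 2 * (3510 * (2 * 9196830720)) * (1 * 3 * 7 * 15 * 31 * 63 * 127 * 255 * 511 * 1023 * 2047)

theorem dvd_BB {p : ℕ} (hp : p.Prime) (h : p ∣ 2 * (3510 * (2 * 9196830720)) ∨ ∃ j, 1 ≤ j ∧ j ≤ 11 ∧ p ∣ 2 ^ j - 1) : p ∣ BB := by
  rcases h with h | ⟨j, h1, h2, h⟩
  · exact h.mul_right _
  · apply Dvd.dvd.mul_left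
    refine h.trans ?_
    interval_cases j <;> norm_num

section into
variable {C : Type u} {Q : Type v} [Group C] [Group Q] [Finite C] [Finite Q] {π : C →* Q} {z : C} {E : Set Q} (H : Cov2 π z E)
  {x0 : C} (h0 : π x0 ∈ E) {Δ : Set C} (hf : Fr 1 (D x0) Δ)
include H h0

theorem card_C : Nat.card C = 2 * (3510 * (2 * 9196830720)) := by
  have hE1 : (1 : Q) ∉ E := fun h => H.lg.lev.ne_one h rfl
  have h1 : Nat.card C = Nat.card π.ker * Nat.card π.range := by
    rw [← Subgroup.index_ker, Subgroup.card_mul_index]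
  have h2 : π.range = ⊤ := MonoidHom.range_eq_top.2 H.surj
  have h3 : Nat.card π.ker = 2 := by
    have h4 : (π.ker : Set C) = {1, z} := by
      ext a
      rw [SetLike.mem_coe, MonoidHom.mem_ker]
      constructor
      · intro h
        rcases H.ker a h with h5 | h5
        · left; exact h5
        · right; exact h5
      · rintro (rfl | h)
        · exact map_one π
        · rw [Set.mem_singleton_iff.1 h]; exact H.pz
    have h5 : Nat.card π.ker = (π.ker : Set C).ncard := rfl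
    rw [h5, h4, Set.ncard_pair]
    intro e
    exact H.ne e.symm
  rw [h1, h2, h3, Subgroup.card_top, H92.M22.card_G1 H.lg H.card H.gen H.cen hE1]

include hf in
/-- involutions are conjugate into the group of the frame -/
theorem inv_into {y : C} (hy : y * y = 1) : ∃ c : C, c * y * c⁻¹ ∈ Subgroup.closure (insert z Δ) := by
  classical
  obtain ⟨l, h1, h2, h3, h4, h5⟩ := H.inv_decomp h0 hy
  have hfin : Δ.Finite := Set.toFinite _
  obtain ⟨s, hs, hsc⟩ := Finset.exists_subset_card_eq (s := hfin.toFinset) (n := l.length) (by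
    rw [← Set.ncard_eq_toFinset_card Δ hfin, hf.card]; omega)
  have hsΔ : ∀ a ∈ s.toList, a ∈ Δ := fun a ha => hfin.mem_toFinset.1 (hs (Finset.mem_toList.1 ha))
  obtain ⟨c, _, hc⟩ := H92.Uniq.trans_list2 (H.lg' h0).lev l s.toList (by rw [Finset.length_toList, hsc]) h2 h1 (Finset.nodup_toList s) h3
    (fun a ha => hf.sub (hsΔ a ha)) h4 (fun a ha b hb => hf.comm a (hsΔ a ha) b (hsΔ b hb))
  refine ⟨c, ?_⟩
  have h6 : c * l.prod * c⁻¹ ∈ Subgroup.closure (insert z Δ) := by
    rw [← H19.UCovD.map_conj_prod, hc]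
    apply Subgroup.list_prod_mem
    intro x hx
    exact Subgroup.subset_closure (Or.inr (hsΔ x hx))
  rcases h5 with h5 | h5
  · rw [h5]; exact h6
  · rw [h5]
    have : c * (l.prod * z) * c⁻¹ = c * l.prod * c⁻¹ * z := by
      calc c * (l.prod * z) * c⁻¹ = c * l.prod * (z * c⁻¹) := by group
        _ = c * l.prod * (c⁻¹ * z) := by rw [H.cent]
        _ = _ := by group
    rw [this]
    exact Subgroup.mul_mem _ h6 (Subgroup.subset_closure (Set.mem_insert _ _))

end into

variable {G : Type u} [Group G] [Finite G] {d : G} (hd : orderOf d = 2) {C : Subgroup G} (hC : C = Subgroup.centralizer ({d} : Set G))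
  {Q : Type v} [Group Q] [Finite Q] {π : C →* Q} {z : C} (hzd : (z : G) = d) {E : Set Q} (H : Cov2 π z E)
  {x0 : C} (h0 : π x0 ∈ E) {Δ : Set C} (hf : Fr 1 (D x0) Δ)
  {V : Type w} [CommGroup V] [Fintype V] [DecidableEq V] {ι : V →* C} (hι : Function.Injective ι) (hr : ι.range = Subgroup.closure (insert z Δ))
  {zv : V} (hz : ι zv = z)

/-- the automorphisms induced by the normalizer -/
def GG (A : Subgroup G) (ι : V →* C) : Subgroup (MulAut V) where
  carrier := {ψ | ∃ n ∈ Subgroup.normalizer (A : Set G), ∀ v, ((ι (ψ v) : C) : G) = n * ((ι v : C) : G) * n⁻¹}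
  one_mem' := ⟨1, Subgroup.one_mem _, fun v => by simp⟩
  mul_mem' := by
    rintro ψ ψ' ⟨n, hn, h⟩ ⟨n', hn', h'⟩
    refine ⟨n * n', Subgroup.mul_mem _ hn hn', fun v => ?_⟩
    show ((ι (ψ (ψ' v)) : C) : G) = _
    rw [h, h']; group
  inv_mem' := by
    rintro ψ ⟨n, hn, h⟩
    refine ⟨n⁻¹, Subgroup.inv_mem _ hn, fun v => ?_⟩
    have h1 := h (ψ⁻¹ v)
    rw [MulAut.apply_inv_self] at h1
    rw [h1]; group

include hd hC hzd H h0 hf hι hr hz in
open Classical in
theorem count (fus : ∀ g : G, g * d * g⁻¹ ∈ (Subgroup.closure (insert z Δ)).map C.subtype →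
      ∃ n ∈ Subgroup.normalizer (((Subgroup.closure (insert z Δ)).map C.subtype : Subgroup G) : Set G), n * d * n⁻¹ = g * d * g⁻¹)
    (hperf : commutator C = ⊤) (hnwc : ∃ g : G, g * d * g⁻¹ ∈ C ∧ g * d * g⁻¹ ≠ d) :
    {x : G | x ∈ (Subgroup.closure (insert z Δ)).map C.subtype ∧ IsConj d x}.ncard = 23 := by
  set A : Subgroup G := (Subgroup.closure (insert z Δ)).map C.subtype with hA
  have hinj : ∀ a b : V, ((ι a : C) : G) = ((ι b : C) : G) → a = b := fun a b h => hι (Subtype.ext h)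
  have W := wt H h0 hf hι hr hz
  have hns : ∀ h, Rl zv (FF ι Δ) h → h.card = 6 → ∏ x ∈ h, x = zv := by
    intro h hh hc
    have h1 := rel_of H h0 hf hι hz hh
    have h2 := nonsplit H h0 hperf _ h1 (by rw [List.length_map, Finset.length_toList, hc])
    rw [tl_prod] at h2
    exact hι (by rw [h2, hz])
  let X : Finset V := Finset.univ.filter (fun v => IsConj d ((ι v : C) : G))
  have hX : ∀ v, v ∈ X ↔ IsConj d ((ι v : C) : G) := fun v => by simp [X]
  have hmemA : ∀ v, ((ι v : C) : G) ∈ A := fun v => by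
    rw [hA, ← hr]; exact ⟨ι v, ⟨v, rfl⟩, rfl⟩
  have hncard : {x : G | x ∈ A ∧ IsConj d x}.ncard = X.card := by
    rw [← Set.ncard_coe_finset, ← Set.ncard_image_of_injective (X : Set V) (f := fun v => ((ι v : C) : G)) (fun a b h => hinj a b h)]
    congr 1
    ext x
    constructor
    · rintro ⟨hx, hc⟩
      rw [hA, ← hr] at hx
      obtain ⟨c, ⟨v, rfl⟩, rfl⟩ := hx
      exact ⟨v, Finset.mem_coe.2 ((hX v).2 hc), rfl⟩
    · rintro ⟨v, hv, rfl⟩
      exact ⟨hmemA v, (hX v).1 (Finset.mem_coe.1 hv)⟩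
  have hdz : ((ι zv : C) : G) = d := by rw [hz, hzd]
  have hCmem : ∀ g : G, g ∈ C ↔ g * d = d * g := fun g => by rw [hC, Subgroup.mem_centralizer_singleton_iff]
  have act : Act2 zv (FF ι Δ) X (GG A ι) := by
    refine ⟨W, hns, ?_, ?_, ?_⟩
    · intro x hx y hy w hw hxy hxw hyw x' hx' y' hy' w' hw' hxy' hxw' hyw'
      rw [mem_FF] at hx hy hw hx' hy' hw'
      obtain ⟨k, hk, k1, k2, k3, k4⟩ := stab3 (H.lg' h0).lev hf hx hy hw (fun e => hxy (hι e)) (fun e => hxw (hι e)) (fun e => hyw (hι e))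
        hx' hy' hw' (fun e => hxy' (hι e)) (fun e => hxw' (hι e)) (fun e => hyw' (hι e))
      have hkW : ∀ c : C, (fun y => c * y * c⁻¹) '' Δ ⊆ Δ → (Subgroup.closure (insert z Δ)).map (MulAut.conj c).toMonoidHom ≤
          Subgroup.closure (insert z Δ) := by
        intro c hc
        rw [MonoidHom.map_closure, Subgroup.closure_le]
        rintro _ ⟨y, hy, rfl⟩
        show c * y * c⁻¹ ∈ Subgroup.closure (insert z Δ)
        rcases Set.mem_insert_iff.1 hy with rfl | hy
        · rw [H.cent, mul_inv_cancel_right]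
          exact Subgroup.subset_closure (Set.mem_insert _ _)
        · exact Subgroup.subset_closure (Or.inr (hc ⟨y, hy, rfl⟩))
      have hkinv : (fun y => k⁻¹ * y * k⁻¹⁻¹) '' Δ ⊆ Δ := by
        rintro _ ⟨y, hy, rfl⟩
        rw [← k4] at hy
        obtain ⟨t, ht, rfl⟩ := hy
        have : k⁻¹ * (k * t * k⁻¹) * k⁻¹⁻¹ = t := by group
        show k⁻¹ * (k * t * k⁻¹) * k⁻¹⁻¹ ∈ Δ
        rw [this]; exact ht
      have hkn : (k : G) ∈ Subgroup.normalizer (A : Set G) := by
        rw [Subgroup.mem_normalizer_iff]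
        intro a
        constructor
        · rintro ⟨c, hc, rfl⟩
          exact ⟨k * c * k⁻¹, hkW k k4.le ⟨c, hc, rfl⟩, rfl⟩
        · rintro ⟨c, hc, hca⟩
          refine ⟨k⁻¹ * c * k, ?_, ?_⟩
          · have := hkW k⁻¹ hkinv ⟨c, hc, rfl⟩
            have e : (MulAut.conj k⁻¹).toMonoidHom c = k⁻¹ * c * k := by
              show k⁻¹ * c * k⁻¹⁻¹ = _
              rw [inv_inv]
            rw [e] at this
            exact this
          · have hca' : (c : G) = k * a * (k : G)⁻¹ := hca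
            show ((k : G)⁻¹ * c * k) = a
            rw [hca']; group
      obtain ⟨ψ, hψ⟩ := H19.UCovN.exists_psi hι hr hkn
      have hψk : ∀ v, ι (ψ v) = k * ι v * k⁻¹ := fun v => Subtype.ext (hψ v)
      refine ⟨ψ, ⟨k, hkn, hψ⟩, ?_, ?_, ?_, ?_⟩
      · apply hι; rw [hψk, hz, H.cent, mul_inv_cancel_right]
      · apply hι; rw [hψk]; exact k1
      · apply hι; rw [hψk]; exact k2
      · apply hι; rw [hψk]; exact k3
    · rintro ψ ⟨n, hn, hψ⟩ hψz x hx
      have h1 := hψ zv
      rw [hψz, hdz] at h1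
      have hnC : n ∈ C := by
        rw [hCmem]
        exact mul_inv_eq_iff_eq_mul.1 h1.symm
      rw [mem_FF_iff H h0 hf hι hr hz] at hx ⊢
      have h3 : ι (ψ x) = (⟨n, hnC⟩ : C) * ι x * (⟨n, hnC⟩ : C)⁻¹ := Subtype.ext (hψ x)
      rw [h3]
      exact conj_D hx _
    · intro v
      rw [hX]
      constructor
      · intro hv
        obtain ⟨g, hg⟩ := isConj_iff.1 hv
        obtain ⟨n, hn, hn2⟩ := fus g (by rw [hg]; exact hmemA v)
        obtain ⟨ψ, hψ⟩ := H19.UCovN.exists_psi hι hr hn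
        refine ⟨ψ, ⟨n, hn, hψ⟩, ?_⟩
        apply hinj
        rw [hψ, hdz, hn2, hg]
      · rintro ⟨ψ, ⟨n, hn, hψ⟩, rfl⟩
        rw [hψ, hdz]
        exact isConj_iff.2 ⟨n, rfl⟩
  have hAcard : Nat.card A = 2 ^ 11 := by
    rw [hA, Subgroup.card_map_of_injective C.subtype_injective, ← hr, ← Nat.card_congr (MonoidHom.ofInjective hι).toEquiv,
      Nat.card_eq_fintype_card, W.card_V hns]
    norm_num
  have hdA : d ∈ A := by rw [← hdz]; exact hmemA zv
  have hcard := card_C H h0
  have hbad : ∀ p : ℕ, p.Prime → ¬ p ∣ BB → ¬ p ∣ X.card := by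
    intro p hp h1 h2
    apply h1
    apply dvd_BB hp
    rw [← hncard] at h2
    have h3 := prime_arg hd hAcard hdA fus hp h2
    rw [← hC, hcard] at h3
    exact h3
  rw [hncard]
  -- the trivial case
  have hne1 : X.card ≠ 1 := by
    intro h1
    obtain ⟨g, hg, hgd⟩ := hnwc
    have hdd : d * d = 1 := by
      have : d ^ 2 = 1 := by rw [← hd]; exact pow_orderOf_eq_one d
      rw [← pow_two]; exact this
    have hyy : (⟨g * d * g⁻¹, hg⟩ : C) * ⟨g * d * g⁻¹, hg⟩ = 1 := by
      apply Subtype.ext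
      show g * d * g⁻¹ * (g * d * g⁻¹) = 1
      calc g * d * g⁻¹ * (g * d * g⁻¹) = g * (d * d) * g⁻¹ := by group
        _ = 1 := by rw [hdd]; group
    obtain ⟨c, hc⟩ := inv_into H h0 hf hyy
    rw [← hr] at hc
    obtain ⟨v, hv⟩ := hc
    have hvX : v ∈ X := by
      rw [hX, hv]
      refine isConj_iff.2 ⟨c * g, ?_⟩
      show (c : G) * g * d * ((c : G) * g)⁻¹ = (c : G) * (g * d * g⁻¹) * (c : G)⁻¹
      group
    have hzX : zv ∈ X := act.hz
    obtain ⟨a, ha⟩ := Finset.card_eq_one.1 h1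
    rw [ha, Finset.mem_singleton] at hvX hzX
    have h2 : ι v = z := by rw [hvX, ← hzX, hz]
    rw [h2] at hv
    apply hgd
    have h3 : (⟨g * d * g⁻¹, hg⟩ : C) = z := by
      have h4 : c⁻¹ * z * c = z := by rw [H.cent]; group
      calc (⟨g * d * g⁻¹, hg⟩ : C) = c⁻¹ * (c * ⟨g * d * g⁻¹, hg⟩ * c⁻¹) * c := by group
        _ = z := by rw [← hv, h4]
    have h5 := congrArg Subtype.val h3
    rw [hzd] at h5
    exact h5
  apply H19.RWit4.size act _ hne1
  intro n hn h
  simp only [List.mem_cons, List.not_mem_nil, or_false] at hn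
  have key : ∀ p : ℕ, p.Prime → ¬ p ∣ BB → p ∣ n → False := fun p hp h1 h2 => hbad p hp h1 (by rw [h]; exact h2)
  rcases hn with rfl | rfl | rfl | rfl
  · exact key 29 (by norm_num) (by norm_num [BB]) (by norm_num)
  · exact key 97 (by norm_num) (by norm_num [BB]) (by norm_num)
  · exact key 521 (by norm_num) (by norm_num [BB]) (by norm_num)
  · exact key 443 (by norm_num) (by norm_num [BB]) (by norm_num)

end H19.VCovG
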