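import Mathlib
import Cfsg.Agent.Lib.H19.VCovG
import Cfsg.Agent.Lib.H92.Setup

/-!
The conjugates of the central involution of a double cover centralizer of type `M(22)` are the lifts of the 3-transpositions.
-/

set_option autoImplicit false
set_option linter.unusedSectionVars false
set_option linter.style.haveILetI false
set_option linter.unusedVariables false
open Cfsg

universe u v w

namespace H19.VCovH
open H92.Tri H92.Geo H92.Frame H92.Lev H92.RelList H92.Pol
open H19.ThAbs H19.VCovA H19.VCovB H19.VCovC H19.VCovD H19.VCovE H19.VCovF H19.VCovG H19.UCovC H19.UCovE H19.RMod H19.RWit H19.RWit2 H19.UCovM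
open H19.UCovB (D)

variable {G : Type u} [Group G] [Finite G] {d : G} (hd : orderOf d = 2) {C : Subgroup G} (hC : C = Subgroup.centralizer ({d} : Set G))
  {Q : Type v} [Group Q] [Finite Q] {π : C →* Q} {z : C} (hzd : (z : G) = d) {E : Set Q} (H : Cov2 π z E)
  {x0 : C} (h0 : π x0 ∈ E) {Δ : Set C} (hf : Fr 1 (D x0) Δ)
  {V : Type w} [CommGroup V] [Fintype V] [DecidableEq V] {ι : V →* C} (hι : Function.Injective ι) (hr : ι.range = Subgroup.closure (insert z Δ))
  {zv : V} (hz : ι zv = z)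

include hC hzd H h0 hf hι hr hz in
open Classical in
theorem act2 (fus : ∀ g : G, g * d * g⁻¹ ∈ (Subgroup.closure (insert z Δ)).map C.subtype →
      ∃ n ∈ Subgroup.normalizer (((Subgroup.closure (insert z Δ)).map C.subtype : Subgroup G) : Set G), n * d * n⁻¹ = g * d * g⁻¹)
    (hperf : commutator C = ⊤) {X : Finset V} (hX : ∀ v, v ∈ X ↔ IsConj d ((ι v : C) : G)) :
    Act2 zv (FF ι Δ) X (GG ((Subgroup.closure (insert z Δ)).map C.subtype) ι) := by
  set A : Subgroup G := (Subgroup.closure (insert z Δ)).map C.subtype with hA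
  have hinj : ∀ a b : V, ((ι a : C) : G) = ((ι b : C) : G) → a = b := fun a b h => hι (Subtype.ext h)
  have W := wt H h0 hf hι hr hz
  have hns : ∀ h, Rl zv (FF ι Δ) h → h.card = 6 → ∏ x ∈ h, x = zv := by
    intro h hh hc
    have h1 := rel_of H h0 hf hι hz hh
    have h2 := nonsplit H h0 hperf _ h1 (by rw [List.length_map, Finset.length_toList, hc])
    rw [tl_prod] at h2
    exact hι (by rw [h2, hz])
  have hmemA : ∀ v, ((ι v : C) : G) ∈ A := fun v => by
    rw [hA, ← hr]; exact ⟨ι v, ⟨v, rfl⟩, rfl⟩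
  have hdz : ((ι zv : C) : G) = d := by rw [hz, hzd]
  have hCmem : ∀ g : G, g ∈ C ↔ g * d = d * g := fun g => by rw [hC, Subgroup.mem_centralizer_singleton_iff]
  refine ⟨W, hns, ?_, ?_, ?_⟩
  · intro x hx y hy w hw hxy hxw hyw x' hx' y' hy' w' hw' hxy' hxw' hyw'
    rw [mem_FF] at hx hy hw hx' hy' hw'
    obtain ⟨k, hk, k1, k2, k3, k4⟩ := stab3 (H.lg' h0).lev hf hx hy hw (fun e => hxy (hι e)) (fun e => hxw (hι e)) (fun e => hyw (hι e))
      hx' hy' hw' (fun e => hxy' (hι e)) (fun e => hxw' (hι e)) (fun e => hyw' (hι e))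
    have hkW : ∀ c : C, (fun y => c * y * c⁻¹) '' Δ ⊆ Δ → (Subgroup.closure (insert z Δ)).map (MulAut.conj c).toMonoidHom ≤
        Subgroup.closure (insert z Δ) := by
      intro c hc
      rw [MonoidHom.map_closure, Subgroup.closure_le]
      rintro _ ⟨y, hy, rfl⟩
      show c * y * c⁻¹ ∈ Subgroup.closure (insert z Δ)
      rcases Set.mem_insert_iff.1 hy with rfl | hy
      · rw [H.cent, mul_inv_cancel_right]
        exact Subgroup.subset_closure (Set.mem_insert _ _)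
      · exact Subgroup.subset_closure (Or.inr (hc ⟨y, hy, rfl⟩))
    have hkinv : (fun y => k⁻¹ * y * k⁻¹⁻¹) '' Δ ⊆ Δ := by
      rintro _ ⟨y, hy, rfl⟩
      rw [← k4] at hy
      obtain ⟨t, ht, rfl⟩ := hy
      have : k⁻¹ * (k * t * k⁻¹) * k⁻¹⁻¹ = t := by group
      show k⁻¹ * (k * t * k⁻¹) * k⁻¹⁻¹ ∈ Δ
      rw [this]; exact ht
    have hkn : (k : G) ∈ Subgroup.normalizer (A : Set G) := by
      rw [Subgroup.mem_normalizer_iff]
      intro a
      constructor
      · rintro ⟨c, hc, rfl⟩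
        exact ⟨k * c * k⁻¹, hkW k k4.le ⟨c, hc, rfl⟩, rfl⟩
      · rintro ⟨c, hc, hca⟩
        refine ⟨k⁻¹ * c * k, ?_, ?_⟩
        · have := hkW k⁻¹ hkinv ⟨c, hc, rfl⟩
          have e : (MulAut.conj k⁻¹).toMonoidHom c = k⁻¹ * c * k := by
            show k⁻¹ * c * k⁻¹⁻¹ = _
            rw [inv_inv]
          rw [e] at this
          exact this
        · have hca' : (c : G) = k * a * (k : G)⁻¹ := hca
          show ((k : G)⁻¹ * c * k) = a
          rw [hca']; group
    obtain ⟨ψ, hψ⟩ := H19.UCovN.exists_psi hι hr hkn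
    have hψk : ∀ v, ι (ψ v) = k * ι v * k⁻¹ := fun v => Subtype.ext (hψ v)
    refine ⟨ψ, ⟨k, hkn, hψ⟩, ?_, ?_, ?_, ?_⟩
    · apply hι; rw [hψk, hz, H.cent, mul_inv_cancel_right]
    · apply hι; rw [hψk]; exact k1
    · apply hι; rw [hψk]; exact k2
    · apply hι; rw [hψk]; exact k3
  · rintro ψ ⟨n, hn, hψ⟩ hψz x hx
    have h1 := hψ zv
    rw [hψz, hdz] at h1
    have hnC : n ∈ C := by
      rw [hCmem]
      exact mul_inv_eq_iff_eq_mul.1 h1.symm
    rw [mem_FF_iff H h0 hf hι hr hz] at hx ⊢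
    have h3 : ι (ψ x) = (⟨n, hnC⟩ : C) * ι x * (⟨n, hnC⟩ : C)⁻¹ := Subtype.ext (hψ x)
    rw [h3]
    exact conj_D hx _
  · intro v
    rw [hX]
    constructor
    · intro hv
      obtain ⟨g, hg⟩ := isConj_iff.1 hv
      obtain ⟨n, hn, hn2⟩ := fus g (by rw [hg]; exact hmemA v)
      obtain ⟨ψ, hψ⟩ := H19.UCovN.exists_psi hι hr hn
      refine ⟨ψ, ⟨n, hn, hψ⟩, ?_⟩
      apply hinj
      rw [hψ, hdz, hn2, hg]
    · rintro ⟨ψ, ⟨n, hn, hψ⟩, rfl⟩
      rw [hψ, hdz]
      exact isConj_iff.2 ⟨n, rfl⟩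

include hd hC hzd H h0 hf hι hr hz in
open Classical in
theorem classX (fus : ∀ g : G, g * d * g⁻¹ ∈ (Subgroup.closure (insert z Δ)).map C.subtype →
      ∃ n ∈ Subgroup.normalizer (((Subgroup.closure (insert z Δ)).map C.subtype : Subgroup G) : Set G), n * d * n⁻¹ = g * d * g⁻¹)
    (hperf : commutator C = ⊤)
    (h23 : {x : G | x ∈ (Subgroup.closure (insert z Δ)).map C.subtype ∧ IsConj d x}.ncard = 23) :
    (∀ v : V, IsConj d ((ι v : C) : G) ↔ v = zv ∨ v ∈ FF ι Δ) ∨ (∀ v : V, IsConj d ((ι v : C) : G) ↔ v = zv ∨ ∃ x ∈ FF ι Δ, v = x * zv) := by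
  let X : Finset V := Finset.univ.filter (fun v => IsConj d ((ι v : C) : G))
  have hX : ∀ v, v ∈ X ↔ IsConj d ((ι v : C) : G) := fun v => by simp [X]
  have act := act2 hC hzd H h0 hf hι hr hz fus hperf hX
  have hinj : ∀ a b : V, ((ι a : C) : G) = ((ι b : C) : G) → a = b := fun a b h => hι (Subtype.ext h)
  set A : Subgroup G := (Subgroup.closure (insert z Δ)).map C.subtype with hA
  have hmemA : ∀ v, ((ι v : C) : G) ∈ A := fun v => by
    rw [hA, ← hr]; exact ⟨ι v, ⟨v, rfl⟩, rfl⟩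
  have hncard : {x : G | x ∈ A ∧ IsConj d x}.ncard = X.card := by
    rw [← Set.ncard_coe_finset, ← Set.ncard_image_of_injective (X : Set V) (f := fun v => ((ι v : C) : G)) (fun a b h => hinj a b h)]
    congr 1
    ext x
    constructor
    · rintro ⟨hx, hc⟩
      rw [hA, ← hr] at hx
      obtain ⟨c, ⟨v, rfl⟩, rfl⟩ := hx
      exact ⟨v, Finset.mem_coe.2 ((hX v).2 hc), rfl⟩
    · rintro ⟨v, hv, rfl⟩
      exact ⟨hmemA v, (hX v).1 (Finset.mem_coe.1 hv)⟩
  rw [hncard] at h23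
  obtain ⟨c10, c11, c20, c21, c3, b10, b11, b20, b21, b3, hXc, e10, e11, e20, e21, e3⟩ := H19.RWit2.shape act act.iv act.h1
  have hzX := act.hz
  rw [h23, if_pos hzX] at hXc
  have hc : c10 + c11 = 1 ∧ c20 = 0 ∧ c21 = 0 ∧ c3 = 0 := by
    rcases (show c3 = 0 ∨ c3 = 1 by omega) with h3 | h3 <;>
    rcases (show c10 + c11 = 0 ∨ c10 + c11 = 1 ∨ c10 + c11 = 2 by omega) with h4 | h4 | h4 <;>
    rcases (show c20 + c21 = 0 ∨ c20 + c21 = 1 ∨ c20 + c21 = 2 by omega) with h5 | h5 | h5 <;>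
    rw [h3, h4, h5] at hXc <;> omega
  obtain ⟨h1, rfl, rfl, rfl⟩ := hc
  rcases (show c10 = 1 ∧ c11 = 0 ∨ c10 = 0 ∧ c11 = 1 by omega) with ⟨rfl, rfl⟩ | ⟨rfl, rfl⟩
  · left
    intro v
    rw [← hX]
    constructor
    · intro hv
      rcases H19.RWit2.cases_univ act.W act.ns v with h | h | h | ⟨x, hx, h⟩ | ⟨x, hx, y, hy, hxy, h⟩ | ⟨x, hx, y, hy, hxy, h⟩ | h
      · exact absurd (h ▸ hv) act.h1
      · exact Or.inl h
      · exact Or.inr h
      · have := e11 x hx; rw [← h, if_pos hv] at this; omega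
      · have := e20 x hx y hy hxy; rw [← h, if_pos hv] at this; omega
      · have := e21 x hx y hy hxy; rw [← h, if_pos hv] at this; omega
      · have := e3 v h; rw [if_pos hv] at this; omega
    · rintro (h | h)
      · rw [h]; exact hzX
      · by_contra hn
        have := e10 v h; rw [if_neg hn] at this; omega
  · right
    intro v
    rw [← hX]
    constructor
    · intro hv
      rcases H19.RWit2.cases_univ act.W act.ns v with h | h | h | ⟨x, hx, h⟩ | ⟨x, hx, y, hy, hxy, h⟩ | ⟨x, hx, y, hy, hxy, h⟩ | h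
      · exact absurd (h ▸ hv) act.h1
      · exact Or.inl h
      · have := e10 v h; rw [if_pos hv] at this; omega
      · exact Or.inr ⟨x, hx, h⟩
      · have := e20 x hx y hy hxy; rw [← h, if_pos hv] at this; omega
      · have := e21 x hx y hy hxy; rw [← h, if_pos hv] at this; omega
      · have := e3 v h; rw [if_pos hv] at this; omega
    · rintro (h | ⟨x, hx, h⟩)
      · rw [h]; exact hzX
      · by_contra hn
        have := e11 x hx; rw [← h, if_neg hn] at this; omega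

include hd hC hzd H in
/-- the conjugates of `d` in its centralizer: `d` and one class of lifts of 3-transpositions -/
theorem conj_iff (hperf : commutator C = ⊤) (hnwc : ∃ g : G, g * d * g⁻¹ ∈ C ∧ g * d * g⁻¹ ≠ d) :
    ∃ x1 : C, π x1 ∈ E ∧ ∀ y : C, (IsConj d (y : G) ↔ (y : G) = d ∨ y ∈ D x1) := by
  classical
  obtain ⟨e0, he0⟩ := H.lg.lev.nonempty
  obtain ⟨x0, hx0⟩ := H.surj e0
  have h0 : π x0 ∈ E := by rw [hx0]; exact he0
  haveI : Fact (Nat.Prime 2) := ⟨Nat.prime_two⟩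
  obtain ⟨T⟩ : Nonempty (Sylow 2 C) := inferInstance
  obtain ⟨Δ, hf, hΔ⟩ := H92.Frame.frame_of_pgroup (H.lg' h0).lev (T : Subgroup C) T.2 (by
    intro q _
    refine ⟨fun y hy => H19.VCovA.conj_D hy q, fun y hy => ?_⟩
    have := H19.VCovA.conj_D hy q⁻¹
    rwa [inv_inv] at this)
  have hs := H.sit h0 hf
  letI : CommGroup ↥(Subgroup.closure (insert z Δ)) := H19.UCovJ.cgrp _ hs.closure_comm
  letI : Fintype ↥(Subgroup.closure (insert z Δ)) := Fintype.ofFinite _
  have hfus : ∀ g : G, g * d * g⁻¹ ∈ (Subgroup.closure (insert z Δ)).map C.subtype →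
      ∃ n ∈ Subgroup.normalizer (((Subgroup.closure (insert z Δ)).map C.subtype : Subgroup G) : Set G), n * d * n⁻¹ = g * d * g⁻¹ :=
    fun g hg => H19.UCovL.fusion hC hzd hs T hΔ hg
  have hcount := count hd hC hzd H h0 hf (V := ↥(Subgroup.closure (insert z Δ))) (ι := (Subgroup.closure (insert z Δ)).subtype)
    (Subgroup.subtype_injective _) (Subgroup.range_subtype _) (zv := ⟨z, Subgroup.subset_closure (Set.mem_insert _ _)⟩) rfl hfus hperf hnwc
  have hcl := classX hd hC hzd H h0 hf (V := ↥(Subgroup.closure (insert z Δ))) (ι := (Subgroup.closure (insert z Δ)).subtype)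
    (Subgroup.subtype_injective _) (Subgroup.range_subtype _) (zv := ⟨z, Subgroup.subset_closure (Set.mem_insert _ _)⟩) rfl hfus hperf hcount
  have hdd : d * d = 1 := by
    have : d ^ 2 = 1 := by rw [← hd]; exact pow_orderOf_eq_one d
    rw [← pow_two]; exact this
  have hsq : ∀ y : C, IsConj d (y : G) → y * y = 1 := by
    intro y hy
    obtain ⟨g, hg⟩ := isConj_iff.1 hy
    apply Subtype.ext
    show (y : G) * y = 1
    rw [← hg]
    calc g * d * g⁻¹ * (g * d * g⁻¹) = g * (d * d) * g⁻¹ := by group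
      _ = 1 := by rw [hdd]; group
  -- one member of the class conjugate to d gives all
  have hall : ∀ x1 : C, (∃ y ∈ D x1, IsConj d (y : G)) → ∀ y ∈ D x1, IsConj d (y : G) := by
    rintro x1 ⟨_, ⟨c, rfl⟩, hy⟩ _ ⟨c', rfl⟩
    refine hy.trans (isConj_iff.2 ⟨(c' * c⁻¹ : C), ?_⟩)
    show ((c' * c⁻¹ * (c * x1 * c⁻¹) * (c' * c⁻¹)⁻¹ : C) : G) = ((c' * x1 * c'⁻¹ : C) : G)
    congr 1
    group
  obtain ⟨p0, hp0⟩ := hf.nonempty
  have hp0W : p0 ∈ Subgroup.closure (insert z Δ) := Subgroup.subset_closure (Or.inr hp0)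
  have hzW : z ∈ Subgroup.closure (insert z Δ) := Subgroup.subset_closure (Set.mem_insert _ _)
  -- conclusion from the description in the frame group
  have fin : ∀ x1 : C, π x1 ∈ E → (∃ y ∈ D x1, IsConj d (y : G)) →
      (∀ w ∈ Subgroup.closure (insert z Δ), IsConj d ((w : C) : G) → w = z ∨ w ∈ D x1) →
      ∀ y : C, (IsConj d (y : G) ↔ (y : G) = d ∨ y ∈ D x1) := by
    intro x1 _ hex hw y
    constructor
    · intro hy
      obtain ⟨c, hc⟩ := inv_into H h0 hf (hsq y hy)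
      have h1 : IsConj d ((c * y * c⁻¹ : C) : G) := hy.trans (isConj_iff.2 ⟨(c : G), rfl⟩)
      rcases hw _ hc h1 with h2 | h2
      · left
        have h3 : y = z := by
          calc y = c⁻¹ * (c * y * c⁻¹) * c := by group
            _ = c⁻¹ * (z * c) := by rw [h2, mul_assoc]
            _ = c⁻¹ * (c * z) := by rw [H.cent]
            _ = z := by group
        rw [h3, hzd]
      · right
        have h3 : y = c⁻¹ * (c * y * c⁻¹) * c⁻¹⁻¹ := by group
        rw [h3]
        exact H19.VCovA.conj_D h2 _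
    · rintro (h | h)
      · rw [h]
      · exact hall x1 hex y h
  rcases hcl with hcl | hcl
  · refine ⟨x0, h0, fin x0 h0 ⟨p0, hf.sub hp0, ?_⟩ ?_⟩
    · exact (hcl ⟨p0, hp0W⟩).2 (Or.inr (mem_FF.2 hp0))
    · intro w hw hconj
      rcases (hcl ⟨w, hw⟩).1 hconj with h | h
      · left; exact congrArg Subtype.val h
      · right; exact hf.sub (mem_FF.1 h)
  · have h1 : π (x0 * z) ∈ E := by rw [map_mul, H.pz, mul_one]; exact h0
    refine ⟨x0 * z, h1, fin (x0 * z) h1 ⟨p0 * z, ?_, ?_⟩ ?_⟩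
    · rw [mem_Dz H, mul_assoc, H.sq, mul_one]; exact hf.sub hp0
    · exact (hcl (⟨p0, hp0W⟩ * ⟨z, hzW⟩)).2 (Or.inr ⟨⟨p0, hp0W⟩, mem_FF.2 hp0, rfl⟩)
    · intro w hw hconj
      rcases (hcl ⟨w, hw⟩).1 hconj with h | ⟨x, hx, h⟩
      · left; exact congrArg Subtype.val h
      · right
        have h2 : w = (x : C) * z := congrArg Subtype.val h
        rw [h2, mem_Dz H, mul_assoc, H.sq, mul_one]
        exact hf.sub (mem_FF.1 hx)

/-- the covering data at the quotient by `⟨d⟩` -/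
theorem cov_quot {G : Type u} [Group G] [Finite G] (d : G) (hd : orderOf d = 2) (C : Subgroup G) (hC : C = Subgroup.centralizer ({d} : Set G))
    [hzn : ((Subgroup.zpowers d).subgroupOf C).Normal] (E : Set (↥C ⧸ (Subgroup.zpowers d).subgroupOf C))
    (hE3 : Cfsg.IsThreeTranspositionClass E) (hE22 : Cfsg.IsOfTypeM22 _ E) (hdC : d ∈ C) :
    Cov2 (QuotientGroup.mk' ((Subgroup.zpowers d).subgroupOf C)) (⟨d, hdC⟩ : C) E := by
  classical
  have hdd : d * d = 1 := by
    have : d ^ 2 = 1 := by rw [← hd]; exact pow_orderOf_eq_one d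
    rw [← pow_two]; exact this
  have hd1 : d ≠ 1 := by
    intro h; rw [h, orderOf_one] at hd; exact absurd hd (by norm_num)
  have hs : Function.Surjective (QuotientGroup.mk' ((Subgroup.zpowers d).subgroupOf C)) := QuotientGroup.mk'_surjective _
  have hk : ∀ c : C, QuotientGroup.mk' ((Subgroup.zpowers d).subgroupOf C) c = 1 → c = 1 ∨ c = (⟨d, hdC⟩ : C) := by
    intro c hc
    have h2 : c ∈ (Subgroup.zpowers d).subgroupOf C := (QuotientGroup.eq_one_iff c).1 hc
    rw [Subgroup.mem_subgroupOf] at h2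
    rcases H19.VCovE.mem_zp hdd h2 with h3 | h3
    · exact Or.inl (Subtype.ext h3)
    · exact Or.inr (Subtype.ext h3)
  have hEg : Cfsg.IsThreeTranspositionGroup E := by
    refine ⟨hE3.1, ?_, hE3.2.2⟩
    obtain ⟨e, he, hEe⟩ := hE3.2.1
    intro g x hx
    rw [hEe] at hx ⊢
    have h1 : IsConj e x := hx
    exact h1.trans (isConj_iff.2 ⟨g, rfl⟩)
  have h1D := H92.Setup.one_notMem hEg
  have htri := H92.Setup.tri_of_group hEg
  obtain ⟨hLG, hcard⟩ := H92.TypeNum.card22 htri h1D hEg.2.2 hE22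
  refine ⟨hLG, hcard, hEg.2.2, hE22.1, hs, ?_, Subtype.ext hdd, hk, ?_, ?_⟩
  · intro c
    apply Subtype.ext
    have h5 : (c : G) ∈ Subgroup.centralizer ({d} : Set G) := by rw [← hC]; exact c.2
    exact Subgroup.mem_centralizer_singleton_iff.1 h5
  · intro h
    exact hd1 (congrArg Subtype.val h)
  · apply (QuotientGroup.eq_one_iff (⟨d, hdC⟩ : C)).2
    rw [Subgroup.mem_subgroupOf]; exact Subgroup.mem_zpowers d

/-- the conjugates of `d` in `C(d)`, other than `d`, are the lifts (one for each) of the 3-transpositions -/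
theorem main {G : Type u} [Group G] [Finite G] (d : G) (hd : orderOf d = 2) (C : Subgroup G) (hC : C = Subgroup.centralizer ({d} : Set G)) (hq : Cfsg.IsQuasisimple ↥C) [hzn : ((Subgroup.zpowers d).subgroupOf C).Normal] (E : Set (↥C ⧸ (Subgroup.zpowers d).subgroupOf C)) (hE3 : Cfsg.IsThreeTranspositionClass E) (hE22 : Cfsg.IsOfTypeM22 _ E) (hnwc : ∃ g : G, g * d * g⁻¹ ∈ C ∧ g * d * g⁻¹ ≠ d) :
    (∀ x : C, IsConj d (x : G) → (x : G) ≠ d → (QuotientGroup.mk x : ↥C ⧸ (Subgroup.zpowers d).subgroupOf C) ∈ E) ∧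
    (∀ t ∈ E, ∃! x : C, IsConj d (x : G) ∧ (QuotientGroup.mk x : ↥C ⧸ (Subgroup.zpowers d).subgroupOf C) = t) ∧
    ∃ (z : C) (π : C →* ↥C ⧸ (Subgroup.zpowers d).subgroupOf C), (z : G) = d ∧ π = QuotientGroup.mk' ((Subgroup.zpowers d).subgroupOf C) ∧ Cov2 π z E ∧
      ∃ x1 : C, π x1 ∈ E ∧ ∀ y : C, (IsConj d (y : G) ↔ (y : G) = d ∨ y ∈ D x1) := by
  classical
  have hdC : d ∈ C := by rw [hC, Subgroup.mem_centralizer_singleton_iff]
  have H := cov_quot d hd C hC E hE3 hE22 hdC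
  have hperf : commutator C = ⊤ := Group.isPerfect_def.1 hq.1
  obtain ⟨x1, hx1, hconj⟩ := conj_iff hd hC (z := ⟨d, hdC⟩) rfl H hperf hnwc
  refine ⟨?_, ?_, ⟨d, hdC⟩, _, rfl, rfl, H, x1, hx1, hconj⟩
  · intro x hx hxd
    exact H.mem_E hx1 (((hconj x).1 hx).resolve_left hxd)
  · intro t ht
    obtain ⟨x, hx, hxt⟩ := H.exists_lift hx1 ht
    refine ⟨x, ⟨(hconj x).2 (Or.inr hx), hxt⟩, ?_⟩
    rintro y ⟨hy, hyt⟩
    rcases (hconj y).1 hy with h | h
    · exfalso
      have h1 : y = (⟨d, hdC⟩ : C) := Subtype.ext h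
      have h2 : QuotientGroup.mk' ((Subgroup.zpowers d).subgroupOf C) y = 1 := by rw [h1]; exact H.pz
      have h3 : QuotientGroup.mk' ((Subgroup.zpowers d).subgroupOf C) y = t := hyt
      rw [h2] at h3
      exact H.lg.lev.ne_one ht h3.symm
    · exact H.uniq hx1 h hx (by rw [hxt]; exact hyt)

end H19.VCovH
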